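/-
Rational structures: the subfield group attached to a subfield `F₀` and a change of basis `P`.
-/
import Cfsg.Agent.Lib.Geo.Basic
set_option autoImplicit false

namespace Cfsg.Agent.Lib.Geo.RatStruct

open Cfsg Cfsg.Geo Cfsg.Agent.Lib.Geo.Basic
open scoped MatrixGroups Matrix

variable {ι : Type} [Fintype ι] [DecidableEq ι] {F : Type*} [Field F] (F₀ : Subfield F)

/-- A vector with entries in the subfield. -/
def IsRat (u : ι → F) : Prop := ∀ i, u i ∈ F₀

variable {F₀}

theorem isRat_single (i : ι) : IsRat F₀ (Pi.single i (1 : F)) := by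
  intro j
  by_cases h : j = i
  · subst h
    simp [F₀.one_mem]
  · simp [Pi.single_eq_of_ne h, F₀.zero_mem]

theorem IsRat.add {u v : ι → F} (hu : IsRat F₀ u) (hv : IsRat F₀ v) : IsRat F₀ (u + v) :=
  fun i => F₀.add_mem (hu i) (hv i)

theorem IsRat.sub {u v : ι → F} (hu : IsRat F₀ u) (hv : IsRat F₀ v) : IsRat F₀ (u - v) :=
  fun i => F₀.sub_mem (hu i) (hv i)

theorem IsRat.smul {u : ι → F} (hu : IsRat F₀ u) {a : F} (ha : a ∈ F₀) : IsRat F₀ (a • u) :=
  fun i => F₀.mul_mem ha (hu i)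

theorem isRat_zero : IsRat F₀ (0 : ι → F) := fun _ => F₀.zero_mem

/-- The coefficients of a rational combination of independent rational vectors are rational. -/
theorem rat_coeffs {w w' : ι → F} (hw : IsRat F₀ w) (hw' : IsRat F₀ w')
    (hind : ∀ a b : F, a • w + b • w' = 0 → a = 0 ∧ b = 0) {a b : F} (h : IsRat F₀ (a • w + b • w')) :
    a ∈ F₀ ∧ b ∈ F₀ := by
  have hw0 : w ≠ 0 := by
    rintro rfl
    have := hind 1 0 (by simp)
    exact one_ne_zero this.1
  obtain ⟨k, hk⟩ : ∃ k, w k ≠ 0 := by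
    by_contra hcon
    push Not at hcon
    exact hw0 (funext hcon)
  obtain ⟨r, hr⟩ : ∃ r, r = w' k / w k := ⟨_, rfl⟩
  have hrF : r ∈ F₀ := by
    rw [hr]
    exact F₀.div_mem (hw' k) (hw k)
  obtain ⟨w'', hw''⟩ : ∃ w'', w'' = w' - r • w := ⟨_, rfl⟩
  have hw''R : IsRat F₀ w'' := by
    rw [hw'']
    exact hw'.sub (hw.smul hrF)
  have hw''k : w'' k = 0 := by
    rw [hw'', Pi.sub_apply, Pi.smul_apply, smul_eq_mul, hr]
    field_simp
    ring
  have hw''0 : w'' ≠ 0 := by
    intro h0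
    rw [hw''] at h0
    have := hind (-r) 1 (by
      rw [neg_smul, one_smul]
      rw [sub_eq_zero] at h0
      rw [h0]
      simp)
    exact one_ne_zero this.2
  obtain ⟨l, hl⟩ : ∃ l, w'' l ≠ 0 := by
    by_contra hcon
    push Not at hcon
    exact hw''0 (funext hcon)
  have hsum : a • w + b • w' = (a + b * r) • w + b • w'' := by
    rw [hw'', smul_sub, smul_smul, add_smul]
    abel
  rw [hsum] at h
  have h1 : a + b * r ∈ F₀ := by
    have h2 := h k
    simp only [Pi.add_apply, Pi.smul_apply, smul_eq_mul, hw''k, mul_zero, add_zero] at h2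
    have h3 := F₀.div_mem h2 (hw k)
    rwa [mul_div_cancel_right₀ _ hk] at h3
  have h4 : b ∈ F₀ := by
    have h2 := h l
    simp only [Pi.add_apply, Pi.smul_apply, smul_eq_mul] at h2
    have h3 := F₀.sub_mem h2 (F₀.mul_mem h1 (hw l))
    rw [add_sub_cancel_left] at h3
    have h5 := F₀.div_mem h3 (hw''R l)
    rwa [mul_div_cancel_right₀ _ hl] at h5
  refine ⟨?_, h4⟩
  have h6 := F₀.sub_mem h1 (F₀.mul_mem h4 hrF)
  rwa [add_sub_cancel_right] at h6

/-- An invertible matrix with entries in the subfield comes from the subfield. -/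
theorem mem_range_of_entries (B : GL ι F) (h : ∀ i j, (B : Matrix ι ι F) i j ∈ F₀) :
    B ∈ (Matrix.GeneralLinearGroup.map (F₀.subtype : F₀ →+* F)).range := by
  let B₀ : Matrix ι ι F₀ := Matrix.of fun i j => ⟨(B : Matrix ι ι F) i j, h i j⟩
  have hmap : B₀.map (F₀.subtype : F₀ →+* F) = (B : Matrix ι ι F) := by
    ext i j
    rfl
  have hdet : B₀.det ≠ 0 := by
    intro h0
    have h1 := RingHom.map_det (F₀.subtype : F₀ →+* F) B₀
    rw [h0, map_zero] at h1
    have h2 : ((F₀.subtype : F₀ →+* F).mapMatrix B₀) = (B : Matrix ι ι F) := hmap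
    rw [h2] at h1
    have h3 : (B : Matrix ι ι F).det ≠ 0 := by
      have := (Matrix.isUnit_iff_isUnit_det _).mp B.isUnit
      exact this.ne_zero
    exact h3 h1.symm
  refine ⟨Matrix.GeneralLinearGroup.mkOfDetNeZero B₀ hdet, ?_⟩
  ext1
  exact hmap

theorem mem_subfield_iff (P g : GL ι F) :
    g ∈ subfieldSubgroup F₀ P ↔
      P⁻¹ * g * P ∈ (Matrix.GeneralLinearGroup.map (F₀.subtype : F₀ →+* F)).range ⊔ scalars ι F := by
  constructor
  · rintro ⟨A, hA, rfl⟩
    have : P⁻¹ * (MulAut.conj P).toMonoidHom A * P = A := by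
      simp only [MulEquiv.coe_toMonoidHom, MulAut.conj_apply]
      group
    rw [this]
    exact hA
  · intro h
    refine ⟨_, h, ?_⟩
    simp only [MulEquiv.coe_toMonoidHom, MulAut.conj_apply]
    group

/-- Elements of the subfield group have rational entries up to a scalar. -/
theorem exists_scalar_of_mem {P g : GL ι F} (h : g ∈ subfieldSubgroup F₀ P) :
    ∃ c : F, c ≠ 0 ∧ ∀ i j, c * ((P⁻¹ * g * P : GL ι F) : Matrix ι ι F) i j ∈ F₀ := by
  rw [mem_subfield_iff] at h
  have h2 : P⁻¹ * g * P ∈ ((((Matrix.GeneralLinearGroup.map (F₀.subtype : F₀ →+* F)).range ⊔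
      scalars ι F : Subgroup (GL ι F))) : Set (GL ι F)) := h
  rw [Subgroup.mul_normal] at h2
  obtain ⟨A, ⟨A₀, hA₀⟩, s, hs, hAs⟩ := h2
  obtain ⟨c, hc⟩ := (mem_scalars_iff s).mp hs
  refine ⟨(c : F)⁻¹, inv_ne_zero c.ne_zero, fun i j => ?_⟩
  have hAs' : A * s = P⁻¹ * g * P := hAs
  rw [← hAs', Units.val_mul, hc, Matrix.mul_smul, Matrix.mul_one, Matrix.smul_apply, smul_eq_mul,
    inv_mul_cancel_left₀ c.ne_zero]
  rw [← hA₀]
  exact ((A₀ : Matrix ι ι F₀) i j).2

/-- A matrix with rational entries is in the subfield group. -/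
theorem mem_subfield_of_entries {P g : GL ι F}
    (h : ∀ i j, ((P⁻¹ * g * P : GL ι F) : Matrix ι ι F) i j ∈ F₀) : g ∈ subfieldSubgroup F₀ P := by
  rw [mem_subfield_iff]
  exact Subgroup.mem_sup_left (mem_range_of_entries _ h)

/-- The criterion by rational lines. -/
theorem mem_subfield_of_lines [Nonempty ι] {P g : GL ι F}
    (h : ∀ u : ι → F, IsRat F₀ u → ∃ (l : F) (u' : ι → F), IsRat F₀ u' ∧
      ((P⁻¹ * g * P : GL ι F) : Matrix ι ι F) *ᵥ u = l • u') : g ∈ subfieldSubgroup F₀ P := by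
  rw [mem_subfield_iff]
  obtain ⟨A, hA⟩ : ∃ A, A = P⁻¹ * g * P := ⟨_, rfl⟩
  rw [← hA] at h ⊢
  have hinj : ∀ x, (A : Matrix ι ι F) *ᵥ x = 0 → x = 0 := by
    intro x h0
    have := inv_mulVec_mulVec A x
    rw [h0, Matrix.mulVec_zero] at this
    exact this.symm
  have hl : ∀ j, ∃ (l : F) (u' : ι → F), IsRat F₀ u' ∧ (A : Matrix ι ι F) *ᵥ Pi.single j 1 = l • u' :=
    fun j => h _ (isRat_single j)
  choose l w hwR hw using hl
  have hl0 : ∀ j, l j ≠ 0 := by
    intro j h0
    have h1 := hw j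
    rw [h0, zero_smul] at h1
    have h2 := hinj _ h1
    have h3 := congrFun h2 j
    simp at h3
  obtain ⟨j₀⟩ := ‹Nonempty ι›
  have hratio : ∀ j, l j / l j₀ ∈ F₀ := by
    intro j
    by_cases hj : j = j₀
    · subst hj
      rw [div_self (hl0 j)]
      exact F₀.one_mem
    obtain ⟨μ, u', hu', hAu⟩ := h (Pi.single j₀ 1 + Pi.single j 1) ((isRat_single j₀).add (isRat_single j))
    rw [Matrix.mulVec_add, hw, hw] at hAu
    have hμ : μ ≠ 0 := by
      rintro rfl
      rw [zero_smul] at hAu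
      have h1 : (A : Matrix ι ι F) *ᵥ (Pi.single j₀ 1 + Pi.single j 1) = 0 := by
        rw [Matrix.mulVec_add, hw, hw, hAu]
      have h2 := congrFun (hinj _ h1) j
      simp [Pi.single_eq_of_ne hj] at h2
    have hcomb : (l j₀ / μ) • w j₀ + (l j / μ) • w j = u' := by
      have h1 := congrArg (fun x => μ⁻¹ • x) hAu
      simp only [smul_add, smul_smul, inv_mul_cancel₀ hμ, one_smul] at h1
      rw [div_eq_inv_mul, div_eq_inv_mul]
      exact h1
    have hind : ∀ a b : F, a • w j₀ + b • w j = 0 → a = 0 ∧ b = 0 := by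
      intro a b hab
      have h1 : (A : Matrix ι ι F) *ᵥ ((a / l j₀) • Pi.single j₀ 1 + (b / l j) • Pi.single j 1) = 0 := by
        rw [Matrix.mulVec_add, Matrix.mulVec_smul, Matrix.mulVec_smul, hw, hw, smul_smul, smul_smul,
          div_mul_cancel₀ _ (hl0 j₀), div_mul_cancel₀ _ (hl0 j)]
        exact hab
      have h2 := hinj _ h1
      have h3 := congrFun h2 j₀
      have h4 := congrFun h2 j
      simp [Pi.single_eq_of_ne hj, Pi.single_eq_of_ne (Ne.symm hj), hl0 j₀, hl0 j] at h3 h4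
      exact ⟨h3, h4⟩
    have h1 := rat_coeffs (hwR j₀) (hwR j) hind (by rw [hcomb]; exact hu')
    have h2 : l j / l j₀ = (l j / μ) / (l j₀ / μ) := by
      have := hl0 j₀
      field_simp
    rw [h2]
    exact F₀.div_mem h1.2 h1.1
  -- `A = l₀ • B` with `B` rational
  let s : GL ι F := Matrix.GeneralLinearGroup.scalar ι (Units.mk0 (l j₀) (hl0 j₀))
  have hs : s ∈ scalars ι F := scalar_mem_scalars _
  have hsval : (s : Matrix ι ι F) = (l j₀) • (1 : Matrix ι ι F) := by
    ext i k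
    by_cases hik : i = k
    · subst hik
      simp [s, Matrix.GeneralLinearGroup.scalar]
    · simp [s, Matrix.GeneralLinearGroup.scalar, hik]
  have hentry : ∀ i j, (A : Matrix ι ι F) i j = l j * w j i := by
    intro i j
    have h1 := congrFun (hw j) i
    simpa using h1
  have hB : A * s⁻¹ ∈ (Matrix.GeneralLinearGroup.map (F₀.subtype : F₀ →+* F)).range := by
    apply mem_range_of_entries
    intro i j
    have hsinv : ((s⁻¹ : GL ι F) : Matrix ι ι F) = (l j₀)⁻¹ • (1 : Matrix ι ι F) := by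
      have h1 : (s : Matrix ι ι F) * ((l j₀)⁻¹ • (1 : Matrix ι ι F)) = 1 := by
        rw [hsval, Matrix.smul_mul, Matrix.mul_smul, smul_smul, mul_inv_cancel₀ (hl0 j₀), one_smul,
          Matrix.mul_one]
      have h2 : ((s⁻¹ : GL ι F) : Matrix ι ι F) * (s : Matrix ι ι F) = 1 := by
        rw [← Units.val_mul, inv_mul_cancel]
        rfl
      calc ((s⁻¹ : GL ι F) : Matrix ι ι F) = ((s⁻¹ : GL ι F) : Matrix ι ι F) * ((s : Matrix ι ι F) *
            ((l j₀)⁻¹ • (1 : Matrix ι ι F))) := by rw [h1, Matrix.mul_one]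
        _ = _ := by rw [← Matrix.mul_assoc, h2, Matrix.one_mul]
    rw [Units.val_mul, hsinv, Matrix.mul_smul, Matrix.mul_one, Matrix.smul_apply, smul_eq_mul, hentry]
    have h3 : (l j₀)⁻¹ * (l j * w j i) = (l j / l j₀) * w j i := by
      field_simp
    rw [h3]
    exact F₀.mul_mem (hratio j) (hwR j i)
  have hfac : A = (A * s⁻¹) * s := by group
  rw [hfac]
  exact Subgroup.mul_mem _ (Subgroup.mem_sup_left hB) (Subgroup.mem_sup_right hs)

end Cfsg.Agent.Lib.Geo.RatStruct
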