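/-
Generation of `SL₂(F)` by a large group of lower unipotents and one upper unipotent, via the geometric form of Dickson's
theorem.
-/
import Cfsg.Agent.Lib.Classical.SL2.Precise
set_option autoImplicit false

namespace Cfsg.Agent.Lib.Geo.DicksonGen

open scoped MatrixGroups
open Matrix OnePoint
open Cfsg.Agent.Lib.Classical.SL2.Moebius Cfsg.Agent.Lib.Classical.SL2.Rational
open Cfsg.Agent.Lib.Classical.SL2.SubfieldCase Cfsg.Agent.Lib.Classical.SL2.Precise

variable {F : Type*} [Field F] [Fintype F]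

/-- A subfield between a subfield of prime degree and the whole field is one of the two. -/
theorem subfield_eq_or_top (F₀ F' : Subfield F) (hle : F₀ ≤ F') {r : ℕ} (hr : r.Prime)
    (hcard : Fintype.card F = Nat.card F₀ ^ r) : F' = F₀ ∨ F' = ⊤ := by
  classical
  haveI : Fintype F₀ := Fintype.ofFinite _
  haveI : Fintype F' := Fintype.ofFinite _
  letI : Algebra F₀ F' := (Subfield.inclusion hle).toAlgebra
  letI : Module F₀ F' := Algebra.toModule
  have h1 : Fintype.card F' = Fintype.card F₀ ^ Module.finrank F₀ F' := Module.card_eq_pow_finrank (K := F₀) (V := F')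
  have h2 : Fintype.card F = Fintype.card F' ^ Module.finrank F' F := Module.card_eq_pow_finrank (K := F') (V := F)
  rw [Nat.card_eq_fintype_card] at hcard
  have h3 : Fintype.card F₀ ^ (Module.finrank F₀ F' * Module.finrank F' F) = Fintype.card F₀ ^ r := by
    rw [pow_mul, ← h1, ← h2, hcard]
  have h4 : 1 < Fintype.card F₀ := Fintype.one_lt_card
  have h5 : Module.finrank F₀ F' * Module.finrank F' F = r := Nat.pow_right_injective (by omega) h3
  rcases (Nat.dvd_prime hr).mp ⟨_, h5.symm⟩ with h6 | h6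
  · left
    rw [h6, pow_one] at h1
    have h7 : (F₀ : Set F) = F' := by
      apply Set.eq_of_subset_of_ncard_le hle
      rw [← Nat.card_coe_set_eq, ← Nat.card_coe_set_eq]
      change Nat.card F' ≤ Nat.card F₀
      rw [Nat.card_eq_fintype_card, Nat.card_eq_fintype_card, h1]
    exact (SetLike.coe_injective h7).symm
  · right
    have h6' : Module.finrank F' F = 1 := by
      rw [h6] at h5
      have := hr.pos
      nlinarith
    rw [h6', pow_one] at h2
    have h7 : (F' : Set F) = Set.univ := by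
      apply Set.eq_of_subset_of_ncard_le (Set.subset_univ _)
      rw [Set.ncard_univ, ← Nat.card_coe_set_eq]
      change Nat.card F ≤ Nat.card F'
      rw [Nat.card_eq_fintype_card, Nat.card_eq_fintype_card, h2]
    have h8 : F' = ⊤ := by
      apply SetLike.coe_injective
      rw [h7]
      rfl
    exact h8

/-- The trace invariant. -/
theorem trace_inv_mem (F' : Subfield F) (C : ProjGenLinGroup (Fin 2) F) (g : GL (Fin 2) F)
    (h : ProjGenLinGroup.mk g ∈ ((φ₀ F').range).map (MulAut.conj C).toMonoidHom) :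
    (Matrix.trace (g : Matrix (Fin 2) (Fin 2) F)) ^ 2 / (g : Matrix (Fin 2) (Fin 2) F).det ∈ F' := by
  obtain ⟨_, ⟨y, rfl⟩, hy⟩ := h
  induction y using ProjGenLinGroup.induction_on with | mk y₀ =>
  induction C using ProjGenLinGroup.induction_on with | mk c =>
  simp only [MulEquiv.coe_toMonoidHom, MulAut.conj_apply] at hy
  rw [toE_mk, ← map_inv, ← map_mul, ← map_mul, ProjGenLinGroup.mk_eq_mk_iff] at hy
  obtain ⟨u, hu⟩ := hy
  obtain ⟨y', hy'⟩ : ∃ y' : GL (Fin 2) F, y' = GeneralLinearGroup.map (algebraMap F' F) y₀ := ⟨_, rfl⟩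
  rw [← hy'] at hu
  have hu0 : (u : F) ≠ 0 := u.ne_zero
  have hgmat : (g : Matrix (Fin 2) (Fin 2) F) = (u : F) •
      ((c : Matrix (Fin 2) (Fin 2) F) * (y' : Matrix (Fin 2) (Fin 2) F) * ((c⁻¹ : GL (Fin 2) F) : Matrix (Fin 2) (Fin 2) F)) := by
    rw [← hu]
    simp only [Units.val_mul, GeneralLinearGroup.coe_scalar]
    ext i j
    simp [Matrix.scalar_apply, Matrix.mul_diagonal, mul_comm]
  have hcc : ((c⁻¹ : GL (Fin 2) F) : Matrix (Fin 2) (Fin 2) F) * (c : Matrix (Fin 2) (Fin 2) F) = 1 := by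
    rw [← Units.val_mul, inv_mul_cancel, Units.val_one]
  have htr : Matrix.trace (g : Matrix (Fin 2) (Fin 2) F) = (u : F) * Matrix.trace (y' : Matrix (Fin 2) (Fin 2) F) := by
    rw [hgmat, Matrix.trace_smul, smul_eq_mul, Matrix.trace_mul_comm, ← mul_assoc, hcc, one_mul]
  have hdet : (g : Matrix (Fin 2) (Fin 2) F).det = (u : F) ^ 2 * (y' : Matrix (Fin 2) (Fin 2) F).det := by
    have h1 : ((c : Matrix (Fin 2) (Fin 2) F)).det * ((c⁻¹ : GL (Fin 2) F) : Matrix (Fin 2) (Fin 2) F).det = 1 := by
      rw [← Matrix.det_mul, ← Units.val_mul, mul_inv_cancel, Units.val_one, Matrix.det_one]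
    rw [hgmat, Matrix.det_smul, Fintype.card_fin, Matrix.det_mul, Matrix.det_mul]
    linear_combination (u : F) ^ 2 * (y' : Matrix (Fin 2) (Fin 2) F).det * h1
  have hdy : (y' : Matrix (Fin 2) (Fin 2) F).det ≠ 0 := by
    have := (Matrix.isUnit_iff_isUnit_det _).mp y'.isUnit
    exact this.ne_zero
  have hfin : (Matrix.trace (g : Matrix (Fin 2) (Fin 2) F)) ^ 2 / (g : Matrix (Fin 2) (Fin 2) F).det =
      (Matrix.trace (y' : Matrix (Fin 2) (Fin 2) F)) ^ 2 / (y' : Matrix (Fin 2) (Fin 2) F).det := by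
    rw [htr, hdet]
    field_simp
  rw [hfin]
  have hent : ∀ i j, (y' : Matrix (Fin 2) (Fin 2) F) i j ∈ F' := by
    intro i j
    rw [hy']
    rw [GeneralLinearGroup.map_apply]
    exact (y₀ i j).2
  apply F'.div_mem (F'.pow_mem _ 2)
  · rw [Matrix.det_fin_two]
    exact F'.sub_mem (F'.mul_mem (hent _ _) (hent _ _)) (F'.mul_mem (hent _ _) (hent _ _))
  · rw [Matrix.trace_fin_two]
    exact F'.add_mem (hent _ _) (hent _ _)

/-- **Generation**: a subgroup of `PGL₂(F)` containing a large group of lower unipotents and an upper unipotent contains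
`PSL₂(F)`. -/
theorem pgl_top {p : ℕ} [DecidableEq F] [Fact p.Prime] [CharP F p] (F₀ : Subfield F) {r : ℕ} (hr : r.Prime)
    (hcard : Fintype.card F = Nat.card F₀ ^ r) (B : AddSubgroup F) (hB : ∀ c ∈ F₀, ∀ b ∈ B, c * b ∈ B)
    {b₁ b₂ : F} (hb₁ : b₁ ∈ B) (hb₁0 : b₁ ≠ 0) (hb₂ : b₂ ∈ B) (hb₂' : ∀ c ∈ F₀, b₂ ≠ c * b₁)
    (U : Subgroup (ProjGenLinGroup (Fin 2) F)) (hU : ProjGenLinGroup.mk (uG 1) ∈ U)
    (hL : ∀ b ∈ B, ProjGenLinGroup.mk (lG b) ∈ U) (A : GL (Fin 2) F) (hA : (A : Matrix (Fin 2) (Fin 2) F).det = 1) :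
    ProjGenLinGroup.mk A ∈ U := by
  classical
  let E := AlgebraicClosure F
  haveI : CharP E p := charP_of_injective_algebraMap (algebraMap F E).injective p
  have hb₂0 : b₂ ≠ 0 := by
    have := hb₂' 0 F₀.zero_mem
    simpa using this
  have hsum : b₁ + b₂ ≠ 0 := by
    intro h0
    apply hb₂' (-1) (F₀.neg_mem F₀.one_mem)
    linear_combination h0
  rcases precise_pgl (E := E) (p := p) U with ⟨ω, hω⟩ | ⟨a, b, hab, -, hpair⟩ | ⟨h, -⟩ | ⟨hp, ⟨iso⟩⟩ | ⟨C, F', -, hC⟩
  · exfalso
    have h1 := (uni_uG (E := E) (a := (1 : F)) one_ne_zero).2 _ (hω _ hU)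
    have h2 := (uni_lG (E := E) hb₁0).2 _ (hω _ (hL b₁ hb₁))
    rw [h1] at h2
    exact OnePoint.infty_ne_coe _ h2
  · exfalso
    have hswap : ∀ c ∈ B, c ≠ 0 → toE E (ProjGenLinGroup.mk (lG c)) • a = b ∧ toE E (ProjGenLinGroup.mk (lG c)) • b = a := by
      intro c hc hc0
      rcases hpair _ (hL c hc) with ⟨h1, h2⟩ | h1
      · exfalso
        apply hab
        rw [(uni_lG (E := E) hc0).2 _ h1, (uni_lG (E := E) hc0).2 _ h2]
      · exact h1
    have h1 := hswap _ hb₁ hb₁0
    have h2 := hswap _ hb₂ hb₂0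
    have h3 : toE E (ProjGenLinGroup.mk (lG (b₁ + b₂))) = toE E (ProjGenLinGroup.mk (lG b₁)) * toE E (ProjGenLinGroup.mk (lG b₂)) := by
      rw [← lG_mul, map_mul, map_mul]
    have h4 : toE E (ProjGenLinGroup.mk (lG (b₁ + b₂))) • a = a := by
      rw [h3, mul_smul, h2.1, h1.2]
    have h5 : toE E (ProjGenLinGroup.mk (lG (b₁ + b₂))) • b = b := by
      rw [h3, mul_smul, h2.2, h1.1]
    apply hab
    rw [(uni_lG (E := E) hsum).2 _ h4, (uni_lG (E := E) hsum).2 _ h5]
  · exfalso
    refine h _ hU ?_ ∞ (uni_uG (E := E) (a := (1 : F)) one_ne_zero)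
    intro h1
    have := (entries_of_scalar h1).2.1
    simp at this
  · exfalso
    subst hp
    have hc60 : Nat.card U = 60 := by
      rw [Nat.card_congr iso.toEquiv]
      have h1 := two_mul_nat_card_alternatingGroup (α := Fin 5)
      simp only [Nat.card_eq_fintype_card, Fintype.card_perm, Fintype.card_fin] at h1 ⊢
      have h2 : Nat.factorial 5 = 120 := rfl
      omega
    let f : Multiplicative B →* U :=
      { toFun := fun b => ⟨ProjGenLinGroup.mk (lG (Multiplicative.toAdd b).1), hL _ (Multiplicative.toAdd b).2⟩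
        map_one' := by
          apply Subtype.ext
          simp [lG_zero]
        map_mul' := by
          intro x y
          apply Subtype.ext
          simp only [Subgroup.coe_mul, ← map_mul, lG_mul]
          rfl }
    have hf : Function.Injective f := by
      rw [injective_iff_map_eq_one]
      intro x hx
      have h1 : ProjGenLinGroup.mk (lG (Multiplicative.toAdd x).1) = 1 := congrArg Subtype.val hx
      have h2 := (entries_of_scalar h1).1
      simp only [lG_10] at h2
      apply Multiplicative.toAdd.injective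
      exact Subtype.ext h2
    have hd1 : Nat.card (Multiplicative B) ∣ Nat.card U := Subgroup.card_dvd_of_injective f hf
    have hd2 : Nat.card (Multiplicative B) = Nat.card B := rfl
    rw [hd2, hc60] at hd1
    obtain ⟨e, -, he⟩ := FiniteField.card F 3
    have hd3 : Nat.card B ∣ 3 ^ (e : ℕ) := by
      have := AddSubgroup.card_addSubgroup_dvd_card B
      rwa [Nat.card_eq_fintype_card (α := F), he] at this
    obtain ⟨k, -, hk⟩ := (Nat.dvd_prime_pow Nat.prime_three).mp hd3
    have hk1 : k < 2 := by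
      by_contra hk2
      push Not at hk2
      have h9 : 9 ∣ Nat.card B := by
        rw [hk]
        exact pow_dvd_pow 3 hk2
      have := h9.trans hd1
      norm_num at this
    have hle3 : Nat.card B ≤ 3 := by
      rw [hk]
      interval_cases k <;> norm_num
    have h20 : (2 : F) ≠ 0 := by
      intro h2
      have h3 : ((3 : ℕ) : F) = 0 := CharP.cast_eq_zero F 3
      have h4 : (1 : F) = 0 := by
        push_cast at h3
        linear_combination h3 - h2
      exact one_ne_zero h4
    have h4 : 4 ≤ Nat.card B := by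
      have hS : ((({0, b₁, -b₁, b₂} : Finset F) : Set F)) ⊆ (B : Set F) := by
        intro x hx
        simp only [Finset.coe_insert, Finset.coe_singleton, Set.mem_insert_iff, Set.mem_singleton_iff] at hx
        rcases hx with rfl | rfl | rfl | rfl
        · exact B.zero_mem
        · exact hb₁
        · exact B.neg_mem hb₁
        · exact hb₂
      have hcard4 : ({0, b₁, -b₁, b₂} : Finset F).card = 4 := by
        have e1 : (0 : F) ≠ b₁ := Ne.symm hb₁0
        have e2 : (0 : F) ≠ -b₁ := by
          intro h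
          exact hb₁0 (by linear_combination h)
        have e3 : (0 : F) ≠ b₂ := Ne.symm hb₂0
        have e4 : b₁ ≠ -b₁ := by
          intro h
          have : (2 : F) * b₁ = 0 := by linear_combination h
          exact (mul_ne_zero h20 hb₁0) this
        have e5 : b₁ ≠ b₂ := by
          intro h
          apply hb₂' 1 F₀.one_mem
          rw [← h, one_mul]
        have e6 : -b₁ ≠ b₂ := by
          intro h
          apply hb₂' (-1) (F₀.neg_mem F₀.one_mem)
          rw [← h]
          ring
        rw [Finset.card_insert_of_notMem (by simp [e1, e2, e3]), Finset.card_insert_of_notMem (by simp [e4, e5]),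
          Finset.card_insert_of_notMem (by simp [e6]), Finset.card_singleton]
      have h5 := Set.ncard_le_ncard hS (Set.toFinite _)
      rw [Set.ncard_coe_finset, hcard4] at h5
      have h6 : Nat.card B = (B : Set F).ncard := Nat.card_coe_set_eq _
      rw [h6]
      exact h5
    omega
  · -- the subfield case
    have hle : U ≤ ((φ₀ F').range).map (MulAut.conj C).toMonoidHom := by
      rcases hC with hC | hC
      · rw [hC]
      · rw [hC]
        refine Subgroup.map_mono ?_
        rintro _ ⟨x, rfl⟩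
        exact ⟨_, rfl⟩
    have hinv : ∀ g : GL (Fin 2) F, ProjGenLinGroup.mk g ∈ U →
        (Matrix.trace (g : Matrix (Fin 2) (Fin 2) F)) ^ 2 / (g : Matrix (Fin 2) (Fin 2) F).det ∈ F' :=
      fun g hg => trace_inv_mem F' C g (hle hg)
    have hsq : ∀ b ∈ B, (2 + b) ^ 2 ∈ F' := by
      intro b hb
      have h1 := hinv (uG 1 * lG b) (by rw [map_mul]; exact U.mul_mem hU (hL b hb))
      have h2 : (Matrix.trace (((uG 1 * lG b : GL (Fin 2) F)) : Matrix (Fin 2) (Fin 2) F)) = 2 + b := by
        rw [Matrix.trace_fin_two]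
        simp only [Units.val_mul]
        change (uG 1 * lG b : GL (Fin 2) F) 0 0 + (uG 1 * lG b : GL (Fin 2) F) 1 1 = _
        simp only [gl_mul_apply, uG_00, uG_01, uG_10, uG_11, lG_00, lG_01, lG_10, lG_11]
        ring
      have h3 : ((uG 1 * lG b : GL (Fin 2) F) : Matrix (Fin 2) (Fin 2) F).det = 1 := by
        rw [Matrix.det_fin_two]
        change (uG 1 * lG b : GL (Fin 2) F) 0 0 * (uG 1 * lG b : GL (Fin 2) F) 1 1 -
          (uG 1 * lG b : GL (Fin 2) F) 0 1 * (uG 1 * lG b : GL (Fin 2) F) 1 0 = 1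
        simp only [gl_mul_apply, uG_00, uG_01, uG_10, uG_11, lG_00, lG_01, lG_10, lG_11]
        ring
      rwa [h2, h3, div_one] at h1
    have hBF : ∀ b ∈ B, b ∈ F' := by
      intro b hb
      by_cases h20 : (2 : F) = 0
      · have h1 := hsq b hb
        rw [h20, zero_add] at h1
        haveI : CharP F 2 := CharTwo.of_one_ne_zero_of_two_eq_zero one_ne_zero h20
        have hch : ringChar F = 2 := ringChar.eq F 2
        have h2 : Fintype.card F % 2 = 0 := FiniteField.even_card_of_char_two hch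
        obtain ⟨m, hm⟩ : ∃ m, Fintype.card F = 2 * m := ⟨Fintype.card F / 2, by omega⟩
        have h3 : b = (b ^ 2) ^ m := by
          rw [← pow_mul, ← hm, FiniteField.pow_card]
        rw [h3]
        exact F'.pow_mem h1 m
      · have h1 := hsq b hb
        have h2 := hsq (b + b) (B.add_mem hb hb)
        have h3 : (8 : F) * b = 4 * (2 + b) ^ 2 - (2 + (b + b)) ^ 2 - 12 := by ring
        have h8 : (8 : F) ≠ 0 := by
          have : (8 : F) = 2 * 2 * 2 := by norm_num
          rw [this]
          exact mul_ne_zero (mul_ne_zero h20 h20) h20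
        have h4 : b = (4 * (2 + b) ^ 2 - (2 + (b + b)) ^ 2 - 12) / 8 := by
          rw [← h3]
          field_simp
        rw [h4]
        have c4 : (4 : F) ∈ F' := by
          have := natCast_mem F' 4
          simpa using this
        have c8 : (8 : F) ∈ F' := by
          have := natCast_mem F' 8
          simpa using this
        have c12 : (12 : F) ∈ F' := by
          have := natCast_mem F' 12
          simpa using this
        exact F'.div_mem (F'.sub_mem (F'.sub_mem (F'.mul_mem c4 h1) h2) c12) c8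
    have hb₁F := hBF _ hb₁
    have hF₀F' : F₀ ≤ F' := by
      intro c hc
      have h1 := hBF _ (hB c hc b₁ hb₁)
      have h2 : c = c * b₁ / b₁ := by field_simp
      rw [h2]
      exact F'.div_mem h1 hb₁F
    rcases subfield_eq_or_top F₀ F' hF₀F' hr hcard with h1 | h1
    · exfalso
      rw [h1] at hBF
      apply hb₂' (b₂ / b₁) (F₀.div_mem (hBF _ hb₂) (hBF _ hb₁))
      field_simp
    · subst h1
      induction C using ProjGenLinGroup.induction_on with | mk c =>
      obtain ⟨A₁, hA₁⟩ : ∃ A₁ : GL (Fin 2) F, A₁ = c⁻¹ * A * c := ⟨_, rfl⟩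
      have hdet₁ : (A₁ : Matrix (Fin 2) (Fin 2) F).det = 1 := by
        rw [hA₁]
        simp only [Units.val_mul, Matrix.det_mul, hA, mul_one]
        rw [← Matrix.det_mul, ← Units.val_mul, inv_mul_cancel, Units.val_one, Matrix.det_one]
      let y₀ : Matrix (Fin 2) (Fin 2) (⊤ : Subfield F) := Matrix.of fun i j => ⟨(A₁ : Matrix (Fin 2) (Fin 2) F) i j, trivial⟩
      have hy₀ : y₀.det = 1 := by
        apply Subtype.ext
        rw [Matrix.det_fin_two]
        have h2 := hdet₁
        rw [Matrix.det_fin_two] at h2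
        exact h2
      let s₀ : SL(2, (⊤ : Subfield F)) := ⟨y₀, hy₀⟩
      have hφ : φ₁ (⊤ : Subfield F) (QuotientGroup.mk s₀) = ProjGenLinGroup.mk A₁ := by
        have h2 : φ₁ (⊤ : Subfield F) (QuotientGroup.mk s₀) =
            ProjGenLinGroup.mk (GeneralLinearGroup.map (algebraMap (⊤ : Subfield F) F) (SpecialLinearGroup.toGL s₀)) := rfl
        rw [h2]
        congr 1
        apply Units.ext
        ext i j
        rfl
      have hmem1 : ProjGenLinGroup.mk A₁ ∈ (φ₁ (⊤ : Subfield F)).range := ⟨_, hφ⟩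
      have hconj : ProjGenLinGroup.mk A = ProjGenLinGroup.mk c * ProjGenLinGroup.mk A₁ * (ProjGenLinGroup.mk c)⁻¹ := by
        rw [← map_inv, ← map_mul, ← map_mul, hA₁]
        congr 1
        group
      have hmem2 : ProjGenLinGroup.mk A ∈ (((φ₁ (⊤ : Subfield F)).range).map (MulAut.conj (ProjGenLinGroup.mk c)).toMonoidHom) :=
        ⟨_, hmem1, by simp only [MulEquiv.coe_toMonoidHom, MulAut.conj_apply]; exact hconj.symm⟩
      rcases hC with hC | hC
      · rw [hC]
        refine Subgroup.map_mono ?_ hmem2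
        rintro _ ⟨x, rfl⟩
        exact ⟨_, rfl⟩
      · rw [hC]
        exact hmem2

/-- The upper unipotent in `SL₂`. -/
def sU (b : F) : SL(2, F) := ⟨!![1, b; 0, 1], by simp [det_fin_two]⟩

/-- The lower unipotent in `SL₂`. -/
def sL (b : F) : SL(2, F) := ⟨!![1, 0; b, 1], by simp [det_fin_two]⟩

/-- The diagonal element of `SL₂`. -/
def sD (s : F) (hs : s ≠ 0) : SL(2, F) := ⟨!![s, 0; 0, s⁻¹], by simp [det_fin_two, hs]⟩

omit [Fintype F] in
theorem toGL_sU (b : F) : SpecialLinearGroup.toGL (sU b) = uG b := by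
  apply Units.ext
  rfl

omit [Fintype F] in
theorem toGL_sL (b : F) : SpecialLinearGroup.toGL (sL b) = lG b := by
  apply Units.ext
  rfl

/-- **Generation in `SL₂`.** -/
theorem sl_top (F₀ : Subfield F) {r : ℕ} (hr : r.Prime)
    (hcard : Fintype.card F = Nat.card F₀ ^ r) (B : AddSubgroup F) (hB : ∀ c ∈ F₀, ∀ b ∈ B, c * b ∈ B)
    {b₁ b₂ : F} (hb₁ : b₁ ∈ B) (hb₁0 : b₁ ≠ 0) (hb₂ : b₂ ∈ B) (hb₂' : ∀ c ∈ F₀, b₂ ≠ c * b₁)
    (G : Subgroup (SL(2, F))) (hU : sU 1 ∈ G) (hL : ∀ b ∈ B, sL b ∈ G) (A : SL(2, F)) : A ∈ G ∨ -A ∈ G := by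
  classical
  obtain ⟨p, hp⟩ := CharP.exists F
  haveI : Fact p.Prime := ⟨CharP.char_is_prime F p⟩
  have h1 := pgl_top (p := p) F₀ hr hcard B hB hb₁ hb₁0 hb₂ hb₂' (G.map SpecialLinearGroup.toPGL)
    ⟨_, hU, by simp only [MonoidHom.comp_apply, toGL_sU]⟩
    (fun b hb => ⟨_, hL b hb, by simp only [MonoidHom.comp_apply, toGL_sL]⟩)
    (SpecialLinearGroup.toGL A) A.2
  obtain ⟨g, hg, hgA⟩ := h1
  simp only [MonoidHom.comp_apply] at hgA
  rw [ProjGenLinGroup.mk_eq_mk_iff] at hgA
  obtain ⟨u, hu⟩ := hgA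
  have hmat : (u : F) • (g : Matrix (Fin 2) (Fin 2) F) = (A : Matrix (Fin 2) (Fin 2) F) := by
    have h2 := congrArg (fun z : GL (Fin 2) F => (z : Matrix (Fin 2) (Fin 2) F)) hu
    simp only [Units.val_mul, GeneralLinearGroup.coe_scalar] at h2
    rw [← show (SpecialLinearGroup.toGL A : Matrix (Fin 2) (Fin 2) F) = A from rfl, ← h2]
    ext i j
    simp [Matrix.scalar_apply, Matrix.mul_diagonal, mul_comm]
  have hdet : (u : F) ^ 2 = 1 := by
    have h2 := congrArg Matrix.det hmat
    rw [Matrix.det_smul, Fintype.card_fin, g.2, A.2, mul_one] at h2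
    exact h2
  have hu2 : (u : F) = 1 ∨ (u : F) = -1 := by
    have h3 : ((u : F) - 1) * ((u : F) + 1) = 0 := by linear_combination hdet
    rcases mul_eq_zero.mp h3 with h4 | h4
    · left
      linear_combination h4
    · right
      linear_combination h4
  rcases hu2 with h2 | h2
  · left
    have : g = A := by
      apply Subtype.ext
      rw [← hmat, h2, one_smul]
    rwa [← this]
  · right
    have : g = -A := by
      apply Subtype.ext
      rw [SpecialLinearGroup.coe_neg, ← hmat, h2, neg_smul, one_smul, neg_neg]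
    rwa [← this]

end Cfsg.Agent.Lib.Geo.DicksonGen
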