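/-
The subfield group is maximal in `SL_n(F)`.
-/
import Cfsg.Agent.Lib.Geo.DicksonGen
import Cfsg.Agent.Lib.Geo.RatStruct
import Cfsg.Agent.Lib.Geo.Centres
set_option autoImplicit false

namespace Cfsg.Agent.Lib.Geo.SLSub

open Cfsg Cfsg.Geo Cfsg.Agent.Lib.Geo.Basic Cfsg.Agent.Lib.Geo.Parabolic Cfsg.Agent.Lib.Geo.Centres
open Cfsg.Agent.Lib.Geo.RatStruct Cfsg.Agent.Lib.Geo.DicksonGen
open scoped MatrixGroups Matrix

variable {ι : Type} [Fintype ι] [DecidableEq ι] {F : Type*} [Field F]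

/-- Three indices: two others. -/
theorem exists_two_ne (hn : 3 ≤ Fintype.card ι) (l : ι) : ∃ j₁ j₂ : ι, j₁ ≠ l ∧ j₂ ≠ l ∧ j₁ ≠ j₂ := by
  obtain ⟨a, b, c, hab, hac, hbc⟩ := Fintype.two_lt_card_iff.mp (by omega : 2 < Fintype.card ι)
  by_cases ha : a = l
  · subst ha
    exact ⟨b, c, hab.symm, hac.symm, hbc⟩
  by_cases hb : b = l
  · subst hb
    exact ⟨a, c, ha, hbc.symm, hac⟩
  exact ⟨a, b, ha, hb, hab⟩

variable {F₀ : Subfield F}

/-- A rational vector in the kernel of a rational functional with a zero coordinate. -/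
theorem exists_zero_coord (hn : 3 ≤ Fintype.card ι) {w : ι → F} (hw : IsRat F₀ w) (l : ι) :
    ∃ z : ι → F, IsRat F₀ z ∧ z ≠ 0 ∧ w ⬝ᵥ z = 0 ∧ z l = 0 := by
  obtain ⟨j₁, j₂, h1, h2, h12⟩ := exists_two_ne hn l
  by_cases h0 : w j₁ = 0
  · refine ⟨Pi.single j₁ 1, isRat_single j₁, ?_, ?_, ?_⟩
    · intro h
      have := congrFun h j₁
      simp at this
    · rw [dotProduct_single, h0]
      simp
    · simp [Pi.single_eq_of_ne (Ne.symm h1)]
  · refine ⟨w j₂ • Pi.single j₁ 1 - w j₁ • Pi.single j₂ 1, ?_, ?_, ?_, ?_⟩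
    · exact ((isRat_single j₁).smul (hw j₂)).sub ((isRat_single j₂).smul (hw j₁))
    · intro h
      have := congrFun h j₂
      simp [Pi.single_eq_of_ne (Ne.symm h12), h0] at this
    · rw [dotProduct_sub, dotProduct_smul, dotProduct_smul, dotProduct_single, dotProduct_single]
      simp only [smul_eq_mul]
      ring
    · simp [Pi.single_eq_of_ne (Ne.symm h1), Pi.single_eq_of_ne (Ne.symm h2)]

/-- A rational flag with a coefficient. -/
def RF (M : Subgroup (GL ι F)) (b φ : ι → F) (c : F) : Prop :=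
  ∃ h : φ ⬝ᵥ (c • b) = 0, transv (c • b) φ h ∈ M

/-- Changing the centre. -/
theorem left_step {M : Subgroup (GL ι F)}
    (hH : ∀ u φ (h : φ ⬝ᵥ u = 0), IsRat F₀ u → IsRat F₀ φ → transv u φ h ∈ M)
    {b z φ : ι → F} {c : F} (hr : RF M b φ c) (hb : IsRat F₀ b) (hb0 : b ≠ 0) (hz : IsRat F₀ z) (hz0 : z ≠ 0)
    (hφz : φ ⬝ᵥ z = 0) : ∃ d ∈ F₀, d ≠ 0 ∧ RF M z φ (c * d) := by
  obtain ⟨h0, hM⟩ := hr
  obtain ⟨i, hi⟩ : ∃ i, z i ≠ 0 := by
    by_contra hcon
    push Not at hcon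
    exact hz0 (funext hcon)
  by_cases hex : ∃ j, z i * b j - z j * b i ≠ 0
  · obtain ⟨j, hj⟩ := hex
    obtain ⟨η, hη⟩ : ∃ η : ι → F, η = z i • Pi.single j 1 - z j • Pi.single i 1 := ⟨_, rfl⟩
    have hηR : IsRat F₀ η := by
      rw [hη]
      exact ((isRat_single j).smul (hz i)).sub ((isRat_single i).smul (hz j))
    have hηz : η ⬝ᵥ z = 0 := by
      rw [hη, sub_dotProduct, smul_dotProduct, smul_dotProduct, single_dotProduct, single_dotProduct]
      simp only [smul_eq_mul]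
      ring
    have hηb : η ⬝ᵥ b = z i * b j - z j * b i := by
      rw [hη, sub_dotProduct, smul_dotProduct, smul_dotProduct, single_dotProduct, single_dotProduct]
      simp only [smul_eq_mul, one_mul]
    have hcomm := commutator_transv z η (c • b) φ hηz h0 hφz
    have hd : η ⬝ᵥ (c • b) = c * (η ⬝ᵥ b) := by
      rw [dotProduct_smul, smul_eq_mul]
    refine ⟨η ⬝ᵥ b, ?_, by rwa [hηb], ?_⟩
    · rw [hηb]
      exact F₀.sub_mem (F₀.mul_mem (hz i) (hb j)) (F₀.mul_mem (hz j) (hb i))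
    · have h1 : φ ⬝ᵥ ((c * (η ⬝ᵥ b)) • z) = 0 := by
        rw [dotProduct_smul, hφz, smul_zero]
      refine ⟨h1, ?_⟩
      have h2 : transv ((c * (η ⬝ᵥ b)) • z) φ h1 = transv z η hηz * transv (c • b) φ h0 * (transv z η hηz)⁻¹ *
          (transv (c • b) φ h0)⁻¹ := by
        rw [hcomm]
        ext1
        simp only [coe_transv, hd]
      rw [h2]
      have h3 := hH z η hηz hz hηR
      exact M.mul_mem (M.mul_mem (M.mul_mem h3 hM) (M.inv_mem h3)) (M.inv_mem hM)
  · push Not at hex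
    obtain ⟨lam, hlam⟩ : ∃ lam, lam = b i / z i := ⟨_, rfl⟩
    have hb' : b = lam • z := by
      ext j
      have h1 := hex j
      simp only [Pi.smul_apply, smul_eq_mul]
      rw [hlam]
      field_simp
      linear_combination h1
    have hlam0 : lam ≠ 0 := by
      rintro h
      rw [h, zero_smul] at hb'
      exact hb0 hb'
    have hlamF : lam ∈ F₀ := by
      rw [hlam]
      exact F₀.div_mem (hb i) (hz i)
    refine ⟨lam, hlamF, hlam0, ?_⟩
    have e : (c * lam) • z = c • b := by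
      rw [hb', smul_smul]
    refine ⟨by rw [e]; exact h0, ?_⟩
    convert hM using 2
    
/-- Changing the functional. -/
theorem right_step {M : Subgroup (GL ι F)}
    (hH : ∀ u φ (h : φ ⬝ᵥ u = 0), IsRat F₀ u → IsRat F₀ φ → transv u φ h ∈ M)
    {b φ ξ : ι → F} {c : F} (hr : RF M b φ c) (hφ : IsRat F₀ φ) (hφ0 : φ ≠ 0) (hξ : IsRat F₀ ξ) (hξ0 : ξ ≠ 0)
    (hξb : ξ ⬝ᵥ b = 0) : ∃ d ∈ F₀, d ≠ 0 ∧ RF M b ξ (c * d) := by
  obtain ⟨h0, hM⟩ := hr
  obtain ⟨i, hi⟩ : ∃ i, ξ i ≠ 0 := by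
    by_contra hcon
    push Not at hcon
    exact hξ0 (funext hcon)
  have hξcb : ξ ⬝ᵥ (c • b) = 0 := by rw [dotProduct_smul, hξb, smul_zero]
  by_cases hex : ∃ j, ξ i * φ j - ξ j * φ i ≠ 0
  · obtain ⟨j, hj⟩ := hex
    obtain ⟨y, hy⟩ : ∃ y : ι → F, y = ξ i • Pi.single j 1 - ξ j • Pi.single i 1 := ⟨_, rfl⟩
    have hyR : IsRat F₀ y := by
      rw [hy]
      exact ((isRat_single j).smul (hξ i)).sub ((isRat_single i).smul (hξ j))
    have hξy : ξ ⬝ᵥ y = 0 := by
      rw [hy, dotProduct_sub, dotProduct_smul, dotProduct_smul, dotProduct_single, dotProduct_single]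
      simp only [smul_eq_mul]
      ring
    have hφy : φ ⬝ᵥ y = ξ i * φ j - ξ j * φ i := by
      rw [hy, dotProduct_sub, dotProduct_smul, dotProduct_smul, dotProduct_single, dotProduct_single]
      simp only [smul_eq_mul, mul_one]
    have hcomm := commutator_transv (c • b) φ y ξ h0 hξy hξcb
    refine ⟨φ ⬝ᵥ y, ?_, by rwa [hφy], ?_⟩
    · rw [hφy]
      exact F₀.sub_mem (F₀.mul_mem (hξ i) (hφ j)) (F₀.mul_mem (hξ j) (hφ i))
    · have h1 : ξ ⬝ᵥ ((c * (φ ⬝ᵥ y)) • b) = 0 := by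
        rw [dotProduct_smul, hξb, smul_zero]
      refine ⟨h1, ?_⟩
      have h2 : transv ((c * (φ ⬝ᵥ y)) • b) ξ h1 = transv (c • b) φ h0 * transv y ξ hξy * (transv (c • b) φ h0)⁻¹ *
          (transv y ξ hξy)⁻¹ := by
        rw [hcomm]
        ext1
        simp only [coe_transv, smul_smul, mul_comm]
      rw [h2]
      have h3 := hH y ξ hξy hyR hξ
      exact M.mul_mem (M.mul_mem (M.mul_mem hM h3) (M.inv_mem hM)) (M.inv_mem h3)
  · push Not at hex
    obtain ⟨lam, hlam⟩ : ∃ lam, lam = φ i / ξ i := ⟨_, rfl⟩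
    have hφ' : φ = lam • ξ := by
      ext j
      have h1 := hex j
      simp only [Pi.smul_apply, smul_eq_mul]
      rw [hlam]
      field_simp
      linear_combination h1
    have hlam0 : lam ≠ 0 := by
      rintro h
      rw [h, zero_smul] at hφ'
      exact hφ0 hφ'
    have hlamF : lam ∈ F₀ := by
      rw [hlam]
      exact F₀.div_mem (hφ i) (hξ i)
    refine ⟨lam, hlamF, hlam0, ?_⟩
    have h1 : ξ ⬝ᵥ ((c * lam) • b) = 0 := by
      rw [dotProduct_smul, hξb, smul_zero]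
    refine ⟨h1, ?_⟩
    have h2 : transv ((c * lam) • b) ξ h1 = transv (c • b) φ h0 := by
      ext1
      simp only [coe_transv, transvMat]
      rw [hφ']
      ext i j
      simp [Matrix.vecMulVec_apply]
      ring
    rw [h2]
    exact hM

/-- From a flag to an elementary matrix. -/
theorem rf_elem (hn : 3 ≤ Fintype.card ι) {M : Subgroup (GL ι F)}
    (hH : ∀ u φ (h : φ ⬝ᵥ u = 0), IsRat F₀ u → IsRat F₀ φ → transv u φ h ∈ M)
    {b φ : ι → F} {c : F} (hr : RF M b φ c) (hb : IsRat F₀ b) (hb0 : b ≠ 0) (hφ : IsRat F₀ φ) (hφ0 : φ ≠ 0)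
    (hc : c ∉ F₀) : ∃ (p l : ι) (hpl : p ≠ l) (c' : F), c' ∉ F₀ ∧ elemGL p l hpl c' ∈ M := by
  obtain ⟨l⟩ : Nonempty ι := by
    have : 0 < Fintype.card ι := by omega
    exact Fintype.card_pos_iff.mp this
  obtain ⟨p, -, hpl, -, -⟩ := exists_two_ne hn l
  obtain ⟨z, hz, hz0, hφz, hzl⟩ := exists_zero_coord hn hφ l
  obtain ⟨d₁, hd₁, hd₁0, h1⟩ := left_step hH hr hb hb0 hz hz0 hφz
  have hl0 : (Pi.single l 1 : ι → F) ≠ 0 := by
    intro h
    have := congrFun h l
    simp at this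
  have hp0 : (Pi.single p 1 : ι → F) ≠ 0 := by
    intro h
    have := congrFun h p
    simp at this
  obtain ⟨d₂, hd₂, hd₂0, h2⟩ := right_step hH h1 hφ hφ0 (isRat_single l) hl0 (by rw [single_dotProduct, hzl]; simp)
  obtain ⟨d₃, hd₃, hd₃0, h3⟩ := left_step hH h2 hz hz0 (isRat_single p) hp0
    (by rw [single_dotProduct]; simp [Pi.single_eq_of_ne (Ne.symm hpl)])
  refine ⟨p, l, hpl, c * d₁ * d₂ * d₃, ?_, ?_⟩
  · intro hmem
    apply hc
    have h4 := F₀.div_mem (F₀.div_mem (F₀.div_mem hmem hd₃) hd₂) hd₁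
    have h5 : c * d₁ * d₂ * d₃ / d₃ / d₂ / d₁ = c := by
      field_simp
    rwa [h5] at h4
  · obtain ⟨h6, h7⟩ := h3
    rw [elemGL_eq_transv]
    exact h7

/-- Products of elementary matrices. -/
theorem elem_mul (p l : ι) (h : p ≠ l) (c d : F) : elemGL p l h c * elemGL p l h d = elemGL p l h (c + d) := by
  rw [elemGL_eq_transv, elemGL_eq_transv, elemGL_eq_transv, transv_mul_same_right]
  ext1
  simp only [coe_transv, add_smul]

/-- The commutator of elementary matrices. -/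
theorem elem_comm {p q l : ι} (h1 : p ≠ q) (h2 : q ≠ l) (h3 : p ≠ l) (c d : F) :
    elemGL p q h1 c * elemGL q l h2 d * (elemGL p q h1 c)⁻¹ * (elemGL q l h2 d)⁻¹ = elemGL p l h3 (c * d) := by
  rw [elemGL_eq_transv, elemGL_eq_transv, elemGL_eq_transv, commutator_transv _ _ _ _ _ _
    (by simp [dotProduct_smul, single_dotProduct, Pi.single_eq_of_ne h3])]
  ext1
  simp only [coe_transv]
  congr 1
  simp [dotProduct_smul, single_dotProduct, smul_smul, mul_comm]

/-- The subfield of coefficients. -/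
theorem exists_coeff_field [Fintype F] (hn : 3 ≤ Fintype.card ι) {M : Subgroup (GL ι F)}
    (hH : ∀ u φ (h : φ ⬝ᵥ u = 0), IsRat F₀ u → IsRat F₀ φ → transv u φ h ∈ M) :
    ∃ S : Subfield F, F₀ ≤ S ∧ (∀ c, c ∈ S ↔ ∀ (p l : ι) (h : p ≠ l), elemGL p l h c ∈ M) ∧
      ∀ (p l : ι) (h : p ≠ l) (c : F), elemGL p l h c ∈ M → c ∈ S := by
  have hrat : ∀ (p l : ι) (h : p ≠ l) (c : F), c ∈ F₀ → elemGL p l h c ∈ M := by
    intro p l h c hc
    rw [elemGL_eq_transv]
    exact hH _ _ _ ((isRat_single p).smul hc) (isRat_single l)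
  have hone : ∀ (p l : ι) (h : p ≠ l), elemGL p l h (1 : F) ∈ M := fun p l h => hrat p l h 1 F₀.one_mem
  have h_r : ∀ {p l l' : ι} (h : p ≠ l) (h' : p ≠ l') {c : F}, elemGL p l h c ∈ M → elemGL p l' h' c ∈ M := by
    intro p l l' h h' c hc
    by_cases hl : l' = l
    · subst hl
      exact hc
    · have e := elem_comm h (Ne.symm hl) h' c 1
      rw [mul_one] at e
      rw [← e]
      have h1 := hone l l' (Ne.symm hl)
      exact M.mul_mem (M.mul_mem (M.mul_mem hc h1) (M.inv_mem hc)) (M.inv_mem h1)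
  have h_l : ∀ {p p' l : ι} (h : p ≠ l) (h' : p' ≠ l) {c : F}, elemGL p l h c ∈ M → elemGL p' l h' c ∈ M := by
    intro p p' l h h' c hc
    by_cases hp : p' = p
    · subst hp
      exact hc
    · have e := elem_comm hp h h' 1 c
      rw [one_mul] at e
      rw [← e]
      have h1 := hone p' p hp
      exact M.mul_mem (M.mul_mem (M.mul_mem h1 hc) (M.inv_mem h1)) (M.inv_mem hc)
  have hthird : ∀ p l : ι, ∃ x, x ≠ p ∧ x ≠ l := by
    intro p l
    obtain ⟨j₁, j₂, h1, h2, h12⟩ := exists_two_ne hn l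
    by_cases h3 : j₁ = p
    · exact ⟨j₂, fun h4 => h12 (h3.trans h4.symm), h2⟩
    · exact ⟨j₁, h3, h1⟩
  have hall : ∀ {p l p' l' : ι} (h : p ≠ l) (h' : p' ≠ l') {c : F}, elemGL p l h c ∈ M → elemGL p' l' h' c ∈ M := by
    intro p l p' l' h h' c hc
    by_cases h1 : p' = l
    · by_cases h2 : l' = p
      · obtain ⟨x, hx1, hx2⟩ := hthird p l
        have e1 := h_r h (Ne.symm hx1) hc
        have e2 := h_l (Ne.symm hx1) (Ne.symm hx2) e1
        have e3 : elemGL l p h.symm c ∈ M := h_r (Ne.symm hx2) h.symm e2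
        subst h1 h2
        exact e3
      · have e1 := h_r h (Ne.symm h2) hc
        exact h_l (Ne.symm h2) h' e1
    · exact h_r h1 h' (h_l h h1 hc)
  let S₀ : Subring F :=
    { carrier := {c | ∀ (p l : ι) (h : p ≠ l), elemGL p l h c ∈ M}
      mul_mem' := by
        intro a b ha hb p l h
        obtain ⟨x, hx1, hx2⟩ := hthird p l
        have e := elem_comm (Ne.symm hx1) hx2 h a b
        rw [← e]
        have h1 := ha p x (Ne.symm hx1)
        have h2 := hb x l hx2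
        exact M.mul_mem (M.mul_mem (M.mul_mem h1 h2) (M.inv_mem h1)) (M.inv_mem h2)
      one_mem' := hone
      add_mem' := by
        intro a b ha hb p l h
        rw [← elem_mul]
        exact M.mul_mem (ha p l h) (hb p l h)
      zero_mem' := fun p l h => hrat p l h 0 F₀.zero_mem
      neg_mem' := by
        intro a ha p l h
        have e := elem_mul p l h a (-a)
        rw [add_neg_cancel] at e
        have e2 : elemGL p l h (-a) = (elemGL p l h a)⁻¹ * elemGL p l h 0 := by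
          rw [← e]
          group
        rw [e2]
        exact M.mul_mem (M.inv_mem (ha p l h)) (hrat p l h 0 F₀.zero_mem) }
  let S : Subfield F :=
    { S₀ with
      inv_mem' := by
        intro c hc
        by_cases h0 : c = 0
        · rw [h0, inv_zero]
          exact S₀.zero_mem
        · have hq : 2 ≤ Fintype.card F := Fintype.one_lt_card
          have h1 : c⁻¹ = c ^ (Fintype.card F - 2) := by
            have h2 := FiniteField.pow_card_sub_one_eq_one c h0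
            have h3 : Fintype.card F - 1 = (Fintype.card F - 2) + 1 := by omega
            rw [h3, pow_succ] at h2
            field_simp
            linear_combination -h2
          rw [h1]
          exact S₀.pow_mem hc _ }
  refine ⟨S, ?_, fun c => Iff.rfl, ?_⟩
  · intro c hc
    exact fun p l h => hrat p l h c hc
  · intro p l h c hc p' l' h'
    exact hall h h' hc

/-- Non-rational elementary matrices give everything. -/
theorem sl_le_of_elem [Fintype F] (hn : 3 ≤ Fintype.card ι) {M : Subgroup (GL ι F)} {r : ℕ} (hr : r.Prime)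
    (hcard : Fintype.card F = Nat.card F₀ ^ r)
    (hH : ∀ u φ (h : φ ⬝ᵥ u = 0), IsRat F₀ u → IsRat F₀ φ → transv u φ h ∈ M)
    {p l : ι} (hpl : p ≠ l) {c : F} (hc : c ∉ F₀) (hE : elemGL p l hpl c ∈ M) : specialLinear ι F ≤ M := by
  obtain ⟨S, hS, hSm, hSc⟩ := exists_coeff_field hn hH
  rcases subfield_eq_or_top F₀ S hS hr hcard with h1 | h1
  · exfalso
    apply hc
    rw [← h1]
    exact hSc p l hpl c hE
  · refine specialLinear_le_of_elem M fun i j hij a => ?_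
    have : a ∈ S := by
      rw [h1]
      trivial
    exact (hSm a).mp this i j hij

/-- Half rational transvections (rational functional). -/
theorem sl_le_of_half [Fintype F] (hn : 3 ≤ Fintype.card ι) {M : Subgroup (GL ι F)} {r : ℕ} (hr : r.Prime)
    (hcard : Fintype.card F = Nat.card F₀ ^ r)
    (hH : ∀ u φ (h : φ ⬝ᵥ u = 0), IsRat F₀ u → IsRat F₀ φ → transv u φ h ∈ M)
    {φ v : ι → F} (hφ : IsRat F₀ φ) (hφ0 : φ ≠ 0) (hv : ¬ IsRat F₀ v) (h0 : φ ⬝ᵥ v = 0) (ht : transv v φ h0 ∈ M) :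
    specialLinear ι F ≤ M := by
  simp only [IsRat, not_forall] at hv
  obtain ⟨i, hi⟩ := hv
  obtain ⟨z, hz, hz0, hφz, hzi⟩ := exists_zero_coord hn hφ i
  have hs : (Pi.single i (1 : F)) ⬝ᵥ z = 0 := by
    rw [single_dotProduct, hzi]
    simp
  have hcomm := commutator_transv z (Pi.single i 1) v φ hs h0 hφz
  have hrf : RF M z φ (v i) := by
    refine ⟨by rw [dotProduct_smul, hφz, smul_zero], ?_⟩
    have h1 := hH z (Pi.single i 1) hs hz (isRat_single i)
    have h2 : transv ((v i) • z) φ (by rw [dotProduct_smul, hφz, smul_zero]) = transv z (Pi.single i 1) hs * transv v φ h0 *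
        (transv z (Pi.single i 1) hs)⁻¹ * (transv v φ h0)⁻¹ := by
      rw [hcomm]
      ext1
      simp only [coe_transv, single_dotProduct, one_mul]
    rw [h2]
    exact M.mul_mem (M.mul_mem (M.mul_mem h1 ht) (M.inv_mem h1)) (M.inv_mem ht)
  obtain ⟨p, l, hpl, c', hc', hE⟩ := rf_elem hn hH hrf hz hz0 hφ hφ0 hi
  exact sl_le_of_elem hn hr hcard hH hpl hc' hE

/-- Half rational transvections (rational centre). -/
theorem sl_le_of_half' [Fintype F] (hn : 3 ≤ Fintype.card ι) {M : Subgroup (GL ι F)} {r : ℕ} (hr : r.Prime)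
    (hcard : Fintype.card F = Nat.card F₀ ^ r)
    (hH : ∀ u φ (h : φ ⬝ᵥ u = 0), IsRat F₀ u → IsRat F₀ φ → transv u φ h ∈ M)
    {a χ : ι → F} (ha : IsRat F₀ a) (ha0 : a ≠ 0) (hχ : ¬ IsRat F₀ χ) (h0 : χ ⬝ᵥ a = 0) (ht : transv a χ h0 ∈ M) :
    specialLinear ι F ≤ M := by
  simp only [IsRat, not_forall] at hχ
  obtain ⟨i, hi⟩ := hχ
  have ha' : IsRat F₀ a := ha
  obtain ⟨φ', hφ', hφ'0, hφ'a, hφ'i⟩ := exists_zero_coord hn ha i
  rw [dotProduct_comm] at hφ'a
  have hs : φ' ⬝ᵥ (Pi.single i (1 : F)) = 0 := by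
    rw [dotProduct_single, hφ'i]
    simp
  have hcomm := commutator_transv a χ (Pi.single i 1) φ' h0 hs hφ'a
  have hrf : RF M a φ' (χ i) := by
    refine ⟨by rw [dotProduct_smul, hφ'a, smul_zero], ?_⟩
    have h1 := hH (Pi.single i 1) φ' hs (isRat_single i) hφ'
    have h2 : transv ((χ i) • a) φ' (by rw [dotProduct_smul, hφ'a, smul_zero]) = transv a χ h0 * transv (Pi.single i 1) φ' hs *
        (transv a χ h0)⁻¹ * (transv (Pi.single i 1) φ' hs)⁻¹ := by
      rw [hcomm]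
      ext1
      simp only [coe_transv, dotProduct_single, mul_one]
    rw [h2]
    exact M.mul_mem (M.mul_mem (M.mul_mem ht h1) (M.inv_mem ht)) (M.inv_mem h1)
  obtain ⟨p, l, hpl, c', hc', hE⟩ := rf_elem hn hH hrf ha ha0 hφ' hφ'0 hi
  exact sl_le_of_elem hn hr hcard hH hpl hc' hE

/-- The subgroup of `SL₂` realised on a pair of functionals. -/
def repG (M : Subgroup (GL ι F)) (φ ψ : ι → F) : Subgroup (SL(2, F)) where
  carrier := {A | ∃ k ∈ M, ∀ x : ι → F, φ ⬝ᵥ ((k : Matrix ι ι F) *ᵥ x) =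
      (A : Matrix (Fin 2) (Fin 2) F) 0 0 * (φ ⬝ᵥ x) + (A : Matrix (Fin 2) (Fin 2) F) 0 1 * (ψ ⬝ᵥ x) ∧
    ψ ⬝ᵥ ((k : Matrix ι ι F) *ᵥ x) =
      (A : Matrix (Fin 2) (Fin 2) F) 1 0 * (φ ⬝ᵥ x) + (A : Matrix (Fin 2) (Fin 2) F) 1 1 * (ψ ⬝ᵥ x)}
  mul_mem' := by
    rintro A B ⟨k, hk, hA⟩ ⟨l, hl, hB⟩
    refine ⟨k * l, M.mul_mem hk hl, fun x => ?_⟩
    have hmul : ∀ i j, ((A * B : SL(2, F)) : Matrix (Fin 2) (Fin 2) F) i j =
        (A : Matrix (Fin 2) (Fin 2) F) i 0 * (B : Matrix (Fin 2) (Fin 2) F) 0 j +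
          (A : Matrix (Fin 2) (Fin 2) F) i 1 * (B : Matrix (Fin 2) (Fin 2) F) 1 j := by
      intro i j
      rw [Matrix.SpecialLinearGroup.coe_mul, Matrix.mul_apply, Fin.sum_univ_two]
    simp only [Units.val_mul, ← Matrix.mulVec_mulVec]
    rw [(hA _).1, (hA _).2, (hB x).1, (hB x).2, hmul, hmul, hmul, hmul]
    constructor <;> ring
  one_mem' := by
    refine ⟨1, M.one_mem, fun x => ?_⟩
    simp
  inv_mem' := by
    rintro A ⟨k, hk, hA⟩
    refine ⟨k⁻¹, M.inv_mem hk, fun x => ?_⟩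
    have hdet : (A : Matrix (Fin 2) (Fin 2) F) 0 0 * (A : Matrix (Fin 2) (Fin 2) F) 1 1 -
        (A : Matrix (Fin 2) (Fin 2) F) 0 1 * (A : Matrix (Fin 2) (Fin 2) F) 1 0 = 1 := by
      have := A.2
      rwa [Matrix.det_fin_two] at this
    have h1 := hA (((k⁻¹ : GL ι F) : Matrix ι ι F) *ᵥ x)
    rw [mulVec_inv_mulVec] at h1
    obtain ⟨e1, e2⟩ := h1
    obtain ⟨a, ha⟩ : ∃ a, a = φ ⬝ᵥ (((k⁻¹ : GL ι F) : Matrix ι ι F) *ᵥ x) := ⟨_, rfl⟩
    obtain ⟨b, hb⟩ : ∃ b, b = ψ ⬝ᵥ (((k⁻¹ : GL ι F) : Matrix ι ι F) *ᵥ x) := ⟨_, rfl⟩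
    rw [← ha, ← hb] at e1 e2
    have hinv : ((A⁻¹ : SL(2, F)) : Matrix (Fin 2) (Fin 2) F) = !![(A : Matrix (Fin 2) (Fin 2) F) 1 1,
        -(A : Matrix (Fin 2) (Fin 2) F) 0 1; -(A : Matrix (Fin 2) (Fin 2) F) 1 0, (A : Matrix (Fin 2) (Fin 2) F) 0 0] :=
      (Matrix.SpecialLinearGroup.coe_inv A).trans (Matrix.adjugate_fin_two _)
    rw [← ha, ← hb]
    simp only [hinv, Matrix.of_apply, Matrix.cons_val', Matrix.cons_val_zero, Matrix.cons_val_one, Matrix.cons_val_fin_one]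
    constructor
    · rw [e1, e2]
      linear_combination (-a) * hdet
    · rw [e1, e2]
      linear_combination (-b) * hdet

/-- The hard case: a transvection with both centre and functional of full rational rank. -/
theorem sl_le_of_full [Fintype F] (hn : 3 ≤ Fintype.card ι) {M : Subgroup (GL ι F)} {r : ℕ} (hr : r.Prime)
    (hcard : Fintype.card F = Nat.card F₀ ^ r)
    (hH : ∀ u φ (h : φ ⬝ᵥ u = 0), IsRat F₀ u → IsRat F₀ φ → transv u φ h ∈ M)
    {u ψ : ι → F} (h0 : ψ ⬝ᵥ u = 0) (ht : transv u ψ h0 ∈ M)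
    (hfull : ∀ φ, IsRat F₀ φ → φ ≠ 0 → φ ⬝ᵥ u ≠ 0) (hfull' : ∀ a, IsRat F₀ a → a ≠ 0 → ψ ⬝ᵥ a ≠ 0) :
    specialLinear ι F ≤ M := by
  classical
  by_contra hnot
  obtain ⟨l₀⟩ : Nonempty ι := by
    have : 0 < Fintype.card ι := by omega
    exact Fintype.card_pos_iff.mp this
  obtain ⟨φ, hφdef⟩ : ∃ φ : ι → F, φ = Pi.single l₀ 1 := ⟨_, rfl⟩
  have hφ : IsRat F₀ φ := by
    rw [hφdef]
    exact isRat_single l₀
  have hφ0 : φ ≠ 0 := by
    rw [hφdef]
    intro h
    have := congrFun h l₀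
    simp at this
  obtain ⟨s, hs⟩ : ∃ s, s = φ ⬝ᵥ u := ⟨_, rfl⟩
  have hs0 : s ≠ 0 := by
    rw [hs]
    exact hfull φ hφ hφ0
  obtain ⟨u', hu'⟩ : ∃ u', u' = s⁻¹ • u := ⟨_, rfl⟩
  obtain ⟨ψ', hψ'⟩ : ∃ ψ', ψ' = s • ψ := ⟨_, rfl⟩
  have hφu' : φ ⬝ᵥ u' = 1 := by
    rw [hu', dotProduct_smul, ← hs, smul_eq_mul, inv_mul_cancel₀ hs0]
  have h0' : ψ' ⬝ᵥ u' = 0 := by
    rw [hu', hψ', dotProduct_smul, smul_dotProduct, h0]
    simp
  have ht' : transv u' ψ' h0' ∈ M := by
    have e : transv u' ψ' h0' = transv u ψ h0 := by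
      ext1
      simp only [coe_transv, transvMat, hu', hψ']
      congr 1
      ext i j
      simp only [Matrix.vecMulVec_apply, Pi.smul_apply, smul_eq_mul]
      field_simp
    rw [e]
    exact ht
  have hψ'a : ∀ a, IsRat F₀ a → a ≠ 0 → ψ' ⬝ᵥ a ≠ 0 := by
    intro a ha ha0
    rw [hψ', smul_dotProduct, smul_eq_mul]
    exact mul_ne_zero hs0 (hfull' a ha ha0)
  -- the additive group
  let B : AddSubgroup F :=
    { carrier := {z | ∃ a, IsRat F₀ a ∧ φ ⬝ᵥ a = 0 ∧ ψ' ⬝ᵥ a = z}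
      add_mem' := by
        rintro _ _ ⟨a, ha, ha', rfl⟩ ⟨b, hb, hb', rfl⟩
        exact ⟨a + b, ha.add hb, by rw [dotProduct_add, ha', hb', add_zero], by rw [dotProduct_add]⟩
      zero_mem' := ⟨0, isRat_zero, by simp, by simp⟩
      neg_mem' := by
        rintro _ ⟨a, ha, ha', rfl⟩
        refine ⟨(-1 : F) • a, ha.smul (F₀.neg_mem F₀.one_mem), ?_, ?_⟩
        · rw [dotProduct_smul, ha', smul_zero]
        · rw [dotProduct_smul, neg_one_smul] }
  have hBmem : ∀ z, z ∈ B ↔ ∃ a, IsRat F₀ a ∧ φ ⬝ᵥ a = 0 ∧ ψ' ⬝ᵥ a = z := fun z => Iff.rfl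
  have hB : ∀ c ∈ F₀, ∀ b ∈ B, c * b ∈ B := by
    rintro c hc _ ⟨a, ha, ha', rfl⟩
    refine ⟨c • a, ha.smul hc, ?_, ?_⟩
    · rw [dotProduct_smul, ha', smul_zero]
    · rw [dotProduct_smul, smul_eq_mul]
  obtain ⟨j₁, j₂, hj₁, hj₂, hj⟩ := exists_two_ne hn l₀
  have hφj : ∀ j, j ≠ l₀ → φ ⬝ᵥ (Pi.single j 1) = 0 := by
    intro j hj
    rw [hφdef, dotProduct_single]
    simp [Pi.single_eq_of_ne hj]
  have hb₁ : ψ' ⬝ᵥ (Pi.single j₁ 1) ∈ B := ⟨_, isRat_single j₁, hφj j₁ hj₁, rfl⟩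
  have hb₂ : ψ' ⬝ᵥ (Pi.single j₂ 1) ∈ B := ⟨_, isRat_single j₂, hφj j₂ hj₂, rfl⟩
  have hb₁0 : ψ' ⬝ᵥ (Pi.single j₁ 1) ≠ 0 := by
    apply hψ'a _ (isRat_single j₁)
    intro h
    have := congrFun h j₁
    simp at this
  have hb₂' : ∀ c ∈ F₀, ψ' ⬝ᵥ (Pi.single j₂ 1) ≠ c * ψ' ⬝ᵥ (Pi.single j₁ 1) := by
    intro c hc he
    apply hψ'a (Pi.single j₂ 1 - c • Pi.single j₁ 1) ((isRat_single j₂).sub ((isRat_single j₁).smul hc))
    · intro h
      have := congrFun h j₂
      simp [Pi.single_eq_of_ne (Ne.symm hj)] at this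
    · rw [dotProduct_sub, dotProduct_smul, he]
      simp
  -- the group in `SL₂`
  have hGU : sU 1 ∈ repG M φ ψ' := by
    refine ⟨_, ht', fun x => ?_⟩
    rw [transv_mulVec, dotProduct_add, dotProduct_add, dotProduct_smul, dotProduct_smul, hφu', h0']
    simp [sU]
  have hGL : ∀ b ∈ B, sL b ∈ repG M φ ψ' := by
    rintro _ ⟨a, ha, ha', rfl⟩
    refine ⟨_, hH a φ ha' ha hφ, fun x => ?_⟩
    rw [transv_mulVec, dotProduct_add, dotProduct_add, dotProduct_smul, dotProduct_smul, ha']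
    simp only [sL, smul_eq_mul]
    simp
    ring
  have htor := sl_top F₀ hr hcard B hB hb₁ hb₁0 hb₂ hb₂' (repG M φ ψ') hGU hGL
  -- action of the torus
  have hkey : ∀ y : F, y ≠ 0 → ∀ b ∈ B, (y⁻¹) ^ 2 * b ∈ B := by
    rintro y hy _ ⟨a, ha, ha', rfl⟩
    obtain ⟨k, hkM, ε, hε, hk⟩ : ∃ k ∈ M, ∃ ε : F, ε ^ 2 = 1 ∧ ∀ x : ι → F,
        φ ⬝ᵥ ((k : Matrix ι ι F) *ᵥ x) = (ε * y) * (φ ⬝ᵥ x) ∧ ψ' ⬝ᵥ ((k : Matrix ι ι F) *ᵥ x) = (ε * y⁻¹) * (ψ' ⬝ᵥ x) := by
      rcases htor (sD y hy) with ⟨k, hk, h⟩ | ⟨k, hk, h⟩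
      · refine ⟨k, hk, 1, by ring, fun x => ?_⟩
        have := h x
        simpa [sD] using this
      · refine ⟨k, hk, -1, by ring, fun x => ?_⟩
        have hm : ((-(sD y hy) : SL(2, F)) : Matrix (Fin 2) (Fin 2) F) = -((sD y hy : SL(2, F)) : Matrix (Fin 2) (Fin 2) F) :=
          Matrix.SpecialLinearGroup.coe_neg _
        have := h x
        rw [hm] at this
        simpa [sD] using this
    have hε0 : ε ≠ 0 := by
      rintro rfl
      simp at hε
    obtain ⟨c, hc⟩ : ∃ c, c = (ε * y)⁻¹ := ⟨_, rfl⟩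
    have hc0 : c * (ε * y) = 1 := by
      rw [hc]
      exact inv_mul_cancel₀ (mul_ne_zero hε0 hy)
    obtain ⟨v, hv⟩ : ∃ v, v = c • ((k : Matrix ι ι F) *ᵥ a) := ⟨_, rfl⟩
    have hφv : φ ⬝ᵥ v = 0 := by
      rw [hv, dotProduct_smul, (hk a).1, ha']
      simp
    have hψv : ψ' ⬝ᵥ v = (y⁻¹) ^ 2 * ψ' ⬝ᵥ a := by
      rw [hv, dotProduct_smul, (hk a).2, smul_eq_mul, hc]
      field_simp
    have hvM : transv v φ hφv ∈ M := by
      have e : transv v φ hφv = k * transv a φ ha' * k⁻¹ := by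
        ext1
        apply Matrix.ext_of_mulVec_single
        intro l
        rw [Units.val_mul, Units.val_mul, ← Matrix.mulVec_mulVec, ← Matrix.mulVec_mulVec, transv_mulVec, transv_mulVec]
        have h1 := (hk (((k⁻¹ : GL ι F) : Matrix ι ι F) *ᵥ Pi.single l 1)).1
        rw [mulVec_inv_mulVec] at h1
        have h2 : φ ⬝ᵥ (((k⁻¹ : GL ι F) : Matrix ι ι F) *ᵥ Pi.single l 1) = c * φ ⬝ᵥ Pi.single l 1 := by
          rw [h1, ← mul_assoc, hc0, one_mul]
        rw [Matrix.mulVec_add, mulVec_inv_mulVec, Matrix.mulVec_smul, h2, hv, smul_smul, mul_comm]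
      rw [e]
      exact M.mul_mem (M.mul_mem hkM (hH a φ ha' ha hφ)) (M.inv_mem hkM)
    by_cases hvR : IsRat F₀ v
    · exact ⟨v, hvR, hφv, hψv⟩
    · exact absurd (sl_le_of_half hn hr hcard hH hφ hφ0 hvR hφv hvM) hnot
  have hkey2 : ∀ y : F, ∀ b ∈ B, y ^ 2 * b ∈ B := by
    intro y b hb
    by_cases hy : y = 0
    · rw [hy]
      simpa using B.zero_mem
    · have := hkey y⁻¹ (inv_ne_zero hy) b hb
      rwa [inv_inv] at this
  have hall : ∀ x : F, ∀ b ∈ B, x * b ∈ B := by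
    intro x b hb
    by_cases h20 : (2 : F) = 0
    · haveI : CharP F 2 := CharTwo.of_one_ne_zero_of_two_eq_zero one_ne_zero h20
      have hch : ringChar F = 2 := ringChar.eq F 2
      have h2 : Fintype.card F % 2 = 0 := FiniteField.even_card_of_char_two hch
      obtain ⟨m, hm⟩ : ∃ m, Fintype.card F = 2 * m := ⟨Fintype.card F / 2, by omega⟩
      have h3 : x = (x ^ m) ^ 2 := by
        rw [← pow_mul, mul_comm, ← hm, FiniteField.pow_card]
      rw [h3]
      exact hkey2 _ b hb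
    · have h3 : x * b = ((x + 1) / 2) ^ 2 * b - ((x - 1) / 2) ^ 2 * b := by
        field_simp
        ring
      rw [h3]
      exact B.sub_mem (hkey2 _ b hb) (hkey2 _ b hb)
  have htop : ∀ z : F, z ∈ B := by
    intro z
    have := hall (z / ψ' ⬝ᵥ (Pi.single j₁ 1)) _ hb₁
    rwa [div_mul_cancel₀ _ hb₁0] at this
  -- counting
  haveI : Fintype F₀ := Fintype.ofFinite _
  let co : (ι → F₀) → (ι → F) := fun a i => (a i : F)
  have hco : ∀ a, IsRat F₀ (co a) := fun a i => (a i).2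
  let Lu : (ι → F₀) → F := fun a => co a ⬝ᵥ u
  have hLu : Function.Injective Lu := by
    intro a b hab
    by_contra hne
    have h1 : co a - co b ≠ 0 := by
      intro h
      apply hne
      funext i
      have := congrFun h i
      exact Subtype.ext (sub_eq_zero.mp this)
    apply hfull _ ((hco a).sub (hco b)) h1
    rw [sub_dotProduct]
    exact sub_eq_zero.mpr hab
  have hc1 := Fintype.card_le_of_injective Lu hLu
  let f : {a : ι → F₀ // φ ⬝ᵥ co a = 0} → F := fun a => ψ' ⬝ᵥ co a.1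
  have hf : Function.Surjective f := by
    intro z
    obtain ⟨a, ha, ha', rfl⟩ := htop z
    refine ⟨⟨fun i => ⟨a i, ha i⟩, ha'⟩, rfl⟩
  have hc2 := Fintype.card_le_of_surjective f hf
  have hc3 : Fintype.card {a : ι → F₀ // φ ⬝ᵥ co a = 0} < Fintype.card (ι → F₀) := by
    apply Fintype.card_subtype_lt (x := fun i => if i = l₀ then 1 else 0)
    rw [hφdef, single_dotProduct]
    simp [co]
  omega

/-- The main step: a non-rational element of `M` gives `SL`. -/
theorem sl_le [Fintype F] (hn : 3 ≤ Fintype.card ι) {M : Subgroup (GL ι F)} {r : ℕ} (hr : r.Prime)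
    (hcard : Fintype.card F = Nat.card F₀ ^ r)
    (hH : ∀ u φ (h : φ ⬝ᵥ u = 0), IsRat F₀ u → IsRat F₀ φ → transv u φ h ∈ M)
    {g : GL ι F} (hgM : g ∈ M) (hg : g ∉ subfieldSubgroup F₀ 1) : specialLinear ι F ≤ M := by
  classical
  haveI : Nonempty ι := by
    have : 0 < Fintype.card ι := by omega
    exact Fintype.card_pos_iff.mp this
  obtain ⟨u₀, hu₀, hnot⟩ : ∃ u₀, IsRat F₀ u₀ ∧ ∀ (l : F) (u' : ι → F), IsRat F₀ u' → (g : Matrix ι ι F) *ᵥ u₀ ≠ l • u' := by
    by_contra hcon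
    push Not at hcon
    apply hg
    apply mem_subfield_of_lines
    intro u hu
    obtain ⟨l, u', hu', h⟩ := hcon u hu
    refine ⟨l, u', hu', ?_⟩
    simpa using h
  obtain ⟨u, hudef⟩ : ∃ u, u = (g : Matrix ι ι F) *ᵥ u₀ := ⟨_, rfl⟩
  rw [← hudef] at hnot
  obtain ⟨l₀⟩ := ‹Nonempty ι›
  obtain ⟨ψ₀, hψ₀, hψ₀0, hψ₀u, -⟩ := exists_zero_coord hn hu₀ l₀
  rw [dotProduct_comm] at hψ₀u
  obtain ⟨ψ, hψdef⟩ : ∃ ψ, ψ = ψ₀ ᵥ* ((g⁻¹ : GL ι F) : Matrix ι ι F) := ⟨_, rfl⟩
  have h0 : ψ ⬝ᵥ u = 0 := by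
    rw [hψdef, hudef, dotProduct_conj_eq, hψ₀u]
  have ht : transv u ψ h0 ∈ M := by
    have e : transv u ψ h0 = g * transv u₀ ψ₀ hψ₀u * g⁻¹ := by
      rw [conj_transv']
      ext1
      simp only [coe_transv, hudef, hψdef]
    rw [e]
    exact M.mul_mem (M.mul_mem hgM (hH _ _ _ hu₀ hψ₀)) (M.inv_mem hgM)
  have hψ0 : ψ ≠ 0 := by
    intro h
    apply hψ₀0
    have h1 : ψ ᵥ* (g : Matrix ι ι F) = ψ₀ := by
      rw [hψdef, Matrix.vecMul_vecMul, ← Units.val_mul, inv_mul_cancel, Units.val_one, Matrix.vecMul_one]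
    rw [← h1, h, Matrix.zero_vecMul]
  -- a scalar multiple of `u` is not rational
  have hnr : ∀ l : F, l ≠ 0 → ¬ IsRat F₀ (l • u) := by
    intro l hl hR
    apply hnot l⁻¹ _ hR
    rw [smul_smul, inv_mul_cancel₀ hl, one_smul]
  by_cases ha : ∃ φ, IsRat F₀ φ ∧ φ ≠ 0 ∧ φ ⬝ᵥ u = 0
  · obtain ⟨φ, hφ, hφ0, hφu⟩ := ha
    by_cases hex : ∃ a, IsRat F₀ a ∧ φ ⬝ᵥ a = 0 ∧ ψ ⬝ᵥ a ≠ 0
    · obtain ⟨a, haR, haφ, haψ⟩ := hex
      have hcomm := commutator_transv u ψ a φ h0 haφ hφu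
      refine sl_le_of_half hn hr hcard hH hφ hφ0 (hnr _ haψ) (by rw [dotProduct_smul, hφu, smul_zero]) ?_
      rw [← hcomm]
      have h1 := hH a φ haφ haR hφ
      exact M.mul_mem (M.mul_mem (M.mul_mem ht h1) (M.inv_mem ht)) (M.inv_mem h1)
    · push Not at hex
      -- `ψ` is proportional to `φ`
      obtain ⟨i, hi⟩ : ∃ i, φ i ≠ 0 := by
        by_contra hcon
        push Not at hcon
        exact hφ0 (funext hcon)
      obtain ⟨lam, hlam⟩ : ∃ lam, lam = ψ i / φ i := ⟨_, rfl⟩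
      have hψφ : ψ = lam • φ := by
        ext j
        have h1 := hex (φ i • Pi.single j 1 - φ j • Pi.single i 1)
          (((isRat_single j).smul (hφ i)).sub ((isRat_single i).smul (hφ j))) (by
            rw [dotProduct_sub, dotProduct_smul, dotProduct_smul, dotProduct_single, dotProduct_single]
            simp only [smul_eq_mul]
            ring)
        rw [dotProduct_sub, dotProduct_smul, dotProduct_smul, dotProduct_single, dotProduct_single] at h1
        simp only [smul_eq_mul, mul_one] at h1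
        simp only [Pi.smul_apply, smul_eq_mul]
        rw [hlam]
        field_simp
        linear_combination h1
      have hlam0 : lam ≠ 0 := by
        rintro h
        rw [h, zero_smul] at hψφ
        exact hψ0 hψφ
      have h1 : φ ⬝ᵥ (lam • u) = 0 := by rw [dotProduct_smul, hφu, smul_zero]
      refine sl_le_of_half hn hr hcard hH hφ hφ0 (hnr _ hlam0) h1 ?_
      have e : transv (lam • u) φ h1 = transv u ψ h0 := by
        ext1
        simp only [coe_transv, transvMat, hψφ]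
        congr 1
        ext i j
        simp only [Matrix.vecMulVec_apply, Pi.smul_apply, smul_eq_mul]
        ring
      rw [e]
      exact ht
  · push Not at ha
    by_cases hb : ∃ a, IsRat F₀ a ∧ a ≠ 0 ∧ ψ ⬝ᵥ a = 0
    · obtain ⟨a, haR, ha0, haψ⟩ := hb
      obtain ⟨φ, hφ, hφ0, hφa, -⟩ := exists_zero_coord hn haR l₀
      rw [dotProduct_comm] at hφa
      have hs := ha φ hφ hφ0
      have hcomm := commutator_transv a φ u ψ hφa h0 haψ
      have h1 : transv ((φ ⬝ᵥ u) • a) ψ (by rw [dotProduct_smul, haψ, smul_zero]) ∈ M := by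
        rw [← hcomm]
        have h2 := hH a φ hφa haR hφ
        exact M.mul_mem (M.mul_mem (M.mul_mem h2 ht) (M.inv_mem h2)) (M.inv_mem ht)
      have h2 : ((φ ⬝ᵥ u) • ψ) ⬝ᵥ a = 0 := by rw [smul_dotProduct, haψ, smul_zero]
      by_cases hχ : IsRat F₀ ((φ ⬝ᵥ u) • ψ)
      · have h3 : ((φ ⬝ᵥ u) • ψ) ⬝ᵥ ((φ ⬝ᵥ u)⁻¹ • u) = 0 := by
          rw [smul_dotProduct, dotProduct_smul, h0]
          simp
        refine sl_le_of_half hn hr hcard hH hχ (smul_ne_zero hs hψ0) (hnr _ (inv_ne_zero hs)) h3 ?_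
        have e : transv ((φ ⬝ᵥ u)⁻¹ • u) ((φ ⬝ᵥ u) • ψ) h3 = transv u ψ h0 := by
          ext1
          simp only [coe_transv, transvMat]
          congr 1
          ext i j
          simp only [Matrix.vecMulVec_apply, Pi.smul_apply, smul_eq_mul]
          field_simp
        rw [e]
        exact ht
      · refine sl_le_of_half' hn hr hcard hH haR ha0 hχ h2 ?_
        have e : transv a ((φ ⬝ᵥ u) • ψ) h2 = transv ((φ ⬝ᵥ u) • a) ψ (by rw [dotProduct_smul, haψ, smul_zero]) := by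
          ext1
          simp only [coe_transv, transvMat]
          congr 1
          ext i j
          simp only [Matrix.vecMulVec_apply, Pi.smul_apply, smul_eq_mul]
          ring
        rw [e]
        exact h1
    · push Not at hb
      exact sl_le_of_full hn hr hcard hH h0 ht ha hb

/-- **The subfield group is maximal in `SL`.** -/
theorem isMaximalIn [Fintype F] (hn : 3 ≤ Fintype.card ι) {r : ℕ} (hr : r.Prime)
    (hcard : Fintype.card F = Nat.card F₀ ^ r) (P : GL ι F) :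
    IsMaximalIn (specialLinear ι F) (subfieldSubgroup F₀ P ⊓ specialLinear ι F) := by
  have key : IsMaximalIn (specialLinear ι F) (subfieldSubgroup F₀ 1 ⊓ specialLinear ι F) := by
    refine isMaximalIn_of_forall ?_ ?_
    · refine lt_of_le_of_ne inf_le_right ?_
      intro he
      -- a non-rational element of `F`
      obtain ⟨c, hc⟩ : ∃ c : F, c ∉ F₀ := by
        by_contra hcon
        push Not at hcon
        have h1 : Fintype.card F = Nat.card F₀ := by
          have : F₀ = ⊤ := by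
            rw [eq_top_iff]
            intro x _
            exact hcon x
          rw [this]
          simp
        have h2 : 1 < Nat.card F₀ := by
          rw [← h1]
          exact Fintype.one_lt_card
        rw [h1] at hcard
        have h3 : Nat.card F₀ ^ 1 = Nat.card F₀ ^ r := by
          rw [pow_one]
          exact hcard
        have h4 := Nat.pow_right_injective (by omega) h3
        exact hr.ne_one h4.symm
      obtain ⟨j₁, j₂, -, -, hj⟩ := exists_two_ne hn (Classical.choice (by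
        have : 0 < Fintype.card ι := by omega
        exact Fintype.card_pos_iff.mp this))
      have h1 : elemGL j₁ j₂ hj c ∈ subfieldSubgroup F₀ 1 ⊓ specialLinear ι F := by
        rw [he]
        exact elemGL_mem_specialLinear _ _ _ _
      obtain ⟨k, hk0, hk⟩ := exists_scalar_of_mem h1.1
      have e : ((1 : GL ι F)⁻¹ * elemGL j₁ j₂ hj c * 1 : GL ι F) = elemGL j₁ j₂ hj c := by simp
      rw [e, coe_elemGL] at hk
      have h2 := hk j₁ j₂
      have h3 := hk j₁ j₁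
      simp [Matrix.transvection, Matrix.single_apply, hj, hj.symm] at h2 h3
      apply hc
      have h4 := F₀.div_mem h2 h3
      rwa [mul_div_cancel_left₀ _ hk0] at h4
    · intro M hHM hMK g hgM hgH
      have hg : g ∉ subfieldSubgroup F₀ 1 := fun h => hgH ⟨h, hMK hgM⟩
      refine sl_le hn hr hcard (fun u φ h hu hφ => hHM ⟨?_, transv_mem_specialLinear u φ h⟩) hgM hg
      apply mem_subfield_of_entries
      intro i j
      have e : ((1 : GL ι F)⁻¹ * transv u φ h * 1 : GL ι F) = transv u φ h := by simp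
      rw [e, coe_transv, transvMat]
      simp only [Matrix.add_apply, Matrix.vecMulVec_apply, Matrix.one_apply]
      refine F₀.add_mem ?_ (F₀.mul_mem (hu i) (hφ j))
      split_ifs
      · exact F₀.one_mem
      · exact F₀.zero_mem
  have h1 := Cfsg.Agent.Lib.Geo.Basic.IsMaximalIn.conj key P
  have h2 : (specialLinear ι F).map (MulAut.conj P).toMonoidHom = specialLinear ι F := map_conj_eq_of_normal _ P
  rw [h2, map_conj_inf, h2] at h1
  convert h1 using 2
  ext g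
  rw [mem_map_conj_iff, mem_subfield_iff, mem_subfield_iff]
  simp

end Cfsg.Agent.Lib.Geo.SLSub
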