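/-
The stabiliser of an orthogonal decomposition into non-degenerate subspaces is maximal in `Sp`.
-/
import Cfsg.Agent.Lib.Geo.SpFrames
set_option autoImplicit false

namespace Cfsg.Agent.Lib.Geo.SpDecomp

open Cfsg Cfsg.Geo Cfsg.Agent.Lib.Geo.Basic Cfsg.Agent.Lib.Geo.Parabolic Cfsg.Agent.Lib.Geo.Centres
open Cfsg.Agent.Lib.Geo.Polar Cfsg.Agent.Lib.Geo.QForm Cfsg.Agent.Lib.Geo.SympInSL
open Cfsg.Agent.Lib.Geo.SpBase Cfsg.Agent.Lib.Geo.SpSubspace Cfsg.Agent.Lib.Geo.SpFrames
open scoped MatrixGroups Matrix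

variable {ι : Type} [Fintype ι] [DecidableEq ι] {F : Type*} [Field F]
variable {f : (ι → F) → (ι → F) → F} {hf : IsSymplecticForm f} {I : Subgroup (GL ι F)}
variable {t k : ℕ} {D : Fin t → Submodule F (ι → F)}

/-- Components with respect to a family of subspaces spanning the whole space. -/
theorem exists_comps (hD : iSup D = ⊤) (x : ι → F) :
    ∃ c : Fin t → ι → F, (∀ i, c i ∈ D i) ∧ ∑ i, c i = x := by
  have hx : x ∈ iSup D := by
    rw [hD]
    trivial
  refine Submodule.iSup_induction D (motive := fun x => ∃ c : Fin t → ι → F, (∀ i, c i ∈ D i) ∧ ∑ i, c i = x)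
    hx ?_ ?_ ?_
  · intro i v hv
    refine ⟨Pi.single i v, fun j => ?_, ?_⟩
    · by_cases h : j = i
      · subst h
        simpa using hv
      · simp [Pi.single_eq_of_ne h]
    · simp [Finset.sum_pi_single']
  · exact ⟨0, fun i => (D i).zero_mem, by simp⟩
  · rintro _ _ ⟨c, hc, rfl⟩ ⟨c', hc', rfl⟩
    exact ⟨c + c', fun i => (D i).add_mem (hc i) (hc' i), by simp [Finset.sum_add_distrib]⟩

theorem form_sum_sum (hf : IsSymplecticForm f) (ho : ∀ i j, i ≠ j → AreOrthogonalFor f (D i) (D j))
    {c c' : Fin t → ι → F} (hc : ∀ i, c i ∈ D i) (hc' : ∀ i, c' i ∈ D i) :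
    f (∑ i, c i) (∑ i, c' i) = ∑ i, f (c i) (c' i) := by
  rw [form_sum_left hf]
  refine Finset.sum_congr rfl fun i _ => ?_
  rw [form_sum_right hf]
  refine Finset.sum_eq_single i (fun j _ hj => ho i j hj.symm _ (hc i) _ (hc' j)) (by simp)

/-- Membership in the decomposition stabiliser. -/
theorem mem_decompositionStabilizer_of_forall (hfin : ∀ i, Module.finrank F (D i) = k)
    (τ : Equiv.Perm (Fin t)) (g : GL ι F)
    (h : ∀ i, ∀ x ∈ D i, (g : Matrix ι ι F) *ᵥ x ∈ D (τ i)) : g ∈ decompositionStabilizer D := by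
  refine ⟨τ, fun i => ?_⟩
  refine Submodule.eq_of_le_of_finrank_eq ?_ ?_
  · rintro _ ⟨x, hx, rfl⟩
    exact h i x hx
  · rw [finrank_map_toLin', hfin, hfin]

/-- All vectors with support `S` are centres. -/
def Good (hf : IsSymplecticForm f) (M : Subgroup (GL ι F)) (D : Fin t → Submodule F (ι → F))
    (S : Finset (Fin t)) : Prop :=
  ∀ c : Fin t → ι → F, (∀ i, c i ∈ D i) → (∀ i, c i ≠ 0 ↔ i ∈ S) → ∑ i, c i ∈ centres hf M

/-- One vector with support `S` is enough. -/
theorem good_of_instance {M : Subgroup (GL ι F)} (hn : ∀ i, IsNondegenerateOn f (D i))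
    (ho : ∀ i j, i ≠ j → AreOrthogonalFor f (D i) (D j)) (hC : ∀ i, ∀ v ∈ D i, v ∈ centres hf M)
    {c₀ : Fin t → ι → F} (hc₀ : ∀ i, c₀ i ∈ D i) {S : Finset (Fin t)} (hs : ∀ i, c₀ i ≠ 0 ↔ i ∈ S)
    (hin : ∑ i, c₀ i ∈ centres hf M) : Good hf M D S := by
  intro c hc hsupp
  have key : ∀ T : Finset (Fin t), ∑ i, (if i ∈ T then c i else c₀ i) ∈ centres hf M := by
    intro T
    induction T using Finset.induction_on with
    | empty => simpa using hin
    | insert a T ha ih =>
      have he : ∀ i, (if i ∈ T then c i else c₀ i) ∈ D i := by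
        intro i
        split_ifs
        · exact hc i
        · exact hc₀ i
      set r := ∑ i ∈ Finset.univ.erase a, (if i ∈ T then c i else c₀ i) with hr
      have h1 : ∑ i, (if i ∈ T then c i else c₀ i) = c₀ a + r := by
        rw [← Finset.add_sum_erase _ _ (Finset.mem_univ a), if_neg ha]
      have h2 : ∑ i, (if i ∈ insert a T then c i else c₀ i) = c a + r := by
        rw [← Finset.add_sum_erase _ _ (Finset.mem_univ a), if_pos (Finset.mem_insert_self a T), hr]
        congr 1
        refine Finset.sum_congr rfl fun i hi => ?_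
        have hia : i ≠ a := Finset.ne_of_mem_erase hi
        simp [Finset.mem_insert, hia]
      rw [h1] at ih
      rw [h2]
      have hro : ∀ v ∈ D a, f r v = 0 := by
        intro v hv
        rw [hr, form_sum_left hf]
        refine Finset.sum_eq_zero fun i hi => ?_
        exact ho i a (Finset.ne_of_mem_erase hi) _ (he i) _ hv
      by_cases haS : a ∈ S
      · exact move_two hf (hn a) (hC a) (hc₀ a) (hc a) ((hs a).mpr haS) ((hsupp a).mpr haS) hro ih
      · have h3 : c₀ a = 0 := by
          by_contra h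
          exact haS ((hs a).mp h)
        have h4 : c a = 0 := by
          by_contra h
          exact haS ((hsupp a).mp h)
        rw [h4]
        rwa [h3] at ih
  simpa using key Finset.univ

/-- Combining two supports. -/
theorem good_combine {M : Subgroup (GL ι F)} (hn : ∀ i, IsNondegenerateOn f (D i))
    (ho : ∀ i j, i ≠ j → AreOrthogonalFor f (D i) (D j)) (hC : ∀ i, ∀ v ∈ D i, v ∈ centres hf M)
    (hne : ∀ i, D i ≠ ⊥)
    (hX : ∀ i, ∀ v ∈ D i, v ≠ 0 → ∃ x ∈ D i, f v x = 0 ∧ x ≠ 0 ∧ v + x ≠ 0)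
    {S S' T : Finset (Fin t)} (hS : Good hf M D S) (hS' : Good hf M D S') (l : Fin t) (hl : l ∈ S)
    (hl' : l ∈ S') (hlT : l ∈ T) (h1 : ∀ i, i ∈ T → i ∈ S ∨ i ∈ S')
    (h2 : ∀ i, i ∈ S → i ∉ S' → i ∈ T) (h3 : ∀ i, i ∈ S' → i ∉ S → i ∈ T) : Good hf M D T := by
  have hex : ∀ i, ∃ a ∈ D i, a ≠ 0 := fun i => Submodule.exists_mem_ne_zero_of_ne_bot (hne i)
  choose a ha ha0 using hex
  have hx : ∀ i, ∃ x ∈ D i, f (a i) x = 0 ∧ x ≠ 0 ∧ a i + x ≠ 0 := fun i => hX i _ (ha i) (ha0 i)
  choose x hx hxf hx0 hax using hx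
  obtain ⟨-, ⟨d, hd, had⟩⟩ := hn l _ (ha l) (ha0 l)
  have hd0 : d ≠ 0 := by
    rintro rfl
    exact had ((isPolar hf).zero_right _)
  have had' : a l + d ≠ 0 := by
    intro h0
    apply had
    have h4 : d = - a l := eq_neg_of_add_eq_zero_right h0
    rw [h4, (isPolar hf).neg_right, hf.alternating, neg_zero]
  classical
  set c : Fin t → ι → F := fun i => if i ∈ S then a i else 0 with hc
  set c' : Fin t → ι → F := fun i =>
    if i ∈ S' then (if i ∈ S then (if i = l then d else if i ∈ T then x i else - a i) else a i) else 0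
    with hc'
  have hcD : ∀ i, c i ∈ D i := by
    intro i
    simp only [hc]
    split_ifs
    · exact ha i
    · exact (D i).zero_mem
  have hc'D : ∀ i, c' i ∈ D i := by
    intro i
    simp only [hc']
    split_ifs with h4 h5 h6 h7
    · rw [h6]
      exact hd
    · exact hx i
    · exact (D i).neg_mem (ha i)
    · exact ha i
    · exact (D i).zero_mem
  have hcs : ∀ i, c i ≠ 0 ↔ i ∈ S := by
    intro i
    simp only [hc]
    by_cases h4 : i ∈ S
    · simp [h4, ha0 i]
    · simp [h4]
  have hc's : ∀ i, c' i ≠ 0 ↔ i ∈ S' := by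
    intro i
    simp only [hc']
    by_cases h4 : i ∈ S'
    · simp only [h4, if_true, iff_true]
      split_ifs with h5 h6 h7
      · exact hd0
      · exact hx0 i
      · exact neg_ne_zero.mpr (ha0 i)
      · exact ha0 i
    · simp [h4]
  have hv := hS c hcD hcs
  have hv' := hS' c' hc'D hc's
  have hform : f (∑ i, c i) (∑ i, c' i) = f (a l) d := by
    rw [form_sum_sum hf ho hcD hc'D, Finset.sum_eq_single l]
    · simp only [hc, hc', hl, hl', if_true]
    · intro i _ hil
      simp only [hc, hc']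
      by_cases h4 : i ∈ S
      · by_cases h5 : i ∈ S'
        · simp only [h4, h5, if_true, hil, if_false]
          by_cases h6 : i ∈ T
          · simp only [h6, if_true, hxf]
          · simp only [h6, if_false, (isPolar hf).neg_right, hf.alternating, neg_zero]
        · simp only [h5, if_false, (isPolar hf).zero_right]
      · simp only [h4, if_false, (isPolar hf).zero_left]
    · intro h
      exact absurd (Finset.mem_univ l) h
  have hsum := centres_add hf hv' hv (by rw [hform]; exact had)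
  have hsum' : ∑ i, c i + ∑ i, c' i = ∑ i, (c i + c' i) := by rw [Finset.sum_add_distrib]
  rw [hsum'] at hsum
  refine good_of_instance hn ho hC (fun i => (D i).add_mem (hcD i) (hc'D i)) ?_ hsum
  intro i
  simp only [hc, hc']
  by_cases h4 : i ∈ S
  · by_cases h5 : i ∈ S'
    · by_cases h6 : i = l
      · subst h6
        simp only [h4, h5, if_true, hlT, iff_true]
        exact had'
      · by_cases h7 : i ∈ T
        · simp only [h4, h5, h6, h7, if_true, if_false, iff_true]
          exact hax i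
        · simp [h4, h5, h6, h7]
    · have h7 := h2 i h4 h5
      simp only [h4, h5, h7, if_true, if_false, add_zero, iff_true]
      exact ha0 i
  · by_cases h5 : i ∈ S'
    · have h7 := h3 i h5 h4
      simp only [h4, h5, h7, if_false, if_true, zero_add, iff_true]
      exact ha0 i
    · have h7 : i ∉ T := fun h => (h1 i h).elim h4 h5
      simp [h4, h5, h7]

/-- Permuting a support by an element of `M`. -/
theorem good_map {M : Subgroup (GL ι F)} (hn : ∀ i, IsNondegenerateOn f (D i))
    (ho : ∀ i j, i ≠ j → AreOrthogonalFor f (D i) (D j)) (hC : ∀ i, ∀ v ∈ D i, v ∈ centres hf M)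
    (hne : ∀ i, D i ≠ ⊥) (τ : Equiv.Perm (Fin t)) (h : GL ι F) (hM : h ∈ M)
    (hp : ∀ u v, f ((h : Matrix ι ι F) *ᵥ u) ((h : Matrix ι ι F) *ᵥ v) = f u v)
    (hτ : ∀ i, ∀ x ∈ D i, (h : Matrix ι ι F) *ᵥ x ∈ D (τ i)) {S : Finset (Fin t)}
    (hS : Good hf M D S) : Good hf M D (S.map τ.toEmbedding) := by
  have hex : ∀ i, ∃ a ∈ D i, a ≠ 0 := fun i => Submodule.exists_mem_ne_zero_of_ne_bot (hne i)
  choose a ha ha0 using hex
  classical
  set c : Fin t → ι → F := fun i => if i ∈ S then a i else 0 with hc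
  have hcD : ∀ i, c i ∈ D i := by
    intro i
    simp only [hc]
    split_ifs
    · exact ha i
    · exact (D i).zero_mem
  have hcs : ∀ i, c i ≠ 0 ↔ i ∈ S := by
    intro i
    simp only [hc]
    by_cases h4 : i ∈ S
    · simp [h4, ha0 i]
    · simp [h4]
  have h1 := centres_mulVec hf (hS c hcD hcs) hM hp
  rw [Matrix.mulVec_sum] at h1
  have h2 : ∑ i, (h : Matrix ι ι F) *ᵥ c i =
      ∑ j, (h : Matrix ι ι F) *ᵥ c (τ.symm j) :=
    (Equiv.sum_comp τ.symm (fun i => (h : Matrix ι ι F) *ᵥ c i)).symm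
  rw [h2] at h1
  refine good_of_instance hn ho hC (c₀ := fun j => (h : Matrix ι ι F) *ᵥ c (τ.symm j)) ?_ ?_ h1
  · intro j
    have := hτ _ _ (hcD (τ.symm j))
    simpa using this
  · intro j
    rw [Finset.mem_map_equiv, ← hcs]
    constructor
    · intro h3 h4
      apply h3
      show (h : Matrix ι ι F) *ᵥ c (τ.symm j) = 0
      rw [h4, Matrix.mulVec_zero]
    · intro h3 h4
      apply h3
      have h5 := inv_mulVec_mulVec h (c (τ.symm j))
      have h4' : (h : Matrix ι ι F) *ᵥ c (τ.symm j) = 0 := h4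
      rw [h4', Matrix.mulVec_zero] at h5
      exact h5.symm

/-- Isometries permuting an orthogonal decomposition arbitrarily. -/
theorem exists_perm_isometry [Finite F] (hf : IsSymplecticForm f) (hD : IsNondegenerateMDecomposition f k D)
    (τ : Equiv.Perm (Fin t)) :
    ∃ h : GL ι F, (∀ u v, f ((h : Matrix ι ι F) *ᵥ u) ((h : Matrix ι ι F) *ᵥ v) = f u v) ∧
      ∀ i, ∀ x ∈ D i, (h : Matrix ι ι F) *ᵥ x ∈ D (τ i) := by
  have hfr : ∀ i, ∃ e e' : Fin (k / 2) → ι → F, (∀ a, e a ∈ D i) ∧ (∀ a, e' a ∈ D i) ∧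
      (∀ a b, f (e a) (e b) = 0) ∧ (∀ a b, f (e' a) (e' b) = 0) ∧
      (∀ a b, f (e a) (e' b) = if a = b then 1 else 0) ∧
      D i ≤ Submodule.span F (Set.range e ∪ Set.range e') := by
    intro i
    obtain ⟨n, e, e', hfin, he, he', h1, h2, h3, hspan⟩ := exists_frame hf (D i) (hD.nondegenerate i)
    have hn : n = k / 2 := by
      have := hD.decomp.finrank_eq i
      omega
    subst hn
    exact ⟨e, e', he, he', h1, h2, h3, hspan⟩
  choose e e' he he' h1 h2 h3 hspan using hfr
  have ho := hD.orthogonal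
  let u : Fin t × (Fin (k / 2) ⊕ Fin (k / 2)) → ι → F := fun x => Sum.elim (e x.1) (e' x.1) x.2
  let w : Fin t × (Fin (k / 2) ⊕ Fin (k / 2)) → ι → F :=
    fun x => Sum.elim (e' x.1) (fun a => - e x.1 a) x.2
  have hud : ∀ x, u x ∈ D x.1 := by
    rintro ⟨i, (a | a)⟩
    · exact he i a
    · exact he' i a
  have hwd : ∀ x, w x ∈ D x.1 := by
    rintro ⟨i, (a | a)⟩
    · exact he' i a
    · exact (D i).neg_mem (he i a)
  have hdual : ∀ x y, f (u x) (w y) = if x = y then 1 else 0 := by
    rintro ⟨i, α⟩ ⟨j, β⟩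
    by_cases hij : i = j
    · subst hij
      rcases α with a | a <;> rcases β with b | b
      · simpa [u, w] using h3 i a b
      · simp [u, w, (isPolar hf).neg_right, h1]
      · simp [u, w, h2]
      · simp only [u, w, Sum.elim_inr, (isPolar hf).neg_right]
        rw [hf.skew, neg_neg, h3]
        by_cases hab : a = b
        · subst hab
          simp
        · simp [hab, Ne.symm hab]
    · rw [if_neg (by simp [hij])]
      exact ho i j hij _ (hud ⟨i, α⟩) _ (hwd ⟨j, β⟩)
  have hind : LinearIndependent F u := linearIndependent_of_dual hf u w hdual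
  let φ : Fin t × (Fin (k / 2) ⊕ Fin (k / 2)) → Fin t × (Fin (k / 2) ⊕ Fin (k / 2)) :=
    fun x => (τ x.1, x.2)
  have hφ : Function.Injective φ := by
    rintro ⟨i, α⟩ ⟨j, β⟩ h
    simp only [φ, Prod.mk.injEq, EmbeddingLike.apply_eq_iff_eq] at h
    rw [h.1, h.2]
  obtain ⟨h, hp, hu⟩ := exists_isometry_family hf u (u ∘ φ) hind (hind.comp φ hφ) (by
    rintro ⟨i, α⟩ ⟨j, β⟩
    by_cases hij : i = j
    · subst hij
      rcases α with a | a <;> rcases β with b | b <;> simp [u, φ, h1, h2, h3, hf.skew (e' _ _) (e _ _)]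
    · have h4 : τ i ≠ τ j := fun h => hij (τ.injective h)
      have h5 := ho i j hij _ (hud ⟨i, α⟩) _ (hud ⟨j, β⟩)
      have h6 := ho _ _ h4 _ (hud ⟨τ i, α⟩) _ (hud ⟨τ j, β⟩)
      simp only [Function.comp, φ]
      rw [h5, h6])
  refine ⟨h, hp, fun i x hx => ?_⟩
  have h4 : Submodule.span F (Set.range (e i) ∪ Set.range (e' i)) ≤
      (D (τ i)).comap (Matrix.toLin' (h : Matrix ι ι F)) := by
    rw [Submodule.span_le]
    rintro _ (⟨a, rfl⟩ | ⟨a, rfl⟩)
    · show (Matrix.toLin' (h : Matrix ι ι F)) (e i a) ∈ D (τ i)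
      rw [Matrix.toLin'_apply]
      have := hu (i, Sum.inl a)
      simp only [Function.comp, u, φ, Sum.elim_inl] at this
      rw [this]
      exact he _ a
    · show (Matrix.toLin' (h : Matrix ι ι F)) (e' i a) ∈ D (τ i)
      rw [Matrix.toLin'_apply]
      have := hu (i, Sum.inr a)
      simp only [Function.comp, u, φ, Sum.elim_inr] at this
      rw [this]
      exact he' _ a
  have h5 := h4 (hspan i hx)
  simpa using h5

/-- The exceptional property. -/
theorem exists_X [Fintype F] (hf : IsSymplecticForm f) (hD : IsNondegenerateMDecomposition f k D)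
    (hex : ¬ (k = 2 ∧ Fintype.card F = 2)) (i : Fin t) (v : ι → F) (hv : v ∈ D i) (hv0 : v ≠ 0) :
    ∃ x ∈ D i, f v x = 0 ∧ x ≠ 0 ∧ v + x ≠ 0 := by
  classical
  by_cases hq : Fintype.card F = 2
  · -- dimension at least three
    have hk0 := hD.decomp.pos
    have hfin := hD.decomp.finrank_eq i
    have hk1 : k ≠ 1 := by
      intro hk
      obtain ⟨-, ⟨y, hy, hvy⟩⟩ := hD.nondegenerate i v hv hv0
      have h1 : Submodule.span F {v} = D i := by
        refine Submodule.eq_of_le_of_finrank_eq ?_ ?_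
        · rw [Submodule.span_le]
          simpa using hv
        · rw [finrank_span_singleton hv0, hfin, hk]
      rw [← h1] at hy
      obtain ⟨c, rfl⟩ := Submodule.mem_span_singleton.mp hy
      apply hvy
      rw [hf.bilinear.smul_right, hf.alternating, mul_zero]
    have hk2 : k ≠ 2 := fun hk => hex ⟨hk, hq⟩
    have h1 := finrank_inf_ker (D i) (formVec f v)
    set E := D i ⊓ LinearMap.ker (dualOfVec (formVec f v)) with hE
    obtain ⟨y, hyE, hyv⟩ : ∃ y ∈ E, y ∉ Submodule.span F {v} := by
      by_contra hcon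
      push Not at hcon
      have h3 : Module.finrank F E ≤ Module.finrank F (Submodule.span F {v}) :=
        Submodule.finrank_mono (fun y hy => hcon y hy)
      rw [finrank_span_singleton hv0] at h3
      omega
    have hy : f y v = 0 := by
      have : dualOfVec (formVec f v) y = 0 := hyE.2
      rwa [dualOfVec_apply, formVec_eq hf] at this
    refine ⟨y, hyE.1, form_comm_eq hf hy, ?_, ?_⟩
    · rintro rfl
      exact hyv (Submodule.zero_mem _)
    · intro h0
      apply hyv
      have h4 : y = (-1 : F) • v := by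
        rw [neg_one_smul]
        exact eq_neg_of_add_eq_zero_right h0
      rw [h4]
      exact Submodule.smul_mem _ _ (Submodule.mem_span_singleton_self v)
  · -- three scalars
    have hq2 : 2 ≤ Fintype.card F := Fintype.one_lt_card
    obtain ⟨c, hc⟩ : ∃ c : F, c ∉ ({0, -1} : Finset F) := by
      by_contra hcon
      push Not at hcon
      have h1 : Fintype.card F ≤ ({0, -1} : Finset F).card := by
        rw [← Finset.card_univ]
        exact Finset.card_le_card (fun x _ => hcon x)
      have h2 : ({0, -1} : Finset F).card ≤ 2 := Finset.card_le_two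
      omega
    simp only [Finset.mem_insert, Finset.mem_singleton, not_or] at hc
    refine ⟨c • v, (D i).smul_mem _ hv, ?_, smul_ne_zero hc.1 hv0, ?_⟩
    · rw [hf.bilinear.smul_right, hf.alternating, mul_zero]
    · have h1 : v + c • v = (1 + c) • v := by rw [add_smul, one_smul]
      rw [h1]
      refine smul_ne_zero ?_ hv0
      intro h2
      apply hc.2
      exact eq_neg_of_add_eq_zero_right h2

theorem decomp_inf_lt (S : IsSpGroup hf I) (hD : IsNondegenerateMDecomposition f k D) :
    decompositionStabilizer D ⊓ I < I := by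
  refine lt_of_le_of_ne inf_le_right ?_
  intro he
  have ht := hD.decomp.two_le
  have hk := hD.decomp.pos
  have hfin := hD.decomp.finrank_eq
  have hne : ∀ i, D i ≠ ⊥ := by
    intro i h
    have := hfin i
    rw [h] at this
    simp at this
    omega
  let i₁ : Fin t := ⟨0, by omega⟩
  let i₂ : Fin t := ⟨1, by omega⟩
  have h12 : i₁ ≠ i₂ := by simp [i₁, i₂, Fin.ext_iff]
  have ho := hD.orthogonal
  have hn := hD.nondegenerate
  obtain ⟨a, ha, ha0⟩ := Submodule.exists_mem_ne_zero_of_ne_bot (hne i₁)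
  obtain ⟨b, hb, hb0⟩ := Submodule.exists_mem_ne_zero_of_ne_bot (hne i₂)
  obtain ⟨⟨x, hx, hxa⟩, -⟩ := hn i₁ a ha ha0
  have hT : sympT hf (a + b) 1 ∈ decompositionStabilizer D ⊓ I := by
    rw [he]
    exact (S.mem_iff _).mpr (sympT_preserves hf _ 1)
  obtain ⟨σ, hσ⟩ := hT.1
  have h1 : ((sympT hf (a + b) 1 : GL ι F) : Matrix ι ι F) *ᵥ x ∈ D (σ i₁) := by
    rw [← hσ]
    exact ⟨x, hx, rfl⟩
  have hxb : f x b = 0 := ho i₁ i₂ h12 _ hx _ hb
  rw [sympT_mulVec, one_smul, hf.bilinear.add_right, hxb, add_zero] at h1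
  have hTx : x + f x a • (a + b) = (x + f x a • a) + f x a • b := by
    rw [smul_add]
    abel
  rw [hTx] at h1
  have he0 : x + f x a • a ≠ 0 := by
    intro h0
    have h2 : f (x + f x a • a) a = 0 := by rw [h0, (isPolar hf).zero_left]
    rw [hf.bilinear.add_left, hf.bilinear.smul_left, hf.alternating, mul_zero, add_zero] at h2
    exact hxa h2
  have heD : x + f x a • a ∈ D i₁ := (D i₁).add_mem hx ((D i₁).smul_mem _ ha)
  by_cases hj : σ i₁ = i₁
  · rw [hj] at h1
    have h2 : f x a • b ∈ D i₁ := by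
      have := (D i₁).sub_mem h1 heD
      rwa [add_sub_cancel_left] at this
    have h3 := (D i₁).smul_mem (f x a)⁻¹ h2
    rw [smul_smul, inv_mul_cancel₀ hxa, one_smul] at h3
    obtain ⟨⟨v, hv, hvb⟩, -⟩ := hn i₂ b hb hb0
    exact hvb (ho i₂ i₁ h12.symm _ hv _ h3)
  · obtain ⟨⟨v, hv, hve⟩, -⟩ := hn i₁ _ heD he0
    apply hve
    have h2 := ho i₁ (σ i₁) (Ne.symm hj) v hv _ h1
    rw [hf.bilinear.add_right, hf.bilinear.smul_right, ho i₁ i₂ h12 v hv b hb, mul_zero, add_zero] at h2
    exact h2

/-- **The stabiliser of an orthogonal decomposition is maximal in `Sp`.** -/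
theorem decomp_isMaximalIn [Fintype F] (S : IsSpGroup hf I) (hD : IsNondegenerateMDecomposition f k D)
    (hex : ¬ (k = 2 ∧ Fintype.card F = 2)) : IsMaximalIn I (decompositionStabilizer D ⊓ I) := by
  refine isMaximalIn_of_forall (decomp_inf_lt S hD) ?_
  intro M hHM hMI g hgM hgH
  have hpres : ∀ h ∈ M, ∀ u v, f ((h : Matrix ι ι F) *ᵥ u) ((h : Matrix ι ι F) *ᵥ v) = f u v :=
    fun h hh => (S.mem_iff h).mp (hMI hh)
  have hg : g ∉ decompositionStabilizer D := fun hs => hgH ⟨hs, hMI hgM⟩
  have ht := hD.decomp.two_le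
  have hk := hD.decomp.pos
  have hfin := hD.decomp.finrank_eq
  have ho := hD.orthogonal
  have hn := hD.nondegenerate
  have hne : ∀ i, D i ≠ ⊥ := by
    intro i h
    have := hfin i
    rw [h] at this
    simp at this
    omega
  have hX := fun i => exists_X hf hD hex i
  -- transvections with centres in the members
  have hC : ∀ i, ∀ v ∈ D i, v ∈ centres hf M := by
    intro i v hv a
    apply hHM
    refine ⟨mem_decompositionStabilizer_of_forall hfin 1 _ ?_, (S.mem_iff _).mpr (sympT_preserves hf v a)⟩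
    intro j x hx
    rw [sympT_mulVec]
    by_cases hj : j = i
    · subst hj
      exact (D j).add_mem hx ((D j).smul_mem _ ((D j).smul_mem _ hv))
    · rw [ho j i hj x hx v hv, zero_smul, add_zero]
      exact hx
  -- a vector moved outside all the members
  obtain ⟨i₀, x₀, hx₀, hx₀'⟩ : ∃ i, ∃ x ∈ D i, ∀ j, (g : Matrix ι ι F) *ᵥ x ∉ D j := by
    by_contra hcon
    push Not at hcon
    apply hg
    have hσ : ∀ i, ∃ j, ∀ x ∈ D i, (g : Matrix ι ι F) *ᵥ x ∈ D j := by
      intro i
      obtain ⟨x₁, hx₁, hx₁0⟩ := Submodule.exists_mem_ne_zero_of_ne_bot (hne i)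
      obtain ⟨j, hj⟩ := hcon i x₁ hx₁
      refine ⟨j, fun x hx => ?_⟩
      obtain ⟨j', hj'⟩ := hcon i x hx
      obtain ⟨j'', hj''⟩ := hcon i _ ((D i).add_mem hx hx₁)
      rw [Matrix.mulVec_add] at hj''
      by_cases h1 : j' = j
      · rwa [h1] at hj'
      by_cases h2 : j'' = j
      · rw [h2] at hj''
        have := (D j).sub_mem hj'' hj
        rwa [add_sub_cancel_right] at this
      · exfalso
        have hg0 : (g : Matrix ι ι F) *ᵥ x₁ ≠ 0 := by
          intro h0
          apply hx₁0
          have := inv_mulVec_mulVec g x₁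
          rw [h0, Matrix.mulVec_zero] at this
          exact this.symm
        obtain ⟨⟨v, hv, hvg⟩, -⟩ := hn j _ hj hg0
        apply hvg
        have h3 := ho j j'' (Ne.symm h2) v hv _ hj''
        have h4 := ho j j' (Ne.symm h1) v hv _ hj'
        rw [hf.bilinear.add_right, h4, zero_add] at h3
        exact h3
    choose σ hσ using hσ
    have hmap : ∀ i, (D i).map (Matrix.toLin' (g : Matrix ι ι F)) = D (σ i) := by
      intro i
      refine Submodule.eq_of_le_of_finrank_eq ?_ ?_
      · rintro _ ⟨x, hx, rfl⟩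
        exact hσ i x hx
      · rw [finrank_map_toLin', hfin, hfin]
    have hinj : Function.Injective σ := by
      intro i i' hii
      by_contra hne'
      obtain ⟨x₁, hx₁, hx₁0⟩ := Submodule.exists_mem_ne_zero_of_ne_bot (hne i)
      have h1 : (Matrix.toLin' (g : Matrix ι ι F)) x₁ ∈ (D i').map (Matrix.toLin' (g : Matrix ι ι F)) := by
        rw [hmap i', ← hii, ← hmap i]
        exact ⟨x₁, hx₁, rfl⟩
      obtain ⟨x₂, hx₂, h2⟩ := h1
      have h3 : x₂ = x₁ := by
        have h4 : (g : Matrix ι ι F) *ᵥ x₂ = (g : Matrix ι ι F) *ᵥ x₁ := h2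
        have h5 := inv_mulVec_mulVec g x₂
        rw [h4, inv_mulVec_mulVec] at h5
        exact h5.symm
      rw [h3] at hx₂
      obtain ⟨⟨v, hv, hvx⟩, -⟩ := hn i x₁ hx₁ hx₁0
      exact hvx (ho i i' hne' v hv x₁ hx₂)
    exact ⟨Equiv.ofBijective σ (Finite.injective_iff_bijective.mp hinj), fun i => hmap i⟩
  have hy₀ := centres_mulVec hf (hC i₀ x₀ hx₀) hgM (hpres g hgM)
  obtain ⟨c₀, hc₀, hc₀s⟩ := exists_comps hD.decomp.iSup_eq_top ((g : Matrix ι ι F) *ᵥ x₀)
  classical
  set S₀ := Finset.univ.filter (fun i => c₀ i ≠ 0) with hS₀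
  have hS₀g : Good hf M D S₀ := by
    refine good_of_instance hn ho hC hc₀ (fun i => by simp [hS₀]) (by rwa [hc₀s])
  have : Nonempty (Fin t) := ⟨⟨0, by omega⟩⟩
  have hcard : 1 < S₀.card := by
    by_contra hcon
    obtain ⟨j, hj⟩ := Finset.card_le_one_iff_subset_singleton.mp (not_lt.mp hcon)
    apply hx₀' j
    rw [← hc₀s, Finset.sum_eq_single j]
    · exact hc₀ j
    · intro i _ hij
      by_contra h
      have : i ∈ S₀ := by simp [hS₀, h]
      exact hij (Finset.mem_singleton.mp (hj this))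
    · intro h
      exact absurd (Finset.mem_univ j) h
  obtain ⟨a, haS, b, hbS, hab⟩ := Finset.one_lt_card.mp hcard
  have hT₀ : Good hf M D {a, b} := by
    refine good_combine hn ho hC hne hX hS₀g hS₀g a haS haS (by simp) ?_ ?_ ?_
    · intro i hi
      simp only [Finset.mem_insert, Finset.mem_singleton] at hi
      rcases hi with rfl | rfl
      · exact Or.inl haS
      · exact Or.inl hbS
    · intro i h1 h2
      exact absurd h1 h2
    · intro i h1 h2
      exact absurd h1 h2
  have hcardT₀ : ({a, b} : Finset (Fin t)).card = 2 := Finset.card_pair hab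
  have h2sets : ∀ T : Finset (Fin t), T.card = 2 → Good hf M D T := by
    intro T hT
    let e := Finset.equivOfCardEq (hcardT₀.trans hT.symm)
    let τ : Equiv.Perm (Fin t) := Equiv.extendSubtype e
    have hτ : ∀ x ∈ ({a, b} : Finset (Fin t)), τ x ∈ T := fun x hx => Equiv.extendSubtype_mem e x hx
    obtain ⟨h, hp, hh⟩ := exists_perm_isometry hf hD τ
    have hhM : h ∈ M := by
      apply hHM
      exact ⟨mem_decompositionStabilizer_of_forall hfin τ h hh, (S.mem_iff _).mpr hp⟩
    have h1 := good_map hn ho hC hne τ h hhM hp hh hT₀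
    have h2 : ({a, b} : Finset (Fin t)).map τ.toEmbedding = T := by
      apply Finset.eq_of_subset_of_card_le
      · intro y hy
        obtain ⟨x, hx, rfl⟩ := Finset.mem_map.mp hy
        exact hτ x hx
      · rw [Finset.card_map, hT, hcardT₀]
    rwa [h2] at h1
  have hbig : ∀ s, ∀ T : Finset (Fin t), T.card = s + 2 → Good hf M D T := by
    intro s
    induction s with
    | zero =>
      intro T hT
      exact h2sets T (by simpa using hT)
    | succ s ih =>
      intro T hT
      obtain ⟨i, hi, j, hj, l, hl, hij, hil, hjl⟩ := Finset.two_lt_card.mp (by omega : 2 < T.card)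
      refine good_combine hn ho hC hne hX (S := T.erase i) (S' := T.erase j)
        (ih _ (by rw [Finset.card_erase_of_mem hi]; omega))
        (ih _ (by rw [Finset.card_erase_of_mem hj]; omega)) l
        (Finset.mem_erase.mpr ⟨hil.symm, hl⟩) (Finset.mem_erase.mpr ⟨hjl.symm, hl⟩) hl ?_ ?_ ?_
      · intro u hu
        by_cases h1 : u = i
        · right
          rw [h1]
          exact Finset.mem_erase.mpr ⟨hij, hi⟩
        · left
          exact Finset.mem_erase.mpr ⟨h1, hu⟩
      · intro u hu _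
        exact Finset.mem_of_mem_erase hu
      · intro u hu _
        exact Finset.mem_of_mem_erase hu
  -- conclusion
  refine S.gen M (fun v c => ?_)
  obtain ⟨e, he, hes⟩ := exists_comps hD.decomp.iSup_eq_top v
  set T := Finset.univ.filter (fun i => e i ≠ 0) with hT
  have hTs : ∀ i, e i ≠ 0 ↔ i ∈ T := fun i => by simp [hT]
  by_cases h2 : 2 ≤ T.card
  · obtain ⟨s, hs⟩ := Nat.exists_eq_add_of_le' h2
    have := hbig s T hs e he hTs
    rw [hes] at this
    exact this c
  · obtain ⟨j, hj⟩ := Finset.card_le_one_iff_subset_singleton.mp (by omega : T.card ≤ 1)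
    have h3 : v = e j := by
      rw [← hes, Finset.sum_eq_single j]
      · intro i _ hij
        by_contra h
        exact hij (Finset.mem_singleton.mp (hj ((hTs i).mp h)))
      · intro h
        exact absurd (Finset.mem_univ j) h
    rw [h3]
    exact hC j _ (he j) c

end Cfsg.Agent.Lib.Geo.SpDecomp
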