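/-
The similarity group of a non-degenerate unitary form is maximal in `SL` (dimension ≥ 13 is more than enough).
-/
import Cfsg.Agent.Lib.Geo.Polar
set_option autoImplicit false

namespace Cfsg.Agent.Lib.Geo.UnitaryInSL

open Cfsg Cfsg.Geo Cfsg.Agent.Lib.Geo.Basic Cfsg.Agent.Lib.Geo.Parabolic Cfsg.Agent.Lib.Geo.Centres
open Cfsg.Agent.Lib.Geo.Polar
open scoped MatrixGroups Matrix

section FieldFacts

variable {F : Type*} [Field F] (σ : F ≃+* F)

/-- Surjectivity of the trace. -/
theorem exists_add_sigma_eq (hσ : σ ≠ RingEquiv.refl F) (hinv : ∀ a : F, σ (σ a) = a) (r : F)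
    (hr : σ r = r) : ∃ x, x + σ x = r := by
  have hy : ∃ y : F, y + σ y ≠ 0 := by
    by_contra hcon
    push Not at hcon
    apply hσ
    ext a
    have h1 := hcon 1
    rw [map_one] at h1
    have h2 := hcon a
    have h3 : (2 : F) = 0 := by rw [← h1]; ring
    have h4 : σ a = -a := eq_neg_of_add_eq_zero_right h2
    simp only [RingEquiv.refl_apply]
    rw [h4]
    have : a + a = 0 := by
      have : a + a = 2 * a := by ring
      rw [this, h3, zero_mul]
    exact (eq_neg_of_add_eq_zero_right this).symm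
  obtain ⟨y, hy⟩ := hy
  have hd : σ (y + σ y) = y + σ y := by rw [map_add, hinv]; ring
  refine ⟨r * y / (y + σ y), ?_⟩
  rw [map_div₀, map_mul, hr, hd]
  field_simp

/-- A non-zero trace-zero element. -/
theorem exists_trace_zero (hσ : σ ≠ RingEquiv.refl F) (hinv : ∀ a : F, σ (σ a) = a) :
    ∃ e : F, e ≠ 0 ∧ e + σ e = 0 := by
  have hy : ∃ y : F, σ y ≠ y := by
    by_contra hcon
    push Not at hcon
    apply hσ
    ext a
    simpa using hcon a
  obtain ⟨y, hy⟩ := hy
  refine ⟨y - σ y, sub_ne_zero.mpr hy.symm, ?_⟩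
  rw [map_sub, hinv]
  ring

/-- Hilbert 90 for `σ`. -/
theorem hilbert90 (hσ : σ ≠ RingEquiv.refl F) (hinv : ∀ a : F, σ (σ a) = a) (x : F)
    (hx : x * σ x = 1) : ∃ y : F, y ≠ 0 ∧ y = x * σ y := by
  have hy : ∃ z : F, z + x * σ z ≠ 0 := by
    by_contra hcon
    push Not at hcon
    have h1 := hcon 1
    rw [map_one, mul_one] at h1
    have hxm : x = -1 := by linear_combination h1
    apply hσ
    ext a
    have h2 := hcon a
    rw [hxm] at h2
    simp only [RingEquiv.refl_apply]
    linear_combination -h2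
  obtain ⟨z, hz⟩ := hy
  refine ⟨z + x * σ z, hz, ?_⟩
  rw [map_add, map_mul, hinv]
  linear_combination (-z) * hx

/-- Surjectivity of the norm on the fixed field. -/
theorem exists_mul_sigma_eq [Finite F] (hσ : σ ≠ RingEquiv.refl F) (hinv : ∀ a : F, σ (σ a) = a) (r : F)
    (hr : σ r = r) (hr0 : r ≠ 0) : ∃ x, x * σ x = r := by
  -- the homomorphisms `N x = x σ(x)` and `θ y = y / σ y` on units
  let s : Fˣ →* Fˣ := Units.map (σ : F →+* F).toMonoidHom
  have hs : ∀ x : Fˣ, ((s x : Fˣ) : F) = σ (x : F) := fun _ => rfl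
  let N : Fˣ →* Fˣ := (MonoidHom.id Fˣ) * s
  let θ : Fˣ →* Fˣ := (MonoidHom.id Fˣ) / s
  have hN : ∀ x : Fˣ, ((N x : Fˣ) : F) = x * σ x := fun _ => rfl
  have hθ : ∀ x : Fˣ, ((θ x : Fˣ) : F) * σ x = x := by
    intro x
    change (((x / s x : Fˣ) : Fˣ) : F) * σ x = x
    rw [div_eq_mul_inv, Units.val_mul, Units.val_inv_eq_inv_val, hs, mul_assoc,
      inv_mul_cancel₀ (by simp)]
    simp
  have hrange : N.range ≤ θ.ker := by
    rintro _ ⟨x, rfl⟩
    rw [MonoidHom.mem_ker]
    ext
    have h1 := hθ (N x)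
    have h2 : σ ((N x : Fˣ) : F) = ((N x : Fˣ) : F) := by
      rw [hN, map_mul, hinv]
      ring
    rw [h2] at h1
    rw [Units.val_one]
    exact (mul_eq_right₀ (by simp)).mp h1
  have hker : N.ker = θ.range := by
    ext x
    rw [MonoidHom.mem_ker]
    constructor
    · intro h
      have h1 : (x : F) * σ x = 1 := by
        rw [← hN, h, Units.val_one]
      obtain ⟨y, hy0, hy⟩ := hilbert90 σ hσ hinv (x : F) h1
      refine ⟨Units.mk0 y hy0, ?_⟩
      ext
      have h2 := hθ (Units.mk0 y hy0)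
      rw [Units.val_mk0] at h2
      have h3 : σ y ≠ 0 := by
        intro h0
        apply hy0
        rw [hy, h0, mul_zero]
      exact mul_right_cancel₀ h3 (h2.trans hy)
    · rintro ⟨y, rfl⟩
      ext
      rw [hN, Units.val_one]
      have h1 := hθ y
      have h2 : σ ((θ y : Fˣ) : F) * (y : F) = σ y := by
        have := congrArg σ h1
        rwa [map_mul, hinv] at this
      have h3 : σ (y : F) ≠ 0 := by
        simp
      have h4 : ((θ y : Fˣ) : F) * σ ((θ y : Fˣ) : F) * (σ (y : F) * (y : F)) = (y : F) * σ y := by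
        calc ((θ y : Fˣ) : F) * σ ((θ y : Fˣ) : F) * (σ (y : F) * (y : F))
            = (((θ y : Fˣ) : F) * σ (y : F)) * (σ ((θ y : Fˣ) : F) * (y : F)) := by ring
          _ = (y : F) * σ y := by rw [h1, h2]
      have h5 : (σ (y : F) * (y : F)) ≠ 0 := mul_ne_zero h3 (by simp)
      have h6 : ((θ y : Fˣ) : F) * σ ((θ y : Fˣ) : F) * (σ (y : F) * (y : F)) =
          1 * (σ (y : F) * (y : F)) := by rw [h4]; ring
      exact mul_right_cancel₀ h5 h6
  have hcard : Nat.card N.range = Nat.card θ.ker := by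
    have h1 := Subgroup.card_mul_index N.ker
    have h2 := Subgroup.card_mul_index θ.ker
    rw [Subgroup.index_ker] at h1 h2
    rw [hker] at h1
    have h4 : 0 < Nat.card θ.range := Nat.card_pos
    have h5 : Nat.card θ.range * Nat.card N.range = Nat.card θ.range * Nat.card θ.ker := by
      rw [h1, mul_comm (Nat.card θ.range), h2]
    exact Nat.eq_of_mul_eq_mul_left h4 h5
  have heq : N.range = θ.ker := Subgroup.eq_of_le_of_card_ge hrange hcard.ge
  have hmem : Units.mk0 r hr0 ∈ θ.ker := by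
    rw [MonoidHom.mem_ker]
    ext
    have h1 := hθ (Units.mk0 r hr0)
    rw [Units.val_mk0, hr] at h1
    rw [Units.val_one]
    exact (mul_eq_right₀ hr0).mp h1
  rw [← heq] at hmem
  obtain ⟨x, hx⟩ := hmem
  refine ⟨x, ?_⟩
  rw [← hN, hx, Units.val_mk0]

end FieldFacts

variable {ι : Type} [Fintype ι] [DecidableEq ι] {F : Type*} [Field F]
variable {σ : F ≃+* F} {f : (ι → F) → (ι → F) → F}

namespace UForm

variable (hf : IsUnitaryForm σ f)
include hf

theorem add_right (v x y : ι → F) : f v (x + y) = f v x + f v y := by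
  rw [hf.herm, hf.add_left, map_add, ← hf.herm, ← hf.herm]

theorem smul_right (c : F) (v x : ι → F) : f v (c • x) = σ c * f v x := by
  rw [hf.herm, hf.smul_left, map_mul, ← hf.herm]

theorem refl (x y : ι → F) (h : f x y = 0) : f y x = 0 := by
  rw [hf.herm, h, map_zero]

theorem sigma_self (x : ι → F) : σ (f x x) = f x x := (hf.herm x x).symm

theorem sigma_form (x y : ι → F) : σ (f x y) = f y x := (hf.herm y x).symm

theorem zero_left (v : ι → F) : f 0 v = 0 := by
  have := hf.smul_left 0 0 v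
  simpa using this

theorem nondeg (y : ι → F) (hy : y ≠ 0) : ∃ x, f x y ≠ 0 := (hf.nondegenerate y hy).1

/-- Any subspace of dimension at least 2 contains a non-zero isotropic vector. -/
theorem exists_isotropic [Finite F] (D : Submodule F (ι → F)) (hD : 2 ≤ Module.finrank F D) :
    ∃ p ∈ D, p ≠ 0 ∧ f p p = 0 := by
  have hD0 : D ≠ ⊥ := by
    rintro rfl
    simp at hD
  obtain ⟨x, hxD, hx0⟩ := Submodule.exists_mem_ne_zero_of_ne_bot hD0
  by_cases hxx : f x x = 0
  · exact ⟨x, hxD, hx0, hxx⟩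
  have hle : ¬ D ≤ Submodule.span F {x} := by
    intro hle
    have h1 := Submodule.finrank_mono hle
    have h2 : Module.finrank F (Submodule.span F {x}) = 1 := finrank_span_singleton hx0
    omega
  obtain ⟨y, hyD, hyx⟩ := SetLike.not_le_iff_exists.mp hle
  set y' : ι → F := y - (f y x / f x x) • x with hy'
  have hy'D : y' ∈ D := D.sub_mem hyD (D.smul_mem _ hxD)
  have hy'x : f y' x = 0 := by
    rw [hy', sub_eq_add_neg, hf.add_left, ← neg_smul, hf.smul_left]
    field_simp
    ring
  have hxy' : f x y' = 0 := refl hf _ _ hy'x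
  have hy'0 : y' ≠ 0 := by
    intro h0
    apply hyx
    have h1 : y = (f y x / f x x) • x := sub_eq_zero.mp h0
    rw [h1]
    exact Submodule.smul_mem _ _ (Submodule.mem_span_singleton_self x)
  by_cases hyy : f y' y' = 0
  · exact ⟨y', hy'D, hy'0, hyy⟩
  have hr : σ (-(f x x) / f y' y') = -(f x x) / f y' y' := by
    rw [map_div₀, map_neg, sigma_self hf, sigma_self hf]
  have hr0 : -(f x x) / f y' y' ≠ 0 := div_ne_zero (neg_ne_zero.mpr hxx) hyy
  obtain ⟨l, hl⟩ := exists_mul_sigma_eq σ hf.ne_refl hf.involutive _ hr hr0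
  refine ⟨x + l • y', D.add_mem hxD (D.smul_mem _ hy'D), ?_, ?_⟩
  · intro h0
    have hl0 : l ≠ 0 := by
      rintro rfl
      rw [zero_mul] at hl
      exact hr0 hl.symm
    apply hxx
    have hx' : x = (-l) • y' := by
      rw [neg_smul]
      exact eq_neg_of_add_eq_zero_left h0
    have := hf.smul_left (-l) y' x
    rw [← hx', hy'x, mul_zero] at this
    exact this
  · rw [hf.add_left, add_right hf, add_right hf, hf.smul_left, hf.smul_left, smul_right hf,
      smul_right hf, hy'x, hxy']
    have : l * (σ l * f y' y') = (l * σ l) * f y' y' := by ring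
    simp only [mul_zero, add_zero, zero_add, this, hl]
    field_simp
    ring

/-- The polar space of a unitary form. -/
theorem isPolar [Finite F] : IsPolar σ f {x | f x x = 0} where
  add_left := hf.add_left
  smul_left := hf.smul_left
  add_right := add_right hf
  smul_right := fun c v x => smul_right hf c v x
  refl := refl hf
  nondeg := nondeg hf
  B_zero := zero_left hf 0
  B_smul := by
    intro c p hp
    simp only [Set.mem_ofPred_eq] at hp ⊢
    rw [hf.smul_left, smul_right hf, hp, mul_zero, mul_zero]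
  B_add := by
    intro p q hp hq hpq
    simp only [Set.mem_ofPred_eq] at hp hq ⊢
    rw [hf.add_left, add_right hf, add_right hf, hp, hq, hpq, refl hf _ _ hpq]
    ring
  B_iso := fun p hp => hp
  B_shift := by
    intro p y hp hpy
    simp only [Set.mem_ofPred_eq] at hp ⊢
    have hr : σ (-(f y y)) = -(f y y) := by rw [map_neg, sigma_self hf]
    obtain ⟨x, hx⟩ := exists_add_sigma_eq σ hf.ne_refl hf.involutive _ hr
    refine ⟨x / f p y, ?_⟩
    rw [hf.add_left, add_right hf, add_right hf, hf.smul_left, hf.smul_left, smul_right hf,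
      smul_right hf, hp, map_div₀, sigma_form hf p y, ]
    have hyp : f y p = σ (f p y) := hf.herm y p
    have hyp0 : f y p ≠ 0 := by
      rw [hyp]
      simpa using hpy
    have hsx : σ x / f y p * f y p = σ x := div_mul_cancel₀ _ hyp0
    have hxp : x / f p y * f p y = x := div_mul_cancel₀ _ hpy
    rw [hsx, hxp]
    linear_combination hx
  B_ex := by
    intro D hD
    exact exists_isotropic hf D (by omega)

end UForm

/-- The transvection `x ↦ x + f(x, v) a v`, for `v` isotropic. -/
noncomputable def uT (hf : IsUnitaryForm σ f) (v : ι → F) (a : F) (hv : f v v = 0) : GL ι F :=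
  transv (a • v) (formVec f v)
    (by rw [formVec_dotProduct hf.add_left hf.smul_left, hf.smul_left, hv, mul_zero])

theorem uT_mulVec (hf : IsUnitaryForm σ f) (v : ι → F) (a : F) (hv : f v v = 0) (x : ι → F) :
    ((uT hf v a hv : GL ι F) : Matrix ι ι F) *ᵥ x = x + f x v • a • v := by
  rw [uT, transv_mulVec, formVec_dotProduct hf.add_left hf.smul_left]

theorem uT_mem (hf : IsUnitaryForm σ f) (v : ι → F) (a : F) (hv : f v v = 0) (ha : a + σ a = 0) :
    uT hf v a hv ∈ similarityGroup f ⊓ specialLinear ι F := by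
  refine ⟨⟨1, fun x y => ?_⟩, transv_mem_specialLinear _ _ _⟩
  rw [uT_mulVec, uT_mulVec]
  simp only [hf.add_left, UForm.add_right hf, hf.smul_left, UForm.smul_right hf, hv, map_mul,
    UForm.sigma_form hf y v, Units.val_one]
  linear_combination (f x v * f v y) * ha

/-- The transvection `x ↦ x + κ f(x, b) w` (with `f(w, b) = 0`). -/
noncomputable def tw (hf : IsUnitaryForm σ f) (w b : ι → F) (κ : F) (h : f w b = 0) : GL ι F :=
  transv (κ • w) (formVec f b)
    (by rw [formVec_dotProduct hf.add_left hf.smul_left, hf.smul_left, h, mul_zero])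

theorem tw_mul (hf : IsUnitaryForm σ f) (w a b : ι → F) (d : F) (ha : f w a = 0) (hb : f w b = 0)
    (hab : f w (a + b) = 0) : tw hf w (a + b) d hab = tw hf w a d ha * tw hf w b d hb := by
  have hadd : formVec f (a + b) = formVec f a + formVec f b := by
    ext i
    exact UForm.add_right hf _ _ _
  rw [tw, tw, tw, transv_mul_same_left]
  ext1
  simp only [coe_transv, hadd]

theorem tw_smul (hf : IsUnitaryForm σ f) (w a : ι → F) (c d : F) (ha : f w a = 0)
    (hca : f w (c • a) = 0) : tw hf w (c • a) d hca = tw hf w a (σ c * d) ha := by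
  have hsm : formVec f (c • a) = σ c • formVec f a := by
    ext i
    exact UForm.smul_right hf _ _ _
  ext1
  rw [tw, tw, coe_transv, coe_transv, hsm, transvMat, transvMat]
  ext i j
  simp [Matrix.vecMulVec_apply, mul_smul]

theorem tw_zero (hf : IsUnitaryForm σ f) (w : ι → F) (d : F) (h : f w 0 = 0) :
    tw hf w 0 d h = 1 := by
  have h0 : formVec f (0 : ι → F) = 0 := by
    ext i
    have := UForm.smul_right hf 0 (Pi.single i 1 : ι → F) 0
    simpa [formVec] using this
  ext1
  rw [tw, coe_transv, h0, transvMat]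
  ext i j
  simp [Matrix.vecMulVec_apply]

/-- The basic commutator rule. -/
theorem tw_rule (hf : IsUnitaryForm σ f) {M : Subgroup (GL ι F)}
    (hM : similarityGroup f ⊓ specialLinear ι F ≤ M) (w b c : ι → F) (κ ε : F) (hwb : f w b = 0)
    (hcc : f c c = 0) (hwc : f w c = 0) (hε : ε + σ ε = 0) (ht : tw hf w b κ hwb ∈ M) :
    tw hf w c (ε * f c b * κ) hwc ∈ M := by
  have h1 := uT_mem hf c ε hcc hε
  have hm := hM h1
  have hc := commutator_transv (κ • w) (formVec f b) (ε • c) (formVec f c)
    (by rw [formVec_dotProduct hf.add_left hf.smul_left, hf.smul_left, hwb, mul_zero])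
    (by rw [formVec_dotProduct hf.add_left hf.smul_left, hf.smul_left, hcc, mul_zero])
    (by rw [formVec_dotProduct hf.add_left hf.smul_left, hf.smul_left, hwc, mul_zero])
  have h3 := M.mul_mem (M.mul_mem (M.mul_mem ht hm) (M.inv_mem ht)) (M.inv_mem hm)
  rw [tw, uT, hc] at h3
  convert h3 using 1
  ext1
  simp only [tw, coe_transv]
  rw [formVec_dotProduct hf.add_left hf.smul_left, hf.smul_left, smul_smul]

theorem notMem_span_one (a x : ι → F) (h : ∀ c : F, c • a ≠ x) :
    x ∉ Submodule.span F (Set.range ![a]) := by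
  intro hmem
  have h1 : Set.range ![a] = {a} := by simp
  rw [h1] at hmem
  obtain ⟨c, hc⟩ := Submodule.mem_span_singleton.mp hmem
  exact h c hc

/-- The group `Sim(f) ∩ SL` acts irreducibly. -/
theorem irreducible [Finite F] (hf : IsUnitaryForm σ f) (hι : 7 ≤ Fintype.card ι) :
    ActsIrreducibly (matrixSet (similarityGroup f ⊓ specialLinear ι F)) := by
  have P := UForm.isPolar hf
  obtain ⟨ε, hε0, hε⟩ := exists_trace_zero σ hf.ne_refl hf.involutive
  intro W hW
  by_cases hW0 : W = ⊥
  · exact Or.inl hW0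
  right
  obtain ⟨w, hw, hw0⟩ := Submodule.exists_mem_ne_zero_of_ne_bot hW0
  rw [eq_top_iff]
  refine (P.top_le_span w hw0 hι).trans (Submodule.span_le.mpr ?_)
  rintro c ⟨hcB, hc⟩
  have h1 := hW _ ⟨uT hf c ε hcB, uT_mem hf c ε hcB hε, rfl⟩ ⟨w, hw, rfl⟩
  rw [Matrix.toLin'_apply, uT_mulVec] at h1
  have h2 : f w c • ε • c ∈ W := by
    have := W.sub_mem h1 hw
    rwa [add_sub_cancel_left] at this
  have hwc : f w c ≠ 0 := fun h => hc (UForm.refl hf _ _ h)
  have := W.smul_mem (f w c * ε)⁻¹ h2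
  rw [smul_smul, smul_smul] at this
  have h3 : (f w c * ε)⁻¹ * f w c * ε = 1 := by field_simp
  rwa [h3, one_smul] at this

/-- A transvection outside `Sim(f)`. -/
theorem similarity_inf_lt [Finite F] (hf : IsUnitaryForm σ f) (hι : 7 ≤ Fintype.card ι) :
    similarityGroup f ⊓ specialLinear ι F < specialLinear ι F := by
  have P := UForm.isPolar hf
  refine lt_of_le_of_ne inf_le_right ?_
  intro he
  obtain ⟨u, -, hu0, huB⟩ := P.B_ex ⊤ (by simp; omega)
  obtain ⟨p, q, hp, hq, -, -, hpq⟩ := P.exists_hyperbolic ![u] (by simp; omega)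
  rw [P.mem_perp, Fin.forall_fin_one] at hp hq
  simp only [Matrix.cons_val_zero] at hp hq
  have hup : f u p = 0 := UForm.refl hf _ _ hp
  have huq : f u q = 0 := UForm.refl hf _ _ hq
  have hmem : tw hf u p 1 hup ∈ similarityGroup f ⊓ specialLinear ι F := by
    rw [he]
    exact transv_mem_specialLinear _ _ _
  obtain ⟨c, hc⟩ := hmem.1
  have happ : ∀ x, ((tw hf u p 1 hup : GL ι F) : Matrix ι ι F) *ᵥ x = x + f x p • u := by
    intro x
    rw [tw, transv_mulVec, formVec_dotProduct hf.add_left hf.smul_left, one_smul]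
  obtain ⟨x, hx⟩ := UForm.nondeg hf u hu0
  have h1 := hc x u
  rw [happ, happ, hup, zero_smul, add_zero, hf.add_left, hf.smul_left, huB, mul_zero, add_zero] at h1
  have hc1 : (c : F) = 1 := by
    have : ((c : F) - 1) * f x u = 0 := by rw [sub_mul, ← h1]; ring
    rcases mul_eq_zero.mp this with h2 | h2
    · exact sub_eq_zero.mp h2
    · exact absurd h2 hx
  have h2 := hc x q
  rw [happ, happ, hc1, one_mul] at h2
  have huB' : f u u = 0 := huB
  simp only [hf.add_left, UForm.add_right hf, hf.smul_left, UForm.smul_right hf, huB', huq,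
    UForm.sigma_form hf q p, hpq, mul_zero, add_zero, zero_add] at h2
  apply hx
  linear_combination h2

/-- From a transvection of general type to a full set of transvections with a given centre. -/
theorem exists_isCentre [Finite F] (hf : IsUnitaryForm σ f) (hι : 13 ≤ Fintype.card ι)
    {M : Subgroup (GL ι F)} (hM : similarityGroup f ⊓ specialLinear ι F ≤ M) (u z y₀ : ι → F)
    (huz : formVec f z ⬝ᵥ u = 0) (hu0 : u ≠ 0) (ht : transv u (formVec f z) huz ∈ M)
    (hy₁ : f y₀ u = 0) (hy₂ : f y₀ z ≠ 0) : ∃ w, w ≠ 0 ∧ IsCentre M w := by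
  have P := UForm.isPolar hf
  obtain ⟨ε, hε0, hε⟩ := exists_trace_zero σ hf.ne_refl hf.involutive
  have hfu : f u z = 0 := by
    rwa [formVec_dotProduct hf.add_left hf.smul_left] at huz
  -- first step: isotropic centre
  obtain ⟨w, hwB, hwz, hwu⟩ := P.exists_singular_perp ![z] u (notMem_span_one z u (by
    intro c hc
    apply hu0
    have h1 : f y₀ u = σ c * f y₀ z := by rw [← hc, UForm.smul_right hf]
    rw [hy₁] at h1
    have h2 : σ c = 0 := by
      rcases mul_eq_zero.mp h1.symm with h3 | h3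
      · exact h3
      · exact absurd h3 hy₂
    have h3 : c = 0 := by simpa using h2
    rw [← hc, h3, zero_smul])) (by simp; omega)
  rw [P.mem_perp, Fin.forall_fin_one] at hwz
  simp only [Matrix.cons_val_zero] at hwz
  have hwB' : f w w = 0 := hwB
  have hw0 : w ≠ 0 := by
    rintro rfl
    exact hwu (P.zero_left _)
  have huw : f u w ≠ 0 := fun h => hwu (UForm.refl hf _ _ h)
  set κ₁ := f u w * ε with hκ₁
  have hκ₁0 : κ₁ ≠ 0 := mul_ne_zero huw hε0
  have ht₁ : tw hf w z κ₁ hwz ∈ M := by
    have h1 := uT_mem hf w ε hwB' hε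
    have hm := hM h1
    have hc := commutator_transv (ε • w) (formVec f w) u (formVec f z)
      (by rw [formVec_dotProduct hf.add_left hf.smul_left, hf.smul_left, hwB', mul_zero]) huz
      (by rw [formVec_dotProduct hf.add_left hf.smul_left, hf.smul_left, hwz, mul_zero])
    have h3 := M.mul_mem (M.mul_mem (M.mul_mem hm ht) (M.inv_mem hm)) (M.inv_mem ht)
    rw [uT, hc] at h3
    convert h3 using 1
    ext1
    simp only [tw, coe_transv]
    rw [formVec_dotProduct hf.add_left hf.smul_left, smul_smul, hκ₁]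
  -- second step: isotropic second slot
  have hz0 : z ≠ 0 := by
    rintro rfl
    exact hy₂ (UForm.refl hf _ _ (P.zero_left _))
  obtain ⟨w', hw'B, hw'w, hw'z⟩ := P.exists_singular_perp ![w] z (notMem_span_one w z (by
    intro c hc
    apply hz0
    have h1 : f u z = σ c * f u w := by rw [← hc, UForm.smul_right hf]
    rw [hfu] at h1
    have h2 : σ c = 0 := by
      rcases mul_eq_zero.mp h1.symm with h3 | h3
      · exact h3
      · exact absurd h3 huw
    have h3 : c = 0 := by simpa using h2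
    rw [← hc, h3, zero_smul])) (by simp; omega)
  rw [P.mem_perp, Fin.forall_fin_one] at hw'w
  simp only [Matrix.cons_val_zero] at hw'w
  have hww' : f w w' = 0 := UForm.refl hf _ _ hw'w
  have hw'B' : f w' w' = 0 := hw'B
  set κ₂ := ε * f w' z * κ₁ with hκ₂
  have hκ₂0 : κ₂ ≠ 0 := mul_ne_zero (mul_ne_zero hε0 hw'z) hκ₁0
  have ht₂ : tw hf w w' κ₂ hww' ∈ M := tw_rule hf hM w z w' κ₁ ε hwz hw'B' hww' hε ht₁
  have hw'span : w' ∉ Submodule.span F (Set.range ![w]) := notMem_span_one w w' (by
    intro c hc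
    apply hw'z
    rw [← hc, hf.smul_left, hwz, mul_zero])
  -- scaling
  obtain ⟨y, hyB, hyw, hyw'⟩ := P.exists_singular_perp ![w] w' hw'span (by simp; omega)
  rw [P.mem_perp, Fin.forall_fin_one] at hyw
  simp only [Matrix.cons_val_zero] at hyw
  set y₁ := (f y w')⁻¹ • y with hy₁def
  have hy₁B : f y₁ y₁ = 0 := P.B_smul _ y hyB
  have hy₁w : f y₁ w = 0 := by rw [hy₁def, hf.smul_left, hyw, mul_zero]
  have hwy₁ : f w y₁ = 0 := UForm.refl hf _ _ hy₁w
  have hy₁w' : f y₁ w' = 1 := by rw [hy₁def, hf.smul_left, inv_mul_cancel₀ hyw']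
  have hw'y₁ : f w' y₁ = 1 := by rw [hf.herm, hy₁w', map_one]
  have hK : ∀ d : F, tw hf w w' d hww' ∈ M := by
    intro d
    obtain ⟨p, q, hp, hq, hpB, hqB, hpq⟩ := P.exists_hyperbolic ![w, w', y₁] (by simp; omega)
    have hqp : f q p = 1 := by rw [hf.herm, hpq, map_one]
    rw [P.mem_perp] at hp hq
    have hp0 := hp 0
    have hp1 := hp 1
    have hp2 := hp 2
    have hq0 := hq 0
    have hq1 := hq 1
    have hq2 := hq 2
    simp only [Matrix.cons_val_zero, Matrix.cons_val_one, Matrix.cons_val] at hp0 hp1 hp2 hq0 hq1 hq2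
    have hp0' := UForm.refl hf _ _ hp0
    have hp1' := UForm.refl hf _ _ hp1
    have hp2' := UForm.refl hf _ _ hp2
    have hq0' := UForm.refl hf _ _ hq0
    have hq1' := UForm.refl hf _ _ hq1
    have hq2' := UForm.refl hf _ _ hq2
    have hpB' : f p p = 0 := hpB
    have hqB' : f q q = 0 := hqB
    set τ := d / (κ₂ * ε * ε * ε) with hτ
    set w'' := τ • w' + y₁ + p + (-τ) • q with hw''
    have hw''B : f w'' w'' = 0 := by
      simp only [hw'', hf.add_left, UForm.add_right hf, hf.smul_left, UForm.smul_right hf,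
        hw'B', hw'y₁, hy₁w', hy₁B, hp0, hp1, hp2, hq0, hq1, hq2, hp0', hp1', hp2', hq0', hq1',
        hq2', hpB', hqB', hpq, hqp, map_neg]
      ring
    have hww'' : f w w'' = 0 := by
      simp only [hw'', UForm.add_right hf, UForm.smul_right hf, hww', hwy₁, hp0', hq0']
      ring
    have hw''y₁ : f w'' y₁ = τ := by
      simp only [hw'', hf.add_left, hf.smul_left, hw'y₁, hy₁B, hp2, hq2]
      ring
    have hw'w'' : f w' w'' = 1 := by
      simp only [hw'', UForm.add_right hf, UForm.smul_right hf, hw'B', hw'y₁, hp1', hq1']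
      ring
    have h3 := tw_rule hf hM w w' y₁ κ₂ ε hww' hy₁B hwy₁ hε ht₂
    have h4 := tw_rule hf hM w y₁ w'' _ ε hwy₁ hw''B hww'' hε h3
    have h5 := tw_rule hf hM w w'' w' _ ε hww'' hw'B' hww' hε h4
    rw [hw'w'', hw''y₁, hy₁w'] at h5
    have h6 : ε * 1 * (ε * τ * (ε * 1 * κ₂)) = d := by
      rw [hτ]
      field_simp
    rwa [h6] at h5
  -- all transvections with centre `w`
  refine ⟨w, hw0, ?_⟩
  intro φ hφ
  obtain ⟨z', rfl⟩ := P.formVec_surjective φ
  have hz' : f w z' = 0 := by
    rwa [formVec_dotProduct hf.add_left hf.smul_left] at hφ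
  have hspan := P.perp_le_span ![w] w' hw'span (by simp; omega)
  have hz'perp : z' ∈ P.perp ![w] := by
    rw [P.mem_perp, Fin.forall_fin_one]
    exact UForm.refl hf _ _ hz'
  have hrefl : ∀ a, a ∈ P.perp ![w] → f w a = 0 := by
    intro a ha
    rw [P.mem_perp, Fin.forall_fin_one] at ha
    exact UForm.refl hf _ _ ha
  have key : ∀ a, a ∈ Submodule.span F {c | c ∈ {x | f x x = 0} ∧ c ∈ P.perp ![w] ∧ f c w' ≠ 0} →
      a ∈ P.perp ![w] ∧ ∀ (d : F) (h : f w a = 0), tw hf w a d h ∈ M := by
    intro a ha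
    induction ha using Submodule.span_induction with
    | mem c hc =>
      obtain ⟨hcB, hcp, hcw'⟩ := hc
      refine ⟨hcp, fun d h => ?_⟩
      have h1 := tw_rule hf hM w w' c (d / (ε * f c w')) ε hww' hcB h hε (hK _)
      have h2 : ε * f c w' * (d / (ε * f c w')) = d := by field_simp
      rwa [h2] at h1
    | zero =>
      refine ⟨Submodule.zero_mem _, fun d h => ?_⟩
      rw [tw_zero]
      exact M.one_mem
    | add a b _ _ ha hb =>
      refine ⟨Submodule.add_mem _ ha.1 hb.1, fun d h => ?_⟩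
      rw [tw_mul hf w a b d (hrefl a ha.1) (hrefl b hb.1)]
      exact M.mul_mem (ha.2 _ _) (hb.2 _ _)
    | smul c a _ ha =>
      refine ⟨Submodule.smul_mem _ _ ha.1, fun d h => ?_⟩
      rw [tw_smul hf w a c d (hrefl a ha.1)]
      exact ha.2 _ _
  have hfin := (key z' (hspan hz'perp)).2 1 hz'
  convert hfin using 1
  ext1
  simp only [tw, coe_transv, one_smul]

/-- **The similarity group of a non-degenerate unitary form is maximal in `SL`.** -/
theorem similarity_isMaximalIn [Finite F] (hf : IsUnitaryForm σ f) (hι : 13 ≤ Fintype.card ι) :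
    IsMaximalIn (specialLinear ι F) (similarityGroup f ⊓ specialLinear ι F) := by
  have P := UForm.isPolar hf
  obtain ⟨ε, hε0, hε⟩ := exists_trace_zero σ hf.ne_refl hf.involutive
  refine isMaximalIn_of_forall (similarity_inf_lt hf (by omega)) ?_
  intro M hHM hMK g hgM hgH
  have hg : g ∉ similarityGroup f := fun hs => hgH ⟨hs, hMK hgM⟩
  -- non-preservation of orthogonality
  obtain ⟨v, hvB, x, h0, hne⟩ : ∃ v ∈ {x | f x x = 0}, ∃ x,
      f ((g : Matrix ι ι F) *ᵥ x) ((g : Matrix ι ι F) *ᵥ v) = 0 ∧ f x v ≠ 0 := by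
    by_contra hcon
    push Not at hcon
    apply hg
    have hex : ∀ v ∈ {x | f x x = 0}, ∃ c : F, ∀ x, f x v =
        c * f ((g : Matrix ι ι F) *ᵥ x) ((g : Matrix ι ι F) *ᵥ v) := by
      intro v hv
      let α : (ι → F) →ₗ[F] F :=
        { toFun := fun x => f ((g : Matrix ι ι F) *ᵥ x) ((g : Matrix ι ι F) *ᵥ v)
          map_add' := fun a b => by rw [Matrix.mulVec_add, hf.add_left]
          map_smul' := fun c a => by rw [Matrix.mulVec_smul, hf.smul_left]; rfl }
      let β : (ι → F) →ₗ[F] F :=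
        { toFun := fun x => f x v
          map_add' := fun a b => hf.add_left a b v
          map_smul' := fun c a => hf.smul_left c a v }
      exact exists_scalar_of_ker_le α β (fun x hx => hcon v hv x hx)
    obtain ⟨c, hc0, hc⟩ := P.exists_similarity_of_singular g (by omega) hex
    refine ⟨Units.mk0 c⁻¹ (inv_ne_zero hc0), fun a b => ?_⟩
    rw [Units.val_mk0, hc a b]
    field_simp
  have hv0 : v ≠ 0 := by
    rintro rfl
    apply hne
    exact P.zero_right x
  have hu : (g : Matrix ι ι F) *ᵥ (ε • v) ≠ 0 := by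
    intro h1
    apply smul_ne_zero hε0 hv0
    have := inv_mulVec_mulVec g (ε • v)
    rw [h1, Matrix.mulVec_zero] at this
    exact this.symm
  have hT : uT hf v ε hvB ∈ M := hHM (uT_mem hf v ε hvB hε)
  have hconj : g * uT hf v ε hvB * g⁻¹ ∈ M := M.mul_mem (M.mul_mem hgM hT) (M.inv_mem hgM)
  rw [uT, conj_transv'] at hconj
  obtain ⟨z, hz⟩ := P.formVec_surjective (formVec f v ᵥ* ((g⁻¹ : GL ι F) : Matrix ι ι F))
  have huz : formVec f z ⬝ᵥ ((g : Matrix ι ι F) *ᵥ (ε • v)) = 0 := by
    rw [hz, dotProduct_conj_eq, formVec_dotProduct hf.add_left hf.smul_left, hf.smul_left,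
      (hvB : f v v = 0), mul_zero]
  have ht : transv ((g : Matrix ι ι F) *ᵥ (ε • v)) (formVec f z) huz ∈ M := by
    convert hconj using 2
  have hy₁ : f ((g : Matrix ι ι F) *ᵥ x) ((g : Matrix ι ι F) *ᵥ (ε • v)) = 0 := by
    rw [Matrix.mulVec_smul, UForm.smul_right hf, h0, mul_zero]
  have hy₂ : f ((g : Matrix ι ι F) *ᵥ x) z ≠ 0 := by
    rw [← formVec_dotProduct hf.add_left hf.smul_left, hz, dotProduct_conj_eq,
      formVec_dotProduct hf.add_left hf.smul_left]
    exact hne
  obtain ⟨w, hw0, hwC⟩ := exists_isCentre hf hι hHM _ z _ huz hu ht hy₁ hy₂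
  exact specialLinear_le_of_isCentre_of_irreducible hHM (irreducible hf (by omega)) hw0 hwC

end Cfsg.Agent.Lib.Geo.UnitaryInSL
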