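/-
The orthogonal similarity group (odd characteristic) is maximal in `SL`.
-/
import Cfsg.Agent.Lib.Geo.QForm
set_option autoImplicit false

namespace Cfsg.Agent.Lib.Geo.OrthInSL

open Cfsg Cfsg.Geo Cfsg.Agent.Lib.Geo.Basic Cfsg.Agent.Lib.Geo.Parabolic Cfsg.Agent.Lib.Geo.Centres
open Cfsg.Agent.Lib.Geo.Polar Cfsg.Agent.Lib.Geo.QForm
open scoped MatrixGroups Matrix

variable {ι : Type} [Fintype ι] [DecidableEq ι] {F : Type*} [Field F]
variable {Q : (ι → F) → F}

theorem notMem_span_one (a x : ι → F) (h : ∀ c : F, c • a ≠ x) :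
    x ∉ Submodule.span F (Set.range ![a]) := by
  intro hmem
  have h1 : Set.range ![a] = {a} := by simp
  rw [h1] at hmem
  obtain ⟨c, hc⟩ := Submodule.mem_span_singleton.mp hmem
  exact h c hc

theorem notMem_span_two (a b x : ι → F) (h : ∀ c d : F, c • a + d • b ≠ x) :
    x ∉ Submodule.span F (Set.range ![a, b]) := by
  intro hmem
  have h1 : Set.range ![a, b] = {a, b} := by
    simp [Matrix.range_cons, Matrix.range_empty, Set.pair_comm]
  rw [h1] at hmem
  obtain ⟨c, d, hc⟩ := Submodule.mem_span_pair.mp hmem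
  exact h c d hc

variable (hQ : IsNondegenerateQuadraticForm Q)
include hQ

/-- Siegel transformations lie in every overgroup of `O(Q) ∩ SL`. -/
theorem siegel_mem {M : Subgroup (GL ι F)} (hM : isometryGroup F Q ⊓ specialLinear ι F ≤ M)
    (v w : ι → F) (hQv : Q v = 0) (hQw : Q w = 0) (hv : pol Q v v = 0)
    (hw : pol Q w w = 0) (hvw : pol Q v w = 0) : siegel hQ v w hv hw hvw ∈ M :=
  hM ⟨siegel_mem_isometry hQ v w hQv hQw hv hw hvw, siegel_mem_specialLinear hQ v w hv hw hvw⟩

/-- Moving the second slot. -/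
theorem transv_rule [Finite F] {M : Subgroup (GL ι F)} (hM : isometryGroup F Q ⊓ specialLinear ι F ≤ M)
    (hι : 9 ≤ Fintype.card ι) (u y b : ι → F) (huy : formVec (pol Q) y ⬝ᵥ u = 0)
    (ht : transv u (formVec (pol Q) y) huy ∈ M) (hQb : Q b = 0) (hbu : pol Q b u = 0)
    (hby : pol Q b y = 0) (hsp : y ∉ Submodule.span F (Set.range ![u, b])) (d : F)
    (hb : formVec (pol Q) b ⬝ᵥ (d • u) = 0) :
    transv (d • u) (formVec (pol Q) b) hb ∈ M := by
  have P := isPolar hQ
  obtain ⟨a, haB, hap, hay⟩ := P.exists_singular_perp ![u, b] y hsp (by simp; omega)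
  rw [P.mem_perp, Fin.forall_fin_two] at hap
  simp only [Matrix.cons_val_zero, Matrix.cons_val_one, Matrix.cons_val_fin_one] at hap
  obtain ⟨hau, hab⟩ := hap
  have hQa : Q a = 0 := haB
  set a' := (d / pol Q a y) • a with ha'
  have hQa' : Q a' = 0 := by rw [ha', hQ.smul, hQa, mul_zero]
  have ha'u : pol Q a' u = 0 := by rw [ha', pol_smul_left hQ, hau, mul_zero]
  have ha'b : pol Q a' b = 0 := by rw [ha', pol_smul_left hQ, hab, mul_zero]
  have ha'y : pol Q a' y = d := by
    rw [ha', pol_smul_left hQ]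
    field_simp
  have hself : ∀ x, Q x = 0 → pol Q x x = 0 := fun x hx => by rw [pol_self hQ, hx, mul_zero]
  have hS := siegel_mem hQ hM a' b hQa' hQb (hself _ hQa') (hself _ hQb) ha'b
  have hAx : ∀ x, ((transv u (formVec (pol Q) y) huy : GL ι F) : Matrix ι ι F) *ᵥ x =
      x + pol Q x y • u := by
    intro x
    rw [transv_mulVec, formVec_eq hQ]
  have hc := commutator_siegel hQ (transv u (formVec (pol Q) y) huy) a' b (d • u)
    (hself _ hQa') (hself _ hQb) ha'b (by rw [hAx, ha'y]) (by rw [hAx, hby, zero_smul, add_zero])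
    (by
      intro x
      rw [hAx, pol_add_left hQ, pol_smul_left hQ, pol_symm hQ u a', ha'u, mul_zero, add_zero])
    (by
      intro x
      rw [hAx, pol_add_left hQ, pol_smul_left hQ, pol_symm hQ u b, hbu, mul_zero, add_zero])
    hb
  rw [← hc]
  exact M.mul_mem (M.mul_mem (M.mul_mem ht hS) (M.inv_mem ht)) (M.inv_mem hS)

/-- From a single transvection in `M` to all transvections with the same centre. -/
theorem isCentre_of_transv [Finite F] {M : Subgroup (GL ι F)}
    (hM : isometryGroup F Q ⊓ specialLinear ι F ≤ M)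
    (hι : 9 ≤ Fintype.card ι) (u y y' : ι → F) (huy : formVec (pol Q) y ⬝ᵥ u = 0)
    (ht : transv u (formVec (pol Q) y) huy ∈ M) (hu : pol Q u y' = 0) (hy : pol Q y y' ≠ 0) :
    IsCentre M u := by
  have P := isPolar hQ
  have hself : ∀ x, Q x = 0 → pol Q x x = 0 := fun x hx => by rw [pol_self hQ, hx, mul_zero]
  have hyu : pol Q u y = 0 := by rwa [formVec_eq hQ] at huy
  -- the first vector `y` is not a multiple of `u`
  have hyu' : ∀ c : F, c • u ≠ y := by
    intro c hc
    apply hy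
    rw [← hc, pol_smul_left hQ, hu, mul_zero]
  have hform : ∀ (z : ι → F), pol Q z u = 0 → formVec (pol Q) z ⬝ᵥ u = 0 := by
    intro z hz
    rwa [formVec_eq hQ, pol_symm hQ]
  have hform' : ∀ (d : F) (z : ι → F), pol Q z u = 0 → formVec (pol Q) z ⬝ᵥ (d • u) = 0 := by
    intro d z hz
    rw [dotProduct_smul, hform z hz, smul_zero]
  -- every singular vector `c ⊥ u` gives all `t(d u, f_c)`
  have hsing : ∀ (c : ι → F) (d : F) (hc : Q c = 0) (hcu : pol Q c u = 0),
      transv (d • u) (formVec (pol Q) c) (hform' d c hcu) ∈ M := by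
    intro c d hc hcu
    obtain ⟨p, q, hp, hq, hpB, -, hpq⟩ := P.exists_hyperbolic ![u, y, c] (by simp; omega)
    rw [P.mem_perp] at hp hq
    have hp0 := hp 0
    have hp1 := hp 1
    have hp2 := hp 2
    have hq0 := hq 0
    have hq1 := hq 1
    have hq2 := hq 2
    simp only [Matrix.cons_val_zero, Matrix.cons_val_one, Matrix.cons_val] at hp0 hp1 hp2 hq0 hq1 hq2
    have hqu : pol Q u q = 0 := by rw [pol_symm hQ, hq0]
    have hqy : pol Q y q = 0 := by rw [pol_symm hQ, hq1]
    have hqc : pol Q c q = 0 := by rw [pol_symm hQ, hq2]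
    have hQp : Q p = 0 := hpB
    have h1 := transv_rule hQ hM (by omega) u y p huy ht hQp hp0 hp1
      (notMem_span_two u p y (by
        intro α β hαβ
        have h2 : β = 0 := by
          have h3 : pol Q (α • u + β • p) q = 0 := by
            rw [hαβ, hqy]
          rw [pol_add_left hQ, pol_smul_left hQ, pol_smul_left hQ, hqu, hpq] at h3
          simpa using h3
        rw [h2, zero_smul, add_zero] at hαβ
        exact hyu' α hαβ)) 1 (hform' 1 p hp0)
    have h1' : transv u (formVec (pol Q) p) (hform p hp0) ∈ M := by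
      convert h1 using 2
      rw [one_smul]
    have hcp : pol Q c p = 0 := by rw [pol_symm hQ, hp2]
    exact transv_rule hQ hM (by omega) u p c (hform p hp0) h1' hc hcu hcp
      (notMem_span_two u c p (by
        intro α β hαβ
        have h3 : pol Q (α • u + β • c) q = 0 := by
          rw [pol_add_left hQ, pol_smul_left hQ, pol_smul_left hQ, hqu, hqc]
          ring
        rw [hαβ, hpq] at h3
        exact one_ne_zero h3)) d (hform' d c hcu)
  -- spanning
  intro φ hφ
  obtain ⟨z, rfl⟩ := P.formVec_surjective φ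
  have hz : pol Q u z = 0 := by rwa [formVec_eq hQ] at hφ
  have hspan := P.perp_le_span ![u] y (notMem_span_one u y hyu') (by simp; omega)
  have hperp : ∀ a, a ∈ P.perp ![u] → pol Q a u = 0 := by
    intro a ha
    rw [P.mem_perp, Fin.forall_fin_one] at ha
    simpa using ha
  have key : ∀ a, a ∈ Submodule.span F {c | c ∈ {x | Q x = 0} ∧ c ∈ P.perp ![u] ∧ pol Q c y ≠ 0} →
      a ∈ P.perp ![u] ∧ ∀ (d : F) (h : formVec (pol Q) a ⬝ᵥ (d • u) = 0),
        transv (d • u) (formVec (pol Q) a) h ∈ M := by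
    intro a ha
    induction ha using Submodule.span_induction with
    | mem c hc =>
      obtain ⟨hcB, hcp, -⟩ := hc
      exact ⟨hcp, fun d h => hsing c d hcB (hperp c hcp)⟩
    | zero =>
      refine ⟨Submodule.zero_mem _, fun d h => ?_⟩
      have h0 : formVec (pol Q) 0 = 0 := by
        have := formVec_smul hQ 0 (0 : ι → F)
        simpa using this
      have : transv (d • u) (formVec (pol Q) 0) h = 1 := by
        ext1
        rw [coe_transv, transvMat, h0]
        simp
      rw [this]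
      exact M.one_mem
    | add a b _ _ ha hb =>
      refine ⟨Submodule.add_mem _ ha.1 hb.1, fun d h => ?_⟩
      have hca := hform' d a (hperp a ha.1)
      have hcb := hform' d b (hperp b hb.1)
      have h1 := M.mul_mem (ha.2 d hca) (hb.2 d hcb)
      rw [transv_mul_same_left] at h1
      convert h1 using 2
      exact formVec_add hQ a b
    | smul c a _ ha =>
      refine ⟨Submodule.smul_mem _ _ ha.1, fun d h => ?_⟩
      have hca := hform' (c * d) a (hperp a ha.1)
      have h1 := ha.2 (c * d) hca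
      have h2 : transv ((c * d) • u) (formVec (pol Q) a) hca = transv (d • u) (formVec (pol Q) (c • a)) h := by
        ext1
        rw [coe_transv, coe_transv, transvMat, transvMat, formVec_smul hQ, mul_smul]
        simp [Matrix.vecMulVec_smul, Matrix.smul_vecMulVec]
      rwa [h2] at h1
  have hzperp : z ∈ P.perp ![u] := by
    rw [P.mem_perp, Fin.forall_fin_one]
    simpa [pol_symm hQ z u] using hz
  have hfin := (key z (hspan hzperp)).2 1 (by rw [one_smul]; exact hφ)
  convert hfin using 2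
  rw [one_smul]

/-- The isometry group in `SL` is irreducible. -/
theorem irreducible [Finite F] (hι : 7 ≤ Fintype.card ι) :
    ActsIrreducibly (matrixSet (isometryGroup F Q ⊓ specialLinear ι F)) := by
  have P := isPolar hQ
  have hself : ∀ x, Q x = 0 → pol Q x x = 0 := fun x hx => by rw [pol_self hQ, hx, mul_zero]
  intro W hW
  by_cases hW0 : W = ⊥
  · exact Or.inl hW0
  right
  -- the basic step
  have hstep : ∀ w c, w ∈ W → Q c = 0 → pol Q w c = 0 → (∀ a : F, a • c ≠ w) → c ∈ W := by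
    intro w c hw hc hwc hsp
    obtain ⟨v, hvB, hvp, hvw⟩ := P.exists_singular_perp ![c] w (notMem_span_one c w hsp)
      (by simp; omega)
    rw [P.mem_perp, Fin.forall_fin_one] at hvp
    simp only [Matrix.cons_val_zero] at hvp
    have hQv : Q v = 0 := hvB
    have hcv : pol Q c v = 0 := by rw [pol_symm hQ, hvp]
    have hS := hW _ ⟨siegel hQ c v (hself _ hc) (hself _ hQv) hcv,
      ⟨siegel_mem_isometry hQ c v hc hQv (hself _ hc) (hself _ hQv) hcv,
        siegel_mem_specialLinear hQ c v (hself _ hc) (hself _ hQv) hcv⟩, rfl⟩ ⟨w, hw, rfl⟩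
    rw [Matrix.toLin'_apply, siegel_mulVec, hwc, zero_smul, sub_zero] at hS
    have h2 : pol Q w v • c ∈ W := by
      have := W.sub_mem hS hw
      rwa [add_sub_cancel_left] at this
    have hwv : pol Q w v ≠ 0 := by rwa [pol_symm hQ]
    have := W.smul_mem (pol Q w v)⁻¹ h2
    rwa [smul_smul, inv_mul_cancel₀ hwv, one_smul] at this
  obtain ⟨w, hw, hw0⟩ := Submodule.exists_mem_ne_zero_of_ne_bot hW0
  rw [eq_top_iff]
  refine (P.top_le_span w hw0 hι).trans (Submodule.span_le.mpr ?_)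
  rintro c ⟨hcB, hc⟩
  have hQc : Q c = 0 := hcB
  obtain ⟨p, q, hp, hq, hpB, -, hpq⟩ := P.exists_hyperbolic ![w, c] (by simp; omega)
  rw [P.mem_perp, Fin.forall_fin_two] at hp hq
  simp only [Matrix.cons_val_zero, Matrix.cons_val_one, Matrix.cons_val_fin_one] at hp hq
  have hpW : p ∈ W := hstep w p hw hpB (by rw [pol_symm hQ, hp.1]) (by
    intro a ha
    have h1 : pol Q w q = 0 := by rw [pol_symm hQ, hq.1]
    rw [← ha, pol_smul_left hQ, hpq, mul_one] at h1
    rw [h1, zero_smul] at ha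
    exact hw0 ha.symm)
  exact hstep p c hpW hQc hp.2 (by
    intro a ha
    have h1 : pol Q c q = 0 := by rw [pol_symm hQ, hq.2]
    have h2 := hpq
    rw [← ha, pol_smul_left hQ, h1, mul_zero] at h2
    exact zero_ne_one h2)

/-- A transvection is not a similarity. -/
theorem quadSimilarity_inf_lt [Finite F] (hι : 7 ≤ Fintype.card ι) :
    quadSimilarityGroup Q ⊓ specialLinear ι F < specialLinear ι F := by
  have P := isPolar hQ
  refine lt_of_le_of_ne inf_le_right ?_
  intro he
  obtain ⟨u, u', -, -, huB, hu'B, huu'⟩ := P.exists_hyperbolic (Fin.elim0 : Fin 0 → ι → F) (by simp; omega)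
  obtain ⟨p, p', hp, hp', hpB, hp'B, hpp'⟩ := P.exists_hyperbolic ![u, u'] (by simp; omega)
  rw [P.mem_perp, Fin.forall_fin_two] at hp hp'
  simp only [Matrix.cons_val_zero, Matrix.cons_val_one, Matrix.cons_val_fin_one] at hp hp'
  have hQu : Q u = 0 := huB
  have hQu' : Q u' = 0 := hu'B
  have hQp : Q p = 0 := hpB
  have hQp' : Q p' = 0 := hp'B
  have hup : formVec (pol Q) p ⬝ᵥ u = 0 := by
    rw [formVec_eq hQ, pol_symm hQ, hp.1]
  have hmem : transv u (formVec (pol Q) p) hup ∈ quadSimilarityGroup Q ⊓ specialLinear ι F := by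
    rw [he]
    exact transv_mem_specialLinear _ _ _
  obtain ⟨c, hc⟩ := hmem.1
  have h1 := hc (u' + p')
  rw [transv_mulVec, formVec_eq hQ, pol_add_left hQ, pol_symm hQ u' p, hp.2, zero_add,
    pol_symm hQ p' p, hpp', Q_add hQ, Q_add hQ, one_smul, hQu', hQp', hQu,
    pol_add_left hQ, pol_symm hQ u' u, huu', hp'.1] at h1
  have h2 : pol Q u' p' = 0 := by rw [pol_symm hQ, hp'.2]
  rw [h2] at h1
  simp at h1

omit hQ in
/-- Isometries are similarities. -/
theorem isometry_le_quadSimilarity : isometryGroup F Q ≤ quadSimilarityGroup Q := by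
  intro g hg
  refine ⟨1, fun v => ?_⟩
  rw [Units.val_one, one_mul]
  exact (mem_isometryGroup_iff Q g).mp hg v

/-- A non-similarity moves some orthogonal pair of singular vectors to a non-orthogonal one. -/
theorem exists_pair [Finite F] (h2 : (2 : F) ≠ 0) (hι : 9 ≤ Fintype.card ι) (g : GL ι F)
    (hg : g ∉ quadSimilarityGroup Q) : ∃ w a, Q w = 0 ∧ Q a = 0 ∧
      pol Q ((g : Matrix ι ι F) *ᵥ w) a = 0 ∧ pol Q (((g⁻¹ : GL ι F) : Matrix ι ι F) *ᵥ a) w ≠ 0 := by
  have P := isPolar hQ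
  by_contra hcon
  push Not at hcon
  apply hg
  have hex : ∀ a ∈ {x | Q x = 0}, ∃ c : F, ∀ x, pol Q x a =
      c * pol Q (((g⁻¹ : GL ι F) : Matrix ι ι F) *ᵥ x) (((g⁻¹ : GL ι F) : Matrix ι ι F) *ᵥ a) := by
    intro a ha
    by_cases ha0 : a = 0
    · refine ⟨0, fun x => ?_⟩
      rw [ha0, pol_zero_right hQ, zero_mul]
    obtain ⟨z, hz⟩ := P.exists_form_eq (formVec (pol Q) a ᵥ* (g : Matrix ι ι F))
    have hz' : ∀ x, pol Q ((g : Matrix ι ι F) *ᵥ x) a = pol Q x z := by
      intro x
      rw [← hz, ← Matrix.dotProduct_mulVec, formVec_eq hQ]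
    have hz0 : z ≠ 0 := by
      rintro rfl
      obtain ⟨x, hx⟩ := P.nondeg a ha0
      have h1 := hz' (((g⁻¹ : GL ι F) : Matrix ι ι F) *ᵥ x)
      rw [mulVec_inv_mulVec, pol_zero_right hQ] at h1
      exact hx h1
    have hga0 : ((g⁻¹ : GL ι F) : Matrix ι ι F) *ᵥ a ≠ 0 := by
      intro h0
      apply ha0
      have := mulVec_inv_mulVec g a
      rw [h0, Matrix.mulVec_zero] at this
      exact this.symm
    -- a vector outside the line of `z`
    obtain ⟨p, q, -, hq, -, -, hpq⟩ := P.exists_hyperbolic ![z] (by simp; omega)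
    rw [P.mem_perp, Fin.forall_fin_one] at hq
    simp only [Matrix.cons_val_zero] at hq
    have hsp : p ∉ Submodule.span F (Set.range ![z]) := notMem_span_one z p (by
      intro c hc
      have h3 : pol Q z q = 0 := by rw [pol_symm hQ, hq]
      rw [← hc, pol_smul_left hQ, h3, mul_zero] at hpq
      exact zero_ne_one hpq)
    have hspan := P.perp_le_span ![z] p hsp (by simp; omega)
    let α : (ι → F) →ₗ[F] F :=
      { toFun := fun x => pol Q x z
        map_add' := fun x y => pol_add_left hQ x y z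
        map_smul' := fun c x => pol_smul_left hQ c x z }
    let β : (ι → F) →ₗ[F] F :=
      { toFun := fun x => pol Q x (((g⁻¹ : GL ι F) : Matrix ι ι F) *ᵥ a)
        map_add' := fun x y => pol_add_left hQ x y _
        map_smul' := fun c x => pol_smul_left hQ c x _ }
    obtain ⟨μ, hμ⟩ := exists_scalar_of_ker_le α β (by
      intro x hx
      have hxp : x ∈ P.perp ![z] := by
        rw [P.mem_perp, Fin.forall_fin_one]
        simpa [α] using hx
      have h3 : x ∈ LinearMap.ker β := by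
        refine (Submodule.span_le.mpr ?_) (hspan hxp)
        rintro c ⟨hcB, hcp, -⟩
        rw [P.mem_perp, Fin.forall_fin_one] at hcp
        simp only [Matrix.cons_val_zero] at hcp
        have h4 := hcon c a hcB ha (by rw [hz', hcp])
        show pol Q c _ = 0
        rw [pol_symm hQ, h4]
      exact h3)
    have hμ' : ∀ x, pol Q x (((g⁻¹ : GL ι F) : Matrix ι ι F) *ᵥ a) =
        μ * pol Q ((g : Matrix ι ι F) *ᵥ x) a := by
      intro x
      rw [hz']
      exact hμ x
    have hμ0 : μ ≠ 0 := by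
      rintro rfl
      obtain ⟨x, hx⟩ := P.nondeg _ hga0
      apply hx
      rw [hμ', zero_mul]
    refine ⟨μ⁻¹, fun x => ?_⟩
    rw [hμ', mulVec_inv_mulVec]
    field_simp
  obtain ⟨c, hc0, hc⟩ := P.exists_similarity_of_singular g⁻¹ (by omega) hex
  refine ⟨Units.mk0 c hc0, fun v => ?_⟩
  have h1 := hc ((g : Matrix ι ι F) *ᵥ v) ((g : Matrix ι ι F) *ᵥ v)
  rw [inv_mulVec_mulVec, pol_self hQ, pol_self hQ] at h1
  rw [Units.val_mk0]
  apply mul_left_cancel₀ h2
  rw [h1]
  ring

/-- **The similarity group of a non-degenerate quadratic form is maximal in `SL` (odd characteristic).** -/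
theorem quadSimilarity_isMaximalIn [Finite F] (h2 : (2 : F) ≠ 0)
    (hι : 13 ≤ Fintype.card ι) :
    IsMaximalIn (specialLinear ι F) (quadSimilarityGroup Q ⊓ specialLinear ι F) := by
  have P := isPolar hQ
  have hself : ∀ x, Q x = 0 → pol Q x x = 0 := fun x hx => by rw [pol_self hQ, hx, mul_zero]
  refine isMaximalIn_of_forall (quadSimilarity_inf_lt hQ (by omega)) ?_
  intro M hHM hMK g hgM hgH
  have hg : g ∉ quadSimilarityGroup Q := fun hs => hgH ⟨hs, hMK hgM⟩
  have hiso : isometryGroup F Q ⊓ specialLinear ι F ≤ M :=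
    (inf_le_inf_right _ isometry_le_quadSimilarity).trans hHM
  obtain ⟨w, a, hQw, hQa, hwa, hne⟩ := exists_pair hQ h2 (by omega) g hg
  -- `f(g x, a) = f(x, z₀)`
  obtain ⟨z₀, hz₀⟩ := P.exists_form_eq (formVec (pol Q) a ᵥ* (g : Matrix ι ι F))
  have hz₀' : ∀ x, pol Q ((g : Matrix ι ι F) *ᵥ x) a = pol Q x z₀ := by
    intro x
    rw [← hz₀, ← Matrix.dotProduct_mulVec, formVec_eq hQ]
  obtain ⟨v, v', hvp, hv'p, hvB, -, hvv'⟩ :=
    P.exists_hyperbolic ![w, ((g⁻¹ : GL ι F) : Matrix ι ι F) *ᵥ a, z₀] (by simp; omega)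
  rw [P.mem_perp] at hvp
  have hvw := hvp 0
  have hva := hvp 1
  have hvz := hvp 2
  simp only [Matrix.cons_val_zero, Matrix.cons_val_one, Matrix.cons_val] at hvw hva hvz
  have hQv : Q v = 0 := hvB
  -- `f(g⁻¹ x, w) = f(x, z₁)`, `f(g⁻¹ x, v) = f(x, z₂)`
  obtain ⟨z₁, hz₁⟩ := P.exists_form_eq (formVec (pol Q) w ᵥ* ((g⁻¹ : GL ι F) : Matrix ι ι F))
  have hz₁' : ∀ x, pol Q (((g⁻¹ : GL ι F) : Matrix ι ι F) *ᵥ x) w = pol Q x z₁ := by
    intro x
    rw [← hz₁, ← Matrix.dotProduct_mulVec, formVec_eq hQ]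
  obtain ⟨z₂, hz₂⟩ := P.exists_form_eq (formVec (pol Q) v ᵥ* ((g⁻¹ : GL ι F) : Matrix ι ι F))
  have hz₂' : ∀ x, pol Q (((g⁻¹ : GL ι F) : Matrix ι ι F) *ᵥ x) v = pol Q x z₂ := by
    intro x
    rw [← hz₂, ← Matrix.dotProduct_mulVec, formVec_eq hQ]
  obtain ⟨b, b', hbp, hb'p, hbB, -, hbb'⟩ :=
    P.exists_hyperbolic ![a, (g : Matrix ι ι F) *ᵥ v, (g : Matrix ι ι F) *ᵥ w, z₁, z₂] (by simp; omega)
  rw [P.mem_perp] at hbp hb'p
  have hba := hbp 0
  have hbgv := hbp 1
  have hbgw := hbp 2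
  have hbz₁ := hbp 3
  have hbz₂ := hbp 4
  have hb'gv := hb'p 1
  simp only [Matrix.cons_val_zero, Matrix.cons_val_one, Matrix.cons_val] at hba hbgv hbgw hbz₁ hbz₂
  simp only [Matrix.cons_val_one, Matrix.cons_val_zero] at hb'gv
  have hQb : Q b = 0 := hbB
  have hvw' : pol Q v w = 0 := hvw
  set S := siegel hQ v w (hself _ hQv) (hself _ hQw) hvw' with hS
  set A := g * S * g⁻¹ with hA
  have hSM : S ∈ M := siegel_mem hQ hiso v w hQv hQw (hself _ hQv) (hself _ hQw) hvw'
  have hAM : A ∈ M := M.mul_mem (M.mul_mem hgM hSM) (M.inv_mem hgM)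
  have hAx : ∀ x, (A : Matrix ι ι F) *ᵥ x = x + pol Q (((g⁻¹ : GL ι F) : Matrix ι ι F) *ᵥ x) w •
      ((g : Matrix ι ι F) *ᵥ v) - pol Q (((g⁻¹ : GL ι F) : Matrix ι ι F) *ᵥ x) v •
      ((g : Matrix ι ι F) *ᵥ w) := by
    intro x
    rw [hA, Units.val_mul, Units.val_mul, ← Matrix.mulVec_mulVec, ← Matrix.mulVec_mulVec, hS,
      siegel_mulVec, Matrix.mulVec_sub, Matrix.mulVec_add, Matrix.mulVec_smul, Matrix.mulVec_smul,
      mulVec_inv_mulVec]
  set c := pol Q (((g⁻¹ : GL ι F) : Matrix ι ι F) *ᵥ a) w with hc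
  have hab : pol Q a b = 0 := by rw [pol_symm hQ, hba]
  have hg0 : (g : Matrix ι ι F) *ᵥ v ≠ 0 := by
    intro h0
    have h1 := inv_mulVec_mulVec g v
    rw [h0, Matrix.mulVec_zero] at h1
    rw [← h1, pol_zero_left hQ] at hvv'
    exact zero_ne_one hvv'
  have hd : formVec (pol Q) b ⬝ᵥ (c • ((g : Matrix ι ι F) *ᵥ v)) = 0 := by
    rw [formVec_eq hQ, pol_smul_left hQ, pol_symm hQ, hbgv, mul_zero]
  have hcomm := commutator_siegel hQ A a b (c • ((g : Matrix ι ι F) *ᵥ v)) (hself _ hQa) (hself _ hQb) hab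
    (by
      rw [hAx, ← hc, pol_symm hQ _ v, hva, zero_smul, sub_zero])
    (by
      rw [hAx, hz₁', hz₂', hbz₁, hbz₂, zero_smul, zero_smul, add_zero, sub_zero])
    (by
      intro x
      rw [hAx, P.sub_left, P.add_left, pol_smul_left hQ, pol_smul_left hQ, hwa, hz₀' v, hvz]
      ring)
    (by
      intro x
      rw [hAx, P.sub_left, P.add_left, pol_smul_left hQ, pol_smul_left hQ,
        pol_symm hQ ((g : Matrix ι ι F) *ᵥ v) b, pol_symm hQ ((g : Matrix ι ι F) *ᵥ w) b, hbgv, hbgw]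
      ring)
    hd
  have ht : transv (c • ((g : Matrix ι ι F) *ᵥ v)) (formVec (pol Q) b) hd ∈ M := by
    rw [← hcomm]
    have hS' := siegel_mem hQ hiso a b hQa hQb (hself _ hQa) (hself _ hQb) hab
    exact M.mul_mem (M.mul_mem (M.mul_mem hAM hS') (M.inv_mem hAM)) (M.inv_mem hS')
  have hC := isCentre_of_transv hQ hiso (by omega) _ b b' hd ht
    (by rw [pol_smul_left hQ, pol_symm hQ, hb'gv, mul_zero]) (by rw [hbb']; exact one_ne_zero)
  refine specialLinear_le_of_isCentre_of_irreducible (H := isometryGroup F Q ⊓ specialLinear ι F) hiso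
    (irreducible hQ (by omega)) (smul_ne_zero hne hg0) hC

end Cfsg.Agent.Lib.Geo.OrthInSL
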