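/-
Generation of the special unitary group by unitary transvections (dimension at least 7), using unitary reflections.
-/
import Cfsg.Agent.Lib.Geo.UnitaryInSL
import Cfsg.Agent.Lib.Geo.QForm
import Cfsg.Agent.Lib.HermCount.Field
set_option autoImplicit false

namespace Cfsg.Agent.Lib.Geo.SUGen

open Cfsg Cfsg.Geo Cfsg.Agent.Lib.Geo.Basic Cfsg.Agent.Lib.Geo.Parabolic Cfsg.Agent.Lib.Geo.Centres
open Cfsg.Agent.Lib.Geo.Polar Cfsg.Agent.Lib.Geo.UnitaryInSL Cfsg.Agent.Lib.Geo.QForm
open scoped MatrixGroups Matrix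

variable {ι : Type} [Fintype ι] [DecidableEq ι] {F : Type*} [Field F]
variable {σ : F ≃+* F} {f : (ι → F) → (ι → F) → F}

/-- The isometries of `f`. -/
def IsIso (f : (ι → F) → (ι → F) → F) (g : GL ι F) : Prop :=
  ∀ u v, f ((g : Matrix ι ι F) *ᵥ u) ((g : Matrix ι ι F) *ᵥ v) = f u v

theorem IsIso.mul {g h : GL ι F} (hg : IsIso f g) (hh : IsIso f h) : IsIso f (g * h) := by
  intro u v
  rw [Units.val_mul, ← Matrix.mulVec_mulVec, ← Matrix.mulVec_mulVec, hg, hh]

theorem IsIso.inv {g : GL ι F} (hg : IsIso f g) : IsIso f g⁻¹ := by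
  intro u v
  rw [← hg, mulVec_inv_mulVec, mulVec_inv_mulVec]

theorem form_inv {g : GL ι F} (hg : IsIso f g) (x v : ι → F) :
    f (((g⁻¹ : GL ι F) : Matrix ι ι F) *ᵥ x) v = f x ((g : Matrix ι ι F) *ᵥ v) := by
  rw [← hg, mulVec_inv_mulVec]

/-- The unitary group element `x ↦ x + f(x, a) c a` for `f(a, a) ≠ 0`: determinant `1 + c f(a, a)`. -/
theorem det_transvMat' (hf : IsUnitaryForm σ f) (a : ι → F) (c : F) :
    (transvMat (c • a) (formVec f a)).det = 1 + c * f a a := by
  have := Matrix.det_one_add_replicateCol_mul_replicateRow (ι := Unit) (c • a) (formVec f a)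
  rw [formVec_dotProduct hf.add_left hf.smul_left, hf.smul_left] at this
  rw [← this, transvMat]
  congr 2
  ext i j
  simp [Matrix.vecMulVec_apply, Matrix.mul_apply]

/-- The unitary reflection with centre `a` and multiplier `μ`. -/
noncomputable def uR (hf : IsUnitaryForm σ f) (a : ι → F) (μ : F) (ha : f a a ≠ 0) (hμ : μ * σ μ = 1) : GL ι F :=
  Matrix.GeneralLinearGroup.mkOfDetNeZero (transvMat (((μ - 1) / f a a) • a) (formVec f a)) (by
    rw [det_transvMat' hf, div_mul_cancel₀ _ ha]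
    have : 1 + (μ - 1) = μ := by ring
    rw [this]
    exact left_ne_zero_of_mul_eq_one hμ)

theorem coe_uR (hf : IsUnitaryForm σ f) (a : ι → F) (μ : F) (ha : f a a ≠ 0) (hμ : μ * σ μ = 1) :
    ((uR hf a μ ha hμ : GL ι F) : Matrix ι ι F) = transvMat (((μ - 1) / f a a) • a) (formVec f a) := rfl

theorem uR_mulVec (hf : IsUnitaryForm σ f) (a : ι → F) (μ : F) (ha : f a a ≠ 0) (hμ : μ * σ μ = 1)
    (x : ι → F) :
    ((uR hf a μ ha hμ : GL ι F) : Matrix ι ι F) *ᵥ x = x + (f x a * ((μ - 1) / f a a)) • a := by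
  rw [coe_uR, transvMat_mulVec, formVec_dotProduct hf.add_left hf.smul_left, smul_smul]

theorem uR_det (hf : IsUnitaryForm σ f) (a : ι → F) (μ : F) (ha : f a a ≠ 0) (hμ : μ * σ μ = 1) :
    ((uR hf a μ ha hμ : GL ι F) : Matrix ι ι F).det = μ := by
  rw [coe_uR, det_transvMat' hf, div_mul_cancel₀ _ ha]
  ring

theorem uR_isIso (hf : IsUnitaryForm σ f) (a : ι → F) (μ : F) (ha : f a a ≠ 0) (hμ : μ * σ μ = 1) :
    IsIso f (uR hf a μ ha hμ) := by
  intro x y
  rw [uR_mulVec, uR_mulVec]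
  simp only [hf.add_left, UForm.add_right hf, hf.smul_left, UForm.smul_right hf, map_mul, map_div₀,
    UForm.sigma_self hf, UForm.sigma_form hf y a, map_sub, map_one]
  have hs : σ μ = μ⁻¹ := eq_inv_of_mul_eq_one_right hμ
  have hμ0 : μ ≠ 0 := left_ne_zero_of_mul_eq_one hμ
  rw [hs]
  field_simp
  ring

theorem uR_one (hf : IsUnitaryForm σ f) (a : ι → F) (ha : f a a ≠ 0) (h1 : (1 : F) * σ 1 = 1) :
    uR hf a 1 ha h1 = 1 := by
  apply gl_ext_mulVec
  intro x
  rw [uR_mulVec]
  simp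

theorem uR_congr (hf : IsUnitaryForm σ f) (a : ι → F) {μ μ' : F} (ha : f a a ≠ 0) (hμ : μ * σ μ = 1)
    (hμ' : μ' * σ μ' = 1) (h : μ = μ') : uR hf a μ ha hμ = uR hf a μ' ha hμ' := by
  subst h
  rfl

theorem uR_mul (hf : IsUnitaryForm σ f) (a : ι → F) (μ μ' : F) (ha : f a a ≠ 0) (hμ : μ * σ μ = 1)
    (hμ' : μ' * σ μ' = 1) (h : (μ * μ') * σ (μ * μ') = 1) :
    uR hf a μ ha hμ * uR hf a μ' ha hμ' = uR hf a (μ * μ') ha h := by
  apply gl_ext_mulVec
  intro x
  rw [Units.val_mul, ← Matrix.mulVec_mulVec, uR_mulVec, uR_mulVec, uR_mulVec]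
  simp only [hf.add_left, hf.smul_left, smul_add, add_assoc, ← add_smul]
  congr 2
  field_simp
  ring

theorem uR_smul (hf : IsUnitaryForm σ f) (a : ι → F) (l μ : F) (hl : l ≠ 0) (ha : f a a ≠ 0)
    (hla : f (l • a) (l • a) ≠ 0) (hμ : μ * σ μ = 1) :
    uR hf (l • a) μ hla hμ = uR hf a μ ha hμ := by
  apply gl_ext_mulVec
  intro x
  rw [uR_mulVec, uR_mulVec]
  simp only [hf.smul_left, UForm.smul_right hf, smul_smul]
  congr 2
  have hs : σ l ≠ 0 := by simpa using hl
  field_simp

theorem conj_uR (hf : IsUnitaryForm σ f) {g : GL ι F} (hg : IsIso f g) (a : ι → F) (μ : F) (ha : f a a ≠ 0)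
    (hga : f ((g : Matrix ι ι F) *ᵥ a) ((g : Matrix ι ι F) *ᵥ a) ≠ 0) (hμ : μ * σ μ = 1) :
    g * uR hf a μ ha hμ * g⁻¹ = uR hf ((g : Matrix ι ι F) *ᵥ a) μ hga hμ := by
  apply gl_ext_mulVec
  intro x
  simp only [Units.val_mul, ← Matrix.mulVec_mulVec]
  rw [uR_mulVec, uR_mulVec, form_inv hg, Matrix.mulVec_add, mulVec_inv_mulVec, Matrix.mulVec_smul, hg]

theorem conj_uT (hf : IsUnitaryForm σ f) {g : GL ι F} (hg : IsIso f g) (v : ι → F) (a : F) (hv : f v v = 0)
    (hgv : f ((g : Matrix ι ι F) *ᵥ v) ((g : Matrix ι ι F) *ᵥ v) = 0) :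
    g * uT hf v a hv * g⁻¹ = uT hf ((g : Matrix ι ι F) *ᵥ v) a hgv := by
  apply gl_ext_mulVec
  intro x
  simp only [Units.val_mul, ← Matrix.mulVec_mulVec]
  rw [uT_mulVec, uT_mulVec, form_inv hg, Matrix.mulVec_add, mulVec_inv_mulVec, Matrix.mulVec_smul,
    Matrix.mulVec_smul]

theorem uT_isIso (hf : IsUnitaryForm σ f) (v : ι → F) (a : F) (hv : f v v = 0) (ha : a + σ a = 0) :
    IsIso f (uT hf v a hv) := by
  intro x y
  rw [uT_mulVec, uT_mulVec]
  simp only [hf.add_left, UForm.add_right hf, hf.smul_left, UForm.smul_right hf, hv, map_mul,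
    UForm.sigma_form hf y v]
  linear_combination (f x v * f v y) * ha

/-- The group generated by unitary transvections. -/
def T (hf : IsUnitaryForm σ f) : Subgroup (GL ι F) :=
  Subgroup.closure {t | ∃ (v : ι → F) (a : F) (hv : f v v = 0), a + σ a = 0 ∧ t = uT hf v a hv}

theorem uT_mem_T (hf : IsUnitaryForm σ f) (v : ι → F) (a : F) (hv : f v v = 0) (ha : a + σ a = 0) :
    uT hf v a hv ∈ T hf :=
  Subgroup.subset_closure ⟨v, a, hv, ha, rfl⟩

theorem T_le_of (hf : IsUnitaryForm σ f) (M : Subgroup (GL ι F))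
    (hM : ∀ (v : ι → F) (a : F) (hv : f v v = 0), a + σ a = 0 → uT hf v a hv ∈ M) : T hf ≤ M := by
  rw [T, Subgroup.closure_le]
  rintro _ ⟨v, a, hv, ha, rfl⟩
  exact hM v a hv ha

theorem conj_mem_T (hf : IsUnitaryForm σ f) {g : GL ι F} (hg : IsIso f g) {t : GL ι F} (ht : t ∈ T hf) :
    g * t * g⁻¹ ∈ T hf := by
  induction ht using Subgroup.closure_induction with
  | mem x hx =>
    obtain ⟨v, a, hv, ha, rfl⟩ := hx
    rw [conj_uT hf hg v a hv (by rw [hg, hv])]
    exact uT_mem_T hf _ _ _ ha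
  | one => simp [(T hf).one_mem]
  | mul x y _ _ hx hy =>
    have : g * (x * y) * g⁻¹ = (g * x * g⁻¹) * (g * y * g⁻¹) := by group
    rw [this]
    exact (T hf).mul_mem hx hy
  | inv x _ hx =>
    have : g * x⁻¹ * g⁻¹ = (g * x * g⁻¹)⁻¹ := by group
    rw [this]
    exact (T hf).inv_mem hx

theorem T_isIso (hf : IsUnitaryForm σ f) {t : GL ι F} (ht : t ∈ T hf) : IsIso f t := by
  induction ht using Subgroup.closure_induction with
  | mem x hx =>
    obtain ⟨v, a, hv, ha, rfl⟩ := hx
    exact uT_isIso hf v a hv ha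
  | one => intro u v; simp
  | mul x y _ _ hx hy => exact hx.mul hy
  | inv x _ hx => exact hx.inv

theorem T_det (hf : IsUnitaryForm σ f) {t : GL ι F} (ht : t ∈ T hf) : (t : Matrix ι ι F).det = 1 := by
  have h : T hf ≤ specialLinear ι F := by
    apply T_le_of
    intro v a hv ha
    exact (uT_mem hf v a hv ha).2
  exact (mem_specialLinear_iff _).mp (h ht)

section Transitive

variable [Finite F]

/-- `a` can be moved to `b` if `f(a, b) = f(a, a)` and `f(a, a) ≠ 0`. -/
theorem exists_T_of_close (hf : IsUnitaryForm σ f) (hι : 7 ≤ Fintype.card ι) (a b : ι → F)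
    (ha : f a a ≠ 0) (hbb : f b b = f a a) (hab : f a b = f a a) :
    ∃ t ∈ T hf, (t : Matrix ι ι F) *ᵥ a = b := by
  have P := UForm.isPolar hf
  have hba : f b a = f a a := by rw [hf.herm, hab, UForm.sigma_self hf]
  obtain ⟨p, hp⟩ : ∃ p, p = b - a := ⟨_, rfl⟩
  have hb : b = a + p := by rw [hp]; abel
  subst hb
  have hap : f a p = 0 := by
    rw [UForm.add_right hf] at hab
    linear_combination hab
  have hpa : f p a = 0 := UForm.refl hf _ _ hap
  have hpp : f p p = 0 := by
    rw [hf.add_left, UForm.add_right hf, UForm.add_right hf, hap, hpa] at hbb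
    linear_combination hbb
  by_cases hp0 : p = 0
  · exact ⟨1, (T hf).one_mem, by rw [hp0]; simp⟩
  -- a singular vector `c ⊥ p` with `f(c, a) ≠ 0`
  have hspan : a ∉ Submodule.span F (Set.range (fun _ : Fin 1 => p)) := by
    intro hmem
    have h1 : a ∈ Submodule.span F {p} := by simpa using hmem
    obtain ⟨l, hl⟩ := Submodule.mem_span_singleton.mp h1
    apply ha
    rw [← hl, hf.smul_left, UForm.smul_right hf, hpp]
    ring
  obtain ⟨c, hcB, hcS, hca⟩ := P.exists_singular_perp (fun _ : Fin 1 => p) a hspan (by omega)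
  have hcc : f c c = 0 := hcB
  have hcp : f c p = 0 := (P.mem_perp _ c).mp hcS 0
  have hpc : f p c = 0 := UForm.refl hf _ _ hcp
  have hac : f a c ≠ 0 := fun h => hca (UForm.refl hf _ _ h)
  obtain ⟨κ, hκ0, hκ⟩ := exists_trace_zero σ hf.ne_refl hf.involutive
  have hσ := σ.surjective
  obtain ⟨l, hl⟩ := hσ (1 / (κ * f a c))
  have hl' : l * σ l = l * (1 / (κ * f a c)) := by rw [hl]
  have hw : f (p + l • c) (p + l • c) = 0 := by
    rw [hf.add_left, UForm.add_right hf, UForm.add_right hf, hf.smul_left, hf.smul_left, UForm.smul_right hf,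
      UForm.smul_right hf, hpp, hpc, hcp, hcc]
    ring
  have hNκ : -(κ * (l * σ l)) + σ (-(κ * (l * σ l))) = 0 := by
    rw [map_neg, map_mul, map_mul, hf.involutive]
    linear_combination (-(l * σ l)) * hκ
  have hκ' : -κ + σ (-κ) = 0 := by
    rw [map_neg]
    linear_combination -hκ
  refine ⟨uT hf (p + l • c) κ hw * uT hf p (-κ) hpp * uT hf c (-(κ * (l * σ l))) hcc, ?_, ?_⟩
  · exact (T hf).mul_mem ((T hf).mul_mem (uT_mem_T hf _ _ _ hκ) (uT_mem_T hf _ _ _ hκ')) (uT_mem_T hf _ _ _ hNκ)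
  · simp only [Units.val_mul, ← Matrix.mulVec_mulVec]
    rw [uT_mulVec hf c, uT_mulVec hf p, uT_mulVec hf (p + l • c)]
    simp only [hf.add_left, hf.smul_left, UForm.add_right hf, UForm.smul_right hf, hap, hcp, hcc, hpc, hl]
    have hd : κ * f a c ≠ 0 := mul_ne_zero hκ0 hac
    have hκa : f a c * (1 / (κ * f a c) * κ) = 1 := by
      field_simp
    ext i
    simp only [Pi.add_apply, Pi.smul_apply, smul_eq_mul]
    simp only [mul_zero, add_zero, zero_mul, zero_add, neg_mul, mul_neg, neg_zero]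
    linear_combination (p i + l * c i - l * c i) * hκa

/-- The group generated by transvections is transitive on the vectors of a given non-zero norm. -/
theorem exists_T (hf : IsUnitaryForm σ f) (hι : 7 ≤ Fintype.card ι) (a b : ι → F)
    (ha : f a a ≠ 0) (hbb : f b b = f a a) :
    ∃ t ∈ T hf, (t : Matrix ι ι F) *ᵥ a = b := by
  have P := UForm.isPolar hf
  -- first the case `b ∉ span a`
  have key : ∀ a b : ι → F, f a a ≠ 0 → f b b = f a a → b ∉ Submodule.span F {a} →
      ∃ t ∈ T hf, (t : Matrix ι ι F) *ᵥ a = b := by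
    intro a b ha hbb hbs
    by_cases hab : f a b = f a a
    · exact exists_T_of_close hf hι a b ha hbb hab
    have hspan : b ∉ Submodule.span F (Set.range (fun _ : Fin 1 => a)) := by simpa using hbs
    obtain ⟨c, hcB, hcS, hcb⟩ := P.exists_singular_perp (fun _ : Fin 1 => a) b hspan (by omega)
    have hcc : f c c = 0 := hcB
    have hca : f c a = 0 := (P.mem_perp _ c).mp hcS 0
    have hac : f a c = 0 := UForm.refl hf _ _ hca
    obtain ⟨l, hl⟩ : ∃ l, l = (f a a - f a b) / f c b := ⟨_, rfl⟩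
    have h1 : f (a + l • c) (a + l • c) = f a a := by
      rw [hf.add_left, UForm.add_right hf, UForm.add_right hf, hf.smul_left, hf.smul_left, UForm.smul_right hf,
        UForm.smul_right hf, hca, hac, hcc]
      ring
    have h2 : f a (a + l • c) = f a a := by
      rw [UForm.add_right hf, UForm.smul_right hf, hac]
      ring
    have h3 : f (a + l • c) b = f a a := by
      rw [hf.add_left, hf.smul_left, hl]
      field_simp
      ring
    obtain ⟨t₁, ht₁, ht₁a⟩ := exists_T_of_close hf hι a (a + l • c) ha h1 h2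
    obtain ⟨t₂, ht₂, ht₂a⟩ := exists_T_of_close hf hι (a + l • c) b (by rw [h1]; exact ha)
      (by rw [h1, hbb]) (by rw [h3, h1])
    refine ⟨t₂ * t₁, (T hf).mul_mem ht₂ ht₁, ?_⟩
    rw [Units.val_mul, ← Matrix.mulVec_mulVec, ht₁a, ht₂a]
  by_cases hbs : b ∈ Submodule.span F {a}
  swap
  · exact key a b ha hbb hbs
  -- `b = l a`; use a detour
  have hspan0 : (Set.range (fun _ : Fin 1 => a)) = {a} := by simp
  obtain ⟨p, q, hp, hq, hpB, hqB, hpq⟩ := P.exists_hyperbolic (fun _ : Fin 1 => a) (by omega)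
  have hpp : f p p = 0 := hpB
  have hpa : f p a = 0 := (P.mem_perp _ p).mp hp 0
  have hap : f a p = 0 := UForm.refl hf _ _ hpa
  have hp0 : p ≠ 0 := by
    rintro rfl
    rw [UForm.zero_left hf] at hpq
    exact zero_ne_one hpq
  have hdd : f (a + p) (a + p) = f a a := by
    rw [hf.add_left, UForm.add_right hf, UForm.add_right hf, hpa, hap, hpp]
    ring
  have hda : f a (a + p) = f a a := by
    rw [UForm.add_right hf, hap]
    ring
  obtain ⟨t₁, ht₁, ht₁a⟩ := exists_T_of_close hf hι a (a + p) ha hdd hda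
  have hnot : b ∉ Submodule.span F {a + p} := by
    intro hb
    obtain ⟨l, rfl⟩ := Submodule.mem_span_singleton.mp hbs
    obtain ⟨l', hl'⟩ := Submodule.mem_span_singleton.mp hb
    -- `l a = l' (a + p)`; then `(l - l') a = l' p`
    have hl0 : l ≠ 0 := by
      rintro rfl
      rw [zero_smul, UForm.zero_left hf] at hbb
      exact ha hbb.symm
    have h1 : f (l • a) a = f (l' • (a + p)) a := by rw [hl']
    have h2 : f (l • a) p = f (l' • (a + p)) p := by rw [hl']
    rw [hf.smul_left, hf.smul_left, hf.add_left, hpa, add_zero] at h1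
    have h3 : l = l' := mul_right_cancel₀ ha h1
    subst h3
    have h4 : l • p = 0 := by
      have h5 : l • a + l • p = l • a := by rw [← smul_add, hl']
      simpa using h5
    rcases smul_eq_zero.mp h4 with h | h
    · exact hl0 h
    · exact hp0 h
  obtain ⟨t₂, ht₂, ht₂a⟩ := key (a + p) b (by rw [hdd]; exact ha) (by rw [hbb, hdd]) hnot
  refine ⟨t₂ * t₁, (T hf).mul_mem ht₂ ht₁, ?_⟩
  rw [Units.val_mul, ← Matrix.mulVec_mulVec, ht₁a, ht₂a]

/-- The reflections with the same multiplier agree modulo `T`. -/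
theorem uR_mul_inv_mem (hf : IsUnitaryForm σ f) (hι : 7 ≤ Fintype.card ι) (v a : ι → F) (μ : F)
    (hv : f v v ≠ 0) (ha : f a a ≠ 0) (hμ : μ * σ μ = 1) :
    uR hf v μ hv hμ * (uR hf a μ ha hμ)⁻¹ ∈ T hf := by
  -- scale `v` to the norm of `a`
  have hr : σ (f a a / f v v) = f a a / f v v := by
    rw [map_div₀, UForm.sigma_self hf, UForm.sigma_self hf]
  have hr0 : f a a / f v v ≠ 0 := div_ne_zero ha hv
  obtain ⟨l, hl⟩ := exists_mul_sigma_eq σ hf.ne_refl hf.involutive _ hr hr0
  have hl0 : l ≠ 0 := by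
    rintro rfl
    rw [zero_mul] at hl
    exact hr0 hl.symm
  have hlv : f (l • v) (l • v) = f a a := by
    rw [hf.smul_left, UForm.smul_right hf, ← mul_assoc, hl]
    field_simp
  have hlv0 : f (l • v) (l • v) ≠ 0 := by rw [hlv]; exact ha
  rw [← uR_smul hf v l μ hl0 hv hlv0 hμ]
  obtain ⟨t, ht, hta⟩ := exists_T hf hι a (l • v) ha hlv
  have htI := T_isIso hf ht
  have h1 : uR hf (l • v) μ hlv0 hμ = t * uR hf a μ ha hμ * t⁻¹ := by
    rw [conj_uR hf htI a μ ha (by rw [hta]; exact hlv0) hμ]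
    congr 1
    exact hta.symm
  have hR := uR_isIso hf a μ ha hμ
  rw [h1]
  have h2 : t * uR hf a μ ha hμ * t⁻¹ * (uR hf a μ ha hμ)⁻¹ =
      t * (uR hf a μ ha hμ * t⁻¹ * (uR hf a μ ha hμ)⁻¹) := by group
  rw [h2]
  exact (T hf).mul_mem ht (conj_mem_T hf hR ((T hf).inv_mem ht))

/-- The normal form: an element of `T` times a reflection with fixed centre. -/
def NF (hf : IsUnitaryForm σ f) (a : ι → F) (ha : f a a ≠ 0) (g : GL ι F) : Prop :=
  ∃ t ∈ T hf, ∃ (μ : F) (hμ : μ * σ μ = 1), g = t * uR hf a μ ha hμ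

/-- Left multiplications preserving the normal form. -/
def Good (hf : IsUnitaryForm σ f) (a : ι → F) (ha : f a a ≠ 0) (h : GL ι F) : Prop :=
  ∀ g, NF hf a ha g → NF hf a ha (h * g)

theorem good_T (hf : IsUnitaryForm σ f) (a : ι → F) (ha : f a a ≠ 0) {t : GL ι F} (ht : t ∈ T hf) :
    Good hf a ha t := by
  rintro g ⟨s, hs, μ, hμ, rfl⟩
  exact ⟨t * s, (T hf).mul_mem ht hs, μ, hμ, by group⟩

theorem good_uR (hf : IsUnitaryForm σ f) (hι : 7 ≤ Fintype.card ι) (a : ι → F) (ha : f a a ≠ 0) (v : ι → F)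
    (μ : F) (hv : f v v ≠ 0) (hμ : μ * σ μ = 1) : Good hf a ha (uR hf v μ hv hμ) := by
  rintro g ⟨s, hs, ν, hν, rfl⟩
  have hmm : (μ * ν) * σ (μ * ν) = 1 := by
    rw [map_mul]
    linear_combination (ν * σ ν) * hμ + hν
  refine ⟨(uR hf v μ hv hμ * s * (uR hf v μ hv hμ)⁻¹) * (uR hf v μ hv hμ * (uR hf a μ ha hμ)⁻¹), ?_,
    μ * ν, hmm, ?_⟩
  · exact (T hf).mul_mem (conj_mem_T hf (uR_isIso hf v μ hv hμ) hs) (uR_mul_inv_mem hf hι v a μ hv ha hμ)
  · rw [← uR_mul hf a μ ν ha hμ hν hmm]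
    group

theorem Good.mul {hf : IsUnitaryForm σ f} {a : ι → F} {ha : f a a ≠ 0} {g h : GL ι F}
    (hg : Good hf a ha g) (hh : Good hf a ha h) : Good hf a ha (g * h) := by
  intro x hx
  rw [mul_assoc]
  exact hg _ (hh _ hx)

/-- A move of a non-singular vector to another one of the same norm, fixing what is orthogonal to both. -/
theorem exists_move (hf : IsUnitaryForm σ f) (hι : 7 ≤ Fintype.card ι) (e : ι → F) (he : f e e ≠ 0)
    (a b : ι → F) (ha : f a a ≠ 0) (hbb : f b b = f a a) :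
    ∃ h : GL ι F, Good hf e he h ∧ IsIso f h ∧ (h : Matrix ι ι F) *ᵥ a = b ∧
      ∀ y, f y a = 0 → f y b = 0 → (h : Matrix ι ι F) *ᵥ y = y := by
  -- the case `a - b` anisotropic
  have case1 : ∀ a b : ι → F, f a a ≠ 0 → f b b = f a a → f (a - b) (a - b) ≠ 0 →
      ∃ h : GL ι F, Good hf e he h ∧ IsIso f h ∧ (h : Matrix ι ι F) *ᵥ a = b ∧
        ∀ y, f y a = 0 → f y b = 0 → (h : Matrix ι ι F) *ᵥ y = y := by
    intro a b ha hbb hv
    have P := UForm.isPolar hf
    obtain ⟨x, hx⟩ : ∃ x, x = f a (a - b) := ⟨_, rfl⟩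
    have hvv : f (a - b) (a - b) = x + σ x := by
      rw [hx, UForm.sigma_form hf a (a - b)]
      simp only [P.sub_left, P.sub_right, hbb]
      ring
    have hx0 : x ≠ 0 := by
      rintro rfl
      rw [map_zero, add_zero] at hvv
      exact hv hvv
    have hsx0 : σ x ≠ 0 := by simpa using hx0
    obtain ⟨μ, hμd⟩ : ∃ μ, μ = - σ x / x := ⟨_, rfl⟩
    have hμ : μ * σ μ = 1 := by
      rw [hμd, map_div₀, map_neg, hf.involutive]
      field_simp
    refine ⟨uR hf (a - b) μ hv hμ, good_uR hf hι e he _ μ hv hμ, uR_isIso hf _ _ _ _, ?_, ?_⟩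
    · rw [uR_mulVec, ← hx, hvv]
      have h1 : x * ((μ - 1) / (x + σ x)) = -1 := by
        have h2 : x + σ x ≠ 0 := by rw [← hvv]; exact hv
        rw [hμd]
        field_simp
        ring
      rw [h1]
      ext i
      simp
    · intro y h1 h2
      rw [uR_mulVec, P.sub_right, h1, h2]
      simp
  by_cases hv : f (a - b) (a - b) = 0
  swap
  · exact case1 a b ha hbb hv
  have P := UForm.isPolar hf
  obtain ⟨x, hx⟩ : ∃ x, x = f a (a - b) := ⟨_, rfl⟩
  have hvv : x + σ x = 0 := by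
    rw [← hv, hx, UForm.sigma_form hf a (a - b)]
    simp only [P.sub_left, P.sub_right, hbb]
    ring
  by_cases hx0 : x = 0
  swap
  · -- a transvection
    have hsx0 : σ x ≠ 0 := by simpa using hx0
    have hc : -x⁻¹ + σ (-x⁻¹) = 0 := by
      rw [map_neg, map_inv₀]
      have hs : σ x = -x := eq_neg_of_add_eq_zero_right hvv
      rw [hs]
      field_simp
      ring
    refine ⟨uT hf (a - b) (-x⁻¹) hv, good_T hf e he (uT_mem_T hf _ _ _ hc), uT_isIso hf _ _ _ hc, ?_, ?_⟩
    · rw [uT_mulVec, ← hx, smul_smul]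
      have : x * -x⁻¹ = -1 := by
        field_simp
      rw [this]
      ext i
      simp
    · intro y h1 h2
      rw [uT_mulVec, P.sub_right, h1, h2]
      simp
  -- the detour via `κ a`
  have hκ : ∃ κ : F, κ * σ κ = 1 ∧ κ ≠ 1 := by
    -- `y / σ y`
    have hy : ∃ y : F, σ y ≠ y := by
      by_contra hcon
      push Not at hcon
      apply hf.ne_refl
      ext z
      simpa using hcon z
    obtain ⟨y, hy⟩ := hy
    have hy0 : y ≠ 0 := by
      rintro rfl
      simp at hy
    have hsy0 : σ y ≠ 0 := by simpa using hy0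
    refine ⟨y / σ y, ?_, ?_⟩
    · rw [map_div₀, hf.involutive]
      field_simp
    · intro h
      apply hy
      rw [div_eq_one_iff_eq hsy0] at h
      exact h.symm
  obtain ⟨κ, hκ1, hκ⟩ := hκ
  have hκ0 : κ ≠ 0 := left_ne_zero_of_mul_eq_one hκ1
  have hab : f a b = f a a := by
    rw [hx, P.sub_right] at hx0
    linear_combination -hx0
  have hκa : f (κ • a) (κ • a) = f a a := by
    rw [hf.smul_left, UForm.smul_right hf, ← mul_assoc, hκ1, one_mul]
  have hκb : f (κ • a - b) (κ • a - b) ≠ 0 := by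
    have hsub : κ • a - b = (κ - 1) • a + (a - b) := by
      rw [sub_smul, one_smul]
      abel
    have haV : f a (a - b) = 0 := by rw [← hx]; exact hx0
    have hVa : f (a - b) a = 0 := UForm.refl hf _ _ haV
    rw [hsub, hf.add_left, UForm.add_right hf, UForm.add_right hf, hf.smul_left, hf.smul_left,
      UForm.smul_right hf, UForm.smul_right hf, hVa, haV, hv]
    have hne : κ - 1 ≠ 0 := sub_ne_zero.mpr hκ
    have hne' : σ (κ - 1) ≠ 0 := (map_ne_zero σ).mpr hne
    simp only [mul_zero, add_zero, zero_add]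
    exact mul_ne_zero hne (mul_ne_zero hne' ha)
  obtain ⟨h₂, hG₂, hI₂, ha₂, hy₂⟩ := case1 (κ • a) b (by rw [hκa]; exact ha) (by rw [hκa, hbb]) hκb
  refine ⟨h₂ * uR hf a κ ha hκ1, hG₂.mul (good_uR hf hι e he a κ ha hκ1), hI₂.mul (uR_isIso hf _ _ _ _), ?_, ?_⟩
  · rw [Units.val_mul, ← Matrix.mulVec_mulVec, uR_mulVec, div_eq_mul_inv]
    have : f a a * ((κ - 1) * (f a a)⁻¹) = κ - 1 := by field_simp
    rw [this, sub_smul, one_smul]
    have h3 : a + (κ • a - a) = κ • a := by abel
    rw [h3, ha₂]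
  · intro y h1 h2
    rw [Units.val_mul, ← Matrix.mulVec_mulVec, uR_mulVec, h1, zero_mul, zero_smul, add_zero]
    apply hy₂ y _ h2
    rw [UForm.smul_right hf, h1, mul_zero]

/-- Any isometry is in normal form (given an orthonormal spanning family). -/
theorem nf_of_isIso (hf : IsUnitaryForm σ f) (hι : 7 ≤ Fintype.card ι) {m : ℕ} (e : Fin m → ι → F)
    (he : ∀ i j, f (e i) (e j) = if i = j then 1 else 0)
    (hspan : ∀ g : GL ι F, (∀ i, (g : Matrix ι ι F) *ᵥ e i = e i) → g = 1)
    (a : ι → F) (ha : f a a ≠ 0) :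
    ∀ (j : ℕ) (g : GL ι F), IsIso f g → (∀ i : Fin m, (i : ℕ) + j < m → (g : Matrix ι ι F) *ᵥ e i = e i) →
      NF hf a ha g := by
  intro j
  induction j with
  | zero =>
    intro g hg hfix
    have h1 : g = 1 := hspan g (fun i => hfix i (by simpa using i.2))
    have hone : (1 : F) * σ 1 = 1 := by simp
    exact ⟨1, (T hf).one_mem, 1, hone, by rw [h1, uR_one, one_mul]⟩
  | succ j ih =>
    intro g hg hfix
    by_cases hj : j + 1 ≤ m
    swap
    · apply ih g hg
      intro i hi
      exact absurd hi (by omega)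
    obtain ⟨k, hk⟩ : ∃ k : Fin m, (k : ℕ) + j + 1 = m := ⟨⟨m - j - 1, by omega⟩, by simp; omega⟩
    have hek : f (e k) (e k) ≠ 0 := by
      rw [he, if_pos rfl]
      exact one_ne_zero
    have hgek : f ((g : Matrix ι ι F) *ᵥ e k) ((g : Matrix ι ι F) *ᵥ e k) = f (e k) (e k) := hg _ _
    obtain ⟨h, hG, hI, hab, hy⟩ := exists_move hf hι a ha (e k) ((g : Matrix ι ι F) *ᵥ e k) hek hgek
    have hfac : g = h * (h⁻¹ * g) := by group
    rw [hfac]
    apply hG
    apply ih _ (hI.inv.mul hg)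
    intro i hi
    rw [Units.val_mul, ← Matrix.mulVec_mulVec]
    by_cases hik : i = k
    · subst hik
      rw [← hab, inv_mulVec_mulVec]
    · have hlt : (i : ℕ) + (j + 1) < m := by
        have : (i : ℕ) ≠ k := fun h => hik (Fin.ext h)
        omega
      have hgi := hfix i hlt
      rw [hgi]
      have h0 : f (e i) (e k) = 0 := by
        rw [he, if_neg hik]
      have h1 : f (e i) ((g : Matrix ι ι F) *ᵥ e k) = 0 := by
        rw [← hgi, hg, h0]
      have h2 := hy (e i) h0 h1
      have h3 : ((h⁻¹ : GL ι F) : Matrix ι ι F) *ᵥ ((h : Matrix ι ι F) *ᵥ e i) = e i := inv_mulVec_mulVec _ _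
      rwa [h2] at h3

/-- Generation of the special unitary group by transvections. -/
theorem mem_T_of_isIso (hf : IsUnitaryForm σ f) (hι : 7 ≤ Fintype.card ι) {m : ℕ} (e : Fin m → ι → F)
    (he : ∀ i j, f (e i) (e j) = if i = j then 1 else 0)
    (hspan : ∀ g : GL ι F, (∀ i, (g : Matrix ι ι F) *ᵥ e i = e i) → g = 1) (hm : 0 < m)
    (g : GL ι F) (hg : IsIso f g) (hdet : (g : Matrix ι ι F).det = 1) : g ∈ T hf := by
  have ha : f (e ⟨0, hm⟩) (e ⟨0, hm⟩) ≠ 0 := by
    rw [he, if_pos rfl]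
    exact one_ne_zero
  obtain ⟨t, ht, μ, hμ, rfl⟩ := nf_of_isIso hf hι e he hspan (e ⟨0, hm⟩) ha m g hg
    (fun i hi => absurd hi (by omega))
  rw [Units.val_mul, Matrix.det_mul, T_det hf ht, one_mul, uR_det] at hdet
  subst hdet
  have hone : (1 : F) * σ 1 = 1 := by simp
  rw [uR_one, mul_one]
  exact ht

end Transitive

/-- The data of a determinant one isometry group generated by unitary transvections. -/
structure IsSUGroup (hf : IsUnitaryForm σ f) (I : Subgroup (GL ι F)) : Prop where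
  mem_iff : ∀ g : GL ι F, g ∈ I ↔ IsIso f g ∧ (g : Matrix ι ι F).det = 1
  gen : ∀ M : Subgroup (GL ι F),
    (∀ (v : ι → F) (a : F) (hv : f v v = 0), a + σ a = 0 → uT hf v a hv ∈ M) → I ≤ M

section Herm

variable [Fintype F] {q : ℕ}

open Cfsg.Agent.Lib.HermCount.Field

/-- The Frobenius `x ↦ x^q` as a ring automorphism. -/
noncomputable def frobEquiv (hF : Fintype.card F = q ^ 2) : F ≃+* F :=
  RingEquiv.ofBijective (frobHom hF)
    ⟨(frobHom hF).injective, fun y => ⟨y ^ q, by rw [frobHom_apply, frob_frob hF]⟩⟩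

@[simp] theorem frobEquiv_apply (hF : Fintype.card F = q ^ 2) (x : F) : frobEquiv hF x = x ^ q := rfl

theorem hermForm_isUnitary (n : ℕ) (hF : Fintype.card F = q ^ 2) :
    IsUnitaryForm (frobEquiv hF) (hermForm n F q) where
  ne_refl := by
    obtain ⟨x, hx⟩ := exists_frob_ne hF
    intro h
    apply hx
    have := congrArg (fun s : F ≃+* F => s x) h
    simpa using this
  involutive := fun a => by simp [frob_frob hF]
  add_left := by
    intro x y v
    simp only [hermForm, Pi.add_apply, add_mul, Finset.sum_add_distrib]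
  smul_left := by
    intro c x v
    simp only [hermForm, Pi.smul_apply, smul_eq_mul, Finset.mul_sum, mul_assoc]
  herm := by
    intro v w
    simp only [hermForm]
    rw [map_sum]
    refine Finset.sum_congr rfl fun i _ => ?_
    simp only [map_mul, frobEquiv_apply, frob_frob hF]
    ring
  nondegenerate := by
    intro v hv
    obtain ⟨i, hi⟩ : ∃ i, v i ≠ 0 := by
      by_contra hcon
      push Not at hcon
      exact hv (funext hcon)
    have hq := two_le hF
    constructor
    · refine ⟨Pi.single i 1, ?_⟩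
      simp only [hermForm]
      rw [Finset.sum_eq_single i]
      · simp only [Pi.single_eq_same, one_mul]
        exact pow_ne_zero _ hi
      · intro j _ hj
        simp [Pi.single_apply, hj]
      · simp
    · refine ⟨Pi.single i 1, ?_⟩
      simp only [hermForm]
      rw [Finset.sum_eq_single i]
      · simpa using hi
      · intro j _ hj
        simp [Pi.single_apply, hj, zero_pow (show q ≠ 0 by omega)]
      · simp

theorem isSUGroup_GU (n : ℕ) (hF : Fintype.card F = q ^ 2) (hn : 7 ≤ n) :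
    IsSUGroup (hermForm_isUnitary n hF) (GU n F q ⊓ specialLinear (Fin n) F) where
  mem_iff := by
    intro g
    rw [Subgroup.mem_inf, mem_GU_iff, mem_specialLinear_iff]
    rfl
  gen := by
    intro M hM g hg
    have hg' := (Subgroup.mem_inf.mp hg)
    have h1 := (mem_GU_iff n q g).mp hg'.1
    have h2 := (mem_specialLinear_iff g).mp hg'.2
    have hq := two_le hF
    apply T_le_of _ M hM
    apply mem_T_of_isIso (hermForm_isUnitary n hF) (by simpa using hn) (m := n)
      (fun i => Pi.single i 1) _ _ (by omega) g h1 h2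
    · intro i j
      simp only [hermForm]
      by_cases hij : i = j
      · subst hij
        rw [if_pos rfl, Finset.sum_eq_single i]
        · simp [Pi.single_apply]
        · intro b _ hb
          simp [Pi.single_apply, hb]
        · simp
      · rw [if_neg hij, Finset.sum_eq_zero]
        intro b _
        by_cases hb : b = i
        · subst hb
          simp [Pi.single_apply, hij, Ne.symm hij, zero_pow (show q ≠ 0 by omega)]
        · simp [Pi.single_apply, hb]
    · intro g hg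
      ext1
      apply Matrix.ext_of_mulVec_single
      intro l
      rw [hg l, Units.val_one, Matrix.one_mulVec]

end Herm

end Cfsg.Agent.Lib.Geo.SUGen
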