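/-
Special unitary groups: centres of transvections in an overgroup, Eichler elements, moves.
-/
import Cfsg.Agent.Lib.Geo.SUGen
set_option autoImplicit false

namespace Cfsg.Agent.Lib.Geo.SUBase

open Cfsg Cfsg.Geo Cfsg.Agent.Lib.Geo.Basic Cfsg.Agent.Lib.Geo.Parabolic Cfsg.Agent.Lib.Geo.Centres
open Cfsg.Agent.Lib.Geo.Polar Cfsg.Agent.Lib.Geo.UnitaryInSL Cfsg.Agent.Lib.Geo.QForm
open Cfsg.Agent.Lib.Geo.SUGen
open scoped MatrixGroups Matrix

variable {ι : Type} [Fintype ι] [DecidableEq ι] {F : Type*} [Field F]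
variable {σ : F ≃+* F} {f : (ι → F) → (ι → F) → F}

/-- The set of isotropic vectors whose transvections all lie in `M`. -/
def cen (hf : IsUnitaryForm σ f) (M : Subgroup (GL ι F)) : Set (ι → F) :=
  {v | ∃ hv : f v v = 0, ∀ a, a + σ a = 0 → uT hf v a hv ∈ M}

theorem cen_iso {hf : IsUnitaryForm σ f} {M : Subgroup (GL ι F)} {v : ι → F} (h : v ∈ cen hf M) : f v v = 0 :=
  h.1

theorem cen_mem {hf : IsUnitaryForm σ f} {M : Subgroup (GL ι F)} {v : ι → F} (h : v ∈ cen hf M) (hv : f v v = 0)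
    (a : F) (ha : a + σ a = 0) : uT hf v a hv ∈ M :=
  h.2 a ha

/-- Transvections of `M` with a given centre. -/
theorem cen_mulVec {hf : IsUnitaryForm σ f} {M : Subgroup (GL ι F)} {v : ι → F} (h : v ∈ cen hf M)
    {g : GL ι F} (hgM : g ∈ M) (hg : IsIso f g) : (g : Matrix ι ι F) *ᵥ v ∈ cen hf M := by
  have hv := cen_iso h
  have hgv : f ((g : Matrix ι ι F) *ᵥ v) ((g : Matrix ι ι F) *ᵥ v) = 0 := by rw [hg, hv]
  refine ⟨hgv, fun a ha => ?_⟩
  rw [← conj_uT hf hg v a hv hgv]
  exact M.mul_mem (M.mul_mem hgM (cen_mem h hv a ha)) (M.inv_mem hgM)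

theorem uT_smul (hf : IsUnitaryForm σ f) (v : ι → F) (c a : F) (hv : f v v = 0) (hcv : f (c • v) (c • v) = 0) :
    uT hf (c • v) a hcv = uT hf v (a * (c * σ c)) hv := by
  apply gl_ext_mulVec
  intro x
  rw [uT_mulVec, uT_mulVec, UForm.smul_right hf]
  simp only [smul_smul]
  congr 2
  ring

theorem trace_zero_mul_norm (hf : IsUnitaryForm σ f) (a c : F) (ha : a + σ a = 0) :
    a * (c * σ c) + σ (a * (c * σ c)) = 0 := by
  rw [map_mul, map_mul, hf.involutive]
  linear_combination (c * σ c) * ha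

/-- Scalar multiples of centres are centres. -/
theorem cen_smul {hf : IsUnitaryForm σ f} {M : Subgroup (GL ι F)} {v : ι → F} (h : v ∈ cen hf M) (c : F) :
    c • v ∈ cen hf M := by
  have hv := cen_iso h
  have hcv : f (c • v) (c • v) = 0 := by
    rw [hf.smul_left, UForm.smul_right hf, hv, mul_zero, mul_zero]
  refine ⟨hcv, fun a ha => ?_⟩
  rw [uT_smul hf v c a hv hcv]
  exact cen_mem h hv _ (trace_zero_mul_norm hf a c ha)

/-- The plane rule. -/
theorem cen_plane {hf : IsUnitaryForm σ f} {M : Subgroup (GL ι F)} {v w : ι → F} (hv : v ∈ cen hf M)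
    (hw : w ∈ cen hf M) (a : F) (ha : a + σ a = 0) : w + f w v • a • v ∈ cen hf M := by
  have h1 := cen_mulVec hw (cen_mem hv (cen_iso hv) a ha) (uT_isIso hf v a (cen_iso hv) ha)
  rwa [uT_mulVec] at h1

theorem cen_plane_rev {hf : IsUnitaryForm σ f} {M : Subgroup (GL ι F)} {v w : ι → F} (hv : v ∈ cen hf M)
    (a : F) (ha : a + σ a = 0) (hw : w + f w v • a • v ∈ cen hf M) : w ∈ cen hf M := by
  have hvv := cen_iso hv
  have ha' : -a + σ (-a) = 0 := by
    rw [map_neg]
    linear_combination -ha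
  have h1 := cen_plane hv hw (-a) ha'
  have h2 : f (w + f w v • a • v) v = f w v := by
    rw [hf.add_left, hf.smul_left, hf.smul_left, hvv]
    ring
  rw [h2] at h1
  have h3 : w + f w v • a • v + f w v • (-a) • v = w := by
    rw [neg_smul, smul_neg]
    abel
  rwa [h3] at h1

/-- The membership in `cen`, given all transvections. -/
theorem mem_cen_of_forall {hf : IsUnitaryForm σ f} {M : Subgroup (GL ι F)} {v : ι → F} (hv : f v v = 0)
    (h : ∀ a, a + σ a = 0 → uT hf v a hv ∈ M) : v ∈ cen hf M := ⟨hv, h⟩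

/-- Eichler element `x ↦ x + f(x, p) q - f(x, q) p + c f(x, p) p`. -/
noncomputable def uE (hf : IsUnitaryForm σ f) (p q : ι → F) (c : F) (hpp : f p p = 0) (hqp : f q p = 0) : GL ι F :=
  transv (q + c • p) (formVec f p)
      (by rw [formVec_dotProduct hf.add_left hf.smul_left, hf.add_left, hf.smul_left, hpp, hqp]; simp) *
    transv (-p) (formVec f q)
      (by
        rw [formVec_dotProduct hf.add_left hf.smul_left]
        have h1 : f p q = 0 := UForm.refl hf _ _ hqp
        have := hf.smul_left (-1) p q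
        rw [neg_one_smul, h1, mul_zero] at this
        exact this)

theorem uE_mulVec (hf : IsUnitaryForm σ f) (p q : ι → F) (c : F) (hpp : f p p = 0) (hqp : f q p = 0) (x : ι → F) :
    ((uE hf p q c hpp hqp : GL ι F) : Matrix ι ι F) *ᵥ x = x + f x p • q - f x q • p + (c * f x p) • p := by
  rw [uE, Units.val_mul, ← Matrix.mulVec_mulVec, transv_mulVec, transv_mulVec,
    formVec_dotProduct hf.add_left hf.smul_left, formVec_dotProduct hf.add_left hf.smul_left]
  have h1 : f (x + f x q • -p) p = f x p := by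
    have hn : f (-p) p = 0 := by
      have := hf.smul_left (-1) p p
      rw [neg_one_smul, hpp, mul_zero] at this
      exact this
    rw [hf.add_left, hf.smul_left, hn]
    ring
  rw [h1]
  ext i
  simp only [Pi.add_apply, Pi.smul_apply, Pi.neg_apply, Pi.sub_apply, smul_eq_mul]
  ring

theorem uE_det (hf : IsUnitaryForm σ f) (p q : ι → F) (c : F) (hpp : f p p = 0) (hqp : f q p = 0) :
    ((uE hf p q c hpp hqp : GL ι F) : Matrix ι ι F).det = 1 := by
  have : uE hf p q c hpp hqp ∈ specialLinear ι F :=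
    (specialLinear ι F).mul_mem (transv_mem_specialLinear _ _ _) (transv_mem_specialLinear _ _ _)
  exact (mem_specialLinear_iff _).mp this

theorem uE_isIso [Finite F] (hf : IsUnitaryForm σ f) (p q : ι → F) (c : F) (hpp : f p p = 0) (hqp : f q p = 0)
    (hc : c + σ c + f q q = 0) : IsIso f (uE hf p q c hpp hqp) := by
  intro x y
  have hpq : f p q = 0 := UForm.refl hf _ _ hqp
  have P := UForm.isPolar hf
  rw [uE_mulVec, uE_mulVec]
  simp only [hf.add_left, P.sub_left, UForm.add_right hf, P.sub_right, hf.smul_left, UForm.smul_right hf, hpp,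
    hqp, hpq, map_mul, map_sub, UForm.sigma_form hf y p, UForm.sigma_form hf y q, mul_zero, sub_zero,
    add_zero, zero_add]
  linear_combination (f x p * f p y) * hc

/-- Avoiding two hyperplanes. -/
theorem exists_common (hf : IsUnitaryForm σ f) (E : Submodule F (ι → F)) (a b : ι → F)
    (h₁ : ∃ e ∈ E, f a e ≠ 0) (h₂ : ∃ e ∈ E, f b e ≠ 0) : ∃ e ∈ E, f a e ≠ 0 ∧ f b e ≠ 0 := by
  obtain ⟨e₁, he₁, h1⟩ := h₁
  obtain ⟨e₂, he₂, h2⟩ := h₂
  by_cases h3 : f b e₁ = 0
  · by_cases h4 : f a e₂ = 0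
    · refine ⟨e₁ + e₂, E.add_mem he₁ he₂, ?_, ?_⟩
      · rwa [UForm.add_right hf, h4, add_zero]
      · rwa [UForm.add_right hf, h3, zero_add]
    · exact ⟨e₂, he₂, h4, h2⟩
  · exact ⟨e₁, he₁, h1, h3⟩

/-- The orthogonal complement of a subspace. -/
def orth (hf : IsUnitaryForm σ f) (W : Submodule F (ι → F)) : Submodule F (ι → F) where
  carrier := {x | ∀ w ∈ W, f w x = 0}
  add_mem' {a b} ha hb w hw := by rw [UForm.add_right hf, ha w hw, hb w hw, add_zero]
  zero_mem' w _ := by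
    have := UForm.smul_right hf 0 w 0
    simpa using this
  smul_mem' c x hx w hw := by rw [UForm.smul_right hf, hx w hw, mul_zero]

theorem mem_orth (hf : IsUnitaryForm σ f) (W : Submodule F (ι → F)) (x : ι → F) :
    x ∈ orth hf W ↔ ∀ w ∈ W, f w x = 0 := Iff.rfl

theorem exists_orth [Finite F] (hf : IsUnitaryForm σ f) (W : Submodule F (ι → F)) (x : ι → F) (hx : x ∉ W) :
    ∃ z ∈ orth hf W, f x z = 1 := by
  have P := UForm.isPolar hf
  obtain ⟨φ, h1, h2⟩ := exists_dotProduct_eq_one_of_notMem _ _ hx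
  obtain ⟨z, hz⟩ := P.exists_form_eq φ
  refine ⟨z, ?_, ?_⟩
  · intro w hw
    rw [← hz]
    exact h1 w hw
  · rw [← hz, h2]

theorem form_comm_ne (hf : IsUnitaryForm σ f) {a b : ι → F} (h : f a b ≠ 0) : f b a ≠ 0 :=
  fun h0 => h (UForm.refl hf _ _ h0)

end Cfsg.Agent.Lib.Geo.SUBase
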