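/-
The subfield group `Sp_n(q)` (with the scalars) is maximal in `SU_n(q)`.
-/
import Cfsg.Agent.Lib.Geo.SUBase
import Cfsg.Agent.Lib.Geo.RatStruct
import Cfsg.Agent.Lib.Classical.Alt
set_option autoImplicit false

namespace Cfsg.Agent.Lib.Geo.SUSymp

open Cfsg Cfsg.Geo Cfsg.Agent.Lib.Geo.Basic Cfsg.Agent.Lib.Geo.Parabolic Cfsg.Agent.Lib.Geo.Centres
open Cfsg.Agent.Lib.Geo.Polar Cfsg.Agent.Lib.Geo.UnitaryInSL Cfsg.Agent.Lib.Geo.QForm
open Cfsg.Agent.Lib.Geo.SUGen Cfsg.Agent.Lib.Geo.SUBase Cfsg.Agent.Lib.Geo.RatStruct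
open scoped MatrixGroups Matrix

variable {ι : Type} [Fintype ι] [DecidableEq ι] {F : Type*} [Field F]
variable {σ : F ≃+* F} {f : (ι → F) → (ι → F) → F} {hf : IsUnitaryForm σ f} {I : Subgroup (GL ι F)}
variable {F₀ : Subfield F}

/-- Coordinates in the subfield. -/
def coeV (u : ι → F₀) : ι → F := fun i => (u i : F)

omit [Fintype ι] [DecidableEq ι] in
@[simp] theorem coeV_apply (u : ι → F₀) (i : ι) : coeV u i = (u i : F) := rfl

omit [Fintype ι] [DecidableEq ι] in
theorem coeV_add (u v : ι → F₀) : coeV (u + v) = coeV u + coeV v := by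
  ext i
  simp

omit [Fintype ι] [DecidableEq ι] in
theorem coeV_smul (a : F₀) (u : ι → F₀) : coeV (a • u) = (a : F) • coeV u := by
  ext i
  simp

omit [Fintype ι] [DecidableEq ι] in
theorem isRat_coeV (u : ι → F₀) : IsRat F₀ (coeV u) := fun i => (u i).2

omit [Fintype ι] [DecidableEq ι] in
theorem exists_coeV {x : ι → F} (hx : IsRat F₀ x) : ∃ u : ι → F₀, coeV u = x :=
  ⟨fun i => ⟨x i, hx i⟩, rfl⟩

omit [Fintype ι] [DecidableEq ι] in
theorem coeV_injective : Function.Injective (coeV : (ι → F₀) → ι → F) := by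
  intro u v h
  ext i
  exact congrFun h i

/-- A rational matrix sends rational vectors to rational vectors. -/
theorem isRat_mulVec {A : Matrix ι ι F} (hA : ∀ i j, A i j ∈ F₀) {u : ι → F} (hu : IsRat F₀ u) :
    IsRat F₀ (A *ᵥ u) := by
  intro i
  simp only [Matrix.mulVec, dotProduct]
  exact F₀.sum_mem fun j _ => F₀.mul_mem (hA i j) (hu j)

/-- Vanishing on rational vectors is vanishing. -/
theorem form_zero_of_rat (hf : IsUnitaryForm σ f) (P : GL ι F) (y : ι → F)
    (h : ∀ u, IsRat F₀ u → f ((P : Matrix ι ι F) *ᵥ u) y = 0) (x : ι → F) : f x y = 0 := by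
  have hx : x = (P : Matrix ι ι F) *ᵥ (((P⁻¹ : GL ι F) : Matrix ι ι F) *ᵥ x) := (mulVec_inv_mulVec P x).symm
  obtain ⟨w, hw⟩ : ∃ w, w = ((P⁻¹ : GL ι F) : Matrix ι ι F) *ᵥ x := ⟨_, rfl⟩
  rw [hx, ← hw]
  have hw2 : w = ∑ i, w i • (Pi.single i 1 : ι → F) := by
    ext k
    simp [Finset.sum_apply, Pi.single_apply]
  rw [hw2, Matrix.mulVec_sum]
  have hsum : ∀ (s : Finset ι) (c : ι → ι → F), f (∑ i ∈ s, c i) y = ∑ i ∈ s, f (c i) y := by
    intro s c
    classical
    induction s using Finset.induction_on with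
    | empty => simpa using UForm.zero_left hf y
    | insert a s ha ih => rw [Finset.sum_insert ha, Finset.sum_insert ha, hf.add_left, ih]
  rw [hsum]
  refine Finset.sum_eq_zero fun i _ => ?_
  rw [Matrix.mulVec_smul, hf.smul_left, h _ (isRat_single i), mul_zero]

/-- The decomposition of a field element along `1, ω`. -/
theorem exists_decomp_scalar (hf : IsUnitaryForm σ f) (hfix : ∀ x, x ∈ F₀ ↔ σ x = x) (ω : F) (hω : σ ω ≠ ω)
    (x : F) : ∃ a ∈ F₀, ∃ b ∈ F₀, x = a + b * ω := by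
  have hd : ω - σ ω ≠ 0 := sub_ne_zero.mpr (Ne.symm hω)
  obtain ⟨b, hb⟩ : ∃ b, b = (x - σ x) / (ω - σ ω) := ⟨_, rfl⟩
  have hbσ : σ b = b := by
    rw [hb, map_div₀, map_sub, map_sub, hf.involutive, hf.involutive]
    have hd' : σ ω - ω ≠ 0 := sub_ne_zero.mpr hω
    field_simp
    ring
  refine ⟨x - b * ω, ?_, b, (hfix b).mpr hbσ, by ring⟩
  rw [hfix, map_sub, map_mul, hbσ]
  have h1 : b * (ω - σ ω) = x - σ x := by
    rw [hb]
    field_simp
  linear_combination h1

/-- The decomposition of a vector along `1, ω`. -/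
theorem exists_decomp_vec (hf : IsUnitaryForm σ f) (hfix : ∀ x, x ∈ F₀ ↔ σ x = x) (ω : F) (hω : σ ω ≠ ω)
    (w : ι → F) : ∃ x₁ x₂ : ι → F₀, w = coeV x₁ + ω • coeV x₂ := by
  have h := fun i => exists_decomp_scalar hf hfix ω hω (w i)
  choose a ha b hb hab using h
  refine ⟨fun i => ⟨a i, ha i⟩, fun i => ⟨b i, hb i⟩, ?_⟩
  ext i
  simp only [Pi.add_apply, coeV_apply, Pi.smul_apply, smul_eq_mul]
  rw [hab i]
  ring

/-- Transvections with rational centre and suitable parameter are in the subfield group. -/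
theorem uT_mem_subfield (hf : IsUnitaryForm σ f) (P : GL ι F) (w : ι → F) (hw : IsRat F₀ w) (c : F)
    (hv : f ((P : Matrix ι ι F) *ᵥ w) ((P : Matrix ι ι F) *ᵥ w) = 0)
    (hc : ∀ u, IsRat F₀ u → c * f ((P : Matrix ι ι F) *ᵥ u) ((P : Matrix ι ι F) *ᵥ w) ∈ F₀) :
    uT hf ((P : Matrix ι ι F) *ᵥ w) c hv ∈ subfieldSubgroup F₀ P := by
  apply mem_subfield_of_entries
  intro i j
  have h1 : ((P⁻¹ * uT hf ((P : Matrix ι ι F) *ᵥ w) c hv * P : GL ι F) : Matrix ι ι F) i j =
      (((P⁻¹ * uT hf ((P : Matrix ι ι F) *ᵥ w) c hv * P : GL ι F) : Matrix ι ι F) *ᵥ Pi.single j 1) i := by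
    simp
  rw [h1]
  simp only [Units.val_mul, ← Matrix.mulVec_mulVec]
  rw [uT_mulVec, Matrix.mulVec_add, inv_mulVec_mulVec, Matrix.mulVec_smul, Matrix.mulVec_smul, inv_mulVec_mulVec]
  simp only [Pi.add_apply, Pi.smul_apply, smul_eq_mul]
  refine F₀.add_mem (isRat_single j i) ?_
  rw [← mul_assoc, mul_comm _ c]
  exact F₀.mul_mem (hc _ (isRat_single j)) (hw i)

section Symp

variable [Finite F]

/-- **The symplectic subfield group is maximal in `SU`.** -/
theorem symp_isMaximalIn (S : IsSUGroup hf I) (hι : 3 ≤ Fintype.card ι) (hfix : ∀ x, x ∈ F₀ ↔ σ x = x)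
    (ζ : F) (hζ0 : ζ ≠ 0) (hζ : σ ζ = -ζ) (P : GL ι F) (hP : IsFormRationalStructure f F₀ ζ P)
    (halt : ∀ u : ι → F, (∀ i, u i ∈ F₀) → f ((P : Matrix ι ι F) *ᵥ u) ((P : Matrix ι ι F) *ᵥ u) = 0) :
    IsMaximalIn I (subfieldSubgroup F₀ P ⊓ I) := by
  have Pol := UForm.isPolar hf
  -- the rational form
  obtain ⟨B, hB⟩ : ∃ B : LinearMap.BilinForm F₀ (ι → F₀), ∀ u v,
      (B u v : F) = ζ * f ((P : Matrix ι ι F) *ᵥ coeV u) ((P : Matrix ι ι F) *ᵥ coeV v) := by
    refine ⟨LinearMap.mk₂ F₀ (fun u v => ⟨ζ * f ((P : Matrix ι ι F) *ᵥ coeV u) ((P : Matrix ι ι F) *ᵥ coeV v),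
      hP _ _ (isRat_coeV u) (isRat_coeV v)⟩) ?_ ?_ ?_ ?_, fun u v => rfl⟩
    · intro x y v
      apply Subtype.ext
      simp only [coeV_add, Matrix.mulVec_add, hf.add_left, mul_add, Subfield.coe_add]
    · intro a x v
      apply Subtype.ext
      simp only [coeV_smul, Matrix.mulVec_smul, hf.smul_left, Subfield.coe_mul, smul_eq_mul]
      ring
    · intro v x y
      apply Subtype.ext
      simp only [coeV_add, Matrix.mulVec_add, UForm.add_right hf, mul_add, Subfield.coe_add]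
    · intro a v x
      apply Subtype.ext
      have ha : σ (a : F) = a := (hfix _).mp a.2
      simp only [coeV_smul, Matrix.mulVec_smul, UForm.smul_right hf, Subfield.coe_mul, smul_eq_mul, ha]
      ring
  have hBalt : B.IsAlt := by
    intro x
    apply Subtype.ext
    rw [hB, halt _ (isRat_coeV x)]
    simp
  have hBnd : B.Nondegenerate := by
    have hL : LinearMap.SeparatingLeft B := by
      intro x hx
      by_contra h0
      have hPx : (P : Matrix ι ι F) *ᵥ coeV x ≠ 0 := by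
        intro h1
        apply h0
        have h2 := inv_mulVec_mulVec P (coeV x)
        rw [h1, Matrix.mulVec_zero] at h2
        apply coeV_injective
        rw [← h2]
        ext i
        simp
      obtain ⟨-, ⟨y, hy⟩⟩ := hf.nondegenerate _ hPx
      apply hy
      apply UForm.refl hf
      apply form_zero_of_rat hf P (F₀ := F₀)
      intro u hu
      obtain ⟨u', rfl⟩ := exists_coeV hu
      have h1 := congrArg (fun a : F₀ => (a : F)) (hx u')
      simp only [hB, ZeroMemClass.coe_zero] at h1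
      have h2 := (mul_eq_zero.mp h1).resolve_left hζ0
      exact UForm.refl hf _ _ h2
    exact (LinearMap.IsRefl.nondegenerate_iff_separatingLeft hBalt.isRefl).2 hL
  -- a scalar outside the subfield
  obtain ⟨ω, hω⟩ : ∃ ω : F, σ ω ≠ ω := by
    by_contra hcon
    push Not at hcon
    apply hf.ne_refl
    ext z
    simpa using hcon z
  have hωF : ω ∉ F₀ := fun h => hω ((hfix ω).mp h)
  have hskew : ∀ x y : ι → F₀, f ((P : Matrix ι ι F) *ᵥ coeV y) ((P : Matrix ι ι F) *ᵥ coeV x) =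
      - f ((P : Matrix ι ι F) *ᵥ coeV x) ((P : Matrix ι ι F) *ᵥ coeV y) := by
    intro x y
    have h1 : (B x y : F) = ζ * f ((P : Matrix ι ι F) *ᵥ coeV x) ((P : Matrix ι ι F) *ᵥ coeV y) := hB x y
    have h2 : σ (B x y : F) = (B x y : F) := (hfix _).mp (B x y).2
    rw [h1, map_mul, hζ, ← hf.herm] at h2
    have : (-ζ) * (f ((P : Matrix ι ι F) *ᵥ coeV y) ((P : Matrix ι ι F) *ᵥ coeV x) +
        f ((P : Matrix ι ι F) *ᵥ coeV x) ((P : Matrix ι ι F) *ᵥ coeV y)) = 0 := by
      linear_combination h2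
    have h3 := (mul_eq_zero.mp this).resolve_left (neg_ne_zero.mpr hζ0)
    exact eq_neg_of_add_eq_zero_left h3
  -- the vectors attached to pairs
  let Z : (ι → F₀) → (ι → F₀) → ι → F := fun x₁ x₂ => (P : Matrix ι ι F) *ᵥ coeV x₁ + ω • (P : Matrix ι ι F) *ᵥ coeV x₂
  have hZ : ∀ x₁ x₂, Z x₁ x₂ = (P : Matrix ι ι F) *ᵥ (coeV x₁ + ω • coeV x₂) := by
    intro x₁ x₂
    rw [Matrix.mulVec_add, Matrix.mulVec_smul]
  have hZZ : ∀ x₁ x₂, f (Z x₁ x₂) (Z x₁ x₂) = 0 ↔ B x₁ x₂ = 0 := by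
    intro x₁ x₂
    have h0 : f (Z x₁ x₂) (Z x₁ x₂) = (σ ω - ω) * f ((P : Matrix ι ι F) *ᵥ coeV x₁) ((P : Matrix ι ι F) *ᵥ coeV x₂) := by
      simp only [Z, hf.add_left, UForm.add_right hf, hf.smul_left, UForm.smul_right hf, halt _ (isRat_coeV _),
        hskew x₁ x₂]
      ring
    rw [h0]
    constructor
    · intro h
      have h1 := (mul_eq_zero.mp h).resolve_left (sub_ne_zero.mpr hω)
      apply Subtype.ext
      rw [hB, h1, mul_zero]
      rfl
    · intro h
      have h1 := congrArg (fun a : F₀ => (a : F)) h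
      simp only [hB, ZeroMemClass.coe_zero] at h1
      rw [(mul_eq_zero.mp h1).resolve_left hζ0, mul_zero]
  -- a pair
  have hpair : ∃ x₁ x₂ : ι → F₀, x₁ ≠ 0 ∧ B x₁ x₂ = 0 ∧ LinearIndependent F₀ ![x₁, x₂] := by
    obtain ⟨i₀, i₁, i₂, h01, h02, h12⟩ : ∃ i₀ i₁ i₂ : ι, i₀ ≠ i₁ ∧ i₀ ≠ i₂ ∧ i₁ ≠ i₂ := by
      have := Fintype.two_lt_card_iff.mp (by omega : 2 < Fintype.card ι)
      obtain ⟨a, b, c, h1, h2, h3⟩ := this
      exact ⟨a, b, c, h1, h2, h3⟩
    let s : ι → ι → F₀ := fun i => Pi.single i 1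
    have hs : ∀ i j, i ≠ j → s i j = 0 := fun i j h => by simp [s, Pi.single_eq_of_ne (Ne.symm h)]
    have hs1 : ∀ i, s i i = 1 := fun i => by simp [s]
    by_cases hab : B (s i₀) (s i₁) = 0
    · refine ⟨s i₀, s i₁, ?_, hab, ?_⟩
      · intro h
        have := congrFun h i₀
        rw [hs1] at this
        exact one_ne_zero this
      · rw [LinearIndependent.pair_iff]
        intro a b h
        have h1 := congrFun h i₀
        have h2 := congrFun h i₁
        simp [hs1, hs i₀ i₁ h01, hs i₁ i₀ (Ne.symm h01)] at h1 h2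
        exact ⟨h1, h2⟩
    · refine ⟨s i₀, B (s i₀) (s i₂) • s i₁ - B (s i₀) (s i₁) • s i₂, ?_, ?_, ?_⟩
      · intro h
        have := congrFun h i₀
        rw [hs1] at this
        exact one_ne_zero this
      · rw [map_sub, map_smul, map_smul]
        simp only [smul_eq_mul]
        ring
      · rw [LinearIndependent.pair_iff]
        intro a b h
        have h1 := congrFun h i₀
        have h2 := congrFun h i₂
        simp [hs1, hs i₀ i₁ h01, hs i₀ i₂ h02, hs i₁ i₀ (Ne.symm h01), hs i₂ i₀ (Ne.symm h02), hs i₁ i₂ h12,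
          hs i₂ i₁ (Ne.symm h12)] at h1 h2
        have hb : b = 0 := by
          rcases h2 with h2 | h2
          · exact h2
          · exact absurd h2 hab
        exact ⟨h1, hb⟩
  have hindep : ∀ x₁ x₂ : ι → F₀, LinearIndependent F₀ ![x₁, x₂] →
      ∀ a b : F, a • coeV x₁ + b • coeV x₂ = 0 → a = 0 ∧ b = 0 := by
    intro x₁ x₂ h a b hab
    have hx₁ : x₁ ≠ 0 := by
      rintro rfl
      have := (LinearIndependent.pair_iff.mp h) 1 0 (by simp)
      exact one_ne_zero this.1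
    obtain ⟨k, hk⟩ : ∃ k, x₁ k ≠ 0 := by
      by_contra hcon
      push Not at hcon
      exact hx₁ (funext hcon)
    obtain ⟨r, hr⟩ : ∃ r : F₀, r = x₂ k / x₁ k := ⟨_, rfl⟩
    obtain ⟨y, hy⟩ : ∃ y, y = x₂ - r • x₁ := ⟨_, rfl⟩
    have hyk : y k = 0 := by
      rw [hy, Pi.sub_apply, Pi.smul_apply, smul_eq_mul, hr]
      field_simp
      simp
    have hy0 : y ≠ 0 := by
      intro h0
      rw [hy, sub_eq_zero] at h0
      have := (LinearIndependent.pair_iff.mp h) (-r) 1 (by rw [neg_smul, one_smul, h0]; simp)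
      exact one_ne_zero this.2
    obtain ⟨l, hl⟩ : ∃ l, y l ≠ 0 := by
      by_contra hcon
      push Not at hcon
      exact hy0 (funext hcon)
    have hx₂ : coeV x₂ = coeV y + (r : F) • coeV x₁ := by
      rw [← coeV_smul, ← coeV_add, hy]
      congr 1
      abel
    rw [hx₂, smul_add, smul_smul] at hab
    have hk' := congrFun hab k
    have hl' := congrFun hab l
    simp only [Pi.add_apply, Pi.smul_apply, smul_eq_mul, coeV_apply, hyk, Pi.zero_apply] at hk' hl'
    have hk1 : ((x₁ k : F₀) : F) ≠ 0 := by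
      simpa using hk
    have hl1 : ((y l : F₀) : F) ≠ 0 := by
      simpa using hl
    have h1 : a + b * r = 0 := by
      have : (a + b * r) * (x₁ k : F) = 0 := by
        simp only [ZeroMemClass.coe_zero, mul_zero, add_zero] at hk'
        linear_combination hk'
      exact (mul_eq_zero.mp this).resolve_right hk1
    have h2 : b = 0 := by
      have : b * (y l : F) = 0 := by
        linear_combination hl' - (x₁ l : F) * h1
      exact (mul_eq_zero.mp this).resolve_right hl1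
    refine ⟨?_, h2⟩
    rw [h2] at h1
    simpa using h1
  have hPinj : ∀ x : ι → F, (P : Matrix ι ι F) *ᵥ x = 0 → x = 0 := by
    intro x h0
    have := inv_mulVec_mulVec P x
    rw [h0, Matrix.mulVec_zero] at this
    exact this.symm
  refine isMaximalIn_of_forall ?_ ?_
  · -- the subgroup is proper
    refine lt_of_le_of_ne inf_le_right ?_
    intro he
    obtain ⟨x₁, x₂, hx₁0, hB0, hli⟩ := hpair
    obtain ⟨κ, hκ0, hκ⟩ := exists_trace_zero σ hf.ne_refl hf.involutive
    have hyy := (hZZ x₁ x₂).mpr hB0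
    have hT : uT hf (Z x₁ x₂) κ hyy ∈ subfieldSubgroup F₀ P ⊓ I := by
      rw [he]
      exact (S.mem_iff _).mpr ⟨uT_isIso hf _ κ hyy hκ, (mem_specialLinear_iff _).mp (uT_mem hf _ κ hyy hκ).2⟩
    obtain ⟨c, hc0, hc⟩ := exists_scalar_of_mem hT.1
    obtain ⟨A, hA⟩ : ∃ A : GL ι F, A = P⁻¹ * uT hf (Z x₁ x₂) κ hyy * P := ⟨_, rfl⟩
    rw [← hA] at hc
    obtain ⟨w, hw⟩ : ∃ w, w = coeV x₁ + ω • coeV x₂ := ⟨_, rfl⟩
    have hPw : Z x₁ x₂ = (P : Matrix ι ι F) *ᵥ w := by
      rw [hw]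
      exact hZ x₁ x₂
    have hw0 : w ≠ 0 := by
      intro h0
      rw [hw] at h0
      have := hindep x₁ x₂ hli 1 ω (by rw [one_smul]; exact h0)
      exact one_ne_zero this.1
    have hAv : ∀ u, (A : Matrix ι ι F) *ᵥ u = u + (f ((P : Matrix ι ι F) *ᵥ u) (Z x₁ x₂) * κ) • w := by
      intro u
      rw [hA]
      simp only [Units.val_mul, ← Matrix.mulVec_mulVec]
      rw [uT_mulVec, Matrix.mulVec_add, inv_mulVec_mulVec, Matrix.mulVec_smul, Matrix.mulVec_smul, hPw,
        inv_mulVec_mulVec, smul_smul]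
    have hcA : ∀ u, IsRat F₀ u → IsRat F₀ (c • ((A : Matrix ι ι F) *ᵥ u)) := by
      intro u hu
      rw [← Matrix.smul_mulVec]
      exact isRat_mulVec (fun i j => hc i j) hu
    have hx₁f : f ((P : Matrix ι ι F) *ᵥ coeV x₁) (Z x₁ x₂) = 0 := by
      have h1 := congrArg (fun a : F₀ => (a : F)) hB0
      simp only [hB, ZeroMemClass.coe_zero] at h1
      have h2 := (mul_eq_zero.mp h1).resolve_left hζ0
      simp only [Z]
      rw [UForm.add_right hf, UForm.smul_right hf, halt _ (isRat_coeV _), h2]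
      simp
    have hcF : c ∈ F₀ := by
      have h1 := hcA _ (isRat_coeV x₁)
      rw [hAv, hx₁f, zero_mul, zero_smul, add_zero] at h1
      obtain ⟨k, hk⟩ : ∃ k, x₁ k ≠ 0 := by
        by_contra hcon
        push Not at hcon
        exact hx₁0 (funext hcon)
      have hk1 : ((x₁ k : F₀) : F) ≠ 0 := by
        simpa using hk
      have h2 := F₀.div_mem (h1 k) (x₁ k).2
      simp only [Pi.smul_apply, smul_eq_mul, coeV_apply] at h2
      rwa [mul_div_cancel_right₀ _ hk1] at h2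
    have hAR : ∀ u, IsRat F₀ u → IsRat F₀ ((A : Matrix ι ι F) *ᵥ u) := by
      intro u hu
      have h1 := (hcA u hu).smul (F₀.inv_mem hcF)
      rwa [smul_smul, inv_mul_cancel₀ hc0, one_smul] at h1
    have hZ0 : Z x₁ x₂ ≠ 0 := by
      rw [hPw]
      intro h0
      exact hw0 (hPinj _ h0)
    obtain ⟨u, hu, huf⟩ : ∃ u, IsRat F₀ u ∧ f ((P : Matrix ι ι F) *ᵥ u) (Z x₁ x₂) ≠ 0 := by
      by_contra hcon
      push Not at hcon
      obtain ⟨-, ⟨y, hy⟩⟩ := hf.nondegenerate _ hZ0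
      apply hy
      exact UForm.refl hf _ _ (form_zero_of_rat hf P (F₀ := F₀) _ hcon y)
    have h1 := (hAR u hu).sub hu
    rw [hAv, add_sub_cancel_left, hw, smul_add, smul_smul] at h1
    have h2 := rat_coeffs (isRat_coeV x₁) (isRat_coeV x₂) (hindep x₁ x₂ hli) h1
    apply hωF
    have h3 := F₀.div_mem h2.2 h2.1
    rwa [mul_div_cancel_left₀ _ (mul_ne_zero huf hκ0)] at h3
  intro M hHM hMI g hgM hgH
  have hpres : ∀ h ∈ M, IsIso f h := fun h hh => ((S.mem_iff h).mp (hMI hh)).1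
  have hg : g ∉ subfieldSubgroup F₀ P := fun hs => hgH ⟨hs, hMI hgM⟩
  -- rational vectors are centres
  have hrat : ∀ x : ι → F₀, (P : Matrix ι ι F) *ᵥ coeV x ∈ cen hf M := by
    intro x
    have hv := halt _ (isRat_coeV x)
    refine ⟨hv, fun a ha => ?_⟩
    apply hHM
    refine ⟨?_, (S.mem_iff _).mpr ⟨uT_isIso hf _ a hv ha, (mem_specialLinear_iff _).mp (uT_mem hf _ a hv ha).2⟩⟩
    apply uT_mem_subfield hf P _ (isRat_coeV x)
    intro u hu
    have h1 : a / ζ ∈ F₀ := by
      rw [hfix, map_div₀, hζ]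
      have : σ a = -a := by linear_combination ha
      rw [this, neg_div_neg_eq]
    have h2 := F₀.mul_mem h1 (hP _ _ hu (isRat_coeV x))
    have h3 : a / ζ * (ζ * f ((P : Matrix ι ι F) *ᵥ u) ((P : Matrix ι ι F) *ᵥ coeV x)) =
        a * f ((P : Matrix ι ι F) *ᵥ u) ((P : Matrix ι ι F) *ᵥ coeV x) := by
      field_simp
    rwa [h3] at h2
  -- transfer of rational isometries
  have htrans : ∀ t ∈ Cfsg.Agent.Lib.Classical.Alt.tGroup B, ∃ h ∈ M, ∀ x : ι → F₀,
      ((h : GL ι F) : Matrix ι ι F) *ᵥ ((P : Matrix ι ι F) *ᵥ coeV x) = (P : Matrix ι ι F) *ᵥ coeV (t x) := by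
    intro t ht
    induction ht using Subgroup.closure_induction with
    | mem t ht =>
      obtain ⟨w, c, hc⟩ := ht
      have hv := halt _ (isRat_coeV w)
      have hσc : σ (c : F) = c := (hfix _).mp c.2
      have hac : (c : F) * ζ + σ ((c : F) * ζ) = 0 := by
        rw [map_mul, hσc, hζ]
        ring
      refine ⟨uT hf _ ((c : F) * ζ) hv, (hrat w).2 _ hac, fun x => ?_⟩
      rw [uT_mulVec, hc, coeV_add, coeV_smul, Matrix.mulVec_add, Matrix.mulVec_smul]
      congr 1
      rw [smul_smul]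
      congr 1
      rw [Subfield.coe_mul, hB]
      ring
    | one =>
      exact ⟨1, M.one_mem, fun x => by simp⟩
    | mul a b _ _ ha hb =>
      obtain ⟨h₁, hh₁, h1⟩ := ha
      obtain ⟨h₂, hh₂, h2⟩ := hb
      refine ⟨h₁ * h₂, M.mul_mem hh₁ hh₂, fun x => ?_⟩
      rw [Units.val_mul, ← Matrix.mulVec_mulVec, h2, h1]
      rfl
    | inv a _ ha =>
      obtain ⟨h₁, hh₁, h1⟩ := ha
      refine ⟨h₁⁻¹, M.inv_mem hh₁, fun x => ?_⟩
      have h2 := h1 (a⁻¹ x)
      have h3 : a (a⁻¹ x) = x := by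
        change (a * a⁻¹) x = x
        rw [mul_inv_cancel]
        rfl
      rw [h3] at h2
      rw [← h2, inv_mulVec_mulVec]
  -- a good pair
  have hpairZ : ∀ {x₁ x₂ : ι → F₀}, ¬ LinearIndependent F₀ ![x₁, x₂] → Z x₁ x₂ ∈ cen hf M := by
    intro x₁ x₂ hdep
    rw [LinearIndependent.pair_iff] at hdep
    push Not at hdep
    obtain ⟨s, t, hst, hne⟩ := hdep
    have hZs : ∀ (x : ι → F₀) (r : F₀), Z (r • x) x = ((r : F) + ω) • ((P : Matrix ι ι F) *ᵥ coeV x) := by
      intro x r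
      simp only [Z]
      rw [coeV_smul, Matrix.mulVec_smul, add_smul]
    have hZt : ∀ (x : ι → F₀) (r : F₀), Z x (r • x) = (1 + ω * (r : F)) • ((P : Matrix ι ι F) *ᵥ coeV x) := by
      intro x r
      simp only [Z]
      rw [coeV_smul, Matrix.mulVec_smul, add_smul, one_smul, mul_smul]
    by_cases hs : s = 0
    · have ht : t ≠ 0 := by
        intro h0
        exact hne hs h0
      rw [hs, zero_smul, zero_add] at hst
      have hx₂ : x₂ = 0 := by
        have h1 := congrArg (fun v => t⁻¹ • v) hst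
        simpa [smul_smul, inv_mul_cancel₀ ht] using h1
      rw [hx₂]
      have h2 := hZt x₁ 0
      rw [zero_smul] at h2
      rw [h2]
      exact cen_smul (hrat x₁) _
    · have hx₁ : x₁ = (-(t / s)) • x₂ := by
        have h1 : s • x₁ = (-t) • x₂ := by
          rw [neg_smul]
          exact eq_neg_of_add_eq_zero_left hst
        have h2 := congrArg (fun v => s⁻¹ • v) h1
        simp only [smul_smul, inv_mul_cancel₀ hs, one_smul] at h2
        rw [h2]
        congr 1
        field_simp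
      rw [hx₁, hZs]
      exact cen_smul (hrat x₂) _
  -- there is a non-rational centre
  obtain ⟨y₁, y₂, hy, hyli⟩ : ∃ y₁ y₂ : ι → F₀, Z y₁ y₂ ∈ cen hf M ∧ LinearIndependent F₀ ![y₁, y₂] := by
    have hne : Nonempty ι := by
      rw [← Fintype.card_pos_iff]
      omega
    by_contra hcon
    apply hg
    apply mem_subfield_of_lines
    intro u hu
    obtain ⟨x, rfl⟩ := exists_coeV hu
    obtain ⟨y₁, y₂, hy⟩ := exists_decomp_vec hf hfix ω hω
      (((P⁻¹ * g * P : GL ι F) : Matrix ι ι F) *ᵥ coeV x)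
    have hgP : (g : Matrix ι ι F) *ᵥ ((P : Matrix ι ι F) *ᵥ coeV x) = Z y₁ y₂ := by
      rw [hZ, ← hy]
      simp only [Units.val_mul, ← Matrix.mulVec_mulVec]
      rw [mulVec_inv_mulVec]
    have hcen : Z y₁ y₂ ∈ cen hf M := by
      rw [← hgP]
      exact cen_mulVec (hrat x) hgM (hpres g hgM)
    have hdep : ¬ LinearIndependent F₀ ![y₁, y₂] := fun h => hcon ⟨y₁, y₂, hcen, h⟩
    rw [LinearIndependent.pair_iff] at hdep
    push Not at hdep
    obtain ⟨s, t, hst, hne'⟩ := hdep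
    have hst' : (s : F) • coeV y₁ + (t : F) • coeV y₂ = 0 := by
      rw [← coeV_smul, ← coeV_smul, ← coeV_add, hst]
      rfl
    by_cases hs : s = 0
    · have ht : t ≠ 0 := fun h0 => hne' hs h0
      have ht' : (t : F) ≠ 0 := by simpa using ht
      rw [hs] at hst'
      have hy₂ : coeV y₂ = 0 := by
        have h1 := congrArg (fun v => (t : F)⁻¹ • v) hst'
        simpa [smul_smul, inv_mul_cancel₀ ht'] using h1
      refine ⟨1, coeV y₁, isRat_coeV _, ?_⟩
      rw [hy, hy₂]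
      simp
    · have hs' : (s : F) ≠ 0 := by simpa using hs
      have hy₁ : coeV y₁ = (-((t : F) / s)) • coeV y₂ := by
        have h1 : (s : F) • coeV y₁ = (-(t : F)) • coeV y₂ := by
          rw [neg_smul]
          exact eq_neg_of_add_eq_zero_left hst'
        have h2 := congrArg (fun v => (s : F)⁻¹ • v) h1
        simp only [smul_smul, inv_mul_cancel₀ hs', one_smul] at h2
        rw [h2]
        congr 1
        field_simp
      refine ⟨-((t : F) / s) + ω, coeV y₂, isRat_coeV _, ?_⟩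
      rw [hy, hy₁, add_smul]
  have hBy : B y₁ y₂ = 0 := (hZZ y₁ y₂).mp (cen_iso hy)
  have hall : ∀ x₁ x₂ : ι → F₀, B x₁ x₂ = 0 → Z x₁ x₂ ∈ cen hf M := by
    intro x₁ x₂ hB0
    by_cases hli : LinearIndependent F₀ ![x₁, x₂]
    · have hgram : ∀ i j : Fin 2, B (![y₁, y₂] i) (![y₁, y₂] j) = B (![x₁, x₂] i) (![x₁, x₂] j) := by
        have h1 : B y₂ y₁ = 0 := by
          rw [Cfsg.Agent.Lib.Classical.Alt.alt_neg hBalt, hBy, neg_zero]
        have h2 : B x₂ x₁ = 0 := by
          rw [Cfsg.Agent.Lib.Classical.Alt.alt_neg hBalt, hB0, neg_zero]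
        intro i j
        fin_cases i <;> fin_cases j <;>
          simp [hBy, hB0, h1, h2, hBalt y₁, hBalt y₂, hBalt x₁, hBalt x₂]
      obtain ⟨t, ht, hty⟩ := Cfsg.Agent.Lib.Classical.Alt.witt_family hBnd hBalt ![y₁, y₂] ![x₁, x₂] hyli hli hgram
      obtain ⟨h, hh, hhP⟩ := htrans t ht
      have h1 := cen_mulVec hy hh (hpres h hh)
      have h2 : ((h : GL ι F) : Matrix ι ι F) *ᵥ Z y₁ y₂ = Z x₁ x₂ := by
        simp only [Z]
        rw [Matrix.mulVec_add, Matrix.mulVec_smul, hhP, hhP]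
        have e1 := hty 0
        have e2 := hty 1
        simp only [Matrix.cons_val_zero, Matrix.cons_val_one] at e1 e2
        rw [e1, e2]
      rwa [h2] at h1
    · exact hpairZ hli
  apply S.gen
  intro v a hv ha
  obtain ⟨x₁, x₂, hx⟩ := exists_decomp_vec hf hfix ω hω (((P⁻¹ : GL ι F) : Matrix ι ι F) *ᵥ v)
  have hv' : v = Z x₁ x₂ := by
    rw [hZ, ← hx, mulVec_inv_mulVec]
  have hB0 : B x₁ x₂ = 0 := (hZZ x₁ x₂).mp (by rw [← hv']; exact hv)
  have h1 := hall x₁ x₂ hB0
  rw [← hv'] at h1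
  exact cen_mem h1 hv a ha

end Symp

/-- The subfield of index two is the fixed field of the Frobenius. -/
theorem mem_subfield_iff_frob [Fintype F] {q : ℕ} (hF : Fintype.card F = q ^ 2) (F₀ : Subfield F)
    (hcard : Fintype.card F = Nat.card F₀ ^ 2) (x : F) : x ∈ F₀ ↔ frobEquiv hF x = x := by
  have hq : Nat.card F₀ = q := by
    have h1 : Nat.card F₀ ^ 2 = q ^ 2 := by rw [← hcard, hF]
    exact Nat.pow_left_injective (n := 2) (by omega) h1
  rw [frobEquiv_apply]
  have hF2 : 1 < Fintype.card F := Fintype.one_lt_card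
  have hq2 : 1 < q := by
    rw [hF] at hF2
    by_contra hcon
    have : q = 0 ∨ q = 1 := by omega
    rcases this with rfl | rfl <;> simp at hF2
  have hpow : ∀ y ∈ F₀, y ^ q = y := by
    intro y hy
    classical
    have : Fintype F₀ := Fintype.ofFinite _
    have := FiniteField.pow_card (⟨y, hy⟩ : F₀)
    rw [← Nat.card_eq_fintype_card, hq] at this
    exact congrArg Subtype.val this
  refine ⟨hpow x, fun hx => ?_⟩
  classical
  let p : Polynomial F := Polynomial.X ^ q - Polynomial.X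
  have hdeg : p.natDegree = q := FiniteField.X_pow_card_sub_X_natDegree_eq F hq2
  have hp0 : p ≠ 0 := FiniteField.X_pow_card_sub_X_ne_zero F hq2
  have hroot : ∀ y, y ∈ p.roots.toFinset ↔ y ^ q = y := by
    intro y
    rw [Multiset.mem_toFinset, Polynomial.mem_roots hp0]
    simp [p, Polynomial.IsRoot, sub_eq_zero]
  have : Fintype F₀ := Fintype.ofFinite _
  let S : Finset F := Finset.univ.image (fun y : F₀ => (y : F))
  have hS : S ⊆ p.roots.toFinset := by
    intro y hy
    obtain ⟨z, -, rfl⟩ := Finset.mem_image.mp hy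
    exact (hroot _).mpr (hpow _ z.2)
  have hScard : S.card = q := by
    rw [Finset.card_image_of_injective _ Subtype.val_injective, Finset.card_univ,
      ← Nat.card_eq_fintype_card, hq]
  have hle : p.roots.toFinset.card ≤ S.card := by
    rw [hScard]
    calc p.roots.toFinset.card ≤ Multiset.card p.roots := Multiset.toFinset_card_le _
      _ ≤ p.natDegree := Polynomial.card_roots' p
      _ = q := hdeg
  have heq := Finset.eq_of_subset_of_card_le hS hle
  have h1 : x ∈ S := by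
    rw [heq]
    exact (hroot x).mpr hx
  obtain ⟨z, -, rfl⟩ := Finset.mem_image.mp h1
  exact z.2

end Cfsg.Agent.Lib.Geo.SUSymp
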