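/-
The subfield group is maximal in the symplectic group.
-/
import Cfsg.Agent.Lib.Geo.SpBase
import Cfsg.Agent.Lib.Geo.SUSymp
import Cfsg.Agent.Lib.Geo.DicksonGen
set_option autoImplicit false

namespace Cfsg.Agent.Lib.Geo.SpSub

open Cfsg Cfsg.Geo Cfsg.Agent.Lib.Geo.Basic Cfsg.Agent.Lib.Geo.Parabolic Cfsg.Agent.Lib.Geo.Centres
open Cfsg.Agent.Lib.Geo.Polar Cfsg.Agent.Lib.Geo.QForm Cfsg.Agent.Lib.Geo.SympInSL
open Cfsg.Agent.Lib.Geo.SpBase Cfsg.Agent.Lib.Geo.RatStruct Cfsg.Agent.Lib.Geo.DicksonGen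
open Cfsg.Agent.Lib.Geo.SUSymp (coeV coeV_apply coeV_add coeV_smul isRat_coeV exists_coeV coeV_injective)
open scoped MatrixGroups Matrix

variable {ι : Type} [Fintype ι] [DecidableEq ι] {F : Type*} [Field F]
variable {f : (ι → F) → (ι → F) → F} {F₀ : Subfield F}

/-! ### The form and the standard basis -/

theorem form_sum_left' (hf : IsSymplecticForm f) {κ : Type*} (s : Finset κ) (c : κ → ι → F) (v : ι → F) :
    f (∑ i ∈ s, c i) v = ∑ i ∈ s, f (c i) v := by
  classical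
  induction s using Finset.induction_on with
  | empty => simpa using (isPolar hf).zero_left v
  | insert a s ha ih => rw [Finset.sum_insert ha, Finset.sum_insert ha, hf.bilinear.add_left, ih]

theorem eq_sum_single (x : ι → F) : x = ∑ i, x i • (Pi.single i 1 : ι → F) := by
  ext k
  simp [Finset.sum_apply, Pi.single_apply]

theorem form_zero_of_single (hf : IsSymplecticForm f) {y : ι → F}
    (h : ∀ i, f (Pi.single i 1) y = 0) (x : ι → F) : f x y = 0 := by
  rw [eq_sum_single x, form_sum_left' hf]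
  refine Finset.sum_eq_zero fun i _ => ?_
  rw [hf.bilinear.smul_left, h, mul_zero]

theorem eq_zero_of_single (hf : IsSymplecticForm f) {y : ι → F}
    (h : ∀ i, f (Pi.single i 1) y = 0) : y = 0 := by
  by_contra h0
  obtain ⟨x, hx⟩ := (hf.nondegenerate y h0).1
  exact hx (form_zero_of_single hf h x)

theorem eq_of_single (hf : IsSymplecticForm f) {y z : ι → F}
    (h : ∀ i, f (Pi.single i 1) y = f (Pi.single i 1) z) : y = z := by
  have := eq_zero_of_single hf (y := y - z) (fun i => by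
    rw [(isPolar hf).sub_right, h, sub_self])
  exact sub_eq_zero.mp this

/-! ### The rational form -/

/-- The rational form on the rational vectors. -/
def fo (hrat : ∀ u v : ι → F, IsRat F₀ u → IsRat F₀ v → f u v ∈ F₀) (u v : ι → F₀) : F₀ :=
  ⟨f (coeV u) (coeV v), hrat _ _ (isRat_coeV u) (isRat_coeV v)⟩

theorem coe_fo (hrat : ∀ u v : ι → F, IsRat F₀ u → IsRat F₀ v → f u v ∈ F₀) (u v : ι → F₀) :
    (fo hrat u v : F) = f (coeV u) (coeV v) := rfl

theorem coeV_single (i : ι) : coeV (Pi.single i 1 : ι → F₀) = (Pi.single i 1 : ι → F) := by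
  ext j
  by_cases h : j = i
  · subst h
    simp
  · simp [Pi.single_eq_of_ne h]

theorem coeV_zero : coeV (0 : ι → F₀) = (0 : ι → F) := by
  ext j
  simp

theorem isSymp_fo (hf : IsSymplecticForm f)
    (hrat : ∀ u v : ι → F, IsRat F₀ u → IsRat F₀ v → f u v ∈ F₀) : IsSymplecticForm (fo hrat) where
  bilinear :=
    { add_left := fun x y v => by
        apply Subtype.ext
        simp only [coe_fo, coeV_add, hf.bilinear.add_left, Subfield.coe_add]
      smul_left := fun c x v => by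
        apply Subtype.ext
        simp only [coe_fo, coeV_smul, hf.bilinear.smul_left, Subfield.coe_mul]
      add_right := fun v x y => by
        apply Subtype.ext
        simp only [coe_fo, coeV_add, hf.bilinear.add_right, Subfield.coe_add]
      smul_right := fun c v x => by
        apply Subtype.ext
        simp only [coe_fo, coeV_smul, hf.bilinear.smul_right, Subfield.coe_mul] }
  skew := fun v w => by
    apply Subtype.ext
    simp only [coe_fo, Subfield.coe_neg]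
    exact hf.skew _ _
  alternating := fun v => by
    apply Subtype.ext
    simp only [coe_fo, hf.alternating, ZeroMemClass.coe_zero]
  nondegenerate := fun y hy => by
    have hy' : coeV y ≠ 0 := by
      intro h
      apply hy
      apply coeV_injective
      rw [h, coeV_zero]
    have key : ∃ i, f (Pi.single i 1) (coeV y) ≠ 0 := by
      by_contra hcon
      push Not at hcon
      exact hy' (eq_zero_of_single hf hcon)
    obtain ⟨i, hi⟩ := key
    have h1 : fo hrat (Pi.single i 1) y ≠ 0 := by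
      intro h
      apply hi
      have := congrArg (fun a : F₀ => (a : F)) h
      simpa only [coe_fo, coeV_single, ZeroMemClass.coe_zero] using this
    have h2 : fo hrat y (Pi.single i 1) ≠ 0 := by
      intro h
      apply hi
      have := congrArg (fun a : F₀ => (a : F)) h
      simp only [coe_fo, coeV_single, ZeroMemClass.coe_zero] at this
      rw [hf.skew, this, neg_zero]
    exact ⟨⟨_, h1⟩, ⟨_, h2⟩⟩

section Rational

variable [Finite F]

/-- Rational hyperbolic pairs orthogonal to finitely many rational vectors. -/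
theorem rat_hyperbolic (hf : IsSymplecticForm f)
    (hrat : ∀ u v : ι → F, IsRat F₀ u → IsRat F₀ v → f u v ∈ F₀) {k : ℕ} (S : Fin k → ι → F)
    (hS : ∀ i, IsRat F₀ (S i)) (hn : 2 * k + 3 ≤ Fintype.card ι) :
    ∃ p q : ι → F, IsRat F₀ p ∧ IsRat F₀ q ∧ (∀ i, f p (S i) = 0) ∧ (∀ i, f q (S i) = 0) ∧ f p q = 1 := by
  have hS' := fun i => exists_coeV (hS i)
  choose S₀ hS₀ using hS'
  have P := isPolar (isSymp_fo hf hrat)
  haveI : Finite F₀ := Finite.of_injective (fun x : F₀ => (x : F)) Subtype.val_injective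
  obtain ⟨p, q, hp, hq, -, -, hpq⟩ := P.exists_hyperbolic S₀ hn
  rw [P.mem_perp] at hp hq
  refine ⟨coeV p, coeV q, isRat_coeV p, isRat_coeV q, fun i => ?_, fun i => ?_, ?_⟩
  · have := congrArg (fun a : F₀ => (a : F)) (hp i)
    simpa only [coe_fo, hS₀, ZeroMemClass.coe_zero] using this
  · have := congrArg (fun a : F₀ => (a : F)) (hq i)
    simpa only [coe_fo, hS₀, ZeroMemClass.coe_zero] using this
  · have := congrArg (fun a : F₀ => (a : F)) hpq
    simpa only [coe_fo, OneMemClass.coe_one] using this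

/-- Rational functionals are represented by rational vectors. -/
theorem rat_realize (hf : IsSymplecticForm f)
    (hrat : ∀ u v : ι → F, IsRat F₀ u → IsRat F₀ v → f u v ∈ F₀) (φ : ι → F) (hφ : IsRat F₀ φ) :
    ∃ y : ι → F, IsRat F₀ y ∧ ∀ i, f (Pi.single i 1) y = φ i := by
  obtain ⟨φ₀, rfl⟩ := exists_coeV hφ
  haveI : Finite F₀ := Finite.of_injective (fun x : F₀ => (x : F)) Subtype.val_injective
  obtain ⟨y, hy⟩ := formVec_surjective (isSymp_fo hf hrat) φ₀
  refine ⟨coeV y, isRat_coeV y, fun i => ?_⟩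
  have := congrFun hy i
  have h2 := congrArg (fun a : F₀ => (a : F)) this
  simp only [formVec, coe_fo, coeV_single] at h2
  rw [h2]
  rfl

/-- Rational separation: a rational vector outside the line of another one. -/
theorem rat_dual (hf : IsSymplecticForm f)
    (hrat : ∀ u v : ι → F, IsRat F₀ u → IsRat F₀ v → f u v ∈ F₀) {p w : ι → F} (hp : IsRat F₀ p)
    (hw : IsRat F₀ w) (h : ∀ c ∈ F₀, p ≠ c • w) :
    ∃ y : ι → F, IsRat F₀ y ∧ f y w = 0 ∧ f p y = 1 := by
  obtain ⟨p₀, rfl⟩ := exists_coeV hp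
  obtain ⟨w₀, rfl⟩ := exists_coeV hw
  haveI : Finite F₀ := Finite.of_injective (fun x : F₀ => (x : F)) Subtype.val_injective
  have P := isPolar (isSymp_fo hf hrat)
  have hmem : p₀ ∉ Submodule.span F₀ (Set.range ![w₀]) := by
    intro hm
    have : Set.range ![w₀] = {w₀} := by
      ext x
      simp [eq_comm]
    rw [this, Submodule.mem_span_singleton] at hm
    obtain ⟨c, hc⟩ := hm
    apply h c c.2
    rw [← hc, coeV_smul]
  obtain ⟨y, hy, hpy⟩ := P.exists_perp_ne_zero ![w₀] p₀ hmem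
  rw [P.mem_perp] at hy
  refine ⟨coeV y, isRat_coeV y, ?_, ?_⟩
  · have := congrArg (fun a : F₀ => (a : F)) (hy 0)
    simpa only [coe_fo, Matrix.cons_val_zero, ZeroMemClass.coe_zero] using this
  · have := congrArg (fun a : F₀ => (a : F)) hpy
    simpa only [coe_fo, OneMemClass.coe_one] using this

end Rational

/-! ### Transvections and root elements -/

theorem sympT_add (hf : IsSymplecticForm f) (v : ι → F) (a b : F) :
    sympT hf v (a + b) = sympT hf v a * sympT hf v b := by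
  apply gl_ext_mulVec
  intro x
  rw [Units.val_mul, ← Matrix.mulVec_mulVec, sympT_mulVec, sympT_mulVec, sympT_mulVec,
    hf.bilinear.add_left, hf.bilinear.smul_left, hf.bilinear.smul_left, hf.alternating]
  module

theorem sympT_zero (hf : IsSymplecticForm f) (v : ι → F) : sympT hf v 0 = 1 := by
  apply gl_ext_mulVec
  intro x
  rw [sympT_mulVec]
  simp

theorem sympT_neg (hf : IsSymplecticForm f) (v : ι → F) (a : F) :
    sympT hf v (-a) = (sympT hf v a)⁻¹ := by
  apply eq_inv_of_mul_eq_one_left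
  rw [← sympT_add, neg_add_cancel, sympT_zero]

/-- The root element `x ↦ x + c f(x, b) a + c f(x, a) b`. -/
noncomputable def eE (hf : IsSymplecticForm f) (a b : ι → F) (c : F) : GL ι F :=
  sympT hf (a + b) c * sympT hf a (-c) * sympT hf b (-c)

theorem eE_mulVec (hf : IsSymplecticForm f) {a b : ι → F} (h : f a b = 0) (c : F) (x : ι → F) :
    ((eE hf a b c : GL ι F) : Matrix ι ι F) *ᵥ x = x + (c * f x b) • a + (c * f x a) • b := by
  have h' : f b a = 0 := form_comm_eq hf h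
  have hb := hf.bilinear
  simp only [eE, Units.val_mul, ← Matrix.mulVec_mulVec, sympT_mulVec, hb.add_left, hb.smul_left,
    hb.add_right, hb.smul_right, hf.alternating, h, h']
  module

theorem eE_add (hf : IsSymplecticForm f) {a b : ι → F} (h : f a b = 0) (c d : F) :
    eE hf a b (c + d) = eE hf a b c * eE hf a b d := by
  have h' : f b a = 0 := form_comm_eq hf h
  have hb := hf.bilinear
  apply gl_ext_mulVec
  intro x
  simp only [Units.val_mul, ← Matrix.mulVec_mulVec, eE_mulVec hf h, hb.add_left, hb.smul_left,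
    hb.add_right, hb.smul_right, hf.alternating, h, h']
  module

theorem conj_eE (hf : IsSymplecticForm f) (g : GL ι F)
    (hg : ∀ u v, f ((g : Matrix ι ι F) *ᵥ u) ((g : Matrix ι ι F) *ᵥ v) = f u v) (a b : ι → F) (c : F) :
    g * eE hf a b c * g⁻¹ = eE hf ((g : Matrix ι ι F) *ᵥ a) ((g : Matrix ι ι F) *ᵥ b) c := by
  simp only [eE]
  rw [← conj_sympT hf g hg, ← conj_sympT hf g hg, ← Matrix.mulVec_add, ← conj_sympT hf g hg]
  group

/-- The data of the proof: a group of isometries containing the rational transvections. -/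
structure Sys (hf : IsSymplecticForm f) (F₀ : Subfield F) (M : Subgroup (GL ι F)) : Prop where
  rat : ∀ u v : ι → F, IsRat F₀ u → IsRat F₀ v → f u v ∈ F₀
  pres : ∀ g ∈ M, ∀ u v, f ((g : Matrix ι ι F) *ᵥ u) ((g : Matrix ι ι F) *ᵥ v) = f u v
  mem : ∀ (a : ι → F) (c : F), IsRat F₀ a → c ∈ F₀ → sympT hf a c ∈ M

variable {hf : IsSymplecticForm f} {M : Subgroup (GL ι F)}

theorem Sys.conj (S : Sys hf F₀ M) {g : GL ι F} (hg : g ∈ M) {v : ι → F} {c : F}
    (h : sympT hf v c ∈ M) : sympT hf ((g : Matrix ι ι F) *ᵥ v) c ∈ M := by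
  rw [← conj_sympT hf g (S.pres g hg)]
  exact M.mul_mem (M.mul_mem hg h) (M.inv_mem hg)

theorem Sys.conjE (S : Sys hf F₀ M) {g : GL ι F} (hg : g ∈ M) {a b : ι → F} {c : F}
    (h : eE hf a b c ∈ M) : eE hf ((g : Matrix ι ι F) *ᵥ a) ((g : Matrix ι ι F) *ᵥ b) c ∈ M := by
  rw [← conj_eE hf g (S.pres g hg)]
  exact M.mul_mem (M.mul_mem hg h) (M.inv_mem hg)

theorem Sys.memE (S : Sys hf F₀ M) {a b : ι → F} (ha : IsRat F₀ a) (hb : IsRat F₀ b) {c : F}
    (hc : c ∈ F₀) : eE hf a b c ∈ M :=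
  M.mul_mem (M.mul_mem (S.mem _ _ (ha.add hb) hc) (S.mem _ _ ha (F₀.neg_mem hc))) (S.mem _ _ hb (F₀.neg_mem hc))

theorem Sys.form_single (S : Sys hf F₀ M) {a : ι → F} (ha : IsRat F₀ a) (i : ι) :
    f a (Pi.single i 1) ∈ F₀ := S.rat _ _ ha (isRat_single i)

section Move

variable [Finite F]

theorem Sys.exists_dual (S : Sys hf F₀ M) {a : ι → F} (ha : IsRat F₀ a) (ha0 : a ≠ 0) :
    ∃ b, IsRat F₀ b ∧ f a b = 1 := by
  obtain ⟨y, hy, -, h⟩ := rat_dual hf S.rat ha (isRat_zero) (w := 0) (fun c _ => by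
    rw [smul_zero]
    exact ha0)
  exact ⟨y, hy, h⟩

/-- A rational vector orthogonal to a rational vector but not to some vector off its line. -/
theorem Sys.exists_perp (S : Sys hf F₀ M) {a x : ι → F} (ha : IsRat F₀ a) (ha0 : a ≠ 0)
    (hx : ∀ l : F, x ≠ l • a) : ∃ b, IsRat F₀ b ∧ f a b = 0 ∧ f x b ≠ 0 := by
  obtain ⟨a', ha', haa'⟩ := S.exists_dual ha ha0
  by_contra hcon
  push Not at hcon
  apply hx (f x a')
  apply eq_of_single hf
  intro i
  have h1 := hcon (Pi.single i 1 - f a (Pi.single i 1) • a')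
    ((isRat_single i).sub (ha'.smul (S.form_single ha i))) (by
      rw [(isPolar hf).sub_right, hf.bilinear.smul_right, haa', mul_one, sub_self])
  rw [(isPolar hf).sub_right, hf.bilinear.smul_right] at h1
  rw [hf.bilinear.smul_right, hf.skew, sub_eq_zero.mp h1, hf.skew _ a]
  ring

/-- Once all rational vectors are centres, all vectors are. -/
theorem Sys.centres_of_rat (S : Sys hf F₀ M) (h : ∀ a, IsRat F₀ a → a ∈ centres hf M) (v : ι → F) :
    v ∈ centres hf M := by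
  have step : ∀ x ∈ centres hf M, ∀ (j : ι) (τ : F), x + τ • Pi.single j 1 ∈ centres hf M := by
    intro x hx j τ
    obtain ⟨a, ha⟩ : ∃ a : ι → F, a = Pi.single j 1 := ⟨_, rfl⟩
    rw [← ha]
    have haR : IsRat F₀ a := by
      rw [ha]
      exact isRat_single j
    have ha0 : a ≠ 0 := by
      rw [ha]
      intro h0
      have := congrFun h0 j
      simp at this
    by_cases hxa : f x a = 0
    · by_cases hl : ∃ l : F, x = l • a
      · obtain ⟨l, rfl⟩ := hl
        rw [← add_smul]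
        exact centres_smul hf (h a haR) _
      · push Not at hl
        obtain ⟨b, hbR, hab, hxb⟩ := S.exists_perp haR ha0 hl
        obtain ⟨c, hc⟩ : ∃ c, c = τ / f x b := ⟨_, rfl⟩
        have hE : eE hf a b c ∈ M := M.mul_mem (M.mul_mem (h _ (haR.add hbR) _) (h _ haR _)) (h _ hbR _)
        have h1 := centres_mulVec hf hx hE (S.pres _ hE)
        rw [eE_mulVec hf hab, hxa, mul_zero, zero_smul, add_zero] at h1
        have h2 : c * f x b = τ := by
          rw [hc]
          field_simp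
        rwa [h2] at h1
    · exact centres_add_smul hf (h a haR) hx hxa τ
  have key : ∀ s : Finset ι, ∑ i ∈ s, v i • (Pi.single i 1 : ι → F) ∈ centres hf M := by
    intro s
    induction s using Finset.induction_on with
    | empty => simpa using centres_zero hf M
    | insert a s ha ih =>
      rw [Finset.sum_insert ha, add_comm]
      exact step _ ih _ _
  have := key Finset.univ
  rwa [← eq_sum_single] at this

theorem sympT_move (hf : IsSymplecticForm f) {a a' : ι → F} (h : f a a' ≠ 0) :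
    ((sympT hf (a - a') (f a a')⁻¹ : GL ι F) : Matrix ι ι F) *ᵥ a = a' := by
  rw [sympT_mulVec, (isPolar hf).sub_right, hf.alternating, zero_sub, smul_smul, neg_mul,
    mul_inv_cancel₀ h, neg_smul, one_smul]
  abel

theorem Sys.exists_common (S : Sys hf F₀ M) {a a' : ι → F} (ha : IsRat F₀ a) (ha0 : a ≠ 0)
    (ha' : IsRat F₀ a') (ha'0 : a' ≠ 0) : ∃ b, IsRat F₀ b ∧ f a b ≠ 0 ∧ f a' b ≠ 0 := by
  obtain ⟨y₁, hy₁, h1⟩ := S.exists_dual ha ha0
  obtain ⟨y₂, hy₂, h2⟩ := S.exists_dual ha' ha'0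
  by_cases h3 : f a' y₁ = 0
  · by_cases h4 : f a y₂ = 0
    · refine ⟨y₁ + y₂, hy₁.add hy₂, ?_, ?_⟩
      · rw [hf.bilinear.add_right, h1, h4, add_zero]
        exact one_ne_zero
      · rw [hf.bilinear.add_right, h2, h3, zero_add]
        exact one_ne_zero
    · exact ⟨y₂, hy₂, h4, by rw [h2]; exact one_ne_zero⟩
  · exact ⟨y₁, hy₁, by rw [h1]; exact one_ne_zero, h3⟩

/-- Transitivity on non-zero rational vectors. -/
theorem Sys.move (S : Sys hf F₀ M) {a a' : ι → F} (ha : IsRat F₀ a) (ha0 : a ≠ 0)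
    (ha' : IsRat F₀ a') (ha'0 : a' ≠ 0) : ∃ k ∈ M, (k : Matrix ι ι F) *ᵥ a = a' := by
  have one : ∀ {p q : ι → F}, IsRat F₀ p → IsRat F₀ q → f p q ≠ 0 → ∃ k ∈ M, (k : Matrix ι ι F) *ᵥ p = q :=
    fun {p q} hp hq h => ⟨_, S.mem _ _ (hp.sub hq) (F₀.inv_mem (S.rat _ _ hp hq)), sympT_move hf h⟩
  by_cases h : f a a' = 0
  · obtain ⟨b, hb, h1, h2⟩ := S.exists_common ha ha0 ha' ha'0
    obtain ⟨k₁, hk₁, e₁⟩ := one ha hb h1
    obtain ⟨k₂, hk₂, e₂⟩ := one hb ha' (form_comm_ne hf h2)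
    refine ⟨k₂ * k₁, M.mul_mem hk₂ hk₁, ?_⟩
    rw [Units.val_mul, ← Matrix.mulVec_mulVec, e₁, e₂]
  · exact one ha ha' h

end Move

/-! ### Subgroups of `SL₂` realised on a section -/

/-- The subgroup of `SL₂` realised on a pair of functions on a stable set. -/
def repD (M : Subgroup (GL ι F)) (D : Set (ι → F)) (φ ψ : (ι → F) → F) : Subgroup (SL(2, F)) where
  carrier := {A | ∃ k ∈ M, (∀ x, (k : Matrix ι ι F) *ᵥ x ∈ D ↔ x ∈ D) ∧ ∀ x ∈ D,
    φ ((k : Matrix ι ι F) *ᵥ x) = (A : Matrix (Fin 2) (Fin 2) F) 0 0 * φ x + (A : Matrix (Fin 2) (Fin 2) F) 0 1 * ψ x ∧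
    ψ ((k : Matrix ι ι F) *ᵥ x) = (A : Matrix (Fin 2) (Fin 2) F) 1 0 * φ x + (A : Matrix (Fin 2) (Fin 2) F) 1 1 * ψ x}
  mul_mem' := by
    rintro A B ⟨k, hk, hkD, hA⟩ ⟨l, hl, hlD, hB⟩
    refine ⟨k * l, M.mul_mem hk hl, fun x => ?_, fun x hx => ?_⟩
    · rw [Units.val_mul, ← Matrix.mulVec_mulVec, hkD, hlD]
    have hmul : ∀ i j, ((A * B : SL(2, F)) : Matrix (Fin 2) (Fin 2) F) i j =
        (A : Matrix (Fin 2) (Fin 2) F) i 0 * (B : Matrix (Fin 2) (Fin 2) F) 0 j +
          (A : Matrix (Fin 2) (Fin 2) F) i 1 * (B : Matrix (Fin 2) (Fin 2) F) 1 j := by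
      intro i j
      rw [Matrix.SpecialLinearGroup.coe_mul, Matrix.mul_apply, Fin.sum_univ_two]
    simp only [Units.val_mul, ← Matrix.mulVec_mulVec]
    have hlx : (l : Matrix ι ι F) *ᵥ x ∈ D := (hlD x).mpr hx
    rw [(hA _ hlx).1, (hA _ hlx).2, (hB x hx).1, (hB x hx).2, hmul, hmul, hmul, hmul]
    constructor <;> ring
  one_mem' := by
    refine ⟨1, M.one_mem, fun x => by simp, fun x _ => ?_⟩
    simp
  inv_mem' := by
    rintro A ⟨k, hk, hkD, hA⟩
    refine ⟨k⁻¹, M.inv_mem hk, fun x => ?_, fun x hx => ?_⟩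
    · rw [← hkD, mulVec_inv_mulVec]
    have hdet : (A : Matrix (Fin 2) (Fin 2) F) 0 0 * (A : Matrix (Fin 2) (Fin 2) F) 1 1 -
        (A : Matrix (Fin 2) (Fin 2) F) 0 1 * (A : Matrix (Fin 2) (Fin 2) F) 1 0 = 1 := by
      have := A.2
      rwa [Matrix.det_fin_two] at this
    have hy : ((k⁻¹ : GL ι F) : Matrix ι ι F) *ᵥ x ∈ D := by
      rw [← hkD, mulVec_inv_mulVec]
      exact hx
    have h1 := hA (((k⁻¹ : GL ι F) : Matrix ι ι F) *ᵥ x) hy
    rw [mulVec_inv_mulVec] at h1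
    obtain ⟨e1, e2⟩ := h1
    obtain ⟨a, ha⟩ : ∃ a, a = φ (((k⁻¹ : GL ι F) : Matrix ι ι F) *ᵥ x) := ⟨_, rfl⟩
    obtain ⟨b, hb⟩ : ∃ b, b = ψ (((k⁻¹ : GL ι F) : Matrix ι ι F) *ᵥ x) := ⟨_, rfl⟩
    rw [← ha, ← hb] at e1 e2
    have hinv : ((A⁻¹ : SL(2, F)) : Matrix (Fin 2) (Fin 2) F) = !![(A : Matrix (Fin 2) (Fin 2) F) 1 1,
        -(A : Matrix (Fin 2) (Fin 2) F) 0 1; -(A : Matrix (Fin 2) (Fin 2) F) 1 0, (A : Matrix (Fin 2) (Fin 2) F) 0 0] :=
      (Matrix.SpecialLinearGroup.coe_inv A).trans (Matrix.adjugate_fin_two _)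
    rw [← ha, ← hb]
    simp only [hinv, Matrix.of_apply, Matrix.cons_val', Matrix.cons_val_zero, Matrix.cons_val_one, Matrix.cons_val_fin_one]
    constructor
    · rw [e1, e2]
      linear_combination (-a) * hdet
    · rw [e1, e2]
      linear_combination (-b) * hdet

/-- The torus on a section. -/
theorem exists_torus [Fintype F] {r : ℕ} (hr : r.Prime) (hcard : Fintype.card F = Nat.card F₀ ^ r)
    (B : AddSubgroup F) (hB : ∀ c ∈ F₀, ∀ b ∈ B, c * b ∈ B) {b₁ b₂ : F} (hb₁ : b₁ ∈ B) (hb₁0 : b₁ ≠ 0)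
    (hb₂ : b₂ ∈ B) (hb₂' : ∀ c ∈ F₀, b₂ ≠ c * b₁) {D : Set (ι → F)} {φ ψ : (ι → F) → F}
    (hU : sU 1 ∈ repD M D φ ψ) (hL : ∀ b ∈ B, sL b ∈ repD M D φ ψ) (y : F) (hy : y ≠ 0) :
    ∃ k ∈ M, ∃ ε : F, ε ^ 2 = 1 ∧ (∀ x, (k : Matrix ι ι F) *ᵥ x ∈ D ↔ x ∈ D) ∧ ∀ x ∈ D,
      φ ((k : Matrix ι ι F) *ᵥ x) = (ε * y) * φ x ∧ ψ ((k : Matrix ι ι F) *ᵥ x) = (ε * y⁻¹) * ψ x := by
  rcases sl_top F₀ hr hcard B hB hb₁ hb₁0 hb₂ hb₂' (repD M D φ ψ) hU hL (sD y hy) with
    ⟨k, hk, hkD, h⟩ | ⟨k, hk, hkD, h⟩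
  · refine ⟨k, hk, 1, by ring, hkD, fun x hx => ?_⟩
    have := h x hx
    simpa [sD] using this
  · refine ⟨k, hk, -1, by ring, hkD, fun x hx => ?_⟩
    have hm : ((-(sD y hy) : SL(2, F)) : Matrix (Fin 2) (Fin 2) F) = -((sD y hy : SL(2, F)) : Matrix (Fin 2) (Fin 2) F) :=
      Matrix.SpecialLinearGroup.coe_neg _
    have := h x hx
    rw [hm] at this
    simpa [sD] using this

/-! ### Squares -/

theorem exists_sq_sub_sq [Finite F] (F₀ : Subfield F) {c : F} (hc : c ∈ F₀) :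
    ∃ y ∈ F₀, ∃ z ∈ F₀, c = y * y - z * z := by
  by_cases h2 : (2 : F) = 0
  · have h3 : (2 : F₀) = 0 := (map_eq_zero F₀.subtype).mp (by rw [map_ofNat]; exact h2)
    haveI : CharP F₀ 2 := CharTwo.of_one_ne_zero_of_two_eq_zero one_ne_zero h3
    haveI : Finite F₀ := Finite.of_injective (fun x : F₀ => (x : F)) Subtype.val_injective
    haveI : Fintype F₀ := Fintype.ofFinite _
    obtain ⟨y, hy⟩ := FiniteField.isSquare_of_char_two (ringChar.eq F₀ 2) (⟨c, hc⟩ : F₀)
    refine ⟨y, y.2, 0, F₀.zero_mem, ?_⟩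
    have := congrArg (fun a : F₀ => (a : F)) hy
    simp only [Subfield.coe_mul] at this
    rw [this]
    ring
  · refine ⟨(c + 1) / 2, F₀.div_mem (F₀.add_mem hc F₀.one_mem) (by
      have : (2 : F) = 1 + 1 := by norm_num
      rw [this]
      exact F₀.add_mem F₀.one_mem F₀.one_mem), (c - 1) / 2, F₀.div_mem (F₀.sub_mem hc F₀.one_mem) (by
      have : (2 : F) = 1 + 1 := by norm_num
      rw [this]
      exact F₀.add_mem F₀.one_mem F₀.one_mem), ?_⟩
    field_simp
    ring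

theorem exists_sq_sub_sq' [Finite F] (c : F) : ∃ y z : F, c = y * y - z * z := by
  obtain ⟨y, -, z, -, h⟩ := exists_sq_sub_sq (⊤ : Subfield F) (Subfield.mem_top c)
  exact ⟨y, z, h⟩

/-! ### The core -/

/-- The transvection parameters of a vector. -/
def parA (hf : IsSymplecticForm f) (M : Subgroup (GL ι F)) (a : ι → F) : AddSubgroup F where
  carrier := {c | sympT hf a c ∈ M}
  add_mem' {x y} hx hy := by
    change sympT hf a (x + y) ∈ M
    rw [sympT_add]
    exact M.mul_mem hx hy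
  zero_mem' := by
    change sympT hf a 0 ∈ M
    rw [sympT_zero]
    exact M.one_mem
  neg_mem' {x} hx := by
    change sympT hf a (-x) ∈ M
    rw [sympT_neg]
    exact M.inv_mem hx

theorem mem_parA (a : ι → F) (c : F) : c ∈ parA hf M a ↔ sympT hf a c ∈ M := Iff.rfl

/-- **The core**: a rational centre with a non-rational parameter gives everything. -/
theorem Sys.core [Fintype F] (S : Sys hf F₀ M) {r : ℕ} (hr : r.Prime) (hcard : Fintype.card F = Nat.card F₀ ^ r)
    {a : ι → F} (ha : IsRat F₀ a) (ha0 : a ≠ 0) {c : F} (hc : c ∉ F₀) (hT : sympT hf a c ∈ M) :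
    ∀ a', IsRat F₀ a' → a' ∈ centres hf M := by
  obtain ⟨b, hb, hab⟩ := S.exists_dual ha ha0
  have hb0 : b ≠ 0 := by
    rintro rfl
    rw [(isPolar hf).zero_right] at hab
    exact zero_ne_one hab
  have hba : f b a = -1 := by rw [hf.skew, hab]
  -- closure under the subfield
  have hsq : ∀ l ∈ F₀, ∀ x ∈ parA hf M a, l * l * x ∈ parA hf M a := by
    intro l hl x hx
    by_cases hl0 : l = 0
    · subst hl0
      simpa using (parA hf M a).zero_mem
    obtain ⟨k, hk, e⟩ := S.move ha ha0 (ha.smul hl) (smul_ne_zero hl0 ha0)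
    have h1 := S.conj hk hx
    rwa [e, sympT_smul] at h1
  have hcl : ∀ l ∈ F₀, ∀ x ∈ parA hf M a, l * x ∈ parA hf M a := by
    intro l hl x hx
    obtain ⟨y, hy, z, hz, e⟩ := exists_sq_sub_sq F₀ hl
    rw [e, sub_mul]
    exact (parA hf M a).sub_mem (hsq y hy x hx) (hsq z hz x hx)
  have h1mem : (1 : F) ∈ parA hf M a := S.mem a 1 ha F₀.one_mem
  -- the representation
  have hU : sU 1 ∈ repD M Set.univ (fun x => f x a) (fun x => f x b) := by
    refine ⟨sympT hf b (-1), S.mem _ _ hb (F₀.neg_mem F₀.one_mem), by simp, fun x _ => ?_⟩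
    simp only [sympT_mulVec, hf.bilinear.add_left, hf.bilinear.smul_left, hf.alternating, hba, sU]
    simp
  have hL : ∀ d ∈ parA hf M a, sL d ∈ repD M Set.univ (fun x => f x a) (fun x => f x b) := by
    intro d hd
    refine ⟨sympT hf a d, hd, by simp, fun x _ => ?_⟩
    simp only [sympT_mulVec, hf.bilinear.add_left, hf.bilinear.smul_left, hf.alternating, hab, sL]
    simp
    ring
  have htor := exists_torus (F₀ := F₀) hr hcard (parA hf M a) hcl h1mem one_ne_zero hT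
    (fun l hl e => hc (by
      rw [e, mul_one]
      exact hl)) hU hL
  -- all squares
  have hy : ∀ y : F, y ≠ 0 → y * y ∈ parA hf M a := by
    intro y hy0
    obtain ⟨k, hk, ε, hε, -, hkx⟩ := htor y hy0
    have e : ((k⁻¹ : GL ι F) : Matrix ι ι F) *ᵥ a = (ε * y) • a := by
      apply eq_of_single hf
      intro i
      rw [form_inv' hf k (S.pres k hk), (hkx _ (Set.mem_univ _)).1, hf.bilinear.smul_right]
    have h1 := S.conj (M.inv_mem hk) h1mem
    rw [e, sympT_smul] at h1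
    have e2 : ε * y * (ε * y) * 1 = y * y := by
      have : ε * ε = 1 := by rw [← sq, hε]
      linear_combination y * y * this
    rwa [e2] at h1
  have htop : ∀ x : F, x ∈ parA hf M a := by
    have hy' : ∀ y : F, y * y ∈ parA hf M a := by
      intro y
      by_cases h0 : y = 0
      · subst h0
        simpa using (parA hf M a).zero_mem
      · exact hy y h0
    intro x
    obtain ⟨y, z, e⟩ := exists_sq_sub_sq' x
    rw [e]
    exact (parA hf M a).sub_mem (hy' y) (hy' z)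
  intro a' ha'
  by_cases ha'0 : a' = 0
  · rw [ha'0]
    exact centres_zero hf M
  obtain ⟨k, hk, e⟩ := S.move ha ha0 ha' ha'0
  intro d
  have h1 := S.conj hk (htop d)
  rwa [e] at h1

/-! ### Characteristic two -/

theorem char_two_sqrt [Finite F] (h2 : (2 : F) = 0) {x w c : F} (hc : c ∈ F₀) (e : x * x = c * (w * w)) :
    ∃ c' ∈ F₀, x = c' * w := by
  obtain ⟨y, hy, z, hz, e'⟩ := exists_sq_sub_sq F₀ hc
  refine ⟨y - z, F₀.sub_mem hy hz, ?_⟩
  have h0 : (x - (y - z) * w) * (x - (y - z) * w) = 0 := by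
    rw [e'] at e
    linear_combination e + (y * y * w * w - y * z * w * w - (y - z) * x * w) * h2
  have h1 := mul_self_eq_zero.mp h0
  exact sub_eq_zero.mp h1

/-! ### Root elements with a non-rational parameter -/

/-- A root element with rational axis and non-rational parameter gives everything. -/
theorem Sys.flag [Fintype F] (S : Sys hf F₀ M) {r : ℕ} (hr : r.Prime) (hcard : Fintype.card F = Nat.card F₀ ^ r)
    {a b d : ι → F} (ha : IsRat F₀ a) (hb : IsRat F₀ b) (hd : IsRat F₀ d) (hd0 : d ≠ 0)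
    (hbd : f b d = 0) (had : f a d = 0) (hab : f a b = 1) {c : F} (hc : c ∉ F₀) (hE : eE hf b d c ∈ M) :
    ∀ a', IsRat F₀ a' → a' ∈ centres hf M := by
  have hP := isPolar hf
  have hba : f b a = -1 := by rw [hf.skew, hab]
  have hdb : f d b = 0 := form_comm_eq hf hbd
  have hda : f d a = 0 := form_comm_eq hf had
  have hk : sympT hf (a - b) (-1) ∈ M := S.mem _ _ (ha.sub hb) (F₀.neg_mem F₀.one_mem)
  have hkb : ((sympT hf (a - b) (-1) : GL ι F) : Matrix ι ι F) *ᵥ b = a := by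
    rw [sympT_mulVec, hP.sub_right, hba, hf.alternating]
    module
  have hkd : ((sympT hf (a - b) (-1) : GL ι F) : Matrix ι ι F) *ᵥ d = d := by
    rw [sympT_mulVec, hP.sub_right, hda, hdb]
    module
  have key : ∀ c', eE hf b d c' ∈ M → sympT hf d (c' * c') ∈ M := by
    intro c' hE'
    have h1 : eE hf a d c' ∈ M := by
      have := S.conjE hk hE'
      rwa [hkb, hkd] at this
    have h2 : sympT hf (a + c' • d) 1 ∈ M := by
      have := S.conj hE' (S.mem a 1 ha F₀.one_mem)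
      rw [eE_mulVec hf hbd, had, hab, mul_zero, zero_smul, add_zero, mul_one] at this
      exact this
    have h3 : sympT hf (a + c' • d) 1 = sympT hf a 1 * eE hf a d c' * sympT hf d (c' * c') := by
      apply gl_ext_mulVec
      intro x
      have hb' := hf.bilinear
      simp only [Units.val_mul, ← Matrix.mulVec_mulVec, eE_mulVec hf had, sympT_mulVec, hb'.add_left,
        hb'.smul_left, hb'.add_right, hb'.smul_right, hf.alternating, had, hda]
      module
    have h4 : sympT hf d (c' * c') = (eE hf a d c')⁻¹ * (sympT hf a 1)⁻¹ * sympT hf (a + c' • d) 1 := by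
      rw [h3]
      group
    rw [h4]
    exact M.mul_mem (M.mul_mem (M.inv_mem h1) (M.inv_mem (S.mem a 1 ha F₀.one_mem))) h2
  have h1 := key c hE
  have h2 := key (c + 1) (by
    rw [eE_add hf hbd]
    exact M.mul_mem hE (S.memE hb hd F₀.one_mem))
  have h3 : sympT hf d (2 * c) ∈ M := by
    have h4 : (2 * c) = (c + 1) * (c + 1) - c * c - 1 := by ring
    rw [h4]
    exact (parA hf M d).sub_mem ((parA hf M d).sub_mem h2 h1) (S.mem d 1 hd F₀.one_mem)
  by_cases h5 : c * c ∈ F₀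
  · by_cases h6 : 2 * c ∈ F₀
    · exfalso
      by_cases h7 : (2 : F) = 0
      · obtain ⟨c', hc', e⟩ := char_two_sqrt (w := 1) h7 h5 (x := c) (by ring)
        apply hc
        rw [e, mul_one]
        exact hc'
      · apply hc
        have h8 : (2 : F) ∈ F₀ := by
          have : (2 : F) = 1 + 1 := by norm_num
          rw [this]
          exact F₀.add_mem F₀.one_mem F₀.one_mem
        have := F₀.div_mem h6 h8
        rwa [mul_div_cancel_left₀ _ h7] at this
    · exact S.core hr hcard hd hd0 h6 h3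
  · exact S.core hr hcard hd hd0 h5 h1

/-- **The easy case**: a centre in a rational plane, with independent values on rational vectors. -/
theorem Sys.easy [Fintype F] (S : Sys hf F₀ M) {r : ℕ} (hr : r.Prime) (hcard : Fintype.card F = Nat.card F₀ ^ r)
    (hn : 13 ≤ Fintype.card ι) {u y₁ y₂ z₁ z₂ : ι → F} {x₁ x₂ : F} (hu : sympT hf u 1 ∈ M)
    (he : u = x₁ • y₁ + x₂ • y₂) (hy₁ : IsRat F₀ y₁) (hy₂ : IsRat F₀ y₂) (hz₁ : IsRat F₀ z₁) (hz₂ : IsRat F₀ z₂)
    (hα : f u z₁ ≠ 0) (hβ : ∀ c ∈ F₀, f u z₂ ≠ c * f u z₁) :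
    ∀ a', IsRat F₀ a' → a' ∈ centres hf M := by
  have hb' := hf.bilinear
  -- two rational vectors with a non-rational product of values
  obtain ⟨z, d, hz, hd, hsτ⟩ : ∃ z d : ι → F, IsRat F₀ z ∧ IsRat F₀ d ∧ f u z * f u d ∉ F₀ := by
    by_cases h1 : f u z₁ * f u z₁ ∈ F₀
    · refine ⟨z₁, z₂, hz₁, hz₂, fun h2 => ?_⟩
      apply hβ _ (F₀.div_mem h2 h1)
      field_simp
    · exact ⟨z₁, z₁, hz₁, hz₁, h1⟩
  obtain ⟨ρ, ρ', hρ, -, hρS, -, hρρ'⟩ := rat_hyperbolic hf S.rat ![y₁, y₂, z, d]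
    (by
      intro i
      fin_cases i
      · exact hy₁
      · exact hy₂
      · exact hz
      · exact hd) (by omega)
  obtain ⟨a, b, ha, hb, haS, hbS, hab⟩ := rat_hyperbolic hf S.rat ![y₁, y₂, z, d, ρ]
    (by
      intro i
      fin_cases i
      · exact hy₁
      · exact hy₂
      · exact hz
      · exact hd
      · exact hρ) (by omega)
  have hρy₁ : f ρ y₁ = 0 := hρS 0
  have hρy₂ : f ρ y₂ = 0 := hρS 1
  have hρz : f ρ z = 0 := hρS 2
  have hby₁ : f b y₁ = 0 := hbS 0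
  have hby₂ : f b y₂ = 0 := hbS 1
  have hbz : f b z = 0 := hbS 2
  have hbd : f b d = 0 := hbS 3
  have hbρ : f b ρ = 0 := hbS 4
  have haρ : f a ρ = 0 := haS 4
  have hρ0 : ρ ≠ 0 := by
    rintro rfl
    rw [(isPolar hf).zero_left] at hρρ'
    exact zero_ne_one hρρ'
  have hρb : f ρ b = 0 := form_comm_eq hf hbρ
  have huρ : f u ρ = 0 := by
    rw [he, hb'.add_left, hb'.smul_left, hb'.smul_left, form_comm_eq hf hρy₁, form_comm_eq hf hρy₂]
    ring
  have hub : f u b = 0 := by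
    rw [he, hb'.add_left, hb'.smul_left, hb'.smul_left, form_comm_eq hf hby₁, form_comm_eq hf hby₂]
    ring
  have hρu : f ρ u = 0 := form_comm_eq hf huρ
  have hbu : f b u = 0 := form_comm_eq hf hub
  obtain ⟨s, hs⟩ : ∃ s, s = f u z := ⟨_, rfl⟩
  obtain ⟨τ, hτ⟩ : ∃ τ, τ = f u d := ⟨_, rfl⟩
  rw [← hs, ← hτ] at hsτ
  have hE₁ : eE hf ρ z 1 ∈ M := S.memE hρ hz F₀.one_mem
  have hE₂ : eE hf b d 1 ∈ M := S.memE hb hd F₀.one_mem
  have h1 : sympT hf (u + τ • b) 1 ∈ M := by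
    have := S.conj hE₂ hu
    rw [eE_mulVec hf hbd, hub, mul_zero, zero_smul, add_zero, one_mul, ← hτ] at this
    exact this
  have h2 : sympT hf (u + s • ρ) 1 ∈ M := by
    have := S.conj hE₁ hu
    rw [eE_mulVec hf hρz, huρ, mul_zero, zero_smul, add_zero, one_mul, ← hs] at this
    exact this
  have h3 : sympT hf (u + τ • b + s • ρ) 1 ∈ M := by
    have := S.conj hE₁ h1
    rw [eE_mulVec hf hρz, hb'.add_left, hb'.add_left, hb'.smul_left, hb'.smul_left, hbz, hbρ, huρ, ← hs] at this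
    simpa using this
  have h4 : eE hf b ρ (s * τ) = sympT hf (u + τ • b + s • ρ) 1 * (sympT hf (u + τ • b) 1)⁻¹ * sympT hf u 1 *
      (sympT hf (u + s • ρ) 1)⁻¹ := by
    rw [← sympT_neg, ← sympT_neg]
    apply gl_ext_mulVec
    intro x
    simp only [Units.val_mul, ← Matrix.mulVec_mulVec, eE_mulVec hf hbρ, sympT_mulVec, hb'.add_left,
      hb'.smul_left, hb'.add_right, hb'.smul_right, hf.alternating, hbρ, hρb, huρ, hρu, hub, hbu]
    module
  refine S.flag hr hcard ha hb hρ hρ0 hbρ haρ hab hsτ ?_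
  rw [h4]
  exact M.mul_mem (M.mul_mem (M.mul_mem h3 (M.inv_mem h1)) hu) (M.inv_mem h2)

/-! ### Elements whose square is rational -/

/-- The plane spanned by `1, x` when `x²` is rational. -/
def spanF (F₀ : Subfield F) (x : F) (hx : x * x ∈ F₀) (hx' : x ∉ F₀) : Subfield F where
  carrier := {y | ∃ p ∈ F₀, ∃ q ∈ F₀, y = p + q * x}
  mul_mem' := by
    rintro _ _ ⟨p, hp, q, hq, rfl⟩ ⟨p', hp', q', hq', rfl⟩
    refine ⟨p * p' + q * q' * (x * x), F₀.add_mem (F₀.mul_mem hp hp') (F₀.mul_mem (F₀.mul_mem hq hq') hx),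
      p * q' + q * p', F₀.add_mem (F₀.mul_mem hp hq') (F₀.mul_mem hq hp'), by ring⟩
  one_mem' := ⟨1, F₀.one_mem, 0, F₀.zero_mem, by ring⟩
  add_mem' := by
    rintro _ _ ⟨p, hp, q, hq, rfl⟩ ⟨p', hp', q', hq', rfl⟩
    exact ⟨p + p', F₀.add_mem hp hp', q + q', F₀.add_mem hq hq', by ring⟩
  zero_mem' := ⟨0, F₀.zero_mem, 0, F₀.zero_mem, by ring⟩
  neg_mem' := by
    rintro _ ⟨p, hp, q, hq, rfl⟩
    exact ⟨-p, F₀.neg_mem hp, -q, F₀.neg_mem hq, by ring⟩
  inv_mem' := by
    rintro _ ⟨p, hp, q, hq, rfl⟩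
    by_cases h0 : p + q * x = 0
    · rw [h0, inv_zero]
      exact ⟨0, F₀.zero_mem, 0, F₀.zero_mem, by ring⟩
    have hN : p * p - q * q * (x * x) ≠ 0 := by
      intro hN
      have h1 : (p + q * x) * (p - q * x) = 0 := by linear_combination hN
      have h2 := (mul_eq_zero.mp h1).resolve_left h0
      by_cases hq0 : q = 0
      · subst hq0
        apply h0
        rw [zero_mul, add_zero]
        simpa using h2
      · apply hx'
        have h3 : x = p / q := by
          field_simp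
          linear_combination -h2
        rw [h3]
        exact F₀.div_mem hp hq
    obtain ⟨N, hNd⟩ : ∃ N, N = p * p - q * q * (x * x) := ⟨_, rfl⟩
    rw [← hNd] at hN
    have hNF : N ∈ F₀ := by
      rw [hNd]
      exact F₀.sub_mem (F₀.mul_mem hp hp) (F₀.mul_mem (F₀.mul_mem hq hq) hx)
    refine ⟨p / N, F₀.div_mem hp hNF, -q / N, F₀.div_mem (F₀.neg_mem hq) hNF, ?_⟩
    rw [inv_eq_iff_eq_inv, eq_comm, inv_eq_iff_eq_inv, eq_comm]
    field_simp
    rw [hNd]
    ring

theorem exists_span_of_sq [Fintype F] {r : ℕ} (hr : r.Prime) (hcard : Fintype.card F = Nat.card F₀ ^ r) {x : F}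
    (hx : x * x ∈ F₀) (hx' : x ∉ F₀) (y : F) : ∃ p ∈ F₀, ∃ q ∈ F₀, y = p + q * x := by
  have hle : F₀ ≤ spanF F₀ x hx hx' := fun c hc => ⟨c, hc, 0, F₀.zero_mem, by ring⟩
  rcases subfield_eq_or_top F₀ (spanF F₀ x hx hx') hle hr hcard with h | h
  · exfalso
    apply hx'
    rw [← h]
    exact ⟨0, F₀.zero_mem, 1, F₀.one_mem, by ring⟩
  · have : y ∈ spanF F₀ x hx hx' := by
      rw [h]
      exact Subfield.mem_top y
    exact this

theorem sL_add (x y : F) : sL (x + y) = sL x * sL y := by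
  apply Subtype.ext
  change ((sL (x + y) : SL(2, F)) : Matrix (Fin 2) (Fin 2) F) = ((sL x * sL y : SL(2, F)) : Matrix (Fin 2) (Fin 2) F)
  rw [Matrix.SpecialLinearGroup.coe_mul]
  ext i j
  fin_cases i <;> fin_cases j <;>
    simp [sL, Matrix.mul_apply, Fin.sum_univ_two, add_comm]

theorem sL_zero : sL (0 : F) = 1 := by
  apply Subtype.ext
  ext i j
  fin_cases i <;> fin_cases j <;> simp [sL]

theorem sL_neg (x : F) : sL (-x) = (sL x)⁻¹ := by
  apply eq_inv_of_mul_eq_one_left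
  rw [← sL_add, neg_add_cancel, sL_zero]

/-- The parameters `b` all of whose rational multiples are lower unipotents in a subgroup. -/
def parB (F₀ : Subfield F) (G : Subgroup (SL(2, F))) : AddSubgroup F where
  carrier := {b | ∀ c ∈ F₀, sL (c * b) ∈ G}
  add_mem' {x y} hx hy c hc := by
    rw [mul_add, sL_add]
    exact G.mul_mem (hx c hc) (hy c hc)
  zero_mem' c _ := by
    rw [mul_zero, sL_zero]
    exact G.one_mem
  neg_mem' {x} hx c hc := by
    rw [mul_neg, sL_neg]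
    exact G.inv_mem (hx c hc)

theorem parB_smul {G : Subgroup (SL(2, F))} {c b : F} (hc : c ∈ F₀) (hb : b ∈ parB F₀ G) : c * b ∈ parB F₀ G := by
  intro c' hc'
  rw [← mul_assoc]
  exact hb _ (F₀.mul_mem hc' hc)

/-! ### The hard case -/

/-- **The hard case**: three independent values reduce to the easy case. -/
theorem Sys.hard [Fintype F] (S : Sys hf F₀ M) {r : ℕ} (hr : r.Prime) (hcard : Fintype.card F = Nat.card F₀ ^ r)
    (hn : 13 ≤ Fintype.card ι) {u a₁ a₂ : ι → F} {γ : F} (hu : sympT hf u 1 ∈ M) (ha₁ : IsRat F₀ a₁)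
    (ha₂ : IsRat F₀ a₂) (h12 : f a₁ a₂ = 0) (hα₁' : f a₁ u ≠ 0) (hα₂' : ∀ c ∈ F₀, f a₂ u ≠ c * f a₁ u)
    (hγ : ∀ p ∈ F₀, ∀ q ∈ F₀, γ ≠ p * f a₁ u + q * f a₂ u) :
    ∀ a', IsRat F₀ a' → a' ∈ centres hf M := by
  have hb' := hf.bilinear
  obtain ⟨α₁, hα₁d⟩ : ∃ α₁, α₁ = f a₁ u := ⟨_, rfl⟩
  obtain ⟨α₂, hα₂d⟩ : ∃ α₂, α₂ = f a₂ u := ⟨_, rfl⟩
  rw [← hα₁d] at hα₁' hα₂' hγ
  rw [← hα₂d] at hα₂' hγ
  have h21 : f a₂ a₁ = 0 := form_comm_eq hf h12
  have hua₁ : f u a₁ = -α₁ := by rw [hf.skew, hα₁d]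
  have hua₂ : f u a₂ = -α₂ := by rw [hf.skew, hα₂d]
  have hγ0 : γ ≠ 0 := by
    intro h
    apply hγ 0 F₀.zero_mem 0 F₀.zero_mem
    rw [h]
    ring
  have hmem1 : (1 : F) ∈ F₀ := F₀.one_mem
  -- the section
  obtain ⟨D, hD⟩ : ∃ D : Set (ι → F), D = {x | ∃ x₁ x₂ x₃ : F, x = x₁ • a₁ + x₂ • a₂ + x₃ • u} := ⟨_, rfl⟩
  have hDmem : ∀ x₁ x₂ x₃ : F, x₁ • a₁ + x₂ • a₂ + x₃ • u ∈ D := by
    intro x₁ x₂ x₃
    rw [hD]
    exact ⟨x₁, x₂, x₃, rfl⟩
  have hDadd : ∀ x y, x ∈ D → y ∈ D → x + y ∈ D := by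
    rw [hD]
    rintro _ _ ⟨p₁, p₂, p₃, rfl⟩ ⟨q₁, q₂, q₃, rfl⟩
    exact ⟨p₁ + q₁, p₂ + q₂, p₃ + q₃, by module⟩
  have hDsmul : ∀ (c : F) x, x ∈ D → c • x ∈ D := by
    rw [hD]
    rintro c _ ⟨p₁, p₂, p₃, rfl⟩
    exact ⟨c * p₁, c * p₂, c * p₃, by module⟩
  have hstable : ∀ (w : ι → F) (c : F), w ∈ D → ∀ x,
      ((sympT hf w c : GL ι F) : Matrix ι ι F) *ᵥ x ∈ D ↔ x ∈ D := by
    intro w c hw x
    rw [sympT_mulVec]
    constructor
    · intro h
      have h1 := hDadd _ _ h (hDsmul (-(f x w * c)) w hw)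
      have e : x + f x w • c • w + (-(f x w * c)) • w = x := by module
      rwa [e] at h1
    · intro h
      exact hDadd _ _ h (hDsmul _ _ (hDsmul _ _ hw))
  have ha₁D : a₁ ∈ D := by
    have := hDmem 1 0 0
    simpa using this
  have ha₂D : a₂ ∈ D := by
    have := hDmem 0 1 0
    simpa using this
  have huD : u ∈ D := by
    have := hDmem 0 0 1
    simpa using this
  -- the functions
  obtain ⟨t, ht⟩ : ∃ t : (ι → F) → F, t = fun x => α₁⁻¹ * f x a₁ := ⟨_, rfl⟩
  obtain ⟨ψ, hψ⟩ : ∃ ψ : (ι → F) → F, ψ = fun x => f x u := ⟨_, rfl⟩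
  have hU : sU 1 ∈ repD M D t ψ := by
    refine ⟨(sympT hf u 1)⁻¹, M.inv_mem hu, ?_, fun x _ => ?_⟩
    · rw [← sympT_neg]
      exact hstable u _ huD
    · rw [← sympT_neg, ht, hψ]
      simp only [sympT_mulVec, hb'.add_left, hb'.smul_left, hf.alternating, hua₁, sU]
      simp
      field_simp
  have hL : ∀ p₁ ∈ F₀, ∀ p₂ ∈ F₀, ∀ c ∈ F₀, sL (c * ((p₁ * α₁ + p₂ * α₂) * (p₁ * α₁ + p₂ * α₂))) ∈ repD M D t ψ := by
    intro p₁ hp₁ p₂ hp₂ c hc
    refine ⟨sympT hf (p₁ • a₁ + p₂ • a₂) c, S.mem _ _ ((ha₁.smul hp₁).add (ha₂.smul hp₂)) hc,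
      hstable _ _ (by
        have := hDmem p₁ p₂ 0
        simpa using this), fun x hx => ?_⟩
    rw [hD] at hx
    obtain ⟨x₁, x₂, x₃, rfl⟩ := hx
    rw [ht, hψ]
    simp only [sympT_mulVec, hb'.add_left, hb'.smul_left, hb'.add_right, hb'.smul_right, hf.alternating, hua₁, hua₂,
      h12, h21, ← hα₁d, ← hα₂d, sL]
    simp
    field_simp
    ring
  -- the large group of unipotents
  have hBgen : ∀ p₁ ∈ F₀, ∀ p₂ ∈ F₀, (p₁ * α₁ + p₂ * α₂) * (p₁ * α₁ + p₂ * α₂) ∈ parB F₀ (repD M D t ψ) :=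
    fun p₁ hp₁ p₂ hp₂ c hc => hL p₁ hp₁ p₂ hp₂ c hc
  have hb₁ : α₁ * α₁ ∈ parB F₀ (repD M D t ψ) := by
    have := hBgen 1 hmem1 0 F₀.zero_mem
    simpa using this
  have hb₂sq : α₂ * α₂ ∈ parB F₀ (repD M D t ψ) := by
    have := hBgen 0 F₀.zero_mem 1 hmem1
    simpa using this
  obtain ⟨b₂, hb₂, hb₂'⟩ : ∃ b₂ ∈ parB F₀ (repD M D t ψ), ∀ c ∈ F₀, b₂ ≠ c * (α₁ * α₁) := by
    by_cases h2 : (2 : F) = 0
    · refine ⟨α₂ * α₂, hb₂sq, fun c hc e => ?_⟩
      obtain ⟨c', hc', e'⟩ := char_two_sqrt h2 hc e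
      exact hα₂' c' hc' e'
    · refine ⟨2 * α₁ * α₂, ?_, fun c hc e => ?_⟩
      · have h3 := hBgen 1 hmem1 1 hmem1
        have e : 2 * α₁ * α₂ = (1 * α₁ + 1 * α₂) * (1 * α₁ + 1 * α₂) - α₁ * α₁ - α₂ * α₂ := by ring
        rw [e]
        exact AddSubgroup.sub_mem _ (AddSubgroup.sub_mem _ h3 hb₁) hb₂sq
      · have h8 : (2 : F) ∈ F₀ := by
          have : (2 : F) = 1 + 1 := by norm_num
          rw [this]
          exact F₀.add_mem F₀.one_mem F₀.one_mem
        apply hα₂' (c / 2) (F₀.div_mem hc h8)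
        have hne : (2 * α₁) ≠ 0 := mul_ne_zero h2 hα₁'
        have h9 : (2 * α₁) * (c / 2 * α₁) = c * (α₁ * α₁) := by
          field_simp
        apply mul_left_cancel₀ hne
        rw [h9]
        linear_combination e
  have htor := exists_torus (F₀ := F₀) hr hcard (parB F₀ (repD M D t ψ)) (fun c hc b hb => parB_smul hc hb) hb₁
    (mul_ne_zero hα₁' hα₁') hb₂ hb₂' hU (fun b hb => by
      have := hb 1 hmem1
      rwa [one_mul] at this)
  obtain ⟨k, hk, ε, hε, hkD, hkx⟩ := htor (α₁ / γ) (div_ne_zero hα₁' hγ0)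
  obtain ⟨x₁, x₂, x₃, hkx₁⟩ : ∃ x₁ x₂ x₃ : F, (k : Matrix ι ι F) *ᵥ a₁ = x₁ • a₁ + x₂ • a₂ + x₃ • u := by
    have := (hkD a₁).mpr ha₁D
    rw [hD] at this
    exact this
  obtain ⟨h1t, h1ψ⟩ := hkx a₁ ha₁D
  have hx₃ : x₃ = 0 := by
    rw [hkx₁, ht] at h1t
    simp only [hb'.add_left, hb'.smul_left, hf.alternating, h21, hua₁] at h1t
    field_simp at h1t
    simpa [hα₁', hγ0] using h1t
  subst hx₃
  rw [zero_smul, add_zero] at hkx₁
  have hval : x₁ * α₁ + x₂ * α₂ = ε * γ := by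
    rw [hkx₁, hψ] at h1ψ
    simp only [hb'.add_left, hb'.smul_left, ← hα₁d, ← hα₂d] at h1ψ
    rw [h1ψ]
    field_simp
  have hT : sympT hf (x₁ • a₁ + x₂ • a₂) 1 ∈ M := by
    rw [← hkx₁]
    exact S.conj hk (S.mem _ _ ha₁ hmem1)
  have hε' : ε = 1 ∨ ε = -1 := by
    have : (ε - 1) * (ε + 1) = 0 := by linear_combination hε
    rcases mul_eq_zero.mp this with h | h
    · exact Or.inl (sub_eq_zero.mp h)
    · exact Or.inr (eq_neg_of_add_eq_zero_left h)
  have hεF : ε ∈ F₀ := by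
    rcases hε' with h | h <;> rw [h]
    · exact hmem1
    · exact F₀.neg_mem hmem1
  have hγ' : ∀ p ∈ F₀, ∀ q ∈ F₀, ε * γ ≠ p * α₁ + q * α₂ := by
    intro p hp q hq e
    apply hγ (ε * p) (F₀.mul_mem hεF hp) (ε * q) (F₀.mul_mem hεF hq)
    have hεε : ε * ε = 1 := by rw [← sq, hε]
    linear_combination (-γ) * hεε + ε * e
  -- the dependent case
  have hdep : ∀ (x : F) (a₀ : ι → F) (p q : F), p ∈ F₀ → q ∈ F₀ → IsRat F₀ a₀ → x₁ • a₁ + x₂ • a₂ = x • a₀ →
      x * (p * α₁ + q * α₂) = ε * γ → a₀ ≠ 0 → ∀ a', IsRat F₀ a' → a' ∈ centres hf M := by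
    intro x a₀ p q hp hq ha₀ e hxv ha₀0
    rw [e, sympT_smul, mul_one] at hT
    by_cases hxx : x * x ∈ F₀
    · exfalso
      by_cases hxF : x ∈ F₀
      · apply hγ' (x * p) (F₀.mul_mem hxF hp) (x * q) (F₀.mul_mem hxF hq)
        rw [← hxv]
        ring
      · obtain ⟨P, hP, Q, hQ, e₁⟩ := exists_span_of_sq hr hcard hxx hxF (α₂ / α₁)
        obtain ⟨P', hP', Q', hQ', e₂⟩ := exists_span_of_sq hr hcard hxx hxF ((ε * γ) / α₁)
        have hQ0 : Q ≠ 0 := by
          rintro rfl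
          apply hα₂' P hP
          rw [zero_mul, add_zero] at e₁
          rw [← e₁]
          field_simp
        have e₁' : α₂ = (P + Q * x) * α₁ := by
          rw [← e₁]
          field_simp
        have e₂' : ε * γ = (P' + Q' * x) * α₁ := by
          rw [← e₂]
          field_simp
        apply hγ' (P' - Q' / Q * P) (F₀.sub_mem hP' (F₀.mul_mem (F₀.div_mem hQ' hQ) hP)) (Q' / Q) (F₀.div_mem hQ' hQ)
        rw [e₂', e₁']
        field_simp
        ring
    · exact S.core hr hcard ha₀ ha₀0 hxx hT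
  by_cases hx₁0 : x₁ = 0
  · -- a multiple of `a₂`
    subst hx₁0
    refine hdep x₂ a₂ 0 1 F₀.zero_mem hmem1 ha₂ (by simp) (by
      rw [← hval]
      ring) ?_
    rintro rfl
    apply hα₂' 0 F₀.zero_mem
    rw [hα₂d, (isPolar hf).zero_left, zero_mul]
  by_cases hx₂ : ∃ κ ∈ F₀, x₂ = κ * x₁
  · obtain ⟨κ, hκ, rfl⟩ := hx₂
    refine hdep x₁ (a₁ + κ • a₂) 1 κ hmem1 hκ (ha₁.add (ha₂.smul hκ)) (by
      rw [smul_add, smul_smul, mul_comm]) (by
      rw [← hval]
      ring) ?_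
    intro h0
    have h3 : f (a₁ + κ • a₂) u = 0 := by
      rw [h0, (isPolar hf).zero_left]
    rw [hb'.add_left, hb'.smul_left, ← hα₁d, ← hα₂d] at h3
    apply hγ' 0 F₀.zero_mem 0 F₀.zero_mem
    rw [← hval]
    linear_combination x₁ * h3
  · push Not at hx₂
    -- the easy case
    obtain ⟨z₁, hz₁, hz₁a₂, hz₁a₁⟩ := rat_dual hf S.rat ha₁ ha₂ (fun c hc e => by
      by_cases hc0 : c = 0
      · subst hc0
        apply hα₁'
        rw [hα₁d, e, zero_smul, (isPolar hf).zero_left]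
      · apply hα₂' c⁻¹ (F₀.inv_mem hc)
        rw [hα₁d, hα₂d, e, hb'.smul_left]
        field_simp)
    obtain ⟨z₂, hz₂, hz₂a₁, hz₂a₂⟩ := rat_dual hf S.rat ha₂ ha₁ (fun c hc e => by
      apply hα₂' c hc
      rw [hα₁d, hα₂d, e, hb'.smul_left])
    have e₁ : f (x₁ • a₁ + x₂ • a₂) z₁ = x₁ := by
      rw [hb'.add_left, hb'.smul_left, hb'.smul_left, hz₁a₁, form_comm_eq hf hz₁a₂]
      ring
    have e₂ : f (x₁ • a₁ + x₂ • a₂) z₂ = x₂ := by
      rw [hb'.add_left, hb'.smul_left, hb'.smul_left, hz₂a₂, form_comm_eq hf hz₂a₁]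
      ring
    refine S.easy hr hcard hn hT rfl ha₁ ha₂ hz₁ hz₂ ?_ ?_
    · rw [e₁]
      exact hx₁0
    · rw [e₁, e₂]
      exact hx₂

/-- **A centre off the rational lines gives everything.** -/
theorem Sys.of_not_line [Fintype F] (S : Sys hf F₀ M) {r : ℕ} (hr : r.Prime) (hcard : Fintype.card F = Nat.card F₀ ^ r)
    (hn : 13 ≤ Fintype.card ι) {u : ι → F} (hu : sympT hf u 1 ∈ M)
    (hnl : ∀ (l : F) (u' : ι → F), IsRat F₀ u' → u ≠ l • u') :
    ∀ a', IsRat F₀ a' → a' ∈ centres hf M := by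
  have hb' := hf.bilinear
  have hP := isPolar hf
  -- the values on the standard basis
  obtain ⟨v, hv⟩ : ∃ v : ι → F, v = fun i => f (Pi.single i 1) u := ⟨_, rfl⟩
  have hvi : ∀ i, f (Pi.single i 1) u = v i := fun i => by rw [hv]
  have hu0 : u ≠ 0 := by
    have := hnl 0 0 isRat_zero
    simpa using this
  obtain ⟨i₀, hi₀⟩ : ∃ i, v i ≠ 0 := by
    by_contra hcon
    push Not at hcon
    exact hu0 (eq_zero_of_single hf (fun i => by rw [hvi, hcon]))
  obtain ⟨α, hα⟩ : ∃ α, α = v i₀ := ⟨_, rfl⟩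
  rw [← hα] at hi₀
  have hrat1 : ∀ i : ι, IsRat F₀ (Pi.single i 1 : ι → F) := fun i => isRat_single i
  obtain ⟨i₁, hi₁⟩ : ∃ i, ∀ c ∈ F₀, v i ≠ c * α := by
    by_contra hcon
    push Not at hcon
    choose c hc hcv using hcon
    obtain ⟨y, hy, hyi⟩ := rat_realize hf S.rat c hc
    apply hnl α y hy
    apply eq_of_single hf
    intro i
    rw [hvi, hb'.smul_right, hyi, hcv]
    ring
  obtain ⟨β, hβ⟩ : ∃ β, β = v i₁ := ⟨_, rfl⟩
  rw [← hβ] at hi₁
  have hbase₀ : f u (Pi.single i₀ 1) = -α := by rw [hf.skew, hvi, hα]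
  have hbase₁ : f u (Pi.single i₁ 1) = -β := by rw [hf.skew, hvi, hβ]
  by_cases hthree : ∃ i, ∀ p ∈ F₀, ∀ q ∈ F₀, v i ≠ p * α + q * β
  · obtain ⟨i₂, hi₂⟩ := hthree
    obtain ⟨γ, hγ⟩ : ∃ γ, γ = v i₂ := ⟨_, rfl⟩
    rw [← hγ] at hi₂
    obtain ⟨a₁, ha₁d⟩ : ∃ a₁ : ι → F, a₁ = Pi.single i₀ 1 := ⟨_, rfl⟩
    obtain ⟨a₂, ha₂d⟩ : ∃ a₂ : ι → F, a₂ = Pi.single i₁ 1 := ⟨_, rfl⟩
    obtain ⟨a₃, ha₃d⟩ : ∃ a₃ : ι → F, a₃ = Pi.single i₂ 1 := ⟨_, rfl⟩
    have ha₁ : IsRat F₀ a₁ := by rw [ha₁d]; exact hrat1 _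
    have ha₂ : IsRat F₀ a₂ := by rw [ha₂d]; exact hrat1 _
    have ha₃ : IsRat F₀ a₃ := by rw [ha₃d]; exact hrat1 _
    have e₁ : f a₁ u = α := by rw [ha₁d, hvi, hα]
    have e₂ : f a₂ u = β := by rw [ha₂d, hvi, hβ]
    have e₃ : f a₃ u = γ := by rw [ha₃d, hvi, hγ]
    by_cases h13 : f a₁ a₃ = 0
    · refine S.hard hr hcard hn (γ := β) hu ha₁ ha₃ h13 ?_ ?_ ?_
      · rw [e₁]
        exact hi₀
      · rw [e₁, e₃]
        intro c hc e
        apply hi₂ c hc 0 F₀.zero_mem
        rw [e]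
        ring
      · rw [e₁, e₃]
        intro p hp q hq e
        by_cases hq0 : q = 0
        · subst hq0
          apply hi₁ p hp
          rw [e]
          ring
        · apply hi₂ (-p / q) (F₀.div_mem (F₀.neg_mem hp) hq) (1 / q) (F₀.div_mem F₀.one_mem hq)
          rw [e]
          field_simp
          ring
    · obtain ⟨κ, hκ⟩ : ∃ κ, κ = f a₁ a₂ / f a₁ a₃ := ⟨_, rfl⟩
      have hκF : κ ∈ F₀ := by
        rw [hκ]
        exact F₀.div_mem (S.rat _ _ ha₁ ha₂) (S.rat _ _ ha₁ ha₃)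
      have e₄ : f (a₂ - κ • a₃) u = β - κ * γ := by
        rw [hP.sub_left, hb'.smul_left, e₂, e₃]
      refine S.hard hr hcard hn (γ := γ) hu ha₁ (ha₂.sub (ha₃.smul hκF)) ?_ ?_ ?_ ?_
      · rw [hP.sub_right, hb'.smul_right, hκ]
        field_simp
        ring
      · rw [e₁]
        exact hi₀
      · rw [e₁, e₄]
        intro c hc e
        by_cases hκ0 : κ = 0
        · subst hκ0
          apply hi₁ c hc
          rw [← e]
          ring
        · apply hi₂ (-c / κ) (F₀.div_mem (F₀.neg_mem hc) hκF) (1 / κ) (F₀.div_mem F₀.one_mem hκF)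
          field_simp
          linear_combination -e
      · rw [e₁, e₄]
        intro p hp q hq e
        by_cases hd : 1 + q * κ = 0
        · have hq0 : q ≠ 0 := by
            rintro rfl
            simp at hd
          apply hi₁ (-p / q) (F₀.div_mem (F₀.neg_mem hp) hq)
          field_simp
          linear_combination -e + γ * hd
        · apply hi₂ (p / (1 + q * κ)) (F₀.div_mem hp (F₀.add_mem F₀.one_mem (F₀.mul_mem hq hκF)))
            (q / (1 + q * κ)) (F₀.div_mem hq (F₀.add_mem F₀.one_mem (F₀.mul_mem hq hκF)))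
          field_simp
          linear_combination e
  · push Not at hthree
    choose p hp q hq hpq using hthree
    obtain ⟨y₁, hy₁, hy₁i⟩ := rat_realize hf S.rat p hp
    obtain ⟨y₂, hy₂, hy₂i⟩ := rat_realize hf S.rat q hq
    refine S.easy hr hcard hn hu (x₁ := α) (x₂ := β) (y₁ := y₁) (y₂ := y₂) ?_ hy₁ hy₂ (hrat1 i₀) (hrat1 i₁) ?_ ?_
    · apply eq_of_single hf
      intro i
      rw [hvi, hb'.add_right, hb'.smul_right, hb'.smul_right, hy₁i, hy₂i, hpq]
      ring
    · rw [hbase₀]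
      exact neg_ne_zero.mpr hi₀
    · rw [hbase₀, hbase₁]
      intro c hc e
      apply hi₁ c hc
      linear_combination -e

/-- **The maximality of the subfield group for a rational form.** -/
theorem isMaximalIn_one [Fintype F] {hf : IsSymplecticForm f} {I : Subgroup (GL ι F)} (SI : IsSpGroup hf I)
    (hrat : ∀ u v : ι → F, IsRat F₀ u → IsRat F₀ v → f u v ∈ F₀) (hn : 13 ≤ Fintype.card ι)
    {r : ℕ} (hr : r.Prime) (hcard : Fintype.card F = Nat.card F₀ ^ r) :
    IsMaximalIn I (subfieldSubgroup F₀ 1 ⊓ I) := by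
  haveI : Nonempty ι := by
    have : 0 < Fintype.card ι := by omega
    exact Fintype.card_pos_iff.mp this
  have hone : ∀ g : GL ι F, ((1 : GL ι F)⁻¹ * g * 1 : GL ι F) = g := fun g => by simp
  have hTI : ∀ v c, sympT hf v c ∈ I := fun v c => (SI.mem_iff _).mpr (sympT_preserves hf v c)
  have hTH : ∀ (a : ι → F) (c : F), IsRat F₀ a → c ∈ F₀ → sympT hf a c ∈ subfieldSubgroup F₀ 1 ⊓ I := by
    intro a c ha hc
    refine ⟨mem_subfield_of_entries ?_, hTI a c⟩
    intro i j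
    rw [hone]
    have h1 : ((sympT hf a c : GL ι F) : Matrix ι ι F) i j =
        (((sympT hf a c : GL ι F) : Matrix ι ι F) *ᵥ Pi.single j 1) i := by simp
    rw [h1, sympT_mulVec]
    simp only [Pi.add_apply, Pi.smul_apply, smul_eq_mul]
    exact F₀.add_mem (isRat_single j i) (F₀.mul_mem (hrat _ _ (isRat_single j) ha) (F₀.mul_mem hc (ha i)))
  refine isMaximalIn_of_forall ?_ ?_
  · refine lt_of_le_of_ne inf_le_right ?_
    intro he
    obtain ⟨c, hc⟩ : ∃ c : F, c ∉ F₀ := by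
      by_contra hcon
      push Not at hcon
      have h1 : Fintype.card F = Nat.card F₀ := by
        have : F₀ = ⊤ := by
          rw [eq_top_iff]
          intro x _
          exact hcon x
        rw [this]
        simp
      have h2 : 1 < Nat.card F₀ := by
        rw [← h1]
        exact Fintype.one_lt_card
      rw [h1] at hcard
      have h3 : Nat.card F₀ ^ 1 = Nat.card F₀ ^ r := by
        rw [pow_one]
        exact hcard
      have h4 := Nat.pow_right_injective (by omega) h3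
      exact hr.ne_one h4.symm
    obtain ⟨i⟩ := ‹Nonempty ι›
    obtain ⟨a, ha⟩ : ∃ a : ι → F, a = Pi.single i 1 := ⟨_, rfl⟩
    have ha0 : a ≠ 0 := by
      rw [ha]
      intro h0
      have := congrFun h0 i
      simp at this
    obtain ⟨j, hj⟩ : ∃ j, f (Pi.single j 1) a ≠ 0 := by
      by_contra hcon
      push Not at hcon
      exact ha0 (eq_zero_of_single hf hcon)
    have h1 : sympT hf a c ∈ subfieldSubgroup F₀ 1 ⊓ I := by
      rw [he]
      exact hTI a c
    obtain ⟨k, hk0, hk⟩ := exists_scalar_of_mem h1.1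
    rw [hone] at hk
    have hent : ∀ l, ((sympT hf a c : GL ι F) : Matrix ι ι F) i l = (Pi.single l (1 : F) : ι → F) i + f (Pi.single l 1) a * c := by
      intro l
      have h2 : ((sympT hf a c : GL ι F) : Matrix ι ι F) i l =
          (((sympT hf a c : GL ι F) : Matrix ι ι F) *ᵥ Pi.single l 1) i := by simp
      rw [h2, sympT_mulVec, ha]
      simp
    have hii : f (Pi.single i 1) a = 0 := by
      rw [ha]
      exact hf.alternating _
    have h2 := hk i i
    rw [hent, hii] at h2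
    simp only [Pi.single_eq_same, zero_mul, add_zero, mul_one] at h2
    have h3 := hk i j
    rw [hent] at h3
    by_cases hij : i = j
    · subst hij
      exact hj hii
    have h4 : k * (f (Pi.single j 1) a * c) ∈ F₀ := by
      have : (Pi.single j (1 : F) : ι → F) i = 0 := Pi.single_eq_of_ne hij _
      rwa [this, zero_add] at h3
    have h5 : f (Pi.single j 1) a * c ∈ F₀ := by
      have := F₀.div_mem h4 h2
      rwa [mul_div_cancel_left₀ _ hk0] at this
    have hfr : f (Pi.single j 1) a ∈ F₀ := by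
      rw [ha]
      exact hrat _ _ (isRat_single j) (isRat_single i)
    apply hc
    have := F₀.div_mem h5 hfr
    rwa [mul_div_cancel_left₀ _ hj] at this
  · intro M hHM hMI g hgM hgH
    have hg : g ∉ subfieldSubgroup F₀ 1 := fun h => hgH ⟨h, hMI hgM⟩
    have S : Sys hf F₀ M := ⟨hrat, fun g hg => (SI.mem_iff g).mp (hMI hg), fun a c ha hc => hHM (hTH a c ha hc)⟩
    obtain ⟨u₀, hu₀, hnl⟩ : ∃ u₀ : ι → F, IsRat F₀ u₀ ∧ ∀ (l : F) (u' : ι → F), IsRat F₀ u' →
        (g : Matrix ι ι F) *ᵥ u₀ ≠ l • u' := by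
      by_contra hcon
      push Not at hcon
      apply hg
      apply mem_subfield_of_lines
      intro u hu
      rw [hone]
      exact hcon u hu
    have hu : sympT hf ((g : Matrix ι ι F) *ᵥ u₀) 1 ∈ M := S.conj hgM (S.mem _ _ hu₀ F₀.one_mem)
    have hall := S.of_not_line hr hcard hn hu hnl
    exact SI.gen M (fun v a => S.centres_of_rat hall v a)

/-- The form pulled back along `P`, scaled by `ζ`. -/
theorem isSymp_pull (hf : IsSymplecticForm f) (P : GL ι F) {ζ : F} (hζ : ζ ≠ 0) :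
    IsSymplecticForm (fun x y : ι → F => ζ * f ((P : Matrix ι ι F) *ᵥ x) ((P : Matrix ι ι F) *ᵥ y)) where
  bilinear :=
    { add_left := fun x y v => by
        simp only [Matrix.mulVec_add, hf.bilinear.add_left]
        ring
      smul_left := fun c x v => by
        simp only [Matrix.mulVec_smul, hf.bilinear.smul_left]
        ring
      add_right := fun v x y => by
        simp only [Matrix.mulVec_add, hf.bilinear.add_right]
        ring
      smul_right := fun c v x => by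
        simp only [Matrix.mulVec_smul, hf.bilinear.smul_right]
        ring }
  skew := fun v w => by
    beta_reduce
    rw [hf.skew]
    ring
  alternating := fun v => by
    simp only [hf.alternating, mul_zero]
  nondegenerate := fun y hy => by
    have hPy : (P : Matrix ι ι F) *ᵥ y ≠ 0 := by
      intro h
      apply hy
      have := inv_mulVec_mulVec P y
      rw [h, Matrix.mulVec_zero] at this
      exact this.symm
    obtain ⟨x, hx⟩ := (hf.nondegenerate _ hPy).1
    obtain ⟨x', hx'⟩ := (hf.nondegenerate _ hPy).2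
    refine ⟨⟨((P⁻¹ : GL ι F) : Matrix ι ι F) *ᵥ x, ?_⟩, ⟨((P⁻¹ : GL ι F) : Matrix ι ι F) *ᵥ x', ?_⟩⟩
    · simp only [mulVec_inv_mulVec]
      exact mul_ne_zero hζ hx
    · simp only [mulVec_inv_mulVec]
      exact mul_ne_zero hζ hx'

theorem isSpGroup_pull {hf : IsSymplecticForm f} {I : Subgroup (GL ι F)} (SI : IsSpGroup hf I) (P : GL ι F)
    {ζ : F} (hζ : ζ ≠ 0) : IsSpGroup (isSymp_pull hf P hζ) (I.map (MulAut.conj P⁻¹).toMonoidHom) where
  mem_iff := fun g => by
    rw [mem_map_conj_iff, inv_inv, SI.mem_iff]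
    constructor
    · intro h u v
      have := h ((P : Matrix ι ι F) *ᵥ u) ((P : Matrix ι ι F) *ᵥ v)
      simp only [Units.val_mul, ← Matrix.mulVec_mulVec, inv_mulVec_mulVec] at this
      beta_reduce
      rw [this]
    · intro h x y
      have := h (((P⁻¹ : GL ι F) : Matrix ι ι F) *ᵥ x) (((P⁻¹ : GL ι F) : Matrix ι ι F) *ᵥ y)
      simp only [mulVec_inv_mulVec] at this
      have h2 := mul_left_cancel₀ hζ this
      simp only [Units.val_mul, ← Matrix.mulVec_mulVec]
      exact h2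
  gen := fun M hM => by
    have h1 : I ≤ M.map (MulAut.conj P).toMonoidHom := by
      refine SI.gen _ (fun w c => ?_)
      rw [mem_map_conj_iff]
      have e : P⁻¹ * sympT hf w c * P =
          sympT (isSymp_pull hf P hζ) (((P⁻¹ : GL ι F) : Matrix ι ι F) *ᵥ w) (c / ζ) := by
        apply gl_ext_mulVec
        intro x
        simp only [Units.val_mul, ← Matrix.mulVec_mulVec]
        rw [sympT_mulVec, sympT_mulVec, Matrix.mulVec_add, inv_mulVec_mulVec, Matrix.mulVec_smul,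
          Matrix.mulVec_smul, mulVec_inv_mulVec, smul_smul, smul_smul]
        congr 2
        field_simp
      rw [e]
      exact hM _ _
    intro g hg
    rw [mem_map_conj_iff, inv_inv] at hg
    have h2 := h1 hg
    rw [mem_map_conj_iff] at h2
    have e : P⁻¹ * (P * g * P⁻¹) * P = g := by group
    rwa [e] at h2

/-- **The subfield group is maximal in `Sp`.** -/
theorem isMaximalIn [Fintype F] {hf : IsSymplecticForm f} {I : Subgroup (GL ι F)} (SI : IsSpGroup hf I)
    (hn : 13 ≤ Fintype.card ι) {r : ℕ} (hr : r.Prime) (hcard : Fintype.card F = Nat.card F₀ ^ r) (P : GL ι F)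
    {ζ : F} (hζ : ζ ≠ 0) (hP : IsFormRationalStructure f F₀ ζ P) :
    IsMaximalIn I (subfieldSubgroup F₀ P ⊓ I) := by
  have key := isMaximalIn_one (isSpGroup_pull SI P hζ) (F₀ := F₀) (fun u v hu hv => hP u v hu hv) hn hr hcard
  have h1 := Cfsg.Agent.Lib.Geo.Basic.IsMaximalIn.conj key P
  have h2 : (I.map (MulAut.conj P⁻¹).toMonoidHom).map (MulAut.conj P).toMonoidHom = I := by
    ext g
    rw [mem_map_conj_iff, mem_map_conj_iff, inv_inv]
    have e : P * (P⁻¹ * g * P) * P⁻¹ = g := by group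
    rw [e]
  have h3 : (subfieldSubgroup F₀ 1).map (MulAut.conj P).toMonoidHom = subfieldSubgroup F₀ P := by
    ext g
    rw [mem_map_conj_iff, mem_subfield_iff, mem_subfield_iff]
    simp
  rw [map_conj_inf, h2, h3] at h1
  exact h1

end Cfsg.Agent.Lib.Geo.SpSub
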