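/-
The subfield group is maximal in `Ω`: the first part, up to the passage from a non-rational parameter at a rational
centre to the whole of `Ω`.
-/
import Cfsg.Agent.Lib.GeoOmega.Roots
import Cfsg.Agent.Lib.Geo.SUSymp
import Cfsg.Agent.Lib.Geo.SpSub
set_option autoImplicit false

namespace Cfsg.Agent.Lib.Geo.OmSub

open Cfsg Cfsg.Geo Cfsg.Agent.Lib.Geo.Basic Cfsg.Agent.Lib.Geo.Parabolic Cfsg.Agent.Lib.Geo.Centres
open Cfsg.Agent.Lib.Geo.Polar Cfsg.Agent.Lib.Geo.QForm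
open Cfsg.Agent.Lib.GeoOmega.Basic Cfsg.Agent.Lib.GeoOmega.Eichler
open Cfsg.Agent.Lib.Geo.RatStruct Cfsg.Agent.Lib.Geo.DicksonGen
open Cfsg.Agent.Lib.Geo.SUSymp (coeV coeV_apply coeV_add coeV_smul isRat_coeV exists_coeV coeV_injective)
open Cfsg.Agent.Lib.Geo.SpSub (coeV_single coeV_zero eq_sum_single)
open scoped MatrixGroups Matrix

variable {ι : Type} [Fintype ι] [DecidableEq ι] {F : Type*} [Field F]
variable {Q : (ι → F) → F} {F₀ : Subfield F}

/-! ### The rational form -/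

/-- The rational form on the rational vectors. -/
def qo (hrat : ∀ u : ι → F, IsRat F₀ u → Q u ∈ F₀) (u : ι → F₀) : F₀ :=
  ⟨Q (coeV u), hrat _ (isRat_coeV u)⟩

theorem coe_qo (hrat : ∀ u : ι → F, IsRat F₀ u → Q u ∈ F₀) (u : ι → F₀) : (qo hrat u : F) = Q (coeV u) := rfl

theorem coe_polo (hrat : ∀ u : ι → F, IsRat F₀ u → Q u ∈ F₀) (u v : ι → F₀) :
    ((pol (qo hrat) u v : F₀) : F) = pol Q (coeV u) (coeV v) := by
  simp only [pol, QuadraticMap.polar, Subfield.coe_sub, coe_qo, coeV_add]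

theorem pol_rat (hrat : ∀ u : ι → F, IsRat F₀ u → Q u ∈ F₀) {u v : ι → F} (hu : IsRat F₀ u) (hv : IsRat F₀ v) :
    pol Q u v ∈ F₀ := by
  simp only [pol, QuadraticMap.polar]
  exact F₀.sub_mem (F₀.sub_mem (hrat _ (hu.add hv)) (hrat _ hu)) (hrat _ hv)

section Form

variable (hQ : IsNondegenerateQuadraticForm Q)
include hQ

theorem pol_sum_left {κ : Type*} (s : Finset κ) (c : κ → ι → F) (v : ι → F) :
    pol Q (∑ i ∈ s, c i) v = ∑ i ∈ s, pol Q (c i) v := by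
  classical
  induction s using Finset.induction_on with
  | empty => simpa using pol_zero_left hQ v
  | insert a s ha ih => rw [Finset.sum_insert ha, Finset.sum_insert ha, pol_add_left hQ, ih]

theorem eq_zero_of_pol_single {y : ι → F} (h : ∀ i, pol Q y (Pi.single i 1) = 0) : y = 0 := by
  by_contra h0
  obtain ⟨x, hx⟩ := (hQ.nondegenerate y h0).1
  apply hx
  change pol Q x y = 0
  rw [eq_sum_single x, pol_sum_left hQ]
  refine Finset.sum_eq_zero fun i _ => ?_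
  rw [pol_smul_left hQ, pol_symm hQ, h, mul_zero]

theorem eq_of_pol_single {y z : ι → F} (h : ∀ i, pol Q y (Pi.single i 1) = pol Q z (Pi.single i 1)) : y = z := by
  have := eq_zero_of_pol_single hQ (y := y - z) (fun i => by
    rw [pol_sub_left hQ, h, sub_self])
  exact sub_eq_zero.mp this

theorem isNondeg_qo (hrat : ∀ u : ι → F, IsRat F₀ u → Q u ∈ F₀) : IsNondegenerateQuadraticForm (qo hrat) where
  smul := fun c v => by
    apply Subtype.ext
    simp only [coe_qo, coeV_smul, hQ.smul, Subfield.coe_mul, SubmonoidClass.coe_pow]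
  polar_bilinear :=
    { add_left := fun x y v => by
        apply Subtype.ext
        simp only [coe_polo, coeV_add, pol_add_left hQ, Subfield.coe_add]
      smul_left := fun c x v => by
        apply Subtype.ext
        simp only [coe_polo, coeV_smul, pol_smul_left hQ, Subfield.coe_mul]
      add_right := fun v x y => by
        apply Subtype.ext
        simp only [coe_polo, coeV_add, pol_add_right hQ, Subfield.coe_add]
      smul_right := fun c v x => by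
        apply Subtype.ext
        simp only [coe_polo, coeV_smul, pol_smul_right hQ, Subfield.coe_mul] }
  nondegenerate := fun y hy => by
    have hy' : coeV y ≠ 0 := by
      intro h
      apply hy
      apply coeV_injective
      rw [h, coeV_zero]
    have key : ∃ i, pol Q (coeV y) (Pi.single i 1) ≠ 0 := by
      by_contra hcon
      push Not at hcon
      exact hy' (eq_zero_of_pol_single hQ hcon)
    obtain ⟨i, hi⟩ := key
    have h1 : pol (qo hrat) y (Pi.single i 1) ≠ 0 := by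
      intro h
      apply hi
      have := congrArg (fun a : F₀ => (a : F)) h
      simpa only [coe_polo, coeV_single, ZeroMemClass.coe_zero] using this
    have h2 : pol (qo hrat) (Pi.single i 1) y ≠ 0 := by
      intro h
      apply hi
      have := congrArg (fun a : F₀ => (a : F)) h
      rw [pol_symm hQ]
      simpa only [coe_polo, coeV_single, ZeroMemClass.coe_zero] using this
    exact ⟨⟨_, h2⟩, ⟨_, h1⟩⟩

end Form

section Rational

variable [Finite F] (hQ : IsNondegenerateQuadraticForm Q) (hrat : ∀ u : ι → F, IsRat F₀ u → Q u ∈ F₀)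
include hQ hrat

/-- Rational hyperbolic pairs orthogonal to finitely many rational vectors. -/
theorem rat_hyp {k : ℕ} (S : Fin k → ι → F) (hS : ∀ i, IsRat F₀ (S i)) (hn : 2 * k + 3 ≤ Fintype.card ι) :
    ∃ p q : ι → F, IsRat F₀ p ∧ IsRat F₀ q ∧ Q p = 0 ∧ Q q = 0 ∧ pol Q p q = 1 ∧ (∀ i, pol Q p (S i) = 0) ∧
      ∀ i, pol Q q (S i) = 0 := by
  have hS' := fun i => exists_coeV (hS i)
  choose S₀ hS₀ using hS'
  haveI : Finite F₀ := Finite.of_injective (fun x : F₀ => (x : F)) Subtype.val_injective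
  have P := isPolar (isNondeg_qo hQ hrat)
  obtain ⟨p, q, hp, hq, hpS, hqS, hpq⟩ := P.exists_hyperbolic S₀ hn
  rw [P.mem_perp] at hp hq
  simp only [Set.mem_ofPred_eq] at hpS hqS
  refine ⟨coeV p, coeV q, isRat_coeV p, isRat_coeV q, ?_, ?_, ?_, fun i => ?_, fun i => ?_⟩
  · have := congrArg (fun a : F₀ => (a : F)) hpS
    simpa only [coe_qo, ZeroMemClass.coe_zero] using this
  · have := congrArg (fun a : F₀ => (a : F)) hqS
    simpa only [coe_qo, ZeroMemClass.coe_zero] using this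
  · have := congrArg (fun a : F₀ => (a : F)) hpq
    simpa only [coe_polo, OneMemClass.coe_one] using this
  · have := congrArg (fun a : F₀ => (a : F)) (hp i)
    simpa only [coe_polo, hS₀, ZeroMemClass.coe_zero] using this
  · have := congrArg (fun a : F₀ => (a : F)) (hq i)
    simpa only [coe_polo, hS₀, ZeroMemClass.coe_zero] using this

/-- Rational functionals are represented by rational vectors. -/
theorem isRat_of_pol {x : ι → F} (h : ∀ i, pol Q x (Pi.single i 1) ∈ F₀) : IsRat F₀ x := by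
  haveI : Finite F₀ := Finite.of_injective (fun x : F₀ => (x : F)) Subtype.val_injective
  have P := isPolar (isNondeg_qo hQ hrat)
  obtain ⟨y, hy⟩ := P.formVec_surjective (fun i => (⟨_, h i⟩ : F₀))
  have : x = coeV y := by
    apply eq_of_pol_single hQ
    intro i
    have h1 := congrFun hy i
    have h2 := congrArg (fun a : F₀ => (a : F)) h1
    simp only [formVec, coe_polo, coeV_single] at h2
    rw [pol_symm hQ (coeV y)]
    exact h2.symm
  rw [this]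
  exact isRat_coeV y

/-- Rational separation: a rational vector outside the line of another one. -/
theorem rat_dual {p w : ι → F} (hp : IsRat F₀ p) (hw : IsRat F₀ w) (h : ∀ c ∈ F₀, p ≠ c • w) :
    ∃ y : ι → F, IsRat F₀ y ∧ pol Q w y = 0 ∧ pol Q p y = 1 := by
  obtain ⟨p₀, rfl⟩ := exists_coeV hp
  obtain ⟨w₀, rfl⟩ := exists_coeV hw
  haveI : Finite F₀ := Finite.of_injective (fun x : F₀ => (x : F)) Subtype.val_injective
  have P := isPolar (isNondeg_qo hQ hrat)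
  have hmem : p₀ ∉ Submodule.span F₀ (Set.range ![w₀]) := by
    intro hm
    have : Set.range ![w₀] = {w₀} := by
      ext x
      simp [eq_comm]
    rw [this, Submodule.mem_span_singleton] at hm
    obtain ⟨c, hc⟩ := hm
    apply h c c.2
    rw [← hc, coeV_smul]
  obtain ⟨y, hy, hpy⟩ := P.exists_perp_ne_zero ![w₀] p₀ hmem
  rw [P.mem_perp] at hy
  refine ⟨coeV y, isRat_coeV y, ?_, ?_⟩
  · have := congrArg (fun a : F₀ => (a : F)) (hy 0)
    simp only [coe_polo, Matrix.cons_val_zero, ZeroMemClass.coe_zero] at this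
    rw [pol_symm hQ]
    exact this
  · have := congrArg (fun a : F₀ => (a : F)) hpy
    simpa only [coe_polo, OneMemClass.coe_one] using this

/-- A non-zero rational vector has a rational dual. -/
theorem rat_one {a : ι → F} (ha : IsRat F₀ a) (ha0 : a ≠ 0) : ∃ y : ι → F, IsRat F₀ y ∧ pol Q a y = 1 := by
  have h : ∃ i, pol Q a (Pi.single i 1) ≠ 0 := by
    by_contra hcon
    push Not at hcon
    exact ha0 (eq_zero_of_pol_single hQ hcon)
  obtain ⟨i, hi⟩ := h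
  have h1 : pol Q a (Pi.single i 1) ∈ F₀ := pol_rat hrat ha (isRat_single i)
  refine ⟨(pol Q a (Pi.single i 1))⁻¹ • Pi.single i 1, (isRat_single i).smul (F₀.inv_mem h1), ?_⟩
  rw [pol_smul_right hQ, inv_mul_cancel₀ hi]

/-- A non-zero rational singular vector has a rational singular dual. -/
theorem rat_opp {a : ι → F} (ha : IsRat F₀ a) (ha0 : a ≠ 0) (haQ : Q a = 0) :
    ∃ y : ι → F, IsRat F₀ y ∧ Q y = 0 ∧ pol Q a y = 1 := by
  obtain ⟨y, hy, hay⟩ := rat_one hQ hrat ha ha0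
  refine ⟨y - Q y • a, hy.sub (ha.smul (hrat _ hy)), ?_, ?_⟩
  · rw [Q_sub hQ, hQ.smul, haQ, pol_smul_right hQ, pol_symm hQ y a, hay]
    ring
  · rw [pol_sub_right hQ, pol_smul_right hQ, pol_singular hQ haQ, hay]
    ring

/-- Decomposition of rational vectors in the perp of a rational singular vector as sums of singular vectors. -/
theorem rat_decomp (hn : 13 ≤ Fintype.card ι) {a u : ι → F} (ha : IsRat F₀ a) (hu : IsRat F₀ u) (haQ : Q a = 0)
    (hau : pol Q a u = 0) : ∃ b₁ b₂ : ι → F, IsRat F₀ b₁ ∧ IsRat F₀ b₂ ∧ Q b₁ = 0 ∧ Q b₂ = 0 ∧ pol Q a b₁ = 0 ∧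
      pol Q a b₂ = 0 ∧ u = b₁ + b₂ := by
  by_cases hQu : Q u = 0
  · exact ⟨u, 0, hu, isRat_zero, hQu, Q_zero hQ, hau, pol_zero_right hQ _, by simp⟩
  haveI : Finite F₀ := Finite.of_injective (fun x : F₀ => (x : F)) Subtype.val_injective
  have P := isPolar (isNondeg_qo hQ hrat)
  obtain ⟨a₀, rfl⟩ := exists_coeV ha
  obtain ⟨u₀, rfl⟩ := exists_coeV hu
  have hmem : u₀ ∉ Submodule.span F₀ (Set.range ![a₀]) := by
    intro hm
    have : Set.range ![a₀] = {a₀} := by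
      ext x
      simp [eq_comm]
    rw [this, Submodule.mem_span_singleton] at hm
    obtain ⟨c, hc⟩ := hm
    apply hQu
    rw [← hc, coeV_smul, hQ.smul, haQ, mul_zero]
  obtain ⟨c₀, hcS, hcP, hcu⟩ := P.exists_singular_perp ![a₀] u₀ hmem (by simp; omega)
  rw [P.mem_perp] at hcP
  simp only [Set.mem_ofPred_eq] at hcS
  obtain ⟨c, hc⟩ : ∃ c, c = coeV c₀ := ⟨_, rfl⟩
  have hcR : IsRat F₀ c := by
    rw [hc]
    exact isRat_coeV _
  have hcQ : Q c = 0 := by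
    have := congrArg (fun a : F₀ => (a : F)) hcS
    simpa only [coe_qo, ZeroMemClass.coe_zero, ← hc] using this
  have hca : pol Q c (coeV a₀) = 0 := by
    have := congrArg (fun a : F₀ => (a : F)) (hcP 0)
    simpa only [coe_polo, Matrix.cons_val_zero, ZeroMemClass.coe_zero, ← hc] using this
  have hcu' : pol Q c (coeV u₀) ≠ 0 := by
    intro h
    apply hcu
    apply Subtype.ext
    rw [coe_polo, ← hc, h]
    rfl
  have huc : pol Q (coeV u₀) c ≠ 0 := by rwa [pol_symm hQ]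
  obtain ⟨t, ht⟩ : ∃ t, t = Q (coeV u₀) / pol Q (coeV u₀) c := ⟨_, rfl⟩
  have htF : t ∈ F₀ := by
    rw [ht]
    exact F₀.div_mem (hrat _ hu) (pol_rat hrat hu hcR)
  refine ⟨coeV u₀ - t • c, t • c, hu.sub (hcR.smul htF), hcR.smul htF, ?_, ?_, ?_, ?_, by abel⟩
  · rw [Q_sub hQ, hQ.smul, hcQ, pol_smul_right hQ, ht]
    field_simp
    ring
  · rw [hQ.smul, hcQ, mul_zero]
  · rw [pol_sub_right hQ, pol_smul_right hQ, hau, pol_symm hQ _ c, hca]
    ring
  · rw [pol_smul_right hQ, pol_symm hQ _ c, hca, mul_zero]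

end Rational

/-! ### Parameters at a centre -/

/-- The parameters of the Eichler transformations with centre `a` in `M`. -/
def Par (Q : (ι → F) → F) (M : Subgroup (GL ι F)) (a v : ι → F) : Prop :=
  pol Q a v = 0 ∧ ∀ g, Eich Q g a v → g ∈ M

section ParS

variable {M : Subgroup (GL ι F)} (hQ : IsNondegenerateQuadraticForm Q)
include hQ

theorem Par.add {a v w : ι → F} (ha : Q a = 0) (hv : Par Q M a v) (hw : Par Q M a w) : Par Q M a (v + w) := by
  refine ⟨by rw [pol_add_right hQ, hv.1, hw.1, add_zero], fun g hg => ?_⟩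
  obtain ⟨g₁, hg₁⟩ := exists_eich hQ ha hv.1
  obtain ⟨g₂, hg₂⟩ := exists_eich hQ ha hw.1
  rw [Eich.unique' hg (hg₁.mul hQ hg₂ ha hv.1 hw.1)]
  exact M.mul_mem (hv.2 _ hg₁) (hw.2 _ hg₂)

theorem eich_zero {a : ι → F} {g : GL ι F} (hg : Eich Q g a 0) : g = 1 := by
  apply gl_ext_mulVec
  intro x
  rw [hg x]
  simp [pol_zero_right hQ, Q_zero hQ]

theorem Par.zero (a : ι → F) : Par Q M a 0 :=
  ⟨pol_zero_right hQ _, fun g hg => by
    rw [eich_zero hQ hg]
    exact M.one_mem⟩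

theorem Par.neg {a v : ι → F} (ha : Q a = 0) (hv : Par Q M a v) : Par Q M a (-v) := by
  have hv' : pol Q a (-v) = 0 := by rw [pol_neg_right hQ, hv.1, neg_zero]
  refine ⟨hv', fun g hg => ?_⟩
  obtain ⟨g₁, hg₁⟩ := exists_eich hQ ha hv.1
  have h3 := hg.mul hQ hg₁ ha hv' hv.1
  rw [neg_add_cancel] at h3
  rw [eq_inv_of_mul_eq_one_left (eich_zero hQ h3)]
  exact M.inv_mem (hv.2 _ hg₁)

theorem Par.sub {a v w : ι → F} (ha : Q a = 0) (hv : Par Q M a v) (hw : Par Q M a w) : Par Q M a (v - w) := by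
  rw [sub_eq_add_neg]
  exact Par.add hQ ha hv (Par.neg hQ ha hw)

omit hQ in
theorem Par.conj {a v : ι → F} (hv : Par Q M a v) {k : GL ι F} (hk : k ∈ M) (hkI : k ∈ isometryGroup F Q) :
    Par Q M ((k : Matrix ι ι F) *ᵥ a) ((k : Matrix ι ι F) *ᵥ v) := by
  refine ⟨by rw [pol_isometry k hkI]; exact hv.1, fun g hg => ?_⟩
  have hkI' := (isometryGroup F Q).inv_mem hkI
  have h1 := hg.conj hkI'
  rw [inv_mulVec_mulVec, inv_mulVec_mulVec] at h1
  have h2 := hv.2 _ h1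
  have h3 : g = k * (k⁻¹ * g * k⁻¹⁻¹) * k⁻¹ := by group
  rw [h3]
  exact M.mul_mem (M.mul_mem hk h2) (M.inv_mem hk)

theorem Par.swap {p c : ι → F} {t : F} (hp : Q p = 0) (hc : Q c = 0) (h : Par Q M p (t • c)) :
    Par Q M c ((-t) • p) := by
  refine ⟨?_, fun g hg => ?_⟩
  · have h1 := h.1
    rw [pol_smul_right hQ] at h1 ⊢
    rw [pol_symm hQ c p]
    linear_combination -h1
  · have := Cfsg.Agent.Lib.GeoOmega.Roots.Eich.swap (hQ := hQ) hg hp hc
    rw [neg_neg] at this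
    exact h.2 g this

/-- The basic move: conjugating by an Eichler transformation with another centre. -/
theorem Par.step {a b c f : ι → F} {x y : F} (ha : Q a = 0) (hf : Q f = 0) (hc : Q c = 0)
    (haf : pol Q a f = 0) (hac : pol Q a c = 0) (hbc : pol Q b c = 0) (hbf : pol Q b f = 1)
    (hM : M ≤ isometryGroup F Q) (hy : Par Q M f (y • c)) (hx : Par Q M a (x • b)) :
    Par Q M a ((x * y) • c) := by
  obtain ⟨k, hk⟩ := exists_eich hQ hf hy.1
  have hkM := hy.2 k hk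
  have hkI := hM hkM
  have hka : (k : Matrix ι ι F) *ᵥ a = a := by
    rw [hk a, pol_smul_right hQ, hac, haf]
    simp
  have hkb : (k : Matrix ι ι F) *ᵥ (x • b) = x • b - (x * y) • c := by
    rw [hk _, pol_smul_right hQ, pol_smul_left hQ, pol_smul_left hQ, hbc, hbf, hQ.smul, hc]
    simp only [mul_zero, zero_smul, add_zero, mul_one, zero_mul, sub_zero, smul_smul]
  have h1 := hx.conj hkM (hM hkM)
  rw [hka, hkb] at h1
  have h2 := Par.sub hQ ha hx h1
  have e : x • b - (x • b - (x * y) • c) = (x * y) • c := by abel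
  rwa [e] at h2

end ParS

/-- The data of the proof: a group of isometries containing the rational Eichler transformations. -/
structure OSys (hQ : IsNondegenerateQuadraticForm Q) (F₀ : Subfield F) (M : Subgroup (GL ι F)) : Prop where
  rat : ∀ u : ι → F, IsRat F₀ u → Q u ∈ F₀
  iso : M ≤ isometryGroup F Q
  mem : ∀ a b g, IsRat F₀ a → IsRat F₀ b → Q a = 0 → pol Q a b = 0 → Eich Q g a b → g ∈ M

/-- The non-rational parameters that spread. -/
def IsK (Q : (ι → F) → F) (F₀ : Subfield F) (M : Subgroup (GL ι F)) (x : F) : Prop :=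
  ∀ A B : ι → F, IsRat F₀ A → IsRat F₀ B → Q A = 0 → Q B = 0 → pol Q A B = 0 → Par Q M A (x • B)

/-- The property of having only rational parameters at rational centres. -/
def NC (Q : (ι → F) → F) (F₀ : Subfield F) (M : Subgroup (GL ι F)) : Prop :=
  ∀ ρ v : ι → F, IsRat F₀ ρ → Q ρ = 0 → ρ ≠ 0 → Par Q M ρ v → ∃ (v₀ : ι → F) (c : F), IsRat F₀ v₀ ∧ v = v₀ + c • ρ

section OSysS

variable {M : Subgroup (GL ι F)} {hQ : IsNondegenerateQuadraticForm Q}

theorem OSys.par (S : OSys hQ F₀ M) {a b : ι → F} (ha : IsRat F₀ a) (hb : IsRat F₀ b) (haQ : Q a = 0)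
    (hab : pol Q a b = 0) : Par Q M a b :=
  ⟨hab, fun g hg => S.mem a b g ha hb haQ hab hg⟩

theorem OSys.step1 (S : OSys hQ F₀ M) {a b c f : ι → F} {x : F} (hf : IsRat F₀ f) (hc : IsRat F₀ c) (ha : Q a = 0)
    (hfQ : Q f = 0) (hcQ : Q c = 0) (haf : pol Q a f = 0) (hac : pol Q a c = 0) (hfc : pol Q f c = 0)
    (hbc : pol Q b c = 0) (hbf : pol Q b f = 1) (hx : Par Q M a (x • b)) : Par Q M a (x • c) := by
  have h1 : Par Q M f ((1 : F) • c) := by
    rw [one_smul]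
    exact S.par hf hc hfQ hfc
  have := Par.step hQ ha hfQ hcQ haf hac hbc hbf S.iso h1 hx
  rwa [mul_one] at this

variable [Finite F]

theorem OSys.exists_f (S : OSys hQ F₀ M) {a b c c' : ι → F} (ha : IsRat F₀ a) (hb : IsRat F₀ b) (hc : IsRat F₀ c)
    (hc' : IsRat F₀ c') (hbQ : Q b = 0) (hab : pol Q a b = 0) (hcb : pol Q c b = 0) (hcc' : pol Q c c' = 1)
    (hac' : pol Q a c' = 0) (hbc' : pol Q b c' = 0) (hind : ∀ l ∈ F₀, b ≠ l • a) :
    ∃ f, IsRat F₀ f ∧ Q f = 0 ∧ pol Q a f = 0 ∧ pol Q c f = 0 ∧ pol Q b f = 1 := by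
  obtain ⟨y, hy, hay, hby⟩ := rat_dual hQ S.rat hb ha hind
  obtain ⟨y', hy'd⟩ : ∃ y', y' = y - pol Q c y • c' := ⟨_, rfl⟩
  have hy'R : IsRat F₀ y' := by
    rw [hy'd]
    exact hy.sub (hc'.smul (pol_rat S.rat hc hy))
  have hay' : pol Q a y' = 0 := by
    rw [hy'd, pol_sub_right hQ, pol_smul_right hQ, hay, hac']
    ring
  have hcy' : pol Q c y' = 0 := by
    rw [hy'd, pol_sub_right hQ, pol_smul_right hQ, hcc']
    ring
  have hby' : pol Q b y' = 1 := by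
    rw [hy'd, pol_sub_right hQ, pol_smul_right hQ, hby, hbc']
    ring
  refine ⟨y' - Q y' • b, hy'R.sub (hb.smul (S.rat _ hy'R)), ?_, ?_, ?_, ?_⟩
  · rw [Q_sub hQ, hQ.smul, hbQ, pol_smul_right hQ, pol_symm hQ y' b, hby']
    ring
  · rw [pol_sub_right hQ, pol_smul_right hQ, hay', hab]
    ring
  · rw [pol_sub_right hQ, pol_smul_right hQ, hcy', hcb]
    ring
  · rw [pol_sub_right hQ, pol_smul_right hQ, hby', pol_singular hQ hbQ]
    ring

/-- A non-rational parameter at one rational pair spreads to all rational pairs. -/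
theorem OSys.uniform (S : OSys hQ F₀ M) (hn : 13 ≤ Fintype.card ι) {a₀ b₀ : ι → F} {x : F} (ha₀ : IsRat F₀ a₀)
    (hb₀ : IsRat F₀ b₀) (ha₀Q : Q a₀ = 0) (hb₀Q : Q b₀ = 0) (hab : pol Q a₀ b₀ = 0) (ha₀0 : a₀ ≠ 0)
    (hind : ∀ l ∈ F₀, b₀ ≠ l • a₀) (hx : Par Q M a₀ (x • b₀)) : IsK Q F₀ M x := by
  intro A B hA hB hAQ hBQ hAB
  obtain ⟨c, c', hc, hc', hcQ, hc'Q, hcc', hcS, hc'S⟩ := rat_hyp hQ S.rat ![a₀, b₀, A, B]
    (by
      intro i
      fin_cases i
      · exact ha₀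
      · exact hb₀
      · exact hA
      · exact hB) (by simp; omega)
  have hca₀ : pol Q c a₀ = 0 := hcS 0
  have hcb₀ : pol Q c b₀ = 0 := hcS 1
  have hcA : pol Q c A = 0 := hcS 2
  have hcB : pol Q c B = 0 := hcS 3
  have hc'a₀ : pol Q c' a₀ = 0 := hc'S 0
  have hc'b₀ : pol Q c' b₀ = 0 := hc'S 1
  have hc'A : pol Q c' A = 0 := hc'S 2
  have hc'B : pol Q c' B = 0 := hc'S 3
  obtain ⟨e, e', he, he', heQ, he'Q, hee', heS, he'S⟩ := rat_hyp hQ S.rat ![c, a₀, A]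
    (by
      intro i
      fin_cases i
      · exact hc
      · exact ha₀
      · exact hA) (by simp; omega)
  have hec : pol Q e c = 0 := heS 0
  have hea₀ : pol Q e a₀ = 0 := heS 1
  have heA : pol Q e A = 0 := heS 2
  have he'c : pol Q e' c = 0 := he'S 0
  have he'a₀ : pol Q e' a₀ = 0 := he'S 1
  have he'A : pol Q e' A = 0 := he'S 2
  -- first step
  obtain ⟨f₁, hf₁, hf₁Q, h1a, h1c, h1b⟩ := S.exists_f ha₀ hb₀ hc hc' hb₀Q hab hcb₀ hcc'
    (by rw [pol_symm hQ]; exact hc'a₀) (by rw [pol_symm hQ]; exact hc'b₀) hind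
  have h1 : Par Q M a₀ (x • c) := S.step1 hf₁ hc ha₀Q hf₁Q hcQ h1a (by rw [pol_symm hQ]; exact hca₀)
    (by rw [pol_symm hQ]; exact h1c) (by rw [pol_symm hQ]; exact hcb₀) h1b hx
  have h2 : Par Q M c ((-x) • a₀) := Par.swap hQ ha₀Q hcQ h1
  have hind' : ∀ l ∈ F₀, a₀ ≠ l • c := by
    intro l _ e0
    apply ha₀0
    have h3 : pol Q a₀ c' = l := by
      rw [e0, pol_smul_left hQ, hcc', mul_one]
    have h4 : l = 0 := by
      rw [← h3, pol_symm hQ]
      exact hc'a₀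
    rw [e0, h4, zero_smul]
  obtain ⟨f₃, hf₃, hf₃Q, h3c, h3e, h3a⟩ := S.exists_f hc ha₀ he he' ha₀Q hca₀
    hea₀ hee' (by rw [pol_symm hQ]; exact he'c) (by rw [pol_symm hQ]; exact he'a₀) hind'
  have h3 : Par Q M c ((-x) • e) := S.step1 hf₃ he hcQ hf₃Q heQ h3c (by rw [pol_symm hQ]; exact hec)
    (by rw [pol_symm hQ]; exact h3e) (by rw [pol_symm hQ]; exact hea₀) h3a h2
  have h4 : Par Q M c ((-x) • A) := S.step1 he' hA hcQ he'Q hAQ (by rw [pol_symm hQ]; exact he'c) hcA he'A heA hee' h3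
  have h5 : Par Q M A ((- -x) • c) := Par.swap hQ hcQ hAQ h4
  rw [neg_neg] at h5
  exact S.step1 hc' hB hAQ hc'Q hBQ (by rw [pol_symm hQ]; exact hc'A) hAB hc'B hcB hcc' h5

omit [Finite F] in
theorem OSys.isK_of_mem (S : OSys hQ F₀ M) {x : F} (hx : x ∈ F₀) : IsK Q F₀ M x := by
  intro A B hA hB hAQ _ hAB
  exact S.par hA (hB.smul hx) hAQ (by rw [pol_smul_right hQ, hAB, mul_zero])

theorem IsK.add (hQ : IsNondegenerateQuadraticForm Q) {x y : F} (hx : IsK Q F₀ M x) (hy : IsK Q F₀ M y) : IsK Q F₀ M (x + y) := by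
  intro A B hA hB hAQ hBQ hAB
  rw [add_smul]
  exact Par.add hQ hAQ (hx A B hA hB hAQ hBQ hAB) (hy A B hA hB hAQ hBQ hAB)

theorem IsK.neg (hQ : IsNondegenerateQuadraticForm Q) {x : F} (hx : IsK Q F₀ M x) : IsK Q F₀ M (-x) := by
  intro A B hA hB hAQ hBQ hAB
  rw [neg_smul]
  exact Par.neg hQ hAQ (hx A B hA hB hAQ hBQ hAB)

theorem OSys.isK_mul (S : OSys hQ F₀ M) (hn : 13 ≤ Fintype.card ι) {x y : F} (hx : IsK Q F₀ M x)
    (hy : IsK Q F₀ M y) : IsK Q F₀ M (x * y) := by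
  obtain ⟨b, f, hb, hf, hbQ, hfQ, hbf, -, -⟩ := rat_hyp hQ S.rat (k := 0) ![] (by
    intro i
    exact i.elim0) (by simp; omega)
  obtain ⟨a, a', ha, ha', haQ, ha'Q, haa', haS, ha'S⟩ := rat_hyp hQ S.rat ![b, f]
    (by
      intro i
      fin_cases i
      · exact hb
      · exact hf) (by simp; omega)
  obtain ⟨c, c', hc, hc', hcQ, hc'Q, hcc', hcS, hc'S⟩ := rat_hyp hQ S.rat ![b, f, a, a']
    (by
      intro i
      fin_cases i
      · exact hb
      · exact hf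
      · exact ha
      · exact ha') (by simp; omega)
  have hab : pol Q a b = 0 := haS 0
  have haf : pol Q a f = 0 := haS 1
  have hcb : pol Q c b = 0 := hcS 0
  have hcf : pol Q c f = 0 := hcS 1
  have hca : pol Q c a = 0 := hcS 2
  have hc'a : pol Q c' a = 0 := hc'S 2
  have h1 := hx a b ha hb haQ hbQ hab
  have h2 := hy f c hf hc hfQ hcQ (by rw [pol_symm hQ]; exact hcf)
  have h3 := Par.step hQ haQ hfQ hcQ haf (by rw [pol_symm hQ]; exact hca) (by rw [pol_symm hQ]; exact hcb) hbf S.iso h2 h1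
  have ha0 : a ≠ 0 := by
    rintro rfl
    rw [pol_zero_left hQ] at haa'
    exact zero_ne_one haa'
  refine S.uniform hn ha hc haQ hcQ (by rw [pol_symm hQ]; exact hca) ha0 ?_ h3
  intro l _ e
  have h4 : pol Q c c' = l * pol Q a c' := by
    rw [e, pol_smul_left hQ]
  rw [hcc', pol_symm hQ a c', hc'a, mul_zero] at h4
  exact one_ne_zero h4

/-- The parameters form a subfield. -/
theorem OSys.exists_K (S : OSys hQ F₀ M) (hn : 13 ≤ Fintype.card ι) :
    ∃ K : Subfield F, ∀ x, x ∈ K ↔ IsK Q F₀ M x := by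
  classical
  have := Fintype.ofFinite F
  have hone : IsK Q F₀ M 1 := S.isK_of_mem F₀.one_mem
  have hzero : IsK Q F₀ M 0 := S.isK_of_mem F₀.zero_mem
  have hpow : ∀ (x : F), IsK Q F₀ M x → ∀ n : ℕ, IsK Q F₀ M (x ^ n) := by
    intro x hx n
    induction n with
    | zero => simpa using hone
    | succ n ih =>
      rw [pow_succ]
      exact S.isK_mul hn ih hx
  refine ⟨{
    carrier := {x | IsK Q F₀ M x}
    mul_mem' := fun hx hy => S.isK_mul hn hx hy
    one_mem' := hone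
    add_mem' := fun hx hy => IsK.add hQ hx hy
    zero_mem' := hzero
    neg_mem' := fun hx => IsK.neg hQ hx
    inv_mem' := ?_ }, fun x => Iff.rfl⟩
  intro x hx
  by_cases h0 : x = 0
  · rw [h0, inv_zero]
    exact hzero
  have h1 : x ^ (Fintype.card F - 1) = 1 := FiniteField.pow_card_sub_one_eq_one x h0
  have h2 : 1 < Fintype.card F := Fintype.one_lt_card
  have h3 : Fintype.card F - 1 = (Fintype.card F - 2) + 1 := by omega
  rw [h3, pow_succ] at h1
  rw [← eq_inv_of_mul_eq_one_left h1]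
  exact hpow x hx _

end OSysS

section Core

variable [Fintype F] {M : Subgroup (GL ι F)} {hQ : IsNondegenerateQuadraticForm Q}

/-- Once all parameters are available, all rational singular vectors are full. -/
theorem OSys.full_of_top (S : OSys hQ F₀ M) (hn : 13 ≤ Fintype.card ι) (htop : ∀ x, IsK Q F₀ M x) {A : ι → F}
    (hA : IsRat F₀ A) (hAQ : Q A = 0) (hA0 : A ≠ 0) : Full Q M A := by
  intro b g hb hg
  obtain ⟨A', hA', hAA'⟩ := rat_one hQ S.rat hA hA0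
  have key : ∀ (x : F) (u : ι → F), IsRat F₀ u → pol Q A u = 0 → Par Q M A (x • u) := by
    intro x u hu hAu
    obtain ⟨b₁, b₂, hb₁, hb₂, hb₁Q, hb₂Q, h1, h2, e⟩ := rat_decomp hQ S.rat hn hA hu hAQ hAu
    rw [e, smul_add]
    exact Par.add hQ hAQ (htop x A b₁ hA hb₁ hAQ hb₁Q h1) (htop x A b₂ hA hb₂ hAQ hb₂Q h2)
  have hbe : b = ∑ i, b i • ((Pi.single i 1 : ι → F) - pol Q (Pi.single i 1) A • A') := by
    simp only [smul_sub, Finset.sum_sub_distrib, smul_smul]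
    rw [← Finset.sum_smul, ← eq_sum_single]
    have h1 : ∑ i, b i * pol Q (Pi.single i 1) A = 0 := by
      have h2 : pol Q b A = 0 := by rw [pol_symm hQ]; exact hb
      rw [eq_sum_single b] at h2
      rw [pol_sum_left hQ] at h2
      simpa only [pol_smul_left hQ] using h2
    rw [h1, zero_smul, sub_zero]
  have hsum : ∀ s : Finset ι, Par Q M A (∑ i ∈ s, b i • ((Pi.single i 1 : ι → F) - pol Q (Pi.single i 1) A • A')) := by
    intro s
    induction s using Finset.induction_on with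
    | empty => simpa using Par.zero hQ A
    | insert i s hi ih =>
      rw [Finset.sum_insert hi]
      refine Par.add hQ hAQ (key _ _ ((isRat_single i).sub (hA'.smul (pol_rat S.rat (isRat_single i) hA))) ?_) ih
      rw [pol_sub_right hQ, pol_smul_right hQ, hAA', pol_symm hQ]
      ring
  have := hsum Finset.univ
  rw [← hbe] at this
  exact this.2 g hg

/-- **The core**: a non-rational parameter at a rational pair gives all of `Ω`. -/
theorem OSys.core (S : OSys hQ F₀ M) {r : ℕ} (hr : r.Prime) (hcard : Fintype.card F = Nat.card F₀ ^ r)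
    (hn : 13 ≤ Fintype.card ι) {a b : ι → F} {x : F} (ha : IsRat F₀ a) (hb : IsRat F₀ b) (haQ : Q a = 0)
    (hbQ : Q b = 0) (hab : pol Q a b = 0) (ha0 : a ≠ 0) (hind : ∀ l ∈ F₀, b ≠ l • a) (hxF : x ∉ F₀)
    (hx : Par Q M a (x • b)) : omegaGL Q ≤ M := by
  obtain ⟨K, hK⟩ := S.exists_K hn
  have hle : F₀ ≤ K := fun c hc => (hK c).mpr (S.isK_of_mem hc)
  have hxK : x ∈ K := (hK x).mpr (S.uniform hn ha hb haQ hbQ hab ha0 hind hx)
  have htop : ∀ y, IsK Q F₀ M y := by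
    intro y
    rw [← hK]
    rcases subfield_eq_or_top F₀ K hle hr hcard with h | h
    · exact absurd (h ▸ hxK) hxF
    · rw [h]
      exact Subfield.mem_top y
  obtain ⟨p, q, hp, hq, hpQ, hqQ, hpq, -, -⟩ := rat_hyp hQ S.rat (k := 0) ![] (by
    intro i
    exact i.elim0) (by simp; omega)
  have hp0 : p ≠ 0 := by
    rintro rfl
    rw [pol_zero_left hQ] at hpq
    exact zero_ne_one hpq
  have hq0 : q ≠ 0 := by
    rintro rfl
    rw [pol_zero_right hQ] at hpq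
    exact zero_ne_one hpq
  exact omega_le_of_full hQ (by omega) hpQ hqQ (S.full_of_top hn htop hp hpQ hp0)
    (S.full_of_top hn htop hq hqQ hq0) (by rw [pol_symm hQ, hpq]; exact one_ne_zero)

/-- Without all of `Ω`, parameters at rational centres are rational modulo the centre. -/
theorem OSys.nc (S : OSys hQ F₀ M) {r : ℕ} (hr : r.Prime) (hcard : Fintype.card F = Nat.card F₀ ^ r)
    (hn : 13 ≤ Fintype.card ι) (hnot : ¬ omegaGL Q ≤ M) : NC Q F₀ M := by
  intro ρ v hρ hρQ hρ0 hv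
  by_contra hcon
  push Not at hcon
  -- a rational singular vector with a non-rational value
  have hex : ∃ d, IsRat F₀ d ∧ Q d = 0 ∧ pol Q ρ d = 0 ∧ pol Q v d ∉ F₀ := by
    by_contra hno
    push Not at hno
    have hall : ∀ z, IsRat F₀ z → pol Q ρ z = 0 → pol Q v z ∈ F₀ := by
      intro z hz hρz
      obtain ⟨b₁, b₂, hb₁, hb₂, hb₁Q, hb₂Q, h1, h2, e⟩ := rat_decomp hQ S.rat hn hρ hz hρQ hρz
      rw [e, pol_add_right hQ]
      exact F₀.add_mem (hno b₁ hb₁ hb₁Q h1) (hno b₂ hb₂ hb₂Q h2)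
    obtain ⟨ρ', hρ', hρρ'⟩ := rat_one hQ S.rat hρ hρ0
    refine hcon (v - pol Q v ρ' • ρ) (pol Q v ρ') ?_ (by abel)
    apply isRat_of_pol hQ S.rat
    intro i
    have h1 := hall (Pi.single i 1 - pol Q ρ (Pi.single i 1) • ρ')
      ((isRat_single i).sub (hρ'.smul (pol_rat S.rat hρ (isRat_single i)))) (by
        rw [pol_sub_right hQ, pol_smul_right hQ, hρρ']
        ring)
    rw [pol_sub_right hQ, pol_smul_right hQ] at h1
    rw [pol_sub_left hQ, pol_smul_left hQ]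
    convert h1 using 1
    ring
  obtain ⟨d, hd, hdQ, hρd, hvd⟩ := hex
  obtain ⟨c, d', hc, hd', hcQ, hd'Q, hcd', hcS, hd'S⟩ := rat_hyp hQ S.rat ![ρ, d]
    (by
      intro i
      fin_cases i
      · exact hρ
      · exact hd) (by simp; omega)
  have hcρ : pol Q c ρ = 0 := hcS 0
  have hcd : pol Q c d = 0 := hcS 1
  have hd'ρ : pol Q d' ρ = 0 := hd'S 0
  have hd'd : pol Q d' d = 0 := hd'S 1
  obtain ⟨c', c'', hc', hc'', hc'Q, hc''Q, hc'c'', hc'S, hc''S⟩ := rat_hyp hQ S.rat ![ρ, d, c, d']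
    (by
      intro i
      fin_cases i
      · exact hρ
      · exact hd
      · exact hc
      · exact hd') (by simp; omega)
  have hc'ρ : pol Q c' ρ = 0 := hc'S 0
  have hc'd : pol Q c' d = 0 := hc'S 1
  have hc'c : pol Q c' c = 0 := hc'S 2
  have hc'd' : pol Q c' d' = 0 := hc'S 3
  have hc''ρ : pol Q c'' ρ = 0 := hc''S 0
  -- the first conjugation
  obtain ⟨E₁, hE₁⟩ := exists_eich hQ hcQ hcd
  have hE₁M := S.mem _ _ _ hc hd hcQ hcd hE₁
  have hE₁ρ : (E₁ : Matrix ι ι F) *ᵥ ρ = ρ := by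
    rw [hE₁ ρ, pol_symm hQ ρ c, hcρ, hρd, hdQ]
    simp
  have h1 := hv.conj hE₁M (S.iso hE₁M)
  rw [hE₁ρ, hE₁ v, hdQ] at h1
  have h2 := Par.sub hQ hρQ h1 hv
  obtain ⟨s, hs⟩ : ∃ s, s = pol Q v d := ⟨_, rfl⟩
  obtain ⟨t, ht⟩ : ∃ t, t = pol Q v c := ⟨_, rfl⟩
  have e1 : v + pol Q v d • c - pol Q v c • d - (0 * pol Q v c) • c - v = s • c - t • d := by
    rw [← hs, ← ht]
    module
  rw [e1] at h2
  -- the second conjugation
  obtain ⟨E₂, hE₂⟩ := exists_eich hQ hc'Q hc'd'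
  have hE₂M := S.mem _ _ _ hc' hd' hc'Q hc'd' hE₂
  have hE₂ρ : (E₂ : Matrix ι ι F) *ᵥ ρ = ρ := by
    rw [hE₂ ρ, pol_symm hQ ρ c', hc'ρ, pol_symm hQ ρ d', hd'ρ]
    simp
  have h3 := h2.conj hE₂M (S.iso hE₂M)
  have h4 : pol Q (s • c - t • d) d' = s := by
    rw [pol_sub_left hQ, pol_smul_left hQ, pol_smul_left hQ, hcd', pol_symm hQ d d', hd'd]
    ring
  have h5 : pol Q (s • c - t • d) c' = 0 := by
    rw [pol_sub_left hQ, pol_smul_left hQ, pol_smul_left hQ, pol_symm hQ c c', hc'c, pol_symm hQ d c', hc'd]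
    ring
  rw [hE₂ρ, hE₂ _, h4, h5, hd'Q] at h3
  have h6 := Par.sub hQ hρQ h3 h2
  have e2 : s • c - t • d + s • c' - (0 : F) • d' - (0 * 0 : F) • c' - (s • c - t • d) = s • c' := by
    module
  rw [e2] at h6
  apply hnot
  refine S.core hr hcard hn hρ hc' hρQ hc'Q (by rw [pol_symm hQ]; exact hc'ρ) hρ0 ?_ (by rw [hs]; exact hvd) h6
  intro l _ e
  have h7 : pol Q c' c'' = l * pol Q ρ c'' := by
    rw [e, pol_smul_left hQ]
  rw [hc'c'', pol_symm hQ ρ c'', hc''ρ, mul_zero] at h7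
  exact one_ne_zero h7

end Core

/-! ### Totally singular pairs orthogonal to a rational singular vector -/

section Plane

variable {M : Subgroup (GL ι F)} {hQ : IsNondegenerateQuadraticForm Q}

include hQ in
/-- Adding multiples of an orthogonal singular vector to a totally singular pair. -/
theorem eich_shift {u w ρ : ι → F} {s t : F} (hwQ : Q w = 0) (huQ : Q u = 0) (hρQ : Q ρ = 0) (huw : pol Q u w = 0)
    (hρu : pol Q ρ u = 0) (hρw : pol Q ρ w = 0) {g₀ g g₁ : GL ι F} (h₀ : Eich Q g₀ u w)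
    (h : Eich Q g ρ (s • w - t • u)) (h₁ : Eich Q g₁ (u + s • ρ) (w + t • ρ)) : g₁ = g₀ * g := by
  have huρ : pol Q u ρ = 0 := by rw [pol_symm hQ, hρu]
  have hwρ : pol Q w ρ = 0 := by rw [pol_symm hQ, hρw]
  have hwu : pol Q w u = 0 := by rw [pol_symm hQ, huw]
  have hvQ : Q (s • w - t • u) = 0 := by
    rw [Q_sub hQ, hQ.smul, hQ.smul, pol_smul_left hQ, pol_smul_right hQ, hwQ, huQ, hwu]
    ring
  have hQ1 : Q (w + t • ρ) = 0 := by
    rw [Q_add hQ, hQ.smul, pol_smul_right hQ, hwQ, hρQ, hwρ]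
    ring
  apply gl_ext_mulVec
  intro x
  rw [h₁ x, Units.val_mul, ← Matrix.mulVec_mulVec, h₀ _, h.pol_left hQ, h.pol_left hQ, h x]
  simp only [hvQ, hQ1, hwQ, pol_add_right hQ, pol_sub_right hQ, pol_smul_right hQ, pol_sub_left hQ, pol_smul_left hQ,
    hρu, hρw, huw, hwu, pol_singular hQ hwQ, pol_singular hQ huQ, zero_mul, mul_zero, sub_zero, add_zero, zero_smul]
  module

include hQ in
/-- Change of basis in a totally singular pair. -/
theorem eich_basis {u w y₁ y₂ : ι → F} {α β γ δ : F} (hdet : α * δ - β * γ = 1) (hu : u = α • y₁ + β • y₂)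
    (hw : w = γ • y₁ + δ • y₂) (hwQ : Q w = 0) (hy₂Q : Q y₂ = 0) {g : GL ι F} (h : Eich Q g y₁ y₂) :
    Eich Q g u w := by
  intro x
  rw [h x, hwQ, hy₂Q]
  have key : pol Q x w • u - pol Q x u • w =
      (α * δ - β * γ) • (pol Q x y₂ • y₁ - pol Q x y₁ • y₂) := by
    rw [hw, hu]
    simp only [pol_add_right hQ, pol_smul_right hQ]
    module
  rw [hdet, one_smul] at key
  have e1 : x + pol Q x w • u - pol Q x u • w = x + (pol Q x w • u - pol Q x u • w) := by abel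
  have e2 : x + pol Q x y₂ • y₁ - pol Q x y₁ • y₂ = x + (pol Q x y₂ • y₁ - pol Q x y₁ • y₂) := by abel
  simp only [zero_mul, zero_smul, sub_zero]
  rw [e1, e2, key]

omit [Fintype ι] [DecidableEq ι] in
theorem smul_smul_comb {V : Type*} [AddCommGroup V] [Module F V] {d e : F} (h : d * e = 1) (v : V) :
    d • e • v = v := by
  rw [smul_smul, h, one_smul]

/-- The commutator with a rational Eichler transformation. -/
theorem OSys.par_phi (S : OSys hQ F₀ M) {u w ρ z : ι → F} (huQ : Q u = 0) (hwQ : Q w = 0) (huw : pol Q u w = 0)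
    (hX : ∀ g, Eich Q g u w → g ∈ M) (hρ : IsRat F₀ ρ) (hz : IsRat F₀ z) (hρQ : Q ρ = 0) (hρz : pol Q ρ z = 0)
    (hρu : pol Q ρ u = 0) (hρw : pol Q ρ w = 0) : Par Q M ρ (pol Q u z • w - pol Q w z • u) := by
  have huρ : pol Q u ρ = 0 := by rw [pol_symm hQ, hρu]
  have hwρ : pol Q w ρ = 0 := by rw [pol_symm hQ, hρw]
  refine ⟨?_, fun g hg => ?_⟩
  · rw [pol_sub_right hQ, pol_smul_right hQ, pol_smul_right hQ, hρu, hρw]
    ring
  obtain ⟨E, hE⟩ := exists_eich hQ hρQ hρz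
  have hEM := S.mem _ _ _ hρ hz hρQ hρz hE
  have hEu : (E : Matrix ι ι F) *ᵥ u = u + pol Q u z • ρ := by
    rw [hE u, huρ]
    simp
  have hEw : (E : Matrix ι ι F) *ᵥ w = w + pol Q w z • ρ := by
    rw [hE w, hwρ]
    simp
  obtain ⟨g₀, hg₀⟩ := exists_eich hQ huQ huw
  have hg₀M := hX _ hg₀
  have h1 := hg₀.conj (S.iso hEM)
  rw [hEu, hEw] at h1
  have h2 := eich_shift (hQ := hQ) hwQ huQ hρQ huw hρu hρw hg₀ hg h1
  have h3 : g = g₀⁻¹ * (E * g₀ * E⁻¹) := by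
    rw [h2]
    group
  rw [h3]
  exact M.mul_mem (M.inv_mem hg₀M) (M.mul_mem (M.mul_mem hEM hg₀M) (M.inv_mem hEM))

/-- The case where `u` is a combination of `ρ` and `w`. -/
theorem OSys.plane_dep (_S : OSys hQ F₀ M) (hNC : NC Q F₀ M) {u w ρ : ι → F} {τ l : F} (hwQ : Q w = 0) (hX : ∀ g, Eich Q g u w → g ∈ M)
    (hρ : IsRat F₀ ρ) (hρQ : Q ρ = 0) (hρ0 : ρ ≠ 0) (hρw : pol Q ρ w = 0) (he : u = τ • ρ + l • w) (hτ : τ ≠ 0) :
    ∃ (Y₁ Y₂ : ι → F) (α β γ δ : F), IsRat F₀ Y₁ ∧ IsRat F₀ Y₂ ∧ α * δ - β * γ = 1 ∧ u = α • Y₁ + β • Y₂ ∧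
      w = γ • Y₁ + δ • Y₂ := by
  have hpar : Par Q M ρ (τ • w) := by
    refine ⟨by rw [pol_smul_right hQ, hρw, mul_zero], fun g hg => hX g ?_⟩
    intro x
    rw [hg x, hQ.smul, hwQ, he]
    simp only [pol_add_right hQ, pol_smul_right hQ, hwQ]
    module
  obtain ⟨v₀, c, hv₀, e⟩ := hNC ρ _ hρ hρQ hρ0 hpar
  have hw : w = (τ⁻¹ * c) • ρ + τ⁻¹ • v₀ := by
    have h1 : τ⁻¹ • (τ • w) = w := by
      rw [smul_smul, inv_mul_cancel₀ hτ, one_smul]
    rw [← h1, e, smul_add, smul_smul]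
    abel
  refine ⟨ρ, v₀, τ + l * (τ⁻¹ * c), l * τ⁻¹, τ⁻¹ * c, τ⁻¹, hρ, hv₀, ?_, ?_, hw⟩
  · field_simp
    ring
  · rw [he]
    nth_rewrite 1 [hw]
    module

variable [Finite F]

/-- **Totally singular pairs orthogonal to a rational singular vector are rational.** -/
theorem OSys.plane (S : OSys hQ F₀ M) (hn : 13 ≤ Fintype.card ι) (hNC : NC Q F₀ M) {u w ρ : ι → F} (huQ : Q u = 0)
    (hwQ : Q w = 0) (huw : pol Q u w = 0) (hind : ∀ a b : F, a • u + b • w = 0 → a = 0 ∧ b = 0)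
    (hX : ∀ g, Eich Q g u w → g ∈ M) (hρ : IsRat F₀ ρ) (hρQ : Q ρ = 0) (hρ0 : ρ ≠ 0) (hρu : pol Q ρ u = 0)
    (hρw : pol Q ρ w = 0) :
    ∃ (Y₁ Y₂ : ι → F) (α β γ δ : F), IsRat F₀ Y₁ ∧ IsRat F₀ Y₂ ∧ α * δ - β * γ = 1 ∧ u = α • Y₁ + β • Y₂ ∧
      w = γ • Y₁ + δ • Y₂ := by
  obtain ⟨ρ', hρ', hρ'Q, hρρ'⟩ := rat_opp hQ S.rat hρ hρ0 hρQ
  have hρρ := pol_singular hQ hρQ
  have hρ'ρ : pol Q ρ' ρ = 1 := by rw [pol_symm hQ, hρρ']
  obtain ⟨c₁, hc₁⟩ : ∃ c₁, c₁ = pol Q u ρ' := ⟨_, rfl⟩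
  obtain ⟨c₂, hc₂⟩ : ∃ c₂, c₂ = pol Q w ρ' := ⟨_, rfl⟩
  obtain ⟨u₀, hu₀⟩ : ∃ u₀, u₀ = u - c₁ • ρ := ⟨_, rfl⟩
  obtain ⟨w₀, hw₀⟩ : ∃ w₀, w₀ = w - c₂ • ρ := ⟨_, rfl⟩
  have huρ : pol Q u ρ = 0 := by rw [pol_symm hQ, hρu]
  have hwρ : pol Q w ρ = 0 := by rw [pol_symm hQ, hρw]
  have hwu : pol Q w u = 0 := by rw [pol_symm hQ, huw]
  have hu₀ρ : pol Q u₀ ρ = 0 := by
    rw [hu₀, pol_sub_left hQ, pol_smul_left hQ, huρ, hρρ]
    ring
  have hw₀ρ : pol Q w₀ ρ = 0 := by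
    rw [hw₀, pol_sub_left hQ, pol_smul_left hQ, hwρ, hρρ]
    ring
  have hu₀ρ' : pol Q u₀ ρ' = 0 := by
    rw [hu₀, pol_sub_left hQ, pol_smul_left hQ, hρρ', ← hc₁]
    ring
  have hw₀ρ' : pol Q w₀ ρ' = 0 := by
    rw [hw₀, pol_sub_left hQ, pol_smul_left hQ, hρρ', ← hc₂]
    ring
  have hu₀Q : Q u₀ = 0 := by
    rw [hu₀, Q_sub hQ, hQ.smul, huQ, hρQ, pol_smul_right hQ, huρ]
    ring
  have hw₀Q : Q w₀ = 0 := by
    rw [hw₀, Q_sub hQ, hQ.smul, hwQ, hρQ, pol_smul_right hQ, hwρ]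
    ring
  have hu₀w₀ : pol Q u₀ w₀ = 0 := by
    rw [hu₀, hw₀]
    simp only [pol_sub_left hQ, pol_smul_left hQ, pol_sub_right hQ, pol_smul_right hQ, huw, huρ, hρw, hρρ]
    ring
  have hw₀u₀ : pol Q w₀ u₀ = 0 := by rw [pol_symm hQ, hu₀w₀]
  have hu₀u₀ := pol_singular hQ hu₀Q
  have hw₀w₀ := pol_singular hQ hw₀Q
  have hρu₀ : pol Q ρ u₀ = 0 := by rw [pol_symm hQ, hu₀ρ]
  have hρw₀ : pol Q ρ w₀ = 0 := by rw [pol_symm hQ, hw₀ρ]
  have hue : u = u₀ + c₁ • ρ := by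
    rw [hu₀]
    abel
  have hwe : w = w₀ + c₂ • ρ := by
    rw [hw₀]
    abel
  by_cases hind₀ : ∀ a b : F, a • u₀ + b • w₀ = 0 → a = 0 ∧ b = 0
  · -- vectors of the complement
    have hzex : ∀ x, pol Q x ρ = 0 → pol Q x ρ' = 0 → x ≠ 0 →
        ∃ z, IsRat F₀ z ∧ pol Q ρ z = 0 ∧ pol Q ρ' z = 0 ∧ pol Q x z ≠ 0 := by
      intro x hxρ hxρ' hx0
      have h1 : ∃ i, pol Q x (Pi.single i 1) ≠ 0 := by
        by_contra hcon
        push Not at hcon
        exact hx0 (eq_zero_of_pol_single hQ hcon)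
      obtain ⟨i, hi⟩ := h1
      refine ⟨Pi.single i 1 - pol Q ρ' (Pi.single i 1) • ρ - pol Q ρ (Pi.single i 1) • ρ',
        ((isRat_single i).sub (hρ.smul (pol_rat S.rat hρ' (isRat_single i)))).sub
          (hρ'.smul (pol_rat S.rat hρ (isRat_single i))), ?_, ?_, ?_⟩
      · simp only [pol_sub_right hQ, pol_smul_right hQ, hρρ, hρρ']
        ring
      · simp only [pol_sub_right hQ, pol_smul_right hQ, hρ'ρ, pol_singular hQ hρ'Q]
        ring
      · simp only [pol_sub_right hQ, pol_smul_right hQ, hxρ, hxρ']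
        simpa using hi
    -- rationality of the values
    have hrat₀ : ∀ z, IsRat F₀ z → pol Q ρ z = 0 → pol Q ρ' z = 0 →
        IsRat F₀ (pol Q u₀ z • w₀ - pol Q w₀ z • u₀) := by
      intro z hz hρz hρ'z
      have h1 := S.par_phi huQ hwQ huw hX hρ hz hρQ hρz hρu hρw
      obtain ⟨v₀, c, hv₀, e⟩ := hNC ρ _ hρ hρQ hρ0 h1
      have hs : pol Q u₀ z = pol Q u z := by
        rw [hu₀, pol_sub_left hQ, pol_smul_left hQ, hρz]
        ring
      have ht : pol Q w₀ z = pol Q w z := by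
        rw [hw₀, pol_sub_left hQ, pol_smul_left hQ, hρz]
        ring
      rw [hs, ht]
      obtain ⟨s, hsd⟩ : ∃ s, s = pol Q u z := ⟨_, rfl⟩
      obtain ⟨t, htd⟩ : ∃ t, t = pol Q w z := ⟨_, rfl⟩
      rw [← hsd, ← htd] at e ⊢
      have e2 : s • w₀ - t • u₀ = v₀ + (c - s * c₂ + t * c₁) • ρ := by
        have : s • w₀ - t • u₀ = s • w - t • u - (s * c₂ - t * c₁) • ρ := by
          rw [hw₀, hu₀]
          module
        rw [this, e]
        module
      have h3 : pol Q (s • w₀ - t • u₀) ρ' = 0 := by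
        rw [pol_sub_left hQ, pol_smul_left hQ, pol_smul_left hQ, hu₀ρ', hw₀ρ']
        ring
      rw [e2, pol_add_left hQ, pol_smul_left hQ, hρρ', mul_one] at h3
      have h4 : c - s * c₂ + t * c₁ = - pol Q v₀ ρ' := by
        linear_combination h3
      rw [e2, h4]
      exact hv₀.add (hρ.smul (F₀.neg_mem (pol_rat S.rat hv₀ hρ')))
    have hu₀0 : u₀ ≠ 0 := by
      intro h0
      have := hind₀ 1 0 (by rw [h0]; simp)
      exact one_ne_zero this.1
    obtain ⟨z₁, hz₁, hρz₁, hρ'z₁, ha₁⟩ := hzex u₀ hu₀ρ hu₀ρ' hu₀0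
    obtain ⟨a₁, ha₁d⟩ : ∃ a₁, a₁ = pol Q u₀ z₁ := ⟨_, rfl⟩
    obtain ⟨b₁, hb₁d⟩ : ∃ b₁, b₁ = pol Q w₀ z₁ := ⟨_, rfl⟩
    rw [← ha₁d] at ha₁
    have hw₁0 : w₀ - (b₁ / a₁) • u₀ ≠ 0 := by
      intro h0
      have := hind₀ (-(b₁ / a₁)) 1 (by
        rw [← h0]
        module)
      exact one_ne_zero this.2
    obtain ⟨z₂, hz₂, hρz₂, hρ'z₂, hw₁z₂⟩ := hzex _ (by
        rw [pol_sub_left hQ, pol_smul_left hQ, hw₀ρ, hu₀ρ]
        ring) (by
        rw [pol_sub_left hQ, pol_smul_left hQ, hw₀ρ', hu₀ρ']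
        ring) hw₁0
    obtain ⟨a₂, ha₂d⟩ : ∃ a₂, a₂ = pol Q u₀ z₂ := ⟨_, rfl⟩
    obtain ⟨b₂, hb₂d⟩ : ∃ b₂, b₂ = pol Q w₀ z₂ := ⟨_, rfl⟩
    rw [pol_sub_left hQ, pol_smul_left hQ, ← ha₂d, ← hb₂d] at hw₁z₂
    obtain ⟨Δ, hΔd⟩ : ∃ Δ, Δ = a₁ * b₂ - a₂ * b₁ := ⟨_, rfl⟩
    have hΔ : Δ ≠ 0 := by
      have e : Δ = a₁ * (b₂ - b₁ / a₁ * a₂) := by
        rw [hΔd]
        field_simp
      rw [e]
      exact mul_ne_zero ha₁ hw₁z₂
    have hv₁ : IsRat F₀ (a₁ • w₀ - b₁ • u₀) := by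
      have := hrat₀ z₁ hz₁ hρz₁ hρ'z₁
      rwa [← ha₁d, ← hb₁d] at this
    have hv₂ : IsRat F₀ (a₂ • w₀ - b₂ • u₀) := by
      have := hrat₀ z₂ hz₂ hρz₂ hρ'z₂
      rwa [← ha₂d, ← hb₂d] at this
    have hΔF : Δ ∈ F₀ := by
      have h1 := pol_rat S.rat hv₁ hz₂
      rw [pol_sub_left hQ, pol_smul_left hQ, pol_smul_left hQ, ← ha₂d, ← hb₂d] at h1
      rw [hΔd]
      convert h1 using 1
      ring
    obtain ⟨y₁, hy₁d⟩ : ∃ y₁, y₁ = Δ⁻¹ • (a₁ • w₀ - b₁ • u₀) := ⟨_, rfl⟩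
    obtain ⟨y₂, hy₂d⟩ : ∃ y₂, y₂ = a₂ • w₀ - b₂ • u₀ := ⟨_, rfl⟩
    have hy₁ : IsRat F₀ y₁ := by
      rw [hy₁d]
      exact hv₁.smul (F₀.inv_mem hΔF)
    have hy₂ : IsRat F₀ y₂ := by
      rw [hy₂d]
      exact hv₂
    have hy₁Q : Q y₁ = 0 := by
      rw [hy₁d, hQ.smul, Q_sub hQ, hQ.smul, hQ.smul, hu₀Q, hw₀Q, pol_smul_left hQ, pol_smul_right hQ, hw₀u₀]
      ring
    have hy₂Q : Q y₂ = 0 := by
      rw [hy₂d, Q_sub hQ, hQ.smul, hQ.smul, hu₀Q, hw₀Q, pol_smul_left hQ, pol_smul_right hQ, hw₀u₀]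
      ring
    have hy₁y₂ : pol Q y₁ y₂ = 0 := by
      rw [hy₁d, hy₂d]
      simp only [pol_sub_left hQ, pol_smul_left hQ, pol_sub_right hQ, pol_smul_right hQ, hw₀w₀, hw₀u₀, hu₀w₀, hu₀u₀]
      ring
    obtain ⟨α, hαd⟩ : ∃ α, α = a₂ := ⟨_, rfl⟩
    obtain ⟨β, hβd⟩ : ∃ β, β = -(a₁ * Δ⁻¹) := ⟨_, rfl⟩
    obtain ⟨γ, hγd⟩ : ∃ γ, γ = b₂ := ⟨_, rfl⟩
    obtain ⟨δ, hδd⟩ : ∃ δ, δ = -(b₁ * Δ⁻¹) := ⟨_, rfl⟩
    have hdet : α * δ - β * γ = 1 := by
      rw [hαd, hβd, hγd, hδd]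
      field_simp
      rw [hΔd]
      ring
    have hΔi : Δ⁻¹ * Δ = 1 := inv_mul_cancel₀ hΔ
    have hu₀e : u₀ = α • y₁ + β • y₂ := by
      have e : α • y₁ + β • y₂ = (Δ⁻¹ * Δ) • u₀ := by
        rw [hαd, hβd, hy₁d, hy₂d, hΔd]
        module
      rw [e, hΔi, one_smul]
    have hw₀e : w₀ = γ • y₁ + δ • y₂ := by
      have e : γ • y₁ + δ • y₂ = (Δ⁻¹ * Δ) • w₀ := by
        rw [hγd, hδd, hy₁d, hy₂d, hΔd]
        module
      rw [e, hΔi, one_smul]
    -- the rational part of the element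
    have hX₀ : ∀ g, Eich Q g u₀ w₀ → g ∈ M := by
      intro g hg
      obtain ⟨g', hg'⟩ := exists_eich hQ hy₁Q hy₁y₂
      have h1 := eich_basis (hQ := hQ) hdet hu₀e hw₀e hw₀Q hy₂Q hg'
      rw [Eich.unique' hg h1]
      exact S.mem _ _ _ hy₁ hy₂ hy₁Q hy₁y₂ hg'
    obtain ⟨q, hqd⟩ : ∃ q, q = c₁ • w₀ - c₂ • u₀ := ⟨_, rfl⟩
    have hq : Par Q M ρ q := by
      refine ⟨?_, fun g hg => ?_⟩
      · rw [hqd, pol_sub_right hQ, pol_smul_right hQ, pol_smul_right hQ, hρw₀, hρu₀]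
        ring
      obtain ⟨g₀, hg₀⟩ := exists_eich hQ hu₀Q hu₀w₀
      obtain ⟨g₁, hg₁⟩ := exists_eich hQ huQ huw
      have h1 : Eich Q g₁ (u₀ + c₁ • ρ) (w₀ + c₂ • ρ) := by
        rw [← hue, ← hwe]
        exact hg₁
      rw [hqd] at hg
      have h2 := eich_shift (hQ := hQ) hw₀Q hu₀Q hρQ hu₀w₀ hρu₀ hρw₀ hg₀ hg h1
      have h3 : g = g₀⁻¹ * g₁ := by
        rw [h2]
        group
      rw [h3]
      exact M.mul_mem (M.inv_mem (hX₀ _ hg₀)) (hX _ hg₁)
    obtain ⟨v₀, c₃, hv₀, e⟩ := hNC ρ _ hρ hρQ hρ0 hq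
    have hqρ' : pol Q q ρ' = 0 := by
      rw [hqd, pol_sub_left hQ, pol_smul_left hQ, pol_smul_left hQ, hu₀ρ', hw₀ρ']
      ring
    have hqR : IsRat F₀ q := by
      have h1 := hqρ'
      rw [e, pol_add_left hQ, pol_smul_left hQ, hρρ', mul_one] at h1
      have h2 : c₃ = - pol Q v₀ ρ' := by linear_combination h1
      rw [e, h2]
      exact hv₀.add (hρ.smul (F₀.neg_mem (pol_rat S.rat hv₀ hρ')))
    obtain ⟨q₁, hq₁d⟩ : ∃ q₁, q₁ = c₁ * γ - c₂ * α := ⟨_, rfl⟩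
    obtain ⟨q₂, hq₂d⟩ : ∃ q₂, q₂ = c₁ * δ - c₂ * β := ⟨_, rfl⟩
    have hqe : q = q₁ • y₁ + q₂ • y₂ := by
      rw [hqd, hq₁d, hq₂d]
      nth_rewrite 1 [hw₀e]
      nth_rewrite 1 [hu₀e]
      module
    have hyind : ∀ a b : F, a • y₁ + b • y₂ = 0 → a = 0 ∧ b = 0 := by
      intro a b hab
      have e1 : (-(a * Δ⁻¹ * b₁ + b * b₂)) • u₀ + (a * Δ⁻¹ * a₁ + b * a₂) • w₀ = 0 := by
        rw [← hab, hy₁d, hy₂d]
        module
      obtain ⟨h1, h2⟩ := hind₀ _ _ e1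
      have h3 : a * (Δ⁻¹ * Δ) = 0 := by
        rw [hΔd] at *
        linear_combination b₂ * h2 + a₂ * h1
      rw [hΔi, mul_one] at h3
      have h4 : b * Δ = 0 := by
        rw [hΔd]
        rw [h3] at h2 h1
        have h5 : b * a₂ = 0 := by linear_combination h2
        have h6 : b * b₂ = 0 := by linear_combination -h1
        linear_combination a₁ * h6 - b₁ * h5
      exact ⟨h3, (mul_eq_zero.mp h4).resolve_right hΔ⟩
    obtain ⟨hq₁F, hq₂F⟩ := rat_coeffs hy₁ hy₂ hyind (by rw [← hqe]; exact hqR)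
    refine ⟨y₁ + q₂ • ρ, y₂ - q₁ • ρ, α, β, γ, δ, hy₁.add (hρ.smul hq₂F), hy₂.sub (hρ.smul hq₁F), hdet, ?_, ?_⟩
    · have e : c₁ = α * q₂ - β * q₁ := by
        rw [hq₁d, hq₂d]
        linear_combination (-c₁) * hdet
      rw [hue, hu₀e, e]
      module
    · have e : c₂ = γ * q₂ - δ * q₁ := by
        rw [hq₁d, hq₂d]
        linear_combination (-c₂) * hdet
      rw [hwe, hw₀e, e]
      module
  · -- the vector `ρ` is in the span of `u` and `w`
    push Not at hind₀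
    obtain ⟨a, b, hab, hne⟩ := hind₀
    obtain ⟨τ, hτd⟩ : ∃ τ, τ = a * c₁ + b * c₂ := ⟨_, rfl⟩
    have hcomb : a • u + b • w = τ • ρ := by
      rw [hue, hwe, hτd]
      have : a • (u₀ + c₁ • ρ) + b • (w₀ + c₂ • ρ) = (a • u₀ + b • w₀) + (a * c₁ + b * c₂) • ρ := by module
      rw [this, hab, zero_add]
    have hτ : τ ≠ 0 := by
      intro h0
      rw [h0, zero_smul] at hcomb
      obtain ⟨h1, h2⟩ := hind a b hcomb
      exact hne h1 h2
    by_cases ha : a = 0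
    · have hb : b ≠ 0 := fun h => hne ha h
      rw [ha, zero_smul, zero_add] at hcomb
      have hwe' : w = (τ / b) • ρ + (0 : F) • (-u) := by
        have h1 : b⁻¹ • (b • w) = w := by
          rw [smul_smul, inv_mul_cancel₀ hb, one_smul]
        rw [← h1, hcomb, smul_smul, zero_smul, add_zero, div_eq_inv_mul]
      have hX' : ∀ g, Eich Q g w (-u) → g ∈ M := by
        intro g hg
        apply hX g
        intro x
        rw [hg x, pol_neg_right hQ]
        have : Q (-u) = 0 := by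
          have e : -u = (-1 : F) • u := by simp
          rw [e, hQ.smul, huQ, mul_zero]
        rw [this, hwQ]
        module
      obtain ⟨Y₁, Y₂, α, β, γ, δ, hY₁, hY₂, hdet, e1, e2⟩ := S.plane_dep hNC (u := w) (w := -u) (ρ := ρ)
        (by
          have e : -u = (-1 : F) • u := by simp
          rw [e, hQ.smul, huQ, mul_zero]) hX' hρ hρQ hρ0 (by rw [pol_neg_right hQ, hρu, neg_zero]) hwe'
        (div_ne_zero hτ hb)
      refine ⟨Y₁, Y₂, -γ, -δ, α, β, hY₁, hY₂, by linear_combination hdet, ?_, e1⟩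
      have : u = -(-u) := by simp
      rw [this, e2]
      module
    · have hue' : u = (τ / a) • ρ + (-(b / a)) • w := by
        have h1 : a⁻¹ • (a • u) = u := by
          rw [smul_smul, inv_mul_cancel₀ ha, one_smul]
        have h2 : a • u = τ • ρ + (-b) • w := by
          rw [← hcomb]
          module
        rw [← h1, h2, smul_add, smul_smul, smul_smul, div_eq_inv_mul, div_eq_inv_mul]
        congr 2
        ring
      exact S.plane_dep hNC hwQ hX hρ hρQ hρ0 hρw hue' (div_ne_zero hτ ha)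

end Plane

end Cfsg.Agent.Lib.Geo.OmSub
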