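/-
The subfield group is maximal in `Ω`: the hard case.
-/
import Cfsg.Agent.Lib.Geo.OmSub
set_option autoImplicit false

namespace Cfsg.Agent.Lib.Geo.OmSub2

open Cfsg Cfsg.Geo Cfsg.Agent.Lib.Geo.Basic Cfsg.Agent.Lib.Geo.Parabolic Cfsg.Agent.Lib.Geo.Centres
open Cfsg.Agent.Lib.Geo.Polar Cfsg.Agent.Lib.Geo.QForm
open Cfsg.Agent.Lib.GeoOmega.Basic Cfsg.Agent.Lib.GeoOmega.Eichler
open Cfsg.Agent.Lib.Geo.RatStruct Cfsg.Agent.Lib.Geo.DicksonGen
open Cfsg.Agent.Lib.Geo.SUSymp (coeV coeV_apply coeV_add coeV_smul isRat_coeV exists_coeV coeV_injective)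
open Cfsg.Agent.Lib.Geo.SpSub (coeV_single coeV_zero eq_sum_single sL_add sL_zero sL_neg exists_sq_sub_sq')
open Cfsg.Agent.Lib.Geo.OmSub
open scoped MatrixGroups Matrix

variable {ι : Type} [Fintype ι] [DecidableEq ι] {F : Type*} [Field F]
variable {Q : (ι → F) → F} {F₀ : Subfield F}

/-! ### Subgroups of `SL₂` realised on a section -/

section Rep

variable {E : Type*} [AddCommGroup E] [Module F E]

/-- The subgroup of `SL₂` realised on a pair of vector-valued functions on a stable set. -/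
def repV (M : Subgroup (GL ι F)) (D : Set (ι → F)) (φ ψ : (ι → F) → E) : Subgroup (SL(2, F)) where
  carrier := {A | ∃ k ∈ M, (∀ x, (k : Matrix ι ι F) *ᵥ x ∈ D ↔ x ∈ D) ∧ ∀ x ∈ D,
    φ ((k : Matrix ι ι F) *ᵥ x) = (A : Matrix (Fin 2) (Fin 2) F) 0 0 • φ x + (A : Matrix (Fin 2) (Fin 2) F) 0 1 • ψ x ∧
    ψ ((k : Matrix ι ι F) *ᵥ x) = (A : Matrix (Fin 2) (Fin 2) F) 1 0 • φ x + (A : Matrix (Fin 2) (Fin 2) F) 1 1 • ψ x}
  mul_mem' := by
    rintro A B ⟨k, hk, hkD, hA⟩ ⟨l, hl, hlD, hB⟩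
    refine ⟨k * l, M.mul_mem hk hl, fun x => ?_, fun x hx => ?_⟩
    · rw [Units.val_mul, ← Matrix.mulVec_mulVec, hkD, hlD]
    have hmul : ∀ i j, ((A * B : SL(2, F)) : Matrix (Fin 2) (Fin 2) F) i j =
        (A : Matrix (Fin 2) (Fin 2) F) i 0 * (B : Matrix (Fin 2) (Fin 2) F) 0 j +
          (A : Matrix (Fin 2) (Fin 2) F) i 1 * (B : Matrix (Fin 2) (Fin 2) F) 1 j := by
      intro i j
      rw [Matrix.SpecialLinearGroup.coe_mul, Matrix.mul_apply, Fin.sum_univ_two]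
    simp only [Units.val_mul, ← Matrix.mulVec_mulVec]
    have hlx : (l : Matrix ι ι F) *ᵥ x ∈ D := (hlD x).mpr hx
    rw [(hA _ hlx).1, (hA _ hlx).2, (hB x hx).1, (hB x hx).2, hmul, hmul, hmul, hmul]
    constructor <;> module
  one_mem' := by
    refine ⟨1, M.one_mem, fun x => by simp, fun x _ => ?_⟩
    simp
  inv_mem' := by
    rintro A ⟨k, hk, hkD, hA⟩
    refine ⟨k⁻¹, M.inv_mem hk, fun x => ?_, fun x hx => ?_⟩
    · rw [← hkD, mulVec_inv_mulVec]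
    have hdet : (A : Matrix (Fin 2) (Fin 2) F) 0 0 * (A : Matrix (Fin 2) (Fin 2) F) 1 1 -
        (A : Matrix (Fin 2) (Fin 2) F) 0 1 * (A : Matrix (Fin 2) (Fin 2) F) 1 0 = 1 := by
      have := A.2
      rwa [Matrix.det_fin_two] at this
    have hy : ((k⁻¹ : GL ι F) : Matrix ι ι F) *ᵥ x ∈ D := by
      rw [← hkD, mulVec_inv_mulVec]
      exact hx
    have h1 := hA (((k⁻¹ : GL ι F) : Matrix ι ι F) *ᵥ x) hy
    rw [mulVec_inv_mulVec] at h1
    obtain ⟨e1, e2⟩ := h1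
    obtain ⟨a, ha⟩ : ∃ a, a = φ (((k⁻¹ : GL ι F) : Matrix ι ι F) *ᵥ x) := ⟨_, rfl⟩
    obtain ⟨b, hb⟩ : ∃ b, b = ψ (((k⁻¹ : GL ι F) : Matrix ι ι F) *ᵥ x) := ⟨_, rfl⟩
    rw [← ha, ← hb] at e1 e2
    have hinv : ((A⁻¹ : SL(2, F)) : Matrix (Fin 2) (Fin 2) F) = !![(A : Matrix (Fin 2) (Fin 2) F) 1 1,
        -(A : Matrix (Fin 2) (Fin 2) F) 0 1; -(A : Matrix (Fin 2) (Fin 2) F) 1 0, (A : Matrix (Fin 2) (Fin 2) F) 0 0] :=
      (Matrix.SpecialLinearGroup.coe_inv A).trans (Matrix.adjugate_fin_two _)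
    rw [← ha, ← hb]
    simp only [hinv, Matrix.of_apply, Matrix.cons_val', Matrix.cons_val_zero, Matrix.cons_val_one, Matrix.cons_val_fin_one]
    constructor
    · rw [e1, e2]
      have key : (A : Matrix (Fin 2) (Fin 2) F) 1 1 • ((A : Matrix (Fin 2) (Fin 2) F) 0 0 • a + (A : Matrix (Fin 2) (Fin 2) F) 0 1 • b) +
          -(A : Matrix (Fin 2) (Fin 2) F) 0 1 • ((A : Matrix (Fin 2) (Fin 2) F) 1 0 • a + (A : Matrix (Fin 2) (Fin 2) F) 1 1 • b) =
          ((A : Matrix (Fin 2) (Fin 2) F) 0 0 * (A : Matrix (Fin 2) (Fin 2) F) 1 1 -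
            (A : Matrix (Fin 2) (Fin 2) F) 0 1 * (A : Matrix (Fin 2) (Fin 2) F) 1 0) • a := by
        module
      rw [key, hdet, one_smul]
    · rw [e1, e2]
      have key : -(A : Matrix (Fin 2) (Fin 2) F) 1 0 • ((A : Matrix (Fin 2) (Fin 2) F) 0 0 • a + (A : Matrix (Fin 2) (Fin 2) F) 0 1 • b) +
          (A : Matrix (Fin 2) (Fin 2) F) 0 0 • ((A : Matrix (Fin 2) (Fin 2) F) 1 0 • a + (A : Matrix (Fin 2) (Fin 2) F) 1 1 • b) =
          ((A : Matrix (Fin 2) (Fin 2) F) 0 0 * (A : Matrix (Fin 2) (Fin 2) F) 1 1 -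
            (A : Matrix (Fin 2) (Fin 2) F) 0 1 * (A : Matrix (Fin 2) (Fin 2) F) 1 0) • b := by
        module
      rw [key, hdet, one_smul]

/-- The torus on a section. -/
theorem exists_torusV [Fintype F] {M : Subgroup (GL ι F)} {r : ℕ} (hr : r.Prime)
    (hcard : Fintype.card F = Nat.card F₀ ^ r)
    (B : AddSubgroup F) (hB : ∀ c ∈ F₀, ∀ b ∈ B, c * b ∈ B) {b₁ b₂ : F} (hb₁ : b₁ ∈ B) (hb₁0 : b₁ ≠ 0)
    (hb₂ : b₂ ∈ B) (hb₂' : ∀ c ∈ F₀, b₂ ≠ c * b₁) {D : Set (ι → F)} {φ ψ : (ι → F) → E}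
    (hU : sU 1 ∈ repV M D φ ψ) (hL : ∀ b ∈ B, sL b ∈ repV M D φ ψ) (y : F) (hy : y ≠ 0) :
    ∃ k ∈ M, ∃ ε : F, ε ^ 2 = 1 ∧ (∀ x, (k : Matrix ι ι F) *ᵥ x ∈ D ↔ x ∈ D) ∧ ∀ x ∈ D,
      φ ((k : Matrix ι ι F) *ᵥ x) = (ε * y) • φ x ∧ ψ ((k : Matrix ι ι F) *ᵥ x) = (ε * y⁻¹) • ψ x := by
  rcases sl_top F₀ hr hcard B hB hb₁ hb₁0 hb₂ hb₂' (repV M D φ ψ) hU hL (sD y hy) with
    ⟨k, hk, hkD, h⟩ | ⟨k, hk, hkD, h⟩
  · refine ⟨k, hk, 1, by ring, hkD, fun x hx => ?_⟩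
    have := h x hx
    simpa [sD] using this
  · refine ⟨k, hk, -1, by ring, hkD, fun x hx => ?_⟩
    have hm : ((-(sD y hy) : SL(2, F)) : Matrix (Fin 2) (Fin 2) F) = -((sD y hy : SL(2, F)) : Matrix (Fin 2) (Fin 2) F) :=
      Matrix.SpecialLinearGroup.coe_neg _
    have := h x hx
    rw [hm] at this
    simpa [sD] using this

end Rep

theorem mem_repV_prod {M : Subgroup (GL ι F)} {D : Set (ι → F)} {f₁ f₂ g₁ g₂ : (ι → F) → F} {A : SL(2, F)} {k : GL ι F}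
    (hk : k ∈ M) (hD : ∀ x, (k : Matrix ι ι F) *ᵥ x ∈ D ↔ x ∈ D)
    (h : ∀ x ∈ D, f₁ ((k : Matrix ι ι F) *ᵥ x) = (A : Matrix (Fin 2) (Fin 2) F) 0 0 * f₁ x + (A : Matrix (Fin 2) (Fin 2) F) 0 1 * g₁ x ∧
      g₁ ((k : Matrix ι ι F) *ᵥ x) = (A : Matrix (Fin 2) (Fin 2) F) 1 0 * f₁ x + (A : Matrix (Fin 2) (Fin 2) F) 1 1 * g₁ x ∧
      f₂ ((k : Matrix ι ι F) *ᵥ x) = (A : Matrix (Fin 2) (Fin 2) F) 0 0 * f₂ x + (A : Matrix (Fin 2) (Fin 2) F) 0 1 * g₂ x ∧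
      g₂ ((k : Matrix ι ι F) *ᵥ x) = (A : Matrix (Fin 2) (Fin 2) F) 1 0 * f₂ x + (A : Matrix (Fin 2) (Fin 2) F) 1 1 * g₂ x) :
    A ∈ repV M D (fun x => (f₁ x, f₂ x)) (fun x => (g₁ x, g₂ x)) := by
  refine ⟨k, hk, hD, fun x hx => ?_⟩
  obtain ⟨h1, h2, h3, h4⟩ := h x hx
  constructor
  · apply Prod.ext
    · simpa using h1
    · simpa using h3
  · apply Prod.ext
    · simpa using h2
    · simpa using h4

omit [Fintype ι] [DecidableEq ι] in
@[simp] theorem sU_00 (b : F) : ((sU b : SL(2, F)) : Matrix (Fin 2) (Fin 2) F) 0 0 = 1 := by simp [sU]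
omit [Fintype ι] [DecidableEq ι] in
@[simp] theorem sU_01 (b : F) : ((sU b : SL(2, F)) : Matrix (Fin 2) (Fin 2) F) 0 1 = b := by simp [sU]
omit [Fintype ι] [DecidableEq ι] in
@[simp] theorem sU_10 (b : F) : ((sU b : SL(2, F)) : Matrix (Fin 2) (Fin 2) F) 1 0 = 0 := by simp [sU]
omit [Fintype ι] [DecidableEq ι] in
@[simp] theorem sU_11 (b : F) : ((sU b : SL(2, F)) : Matrix (Fin 2) (Fin 2) F) 1 1 = 1 := by simp [sU]
omit [Fintype ι] [DecidableEq ι] in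
@[simp] theorem sL_00 (b : F) : ((sL b : SL(2, F)) : Matrix (Fin 2) (Fin 2) F) 0 0 = 1 := by simp [sL]
omit [Fintype ι] [DecidableEq ι] in
@[simp] theorem sL_01 (b : F) : ((sL b : SL(2, F)) : Matrix (Fin 2) (Fin 2) F) 0 1 = 0 := by simp [sL]
omit [Fintype ι] [DecidableEq ι] in
@[simp] theorem sL_10 (b : F) : ((sL b : SL(2, F)) : Matrix (Fin 2) (Fin 2) F) 1 0 = b := by simp [sL]
omit [Fintype ι] [DecidableEq ι] in
@[simp] theorem sL_11 (b : F) : ((sL b : SL(2, F)) : Matrix (Fin 2) (Fin 2) F) 1 1 = 1 := by simp [sL]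

/-! ### The hard case -/

section Hard

variable {M : Subgroup (GL ι F)} {hQ : IsNondegenerateQuadraticForm Q}

include hQ in
theorem eich_pol_smul {g : GL ι F} {p q : ι → F} {μ : F} (h : Eich Q g p (μ • q)) (hq : Q q = 0) (x z : ι → F) :
    pol Q ((g : Matrix ι ι F) *ᵥ x) z = pol Q x z + μ * pol Q x q * pol Q p z - μ * pol Q x p * pol Q q z := by
  rw [h.pol_left hQ, pol_smul_right hQ, pol_smul_left hQ, hQ.smul, hq]
  ring

/-- **The hard case**: with non-rational values on a rational totally singular frame, all squares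
lie in a small space. -/
theorem OSys.hard_norm [Fintype F] (S : OSys hQ F₀ M) {r : ℕ} (hr : r.Prime)
    (hcard : Fintype.card F = Nat.card F₀ ^ r) (hn : 13 ≤ Fintype.card ι) (hNC : NC Q F₀ M)
    {a₁ a₂ a₃ b₁ b₂ b₃ u' w' : ι → F} {κ : F}
    (ha₁ : IsRat F₀ a₁) (ha₂ : IsRat F₀ a₂) (ha₃ : IsRat F₀ a₃) (hb₁ : IsRat F₀ b₁) (hb₂ : IsRat F₀ b₂)
    (hb₃ : IsRat F₀ b₃) (ha₁Q : Q a₁ = 0) (ha₂Q : Q a₂ = 0) (ha₃Q : Q a₃ = 0) (hu'Q : Q u' = 0) (hw'Q : Q w' = 0)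
    (h12 : pol Q a₁ a₂ = 0) (h13 : pol Q a₁ a₃ = 0) (h23 : pol Q a₂ a₃ = 0)
    (d11 : pol Q a₁ b₁ = 1) (d12 : pol Q a₁ b₂ = 0) (d13 : pol Q a₁ b₃ = 0)
    (d21 : pol Q a₂ b₁ = 0) (d22 : pol Q a₂ b₂ = 1) (d23 : pol Q a₂ b₃ = 0)
    (d31 : pol Q a₃ b₁ = 0) (d32 : pol Q a₃ b₂ = 0) (d33 : pol Q a₃ b₃ = 1)
    (huw : pol Q u' w' = 0) (hu1 : pol Q u' a₁ = 1) (hu2 : pol Q u' a₂ = 0) (hw1 : pol Q w' a₁ = 0)
    (hw2 : pol Q w' a₂ = 1) (hκ : κ ≠ 0) (hX : ∀ g, Eich Q g u' (κ • w') → g ∈ M)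
    (hirr : pol Q u' a₃ ∉ F₀ ∨ pol Q w' a₃ ∉ F₀) {y : F} (hy : y ≠ 0) :
    ∃ p ∈ F₀, ∃ q ∈ F₀, ∃ s ∈ F₀, y * y = p + q * pol Q w' a₃ + s * pol Q u' a₃ := by
  obtain ⟨δ₃, hδd⟩ : ∃ δ₃, δ₃ = pol Q u' a₃ := ⟨_, rfl⟩
  obtain ⟨γ₃, hγd⟩ : ∃ γ₃, γ₃ = pol Q w' a₃ := ⟨_, rfl⟩
  rw [← hδd, ← hγd] at hirr ⊢
  have h21 : pol Q a₂ a₁ = 0 := by rw [pol_symm hQ, h12]
  have h31 : pol Q a₃ a₁ = 0 := by rw [pol_symm hQ, h13]
  have h32 : pol Q a₃ a₂ = 0 := by rw [pol_symm hQ, h23]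
  have h11 := pol_singular hQ ha₁Q
  have h22 := pol_singular hQ ha₂Q
  have h33 := pol_singular hQ ha₃Q
  have huu := pol_singular hQ hu'Q
  have hww := pol_singular hQ hw'Q
  have hwu : pol Q w' u' = 0 := by rw [pol_symm hQ, huw]
  have hu1' : pol Q a₁ u' = 1 := by rw [pol_symm hQ, hu1]
  have hu2' : pol Q a₂ u' = 0 := by rw [pol_symm hQ, hu2]
  have hw1' : pol Q a₁ w' = 0 := by rw [pol_symm hQ, hw1]
  have hw2' : pol Q a₂ w' = 1 := by rw [pol_symm hQ, hw2]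
  have hu3' : pol Q a₃ u' = δ₃ := by rw [pol_symm hQ, hδd]
  have hw3' : pol Q a₃ w' = γ₃ := by rw [pol_symm hQ, hγd]
  -- the section
  obtain ⟨D, hD⟩ : ∃ D : Set (ι → F), D = {x | ∃ x₁ x₂ x₃ p₁ p₂ : F, x = x₁ • a₁ + x₂ • a₂ + x₃ • a₃ + p₁ • u' + p₂ • w'} :=
    ⟨_, rfl⟩
  have hDmem : ∀ x₁ x₂ x₃ p₁ p₂ : F, x₁ • a₁ + x₂ • a₂ + x₃ • a₃ + p₁ • u' + p₂ • w' ∈ D := by
    intro x₁ x₂ x₃ p₁ p₂
    rw [hD]
    exact ⟨x₁, x₂, x₃, p₁, p₂, rfl⟩
  have hDadd : ∀ x y, x ∈ D → y ∈ D → x + y ∈ D := by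
    rw [hD]
    rintro _ _ ⟨p₁, p₂, p₃, p₄, p₅, rfl⟩ ⟨q₁, q₂, q₃, q₄, q₅, rfl⟩
    exact ⟨p₁ + q₁, p₂ + q₂, p₃ + q₃, p₄ + q₄, p₅ + q₅, by module⟩
  have hDsmul : ∀ (c : F) x, x ∈ D → c • x ∈ D := by
    rw [hD]
    rintro c _ ⟨p₁, p₂, p₃, p₄, p₅, rfl⟩
    exact ⟨c * p₁, c * p₂, c * p₃, c * p₄, c * p₅, by module⟩
  have hDrel : ∀ x ∈ D, pol Q x a₃ = δ₃ * pol Q x a₁ + γ₃ * pol Q x a₂ := by
    rw [hD]
    rintro _ ⟨x₁, x₂, x₃, p₁, p₂, rfl⟩
    simp only [pol_add_left hQ, pol_smul_left hQ, h11, h12, h13, h21, h22, h23, h31, h32, h33, hu1, hu2, hw1, hw2,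
      ← hδd, ← hγd]
    ring
  have ha₁D : a₁ ∈ D := by
    have := hDmem 1 0 0 0 0
    simpa using this
  have ha₂D : a₂ ∈ D := by
    have := hDmem 0 1 0 0 0
    simpa using this
  have ha₃D : a₃ ∈ D := by
    have := hDmem 0 0 1 0 0
    simpa using this
  have hu'D : u' ∈ D := by
    have := hDmem 0 0 0 1 0
    simpa using this
  have hw'D : w' ∈ D := by
    have := hDmem 0 0 0 0 1
    simpa using this
  have hstable : ∀ (g : GL ι F) (p q : ι → F), p ∈ D → q ∈ D → Eich Q g p q →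
      ∀ x, (g : Matrix ι ι F) *ᵥ x ∈ D ↔ x ∈ D := by
    intro g p q hp hq hg x
    have e : (g : Matrix ι ι F) *ᵥ x = x + ((pol Q x q - Q q * pol Q x p) • p + (-pol Q x p) • q) := by
      rw [hg x]
      module
    have hd : (pol Q x q - Q q * pol Q x p) • p + (-pol Q x p) • q ∈ D :=
      hDadd _ _ (hDsmul _ _ hp) (hDsmul _ _ hq)
    rw [e]
    constructor
    · intro h
      have h1 := hDadd _ _ h (hDsmul (-1) _ hd)
      have e2 : x + ((pol Q x q - Q q * pol Q x p) • p + (-pol Q x p) • q) +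
          (-1 : F) • ((pol Q x q - Q q * pol Q x p) • p + (-pol Q x p) • q) = x := by
        module
      rwa [e2] at h1
    · intro h
      exact hDadd _ _ h hd
  -- the functions
  have hU : sU 1 ∈ repV M D (fun x => (pol Q x a₂, pol Q x a₁)) (fun x => (-κ * pol Q x u', κ * pol Q x w')) := by
    obtain ⟨T, hT⟩ := exists_eich hQ hu'Q (p := u') (b := κ • w') (by rw [pol_smul_right hQ, huw, mul_zero])
    refine mem_repV_prod (hX T hT) (hstable T _ _ hu'D (hDsmul _ _ hw'D) hT) (fun x _ => ?_)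
    simp only [sU_00, sU_01, sU_10, sU_11, eich_pol_smul (hQ := hQ) hT hw'Q, hu2, hw2, hu1, hw1, huu, hwu, huw, hww]
    refine ⟨?_, ?_, ?_, ?_⟩ <;> ring
  have hgen1 : ∀ l ∈ F₀, sL (κ * l) ∈
      repV M D (fun x => (pol Q x a₂, pol Q x a₁)) (fun x => (-κ * pol Q x u', κ * pol Q x w')) := by
    intro l hl
    have hp0 : pol Q a₁ ((-l) • a₂) = 0 := by rw [pol_smul_right hQ, h12, mul_zero]
    obtain ⟨T, hT⟩ := exists_eich hQ ha₁Q hp0
    refine mem_repV_prod (S.mem _ _ _ ha₁ (ha₂.smul (F₀.neg_mem hl)) ha₁Q hp0 hT)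
      (hstable T _ _ ha₁D (hDsmul _ _ ha₂D) hT) (fun x _ => ?_)
    simp only [sL_00, sL_01, sL_10, sL_11, eich_pol_smul (hQ := hQ) hT ha₂Q, h21, h22, h11, h12, hu1', hu2', hw1', hw2']
    refine ⟨?_, ?_, ?_, ?_⟩ <;> ring
  have hgen2 : ∀ l ∈ F₀, sL (κ * l * γ₃) ∈
      repV M D (fun x => (pol Q x a₂, pol Q x a₁)) (fun x => (-κ * pol Q x u', κ * pol Q x w')) := by
    intro l hl
    have hp0 : pol Q a₁ ((-l) • a₃) = 0 := by rw [pol_smul_right hQ, h13, mul_zero]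
    obtain ⟨T, hT⟩ := exists_eich hQ ha₁Q hp0
    refine mem_repV_prod (S.mem _ _ _ ha₁ (ha₃.smul (F₀.neg_mem hl)) ha₁Q hp0 hT)
      (hstable T _ _ ha₁D (hDsmul _ _ ha₃D) hT) (fun x hx => ?_)
    simp only [sL_00, sL_01, sL_10, sL_11, eich_pol_smul (hQ := hQ) hT ha₃Q, h31, h32, h11, h12, hu1', hu3', hw1', hw3',
      hDrel x hx]
    refine ⟨?_, ?_, ?_, ?_⟩ <;> ring
  have hgen3 : ∀ l ∈ F₀, sL (κ * l * δ₃) ∈
      repV M D (fun x => (pol Q x a₂, pol Q x a₁)) (fun x => (-κ * pol Q x u', κ * pol Q x w')) := by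
    intro l hl
    have hp0 : pol Q a₂ (l • a₃) = 0 := by rw [pol_smul_right hQ, h23, mul_zero]
    obtain ⟨T, hT⟩ := exists_eich hQ ha₂Q hp0
    refine mem_repV_prod (S.mem _ _ _ ha₂ (ha₃.smul hl) ha₂Q hp0 hT)
      (hstable T _ _ ha₂D (hDsmul _ _ ha₃D) hT) (fun x hx => ?_)
    simp only [sL_00, sL_01, sL_10, sL_11, eich_pol_smul (hQ := hQ) hT ha₃Q, h31, h32, h21, h22, hu2', hu3', hw2', hw3',
      hDrel x hx]
    refine ⟨?_, ?_, ?_, ?_⟩ <;> ring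
  -- the unipotents
  let B : AddSubgroup F :=
    { carrier := {b | ∃ p ∈ F₀, ∃ q ∈ F₀, ∃ s ∈ F₀, b = κ * (p + q * γ₃ + s * δ₃)}
      add_mem' := by
        rintro _ _ ⟨p, hp, q, hq, s, hs, rfl⟩ ⟨p', hp', q', hq', s', hs', rfl⟩
        exact ⟨p + p', F₀.add_mem hp hp', q + q', F₀.add_mem hq hq', s + s', F₀.add_mem hs hs', by ring⟩
      zero_mem' := ⟨0, F₀.zero_mem, 0, F₀.zero_mem, 0, F₀.zero_mem, by ring⟩
      neg_mem' := by
        rintro _ ⟨p, hp, q, hq, s, hs, rfl⟩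
        exact ⟨-p, F₀.neg_mem hp, -q, F₀.neg_mem hq, -s, F₀.neg_mem hs, by ring⟩ }
  have hBF : ∀ c ∈ F₀, ∀ b ∈ B, c * b ∈ B := by
    rintro c hc _ ⟨p, hp, q, hq, s, hs, rfl⟩
    exact ⟨c * p, F₀.mul_mem hc hp, c * q, F₀.mul_mem hc hq, c * s, F₀.mul_mem hc hs, by ring⟩
  have hL : ∀ b ∈ B, sL b ∈ repV M D (fun x => (pol Q x a₂, pol Q x a₁)) (fun x => (-κ * pol Q x u', κ * pol Q x w')) := by
    rintro _ ⟨p, hp, q, hq, s, hs, rfl⟩
    have e : κ * (p + q * γ₃ + s * δ₃) = κ * p + (κ * q * γ₃ + κ * s * δ₃) := by ring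
    rw [e, sL_add, sL_add]
    exact Subgroup.mul_mem _ (hgen1 p hp) (Subgroup.mul_mem _ (hgen2 q hq) (hgen3 s hs))
  have hκmem : κ ∈ B := ⟨1, F₀.one_mem, 0, F₀.zero_mem, 0, F₀.zero_mem, by ring⟩
  obtain ⟨b', hb'B, hb'⟩ : ∃ b' ∈ B, ∀ c ∈ F₀, b' ≠ c * κ := by
    rcases hirr with h | h
    · refine ⟨κ * δ₃, ⟨0, F₀.zero_mem, 0, F₀.zero_mem, 1, F₀.one_mem, by ring⟩, fun c hc e => h ?_⟩
      have : δ₃ = c := by
        apply mul_left_cancel₀ hκ
        rw [e]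
        ring
      rw [this]
      exact hc
    · refine ⟨κ * γ₃, ⟨0, F₀.zero_mem, 1, F₀.one_mem, 0, F₀.zero_mem, by ring⟩, fun c hc e => h ?_⟩
      have : γ₃ = c := by
        apply mul_left_cancel₀ hκ
        rw [e]
        ring
      rw [this]
      exact hc
  obtain ⟨k, hk, ε, hε, hkD, hkx⟩ := exists_torusV hr hcard B hBF hκmem hκ hb'B hb' hU hL y hy
  have hkI := S.iso hk
  obtain ⟨y', hy'd⟩ : ∃ y', y' = ε * y := ⟨_, rfl⟩
  have hy'y : y * y = y' * y' := by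
    rw [hy'd]
    linear_combination (-y * y) * hε
  have hkv : ∀ x ∈ D, pol Q ((k : Matrix ι ι F) *ᵥ x) a₁ = y' * pol Q x a₁ ∧
      pol Q ((k : Matrix ι ι F) *ᵥ x) a₂ = y' * pol Q x a₂ := by
    intro x hx
    have h1 := (hkx x hx).1
    rw [← hy'd] at h1
    have h2 := congrArg Prod.fst h1
    have h3 := congrArg Prod.snd h1
    simp only [Prod.smul_fst, Prod.smul_snd, smul_eq_mul] at h2 h3
    exact ⟨h3, h2⟩
  have hinv : ∀ x z, pol Q x (((k⁻¹ : GL ι F) : Matrix ι ι F) *ᵥ z) = pol Q ((k : Matrix ι ι F) *ᵥ x) z := by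
    intro x z
    have := pol_isometry k hkI x (((k⁻¹ : GL ι F) : Matrix ι ι F) *ᵥ z)
    rw [mulVec_inv_mulVec] at this
    exact this.symm
  have hinD : ∀ z ∈ D, ((k⁻¹ : GL ι F) : Matrix ι ι F) *ᵥ z ∈ D := by
    intro z hz
    rw [← hkD, mulVec_inv_mulVec]
    exact hz
  -- the form of the images
  have hdec : ∀ v ∈ D, ∀ c₁ c₂ : F, (∀ x ∈ D, pol Q x v = c₁ * pol Q x a₁ + c₂ * pol Q x a₂) →
      ∃ e : F, v = (c₁ - e * δ₃) • a₁ + (c₂ - e * γ₃) • a₂ + e • a₃ := by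
    intro v hv c₁ c₂ hval
    have hv' := hv
    rw [hD] at hv'
    obtain ⟨x₁, x₂, x₃, p₁, p₂, e⟩ := hv'
    have e1 := hval a₁ ha₁D
    have e2 := hval a₂ ha₂D
    have e3 := hval u' hu'D
    have e4 := hval w' hw'D
    rw [e] at e1 e2 e3 e4
    simp only [pol_add_right hQ, pol_smul_right hQ, h11, h12, h13, h21, h22, h23, hu1', hu2', hw1', hw2', huu, hwu, huw,
      hww, hu1, hu2, hw1, hw2, ← hδd, ← hγd] at e1 e2 e3 e4
    have hp₁ : p₁ = 0 := by linear_combination e1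
    have hp₂ : p₂ = 0 := by linear_combination e2
    refine ⟨x₃, ?_⟩
    have hx₁ : x₁ = c₁ - x₃ * δ₃ := by linear_combination e3
    have hx₂ : x₂ = c₂ - x₃ * γ₃ := by linear_combination e4
    rw [e, hp₁, hp₂, hx₁, hx₂]
    module
  obtain ⟨e₁, hf₁⟩ := hdec _ (hinD a₁ ha₁D) y' 0 (fun x hx => by
    rw [hinv, (hkv x hx).1]
    ring)
  obtain ⟨e₂, hf₂⟩ := hdec _ (hinD a₂ ha₂D) 0 y' (fun x hx => by
    rw [hinv, (hkv x hx).2]
    ring)
  -- the plane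
  have hk'I := (isometryGroup F Q).inv_mem hkI
  have hpar := (S.par ha₁ ha₂ ha₁Q h12).conj (M.inv_mem hk) hk'I
  have hind : ∀ a b : F, a • (((k⁻¹ : GL ι F) : Matrix ι ι F) *ᵥ a₁) + b • (((k⁻¹ : GL ι F) : Matrix ι ι F) *ᵥ a₂) = 0 →
      a = 0 ∧ b = 0 := by
    intro a b hab
    have h1 : a • a₁ + b • a₂ = 0 := by
      have h2 := congrArg (fun x => (k : Matrix ι ι F) *ᵥ x) hab
      simp only [Matrix.mulVec_add, Matrix.mulVec_smul, mulVec_inv_mulVec, Matrix.mulVec_zero] at h2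
      exact h2
    have h3 : pol Q (a • a₁ + b • a₂) b₁ = 0 := by rw [h1, pol_zero_left hQ]
    have h4 : pol Q (a • a₁ + b • a₂) b₂ = 0 := by rw [h1, pol_zero_left hQ]
    rw [pol_add_left hQ, pol_smul_left hQ, pol_smul_left hQ, d11, d21] at h3
    rw [pol_add_left hQ, pol_smul_left hQ, pol_smul_left hQ, d12, d22] at h4
    constructor
    · linear_combination h3
    · linear_combination h4
  have hv1 : pol Q a₁ (((k⁻¹ : GL ι F) : Matrix ι ι F) *ᵥ a₁) = 0 := by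
    rw [hf₁]
    simp only [pol_add_right hQ, pol_smul_right hQ, h11, h12, h13]
    ring
  have hv2 : pol Q a₁ (((k⁻¹ : GL ι F) : Matrix ι ι F) *ᵥ a₂) = 0 := by
    rw [hf₂]
    simp only [pol_add_right hQ, pol_smul_right hQ, h11, h12, h13]
    ring
  have ha₁0 : a₁ ≠ 0 := by
    rintro rfl
    rw [pol_zero_left hQ] at d11
    exact zero_ne_one d11
  obtain ⟨Y₁, Y₂, α, β, γ, δ, hY₁, hY₂, hdet, e1, e2⟩ := S.plane hn hNC
    (by rw [(mem_isometryGroup_iff Q _).mp hk'I, ha₁Q]) (by rw [(mem_isometryGroup_iff Q _).mp hk'I, ha₂Q])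
    hpar.1 hind hpar.2 ha₁ ha₁Q ha₁0 hv1 hv2
  have hC : ∀ bb bb' : ι → F, IsRat F₀ bb → IsRat F₀ bb' →
      pol Q (((k⁻¹ : GL ι F) : Matrix ι ι F) *ᵥ a₁) bb * pol Q (((k⁻¹ : GL ι F) : Matrix ι ι F) *ᵥ a₂) bb' -
        pol Q (((k⁻¹ : GL ι F) : Matrix ι ι F) *ᵥ a₁) bb' * pol Q (((k⁻¹ : GL ι F) : Matrix ι ι F) *ᵥ a₂) bb ∈ F₀ := by
    intro bb bb' hbb hbb'
    rw [e1, e2]
    simp only [pol_add_left hQ, pol_smul_left hQ]
    have key : (α * pol Q Y₁ bb + β * pol Q Y₂ bb) * (γ * pol Q Y₁ bb' + δ * pol Q Y₂ bb') -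
        (α * pol Q Y₁ bb' + β * pol Q Y₂ bb') * (γ * pol Q Y₁ bb + δ * pol Q Y₂ bb) =
        (α * δ - β * γ) * (pol Q Y₁ bb * pol Q Y₂ bb' - pol Q Y₁ bb' * pol Q Y₂ bb) := by ring
    rw [key, hdet, one_mul]
    exact F₀.sub_mem (F₀.mul_mem (pol_rat S.rat hY₁ hbb) (pol_rat S.rat hY₂ hbb'))
      (F₀.mul_mem (pol_rat S.rat hY₁ hbb') (pol_rat S.rat hY₂ hbb))
  have hv11 : pol Q (((k⁻¹ : GL ι F) : Matrix ι ι F) *ᵥ a₁) b₁ = y' - e₁ * δ₃ := by
    rw [hf₁]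
    simp only [pol_add_left hQ, pol_smul_left hQ, d11, d21, d31]
    ring
  have hv12 : pol Q (((k⁻¹ : GL ι F) : Matrix ι ι F) *ᵥ a₁) b₂ = 0 - e₁ * γ₃ := by
    rw [hf₁]
    simp only [pol_add_left hQ, pol_smul_left hQ, d12, d22, d32]
    ring
  have hv13 : pol Q (((k⁻¹ : GL ι F) : Matrix ι ι F) *ᵥ a₁) b₃ = e₁ := by
    rw [hf₁]
    simp only [pol_add_left hQ, pol_smul_left hQ, d13, d23, d33]
    ring
  have hv21 : pol Q (((k⁻¹ : GL ι F) : Matrix ι ι F) *ᵥ a₂) b₁ = 0 - e₂ * δ₃ := by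
    rw [hf₂]
    simp only [pol_add_left hQ, pol_smul_left hQ, d11, d21, d31]
    ring
  have hv22 : pol Q (((k⁻¹ : GL ι F) : Matrix ι ι F) *ᵥ a₂) b₂ = y' - e₂ * γ₃ := by
    rw [hf₂]
    simp only [pol_add_left hQ, pol_smul_left hQ, d12, d22, d32]
    ring
  have hv23 : pol Q (((k⁻¹ : GL ι F) : Matrix ι ι F) *ᵥ a₂) b₃ = e₂ := by
    rw [hf₂]
    simp only [pol_add_left hQ, pol_smul_left hQ, d13, d23, d33]
    ring
  have hC12 := hC b₁ b₂ hb₁ hb₂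
  have hC13 := hC b₁ b₃ hb₁ hb₃
  have hC23 := hC b₂ b₃ hb₂ hb₃
  rw [hv11, hv12, hv21, hv22] at hC12
  rw [hv11, hv13, hv21, hv23] at hC13
  rw [hv12, hv13, hv22, hv23] at hC23
  refine ⟨_, hC12, _, hC13, _, F₀.neg_mem hC23, ?_⟩
  rw [hy'y]
  ring

end Hard

/-- Small degrees: a common rational singular vector orthogonal to two vectors. -/
theorem exists_rho [Fintype F] (hQ : IsNondegenerateQuadraticForm Q) (hrat : ∀ u : ι → F, IsRat F₀ u → Q u ∈ F₀)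
    (hn : 13 ≤ Fintype.card ι) {r : ℕ} (hr3 : r ≤ 3) (hcard : Fintype.card F = Nat.card F₀ ^ r) (u w : ι → F) :
    ∃ ρ, IsRat F₀ ρ ∧ Q ρ = 0 ∧ ρ ≠ 0 ∧ pol Q ρ u = 0 ∧ pol Q ρ w = 0 := by
  classical
  haveI : Fintype F₀ := Fintype.ofFinite _
  let Ψ : (ι → F₀) →ₗ[F₀] F × F :=
    { toFun := fun x => (pol Q (coeV x) u, pol Q (coeV x) w)
      map_add' := fun x y => by
        rw [coeV_add, pol_add_left hQ, pol_add_left hQ]
        rfl
      map_smul' := fun c x => by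
        rw [coeV_smul, pol_smul_left hQ, pol_smul_left hQ]
        rfl }
  have h1 : Fintype.card F = Fintype.card F₀ ^ Module.finrank F₀ F := Module.card_eq_pow_finrank (K := F₀) (V := F)
  rw [Nat.card_eq_fintype_card] at hcard
  have h4 : 1 < Fintype.card F₀ := Fintype.one_lt_card
  have h5 : Module.finrank F₀ F = r := Nat.pow_right_injective (by omega) (h1.symm.trans hcard)
  have h6 := LinearMap.finrank_range_add_finrank_ker Ψ
  have h7 : Module.finrank F₀ (LinearMap.range Ψ) ≤ Module.finrank F₀ (F × F) := Submodule.finrank_le _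
  rw [Module.finrank_prod, h5] at h7
  have h8 : Module.finrank F₀ (ι → F₀) = Fintype.card ι := by simp
  rw [h8] at h6
  obtain ⟨p, hp, hp0, hpQ⟩ := exists_singular (isNondeg_qo hQ hrat) (LinearMap.ker Ψ) (by omega)
  have hp' : Ψ p = 0 := hp
  have h9 := congrArg Prod.fst hp'
  have h10 := congrArg Prod.snd hp'
  refine ⟨coeV p, isRat_coeV p, ?_, ?_, h9, h10⟩
  · have := congrArg (fun a : F₀ => (a : F)) hpQ
    simpa only [coe_qo, ZeroMemClass.coe_zero] using this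
  · intro h0
    apply hp0
    apply coeV_injective
    rw [h0, coeV_zero]

section Final

variable {M : Subgroup (GL ι F)} {hQ : IsNondegenerateQuadraticForm Q}

theorem OSys.exists_value [Finite F] (S : OSys hQ F₀ M) (hn : 13 ≤ Fintype.card ι) {u : ι → F} (hu : u ≠ 0) :
    ∃ a, IsRat F₀ a ∧ Q a = 0 ∧ pol Q u a ≠ 0 := by
  by_contra hcon
  push Not at hcon
  apply hu
  apply eq_zero_of_pol_single hQ
  intro i
  obtain ⟨b₁, b₂, hb₁, hb₂, hb₁Q, hb₂Q, -, -, e⟩ := rat_decomp hQ S.rat hn (isRat_zero (F₀ := F₀)) (isRat_single i)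
    (Q_zero hQ) (pol_zero_left hQ _)
  rw [e, pol_add_right hQ, hcon b₁ hb₁ hb₁Q, hcon b₂ hb₂ hb₂Q, add_zero]

theorem OSys.exists_sep [Finite F] (S : OSys hQ F₀ M) (hn : 13 ≤ Fintype.card ι) {a x : ι → F} (ha : IsRat F₀ a)
    (haQ : Q a = 0) (ha0 : a ≠ 0) (hne : ∀ c : F, x ≠ c • a) :
    ∃ a₂, IsRat F₀ a₂ ∧ Q a₂ = 0 ∧ pol Q a a₂ = 0 ∧ pol Q x a₂ ≠ 0 := by
  by_contra hcon
  push Not at hcon
  obtain ⟨a', ha', haa'⟩ := rat_one hQ S.rat ha ha0
  apply hne (pol Q x a')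
  apply eq_of_pol_single hQ
  intro i
  have hz : IsRat F₀ ((Pi.single i 1 : ι → F) - pol Q a (Pi.single i 1) • a') :=
    (isRat_single i).sub (ha'.smul (pol_rat S.rat ha (isRat_single i)))
  obtain ⟨b₁, b₂, hb₁, hb₂, hb₁Q, hb₂Q, h1, h2, e⟩ := rat_decomp hQ S.rat hn ha hz haQ (by
    rw [pol_sub_right hQ, pol_smul_right hQ, haa']
    ring)
  have h3 : pol Q x ((Pi.single i 1 : ι → F) - pol Q a (Pi.single i 1) • a') = 0 := by
    rw [e, pol_add_right hQ, hcon b₁ hb₁ hb₁Q h1, hcon b₂ hb₂ hb₂Q h2, add_zero]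
  rw [pol_sub_right hQ, pol_smul_right hQ] at h3
  rw [pol_smul_left hQ]
  linear_combination h3

/-- No totally singular pair lies off all rational singular points' perps. -/
theorem OSys.no_rho [Fintype F] (S : OSys hQ F₀ M) {r : ℕ} (hr : r.Prime)
    (hcard : Fintype.card F = Nat.card F₀ ^ r) (hn : 13 ≤ Fintype.card ι) (hNC : NC Q F₀ M) {u w : ι → F}
    (huQ : Q u = 0) (hwQ : Q w = 0) (huw : pol Q u w = 0) (hind : ∀ a b : F, a • u + b • w = 0 → a = 0 ∧ b = 0)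
    (hX : ∀ g, Eich Q g u w → g ∈ M) (hno : ∀ ρ, IsRat F₀ ρ → Q ρ = 0 → pol Q ρ u = 0 → pol Q ρ w = 0 → ρ = 0) :
    False := by
  by_cases hr3 : r ≤ 3
  · obtain ⟨ρ, h1, h2, h3, h4, h5⟩ := exists_rho hQ S.rat hn hr3 hcard u w
    exact h3 (hno ρ h1 h2 h4 h5)
  have huu := pol_singular hQ huQ
  have hww := pol_singular hQ hwQ
  have hwu : pol Q w u = 0 := by rw [pol_symm hQ, huw]
  have hu0 : u ≠ 0 := by
    intro h0
    have := hind 1 0 (by rw [h0]; simp)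
    exact one_ne_zero this.1
  obtain ⟨a₁, ha₁, ha₁Q, hα₁⟩ := OSys.exists_value S hn hu0
  obtain ⟨α₁, hα₁d⟩ : ∃ α₁, α₁ = pol Q u a₁ := ⟨_, rfl⟩
  obtain ⟨β₁, hβ₁d⟩ : ∃ β₁, β₁ = pol Q w a₁ := ⟨_, rfl⟩
  rw [← hα₁d] at hα₁
  have ha₁0 : a₁ ≠ 0 := by
    rintro rfl
    apply hα₁
    rw [hα₁d, pol_zero_right hQ]
  obtain ⟨a₂, ha₂, ha₂Q, h12, hw₁a₂⟩ := OSys.exists_sep S hn (x := w - (β₁ / α₁) • u) ha₁ ha₁Q ha₁0 (by
    intro c e
    have h0 : pol Q u (w - (β₁ / α₁) • u) = 0 := by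
      rw [pol_sub_right hQ, pol_smul_right hQ, huw, huu]
      ring
    rw [e, pol_smul_right hQ, ← hα₁d] at h0
    have hc : c = 0 := (mul_eq_zero.mp h0).resolve_right hα₁
    rw [hc, zero_smul] at e
    have := hind (-(β₁ / α₁)) 1 (by
      rw [← e]
      module)
    exact one_ne_zero this.2)
  obtain ⟨α₂, hα₂d⟩ : ∃ α₂, α₂ = pol Q u a₂ := ⟨_, rfl⟩
  obtain ⟨β₂, hβ₂d⟩ : ∃ β₂, β₂ = pol Q w a₂ := ⟨_, rfl⟩
  rw [pol_sub_left hQ, pol_smul_left hQ, ← hα₂d, ← hβ₂d] at hw₁a₂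
  obtain ⟨κ, hκd⟩ : ∃ κ, κ = α₁ * β₂ - α₂ * β₁ := ⟨_, rfl⟩
  have hκ : κ ≠ 0 := by
    have e : κ = α₁ * (β₂ - β₁ / α₁ * α₂) := by
      rw [hκd]
      field_simp
    rw [e]
    exact mul_ne_zero hα₁ hw₁a₂
  -- duals
  obtain ⟨b₁, hb₁, d21, d11⟩ := rat_dual hQ S.rat ha₁ ha₂ (by
    intro c _ e
    apply hκ
    rw [hκd, hα₁d, hβ₁d, e, pol_smul_right hQ, pol_smul_right hQ, ← hα₂d, ← hβ₂d]
    ring)
  obtain ⟨b₂, hb₂, d12, d22⟩ := rat_dual hQ S.rat ha₂ ha₁ (by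
    intro c _ e
    apply hκ
    rw [hκd, hα₂d, hβ₂d, e, pol_smul_right hQ, pol_smul_right hQ, ← hα₁d, ← hβ₁d]
    ring)
  obtain ⟨a₃, b₃, ha₃, hb₃, ha₃Q, hb₃Q, d33, h3S, hb3S⟩ := rat_hyp hQ S.rat ![a₁, a₂, b₁, b₂]
    (by
      intro i
      fin_cases i
      · exact ha₁
      · exact ha₂
      · exact hb₁
      · exact hb₂) (by simp; omega)
  have h31 : pol Q a₃ a₁ = 0 := h3S 0
  have h32 : pol Q a₃ a₂ = 0 := h3S 1
  have d31 : pol Q a₃ b₁ = 0 := h3S 2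
  have d32 : pol Q a₃ b₂ = 0 := h3S 3
  have d13 : pol Q b₃ a₁ = 0 := hb3S 0
  have d23 : pol Q b₃ a₂ = 0 := hb3S 1
  -- the dual basis
  obtain ⟨u', hu'd⟩ : ∃ u', u' = κ⁻¹ • (β₂ • u - α₂ • w) := ⟨_, rfl⟩
  obtain ⟨w', hw'd⟩ : ∃ w', w' = κ⁻¹ • (α₁ • w - β₁ • u) := ⟨_, rfl⟩
  have hκi : κ⁻¹ * κ = 1 := inv_mul_cancel₀ hκ
  have hu'Q : Q u' = 0 := by
    rw [hu'd, hQ.smul, Q_sub hQ, hQ.smul, hQ.smul, huQ, hwQ, pol_smul_left hQ, pol_smul_right hQ, huw]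
    ring
  have hw'Q : Q w' = 0 := by
    rw [hw'd, hQ.smul, Q_sub hQ, hQ.smul, hQ.smul, huQ, hwQ, pol_smul_left hQ, pol_smul_right hQ, hwu]
    ring
  have huw' : pol Q u' w' = 0 := by
    rw [hu'd, hw'd]
    simp only [pol_smul_left hQ, pol_smul_right hQ, pol_sub_left hQ, pol_sub_right hQ, huu, hww, huw, hwu]
    ring
  have hu1 : pol Q u' a₁ = 1 := by
    rw [hu'd, pol_smul_left hQ, pol_sub_left hQ, pol_smul_left hQ, pol_smul_left hQ, ← hα₁d, ← hβ₁d]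
    rw [← hκi, hκd]
    ring
  have hu2 : pol Q u' a₂ = 0 := by
    rw [hu'd, pol_smul_left hQ, pol_sub_left hQ, pol_smul_left hQ, pol_smul_left hQ, ← hα₂d, ← hβ₂d]
    ring
  have hw1 : pol Q w' a₁ = 0 := by
    rw [hw'd, pol_smul_left hQ, pol_sub_left hQ, pol_smul_left hQ, pol_smul_left hQ, ← hα₁d, ← hβ₁d]
    ring
  have hw2 : pol Q w' a₂ = 1 := by
    rw [hw'd, pol_smul_left hQ, pol_sub_left hQ, pol_smul_left hQ, pol_smul_left hQ, ← hα₂d, ← hβ₂d]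
    rw [← hκi, hκd]
    ring
  have hue : u = α₁ • u' + α₂ • w' := by
    have e : α₁ • u' + α₂ • w' = (κ⁻¹ * (α₁ * β₂ - α₂ * β₁)) • u := by
      rw [hu'd, hw'd]
      module
    rw [e, ← hκd, hκi, one_smul]
  have hwe : w = β₁ • u' + β₂ • w' := by
    have e : β₁ • u' + β₂ • w' = (κ⁻¹ * (α₁ * β₂ - α₂ * β₁)) • w := by
      rw [hu'd, hw'd]
      module
    rw [e, ← hκd, hκi, one_smul]
  have hX' : ∀ g, Eich Q g u' (κ • w') → g ∈ M := by
    intro g hg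
    apply hX g
    refine eich_basis (hQ := hQ) (α := α₁) (β := α₂ / κ) (γ := β₁) (δ := β₂ / κ) ?_ ?_ ?_ hwQ ?_ hg
    · rw [hκd] at hκ ⊢
      field_simp
    · rw [smul_smul, div_mul_cancel₀ _ hκ]
      exact hue
    · rw [smul_smul, div_mul_cancel₀ _ hκ]
      exact hwe
    · rw [hQ.smul, hw'Q, mul_zero]
  have hirr : pol Q u' a₃ ∉ F₀ ∨ pol Q w' a₃ ∉ F₀ := by
    by_contra hcon
    push Not at hcon
    obtain ⟨h1, h2⟩ := hcon
    have hρ0 : a₃ - pol Q u' a₃ • a₁ - pol Q w' a₃ • a₂ = 0 := by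
      apply hno _ ((ha₃.sub (ha₁.smul h1)).sub (ha₂.smul h2))
      · rw [Q_sub hQ, Q_sub hQ, hQ.smul, hQ.smul, ha₃Q, ha₁Q, ha₂Q]
        simp only [pol_sub_left hQ, pol_smul_left hQ, pol_smul_right hQ, h31, h32, h12, pol_singular hQ ha₁Q]
        ring
      · rw [hue]
        simp only [pol_sub_left hQ, pol_add_right hQ, pol_smul_left hQ, pol_smul_right hQ, pol_symm hQ a₃ u',
          pol_symm hQ a₁ u', pol_symm hQ a₂ u', pol_symm hQ a₃ w', pol_symm hQ a₁ w', pol_symm hQ a₂ w', hu1, hu2, hw1, hw2]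
        ring
      · rw [hwe]
        simp only [pol_sub_left hQ, pol_add_right hQ, pol_smul_left hQ, pol_smul_right hQ, pol_symm hQ a₃ u',
          pol_symm hQ a₁ u', pol_symm hQ a₂ u', pol_symm hQ a₃ w', pol_symm hQ a₁ w', pol_symm hQ a₂ w', hu1, hu2, hw1, hw2]
        ring
    have h3 := congrArg (fun x => pol Q x b₃) hρ0
    simp only [pol_sub_left hQ, pol_smul_left hQ, pol_zero_left hQ, d33] at h3
    rw [pol_symm hQ a₁ b₃, pol_symm hQ a₂ b₃, d13, d23] at h3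
    apply one_ne_zero (α := F)
    linear_combination h3
  -- all squares lie in a small space
  have hsq : ∀ y : F, ∃ p ∈ F₀, ∃ q ∈ F₀, ∃ s ∈ F₀, y * y = p + q * pol Q w' a₃ + s * pol Q u' a₃ := by
    intro y
    by_cases hy : y = 0
    · refine ⟨0, F₀.zero_mem, 0, F₀.zero_mem, 0, F₀.zero_mem, ?_⟩
      rw [hy]
      ring
    exact OSys.hard_norm S hr hcard hn hNC ha₁ ha₂ ha₃ hb₁ hb₂ hb₃ ha₁Q ha₂Q ha₃Q hu'Q hw'Q h12
      (by rw [pol_symm hQ]; exact h31) (by rw [pol_symm hQ]; exact h32) d11 d12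
      (by rw [pol_symm hQ]; exact d13) d21 d22 (by rw [pol_symm hQ]; exact d23) d31 d32 d33 huw' hu1 hu2 hw1 hw2 hκ hX'
      hirr hy
  have hall : ∀ c : F, ∃ p ∈ F₀, ∃ q ∈ F₀, ∃ s ∈ F₀, c = p + q * pol Q w' a₃ + s * pol Q u' a₃ := by
    intro c
    obtain ⟨y, z, e⟩ := exists_sq_sub_sq' c
    obtain ⟨p, hp, q, hq, s, hs, e1⟩ := hsq y
    obtain ⟨p', hp', q', hq', s', hs', e2⟩ := hsq z
    refine ⟨p - p', F₀.sub_mem hp hp', q - q', F₀.sub_mem hq hq', s - s', F₀.sub_mem hs hs', ?_⟩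
    rw [e, e1, e2]
    ring
  -- counting
  classical
  haveI : Fintype F₀ := Fintype.ofFinite _
  have hsurj : Function.Surjective (fun t : F₀ × F₀ × F₀ =>
      (t.1 : F) + (t.2.1 : F) * pol Q w' a₃ + (t.2.2 : F) * pol Q u' a₃) := by
    intro c
    obtain ⟨p, hp, q, hq, s, hs, e⟩ := hall c
    exact ⟨(⟨p, hp⟩, ⟨q, hq⟩, ⟨s, hs⟩), e.symm⟩
  have hle := Fintype.card_le_of_surjective _ hsurj
  rw [Fintype.card_prod, Fintype.card_prod, hcard, Nat.card_eq_fintype_card] at hle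
  have h4 : 1 < Fintype.card F₀ := Fintype.one_lt_card
  have h5 : Fintype.card F₀ ^ r ≤ Fintype.card F₀ ^ 3 := by
    calc Fintype.card F₀ ^ r ≤ Fintype.card F₀ * (Fintype.card F₀ * Fintype.card F₀) := hle
      _ = Fintype.card F₀ ^ 3 := by ring
  have h6 := (Nat.pow_le_pow_iff_right h4).mp h5
  exact hr3 h6

/-- All totally singular pairs in `M`-orbits are rational. -/
theorem OSys.plane_all [Fintype F] (S : OSys hQ F₀ M) {r : ℕ} (hr : r.Prime)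
    (hcard : Fintype.card F = Nat.card F₀ ^ r) (hn : 13 ≤ Fintype.card ι) (hNC : NC Q F₀ M) {u w : ι → F}
    (huQ : Q u = 0) (hwQ : Q w = 0) (huw : pol Q u w = 0) (hind : ∀ a b : F, a • u + b • w = 0 → a = 0 ∧ b = 0)
    (hX : ∀ g, Eich Q g u w → g ∈ M) :
    ∃ (Y₁ Y₂ : ι → F) (α β γ δ : F), IsRat F₀ Y₁ ∧ IsRat F₀ Y₂ ∧ α * δ - β * γ = 1 ∧ u = α • Y₁ + β • Y₂ ∧
      w = γ • Y₁ + δ • Y₂ := by
  by_cases hρ : ∃ ρ, IsRat F₀ ρ ∧ Q ρ = 0 ∧ ρ ≠ 0 ∧ pol Q ρ u = 0 ∧ pol Q ρ w = 0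
  · obtain ⟨ρ, h1, h2, h3, h4, h5⟩ := hρ
    exact S.plane hn hNC huQ hwQ huw hind hX h1 h2 h3 h4 h5
  · exfalso
    push Not at hρ
    refine OSys.no_rho S hr hcard hn hNC huQ hwQ huw hind hX (fun ρ h1 h2 h3 h4 => ?_)
    by_contra h0
    exact hρ ρ h1 h2 h0 h3 h4

/-- A rational vector vanishing on the same rational vectors as two others is in their span. -/
theorem OSys.rat_span [Finite F] (S : OSys hQ F₀ M) {Y₁ Y₂ X : ι → F} (hY₁ : IsRat F₀ Y₁) (hY₂ : IsRat F₀ Y₂)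
    (hX : IsRat F₀ X) (h : ∀ z, IsRat F₀ z → pol Q Y₁ z = 0 → pol Q Y₂ z = 0 → pol Q X z = 0) :
    ∃ p q : F, X = p • Y₁ + q • Y₂ := by
  obtain ⟨Y₁₀, rfl⟩ := exists_coeV hY₁
  obtain ⟨Y₂₀, rfl⟩ := exists_coeV hY₂
  obtain ⟨X₀, rfl⟩ := exists_coeV hX
  haveI : Finite F₀ := Finite.of_injective (fun x : F₀ => (x : F)) Subtype.val_injective
  have P := isPolar (isNondeg_qo hQ S.rat)
  by_cases hmem : X₀ ∈ Submodule.span F₀ (Set.range ![Y₁₀, Y₂₀])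
  · have e : Set.range ![Y₁₀, Y₂₀] = {Y₁₀, Y₂₀} := by
      ext x
      simp [eq_comm]
      exact or_comm
    rw [e, Submodule.mem_span_pair] at hmem
    obtain ⟨p, q, e2⟩ := hmem
    refine ⟨p, q, ?_⟩
    rw [← e2, coeV_add, coeV_smul, coeV_smul]
  · exfalso
    obtain ⟨y, hy, hXy⟩ := P.exists_perp_ne_zero ![Y₁₀, Y₂₀] X₀ hmem
    rw [P.mem_perp] at hy
    have h1 := congrArg (fun a : F₀ => (a : F)) (hy 0)
    have h2 := congrArg (fun a : F₀ => (a : F)) (hy 1)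
    have h3 := congrArg (fun a : F₀ => (a : F)) hXy
    simp only [coe_polo, Matrix.cons_val_zero, Matrix.cons_val_one, Matrix.cons_val_fin_one, ZeroMemClass.coe_zero,
      OneMemClass.coe_one] at h1 h2 h3
    have h4 := h (coeV y) (isRat_coeV y) (by rw [pol_symm hQ]; exact h1) (by rw [pol_symm hQ]; exact h2)
    rw [h4] at h3
    exact zero_ne_one h3

/-- **Rational singular points go to rational points.** -/
theorem OSys.line [Fintype F] (S : OSys hQ F₀ M) {r : ℕ} (hr : r.Prime)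
    (hcard : Fintype.card F = Nat.card F₀ ^ r) (hn : 13 ≤ Fintype.card ι) (hNC : NC Q F₀ M) {g : GL ι F} (hg : g ∈ M)
    {a : ι → F} (ha : IsRat F₀ a) (haQ : Q a = 0) (ha0 : a ≠ 0) :
    ∃ (l : F) (v : ι → F), IsRat F₀ v ∧ (g : Matrix ι ι F) *ᵥ a = l • v := by
  have hgI := S.iso hg
  have hgQ := (mem_isometryGroup_iff Q g).mp hgI
  have hinj : ∀ x, (g : Matrix ι ι F) *ᵥ x = 0 → x = 0 := by
    intro x h0
    have := inv_mulVec_mulVec g x
    rw [h0, Matrix.mulVec_zero] at this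
    exact this.symm
  obtain ⟨a', ha', haa'⟩ := rat_one hQ S.rat ha ha0
  obtain ⟨b, b', hb, hb', hbQ, hb'Q, hbb', hbS, hb'S⟩ := rat_hyp hQ S.rat ![a, a']
    (by
      intro i
      fin_cases i
      · exact ha
      · exact ha') (by simp; omega)
  have hba : pol Q b a = 0 := hbS 0
  have hba' : pol Q b a' = 0 := hbS 1
  have hb'a : pol Q b' a = 0 := hb'S 0
  obtain ⟨c, c', hc, hc', hcQ, hc'Q, hcc', hcS, hc'S⟩ := rat_hyp hQ S.rat ![a, a', b, b']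
    (by
      intro i
      fin_cases i
      · exact ha
      · exact ha'
      · exact hb
      · exact hb') (by simp; omega)
  have hca : pol Q c a = 0 := hcS 0
  have hca' : pol Q c a' = 0 := hcS 1
  have hcb' : pol Q c b' = 0 := hcS 3
  have hc'a : pol Q c' a = 0 := hc'S 0
  have hc'b : pol Q c' b = 0 := hc'S 2
  have hab : pol Q a b = 0 := by rw [pol_symm hQ, hba]
  have hac : pol Q a c = 0 := by rw [pol_symm hQ, hca]
  have hind : ∀ b₀ b₀' : ι → F, pol Q a b₀' = 0 → pol Q b₀ a' = 0 → pol Q b₀ b₀' = 1 →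
      ∀ s t : F, s • ((g : Matrix ι ι F) *ᵥ a) + t • ((g : Matrix ι ι F) *ᵥ b₀) = 0 → s = 0 ∧ t = 0 := by
    intro b₀ b₀' h1 h2 h3 s t e
    have h4 : s • a + t • b₀ = 0 := by
      apply hinj
      rw [Matrix.mulVec_add, Matrix.mulVec_smul, Matrix.mulVec_smul]
      exact e
    have h5 : pol Q (s • a + t • b₀) a' = 0 := by rw [h4, pol_zero_left hQ]
    have h6 : pol Q (s • a + t • b₀) b₀' = 0 := by rw [h4, pol_zero_left hQ]
    rw [pol_add_left hQ, pol_smul_left hQ, pol_smul_left hQ, h2, haa'] at h5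
    rw [pol_add_left hQ, pol_smul_left hQ, pol_smul_left hQ, h1, h3] at h6
    constructor
    · linear_combination h5
    · linear_combination h6
  have hpar₁ := (S.par ha hb haQ hab).conj hg hgI
  have hpar₂ := (S.par ha hc haQ hac).conj hg hgI
  obtain ⟨Y₁, Y₂, α, β, γ, δ, hY₁, hY₂, hdet, e1, e2⟩ := OSys.plane_all S hr hcard hn hNC (by rw [hgQ, haQ]) (by rw [hgQ, hbQ])
    hpar₁.1 (hind b b' (by rw [pol_symm hQ]; exact hb'a) hba' hbb') hpar₁.2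
  obtain ⟨Z₁, Z₂, α', β', γ', δ', hZ₁, hZ₂, hdet', e1', e2'⟩ := OSys.plane_all S hr hcard hn hNC (by rw [hgQ, haQ])
    (by rw [hgQ, hcQ]) hpar₂.1 (hind c c' (by rw [pol_symm hQ]; exact hc'a) hca' hcc') hpar₂.2
  -- a rational vector separating
  have hsep : ∃ z, IsRat F₀ z ∧ pol Q Y₁ z = 0 ∧ pol Q Y₂ z = 0 ∧ (pol Q Z₁ z ≠ 0 ∨ pol Q Z₂ z ≠ 0) := by
    by_contra hcon
    push Not at hcon
    obtain ⟨p₁, q₁, e3⟩ := OSys.rat_span S hY₁ hY₂ hZ₁ (fun z hz h1 h2 => (hcon z hz h1 h2).1)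
    obtain ⟨p₂, q₂, e4⟩ := OSys.rat_span S hY₁ hY₂ hZ₂ (fun z hz h1 h2 => (hcon z hz h1 h2).2)
    -- `Y₁, Y₂` in terms of `g a, g b`
    have e5 : Y₁ = δ • ((g : Matrix ι ι F) *ᵥ a) - β • ((g : Matrix ι ι F) *ᵥ b) := by
      have : δ • ((g : Matrix ι ι F) *ᵥ a) - β • ((g : Matrix ι ι F) *ᵥ b) = (α * δ - β * γ) • Y₁ := by
        rw [e1, e2]
        module
      rw [this, hdet, one_smul]
    have e6 : Y₂ = α • ((g : Matrix ι ι F) *ᵥ b) - γ • ((g : Matrix ι ι F) *ᵥ a) := by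
      have : α • ((g : Matrix ι ι F) *ᵥ b) - γ • ((g : Matrix ι ι F) *ᵥ a) = (α * δ - β * γ) • Y₂ := by
        rw [e1, e2]
        module
      rw [this, hdet, one_smul]
    obtain ⟨A, B, e7⟩ : ∃ A B : F, (g : Matrix ι ι F) *ᵥ c = A • ((g : Matrix ι ι F) *ᵥ a) + B • ((g : Matrix ι ι F) *ᵥ b) := by
      refine ⟨γ' * (p₁ * δ - q₁ * γ) + δ' * (p₂ * δ - q₂ * γ), γ' * (q₁ * α - p₁ * β) + δ' * (q₂ * α - p₂ * β), ?_⟩
      rw [e2', e3, e4, e5, e6]
      module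
    have e8 : c = A • a + B • b := by
      have h0 : c - (A • a + B • b) = 0 := by
        apply hinj
        rw [Matrix.mulVec_sub, Matrix.mulVec_add, Matrix.mulVec_smul, Matrix.mulVec_smul, e7, sub_self]
      exact sub_eq_zero.mp h0
    have e9 : pol Q c c' = 0 := by
      rw [e8, pol_add_left hQ, pol_smul_left hQ, pol_smul_left hQ, pol_symm hQ a c', pol_symm hQ b c', hc'a, hc'b]
      ring
    rw [hcc'] at e9
    exact one_ne_zero e9
  obtain ⟨z, hz, hz₁, hz₂, hne⟩ := hsep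
  have hval : pol Q ((g : Matrix ι ι F) *ᵥ a) z = 0 := by
    rw [e1, pol_add_left hQ, pol_smul_left hQ, pol_smul_left hQ, hz₁, hz₂]
    ring
  rw [e1', pol_add_left hQ, pol_smul_left hQ, pol_smul_left hQ] at hval
  have hπ₁ := pol_rat S.rat hZ₁ hz
  have hπ₂ := pol_rat S.rat hZ₂ hz
  by_cases h1 : pol Q Z₁ z = 0
  · have h2 : pol Q Z₂ z ≠ 0 := by
      rcases hne with h | h
      · exact absurd h1 h
      · exact h
    rw [h1, mul_zero, zero_add] at hval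
    have hβ : β' = 0 := (mul_eq_zero.mp hval).resolve_right h2
    exact ⟨α', Z₁, hZ₁, by rw [e1', hβ, zero_smul, add_zero]⟩
  · refine ⟨β', Z₂ - (pol Q Z₂ z / pol Q Z₁ z) • Z₁, hZ₂.sub (hZ₁.smul (F₀.div_mem hπ₂ hπ₁)), ?_⟩
    have hα : α' = -(β' * (pol Q Z₂ z / pol Q Z₁ z)) := by
      field_simp
      linear_combination hval
    rw [e1', hα]
    module

/-- From rational singular points to rational points. -/
theorem OSys.mem_subfield [Nonempty ι] [Finite F] (S : OSys hQ F₀ M) (hn : 13 ≤ Fintype.card ι) {g : GL ι F}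
    (hline : ∀ a, IsRat F₀ a → Q a = 0 → a ≠ 0 → ∃ (l : F) (v : ι → F), IsRat F₀ v ∧ (g : Matrix ι ι F) *ᵥ a = l • v) :
    g ∈ subfieldSubgroup F₀ 1 := by
  have hinj : ∀ x, (g : Matrix ι ι F) *ᵥ x = 0 → x = 0 := by
    intro x h0
    have := inv_mulVec_mulVec g x
    rw [h0, Matrix.mulVec_zero] at this
    exact this.symm
  obtain ⟨a₀, a₀', ha₀, ha₀', ha₀Q, -, haa', -, -⟩ := rat_hyp hQ S.rat (k := 0) ![] (by
    intro i
    exact i.elim0) (by simp; omega)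
  have ha₀0 : a₀ ≠ 0 := by
    rintro rfl
    rw [pol_zero_left hQ] at haa'
    exact zero_ne_one haa'
  obtain ⟨κ, v₀, hv₀, hκe⟩ := hline a₀ ha₀ ha₀Q ha₀0
  have hκ : κ ≠ 0 := by
    rintro rfl
    rw [zero_smul] at hκe
    exact ha₀0 (hinj _ hκe)
  -- the step along a totally singular line
  have hstep : ∀ (e a ve : ι → F), IsRat F₀ e → Q e = 0 → e ≠ 0 → IsRat F₀ ve → (g : Matrix ι ι F) *ᵥ e = κ • ve →
      IsRat F₀ a → Q a = 0 → pol Q e a = 0 → (∀ l ∈ F₀, a ≠ l • e) → ∃ v, IsRat F₀ v ∧ (g : Matrix ι ι F) *ᵥ a = κ • v := by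
    intro e a ve he heQ he0 hve hge ha haQ hea hne
    have ha0 : a ≠ 0 := by
      intro h0
      apply hne 0 F₀.zero_mem
      rw [h0, zero_smul]
    obtain ⟨l, v, hv, hga⟩ := hline a ha haQ ha0
    have hsum0 : e + a ≠ 0 := by
      intro h0
      apply hne (-1) (F₀.neg_mem F₀.one_mem)
      rw [neg_smul, one_smul]
      exact (eq_neg_of_add_eq_zero_right h0)
    obtain ⟨l', v', hv', hgs⟩ := hline (e + a) (he.add ha) (by rw [Q_add hQ, heQ, haQ, hea]; ring) hsum0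
    have hl' : l' ≠ 0 := by
      rintro rfl
      rw [zero_smul] at hgs
      exact hsum0 (hinj _ hgs)
    have hl : l ≠ 0 := by
      rintro rfl
      rw [zero_smul] at hga
      exact ha0 (hinj _ hga)
    rw [Matrix.mulVec_add, hge, hga] at hgs
    -- independence
    obtain ⟨y₁, hy₁, h1a, h1e⟩ := rat_dual hQ S.rat he ha (by
      intro c hc e0
      by_cases hc0 : c = 0
      · rw [hc0, zero_smul] at e0
        exact he0 e0
      · apply hne c⁻¹ (F₀.inv_mem hc)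
        rw [e0, smul_smul, inv_mul_cancel₀ hc0, one_smul])
    obtain ⟨y₂, hy₂, h2e, h2a⟩ := rat_dual hQ S.rat ha he hne
    have hind : ∀ s t : F, s • ve + t • v = 0 → s = 0 ∧ t = 0 := by
      intro s t hst
      have h0 : (s / κ) • e + (t / l) • a = 0 := by
        apply hinj
        rw [Matrix.mulVec_add, Matrix.mulVec_smul, Matrix.mulVec_smul, hge, hga, smul_smul, smul_smul,
          div_mul_cancel₀ _ hκ, div_mul_cancel₀ _ hl]
        exact hst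
      have h3 : pol Q ((s / κ) • e + (t / l) • a) y₁ = 0 := by rw [h0, pol_zero_left hQ]
      have h4 : pol Q ((s / κ) • e + (t / l) • a) y₂ = 0 := by rw [h0, pol_zero_left hQ]
      rw [pol_add_left hQ, pol_smul_left hQ, pol_smul_left hQ, h1e, h1a] at h3
      rw [pol_add_left hQ, pol_smul_left hQ, pol_smul_left hQ, h2e, h2a] at h4
      have h5 : s / κ = 0 := by linear_combination h3
      have h6 : t / l = 0 := by linear_combination h4
      exact ⟨(div_eq_zero_iff.mp h5).resolve_right hκ, (div_eq_zero_iff.mp h6).resolve_right hl⟩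
    have hcomb : (κ / l') • ve + (l / l') • v = v' := by
      have h1 := congrArg (fun x => l'⁻¹ • x) hgs
      simp only [smul_add, smul_smul, inv_mul_cancel₀ hl', one_smul] at h1
      rw [div_eq_inv_mul, div_eq_inv_mul]
      exact h1
    have hr := rat_coeffs hve hv hind (by rw [hcomb]; exact hv')
    have hκl : κ / l' ≠ 0 := div_ne_zero hκ hl'
    refine ⟨(l / κ) • v, hv.smul ?_, ?_⟩
    · have := F₀.div_mem hr.2 hr.1
      have e2 : l / l' / (κ / l') = l / κ := by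
        field_simp
      rwa [e2] at this
    · rw [hga, smul_smul, mul_div_cancel₀ _ hκ]
  -- all rational singular vectors
  have hall : ∀ a, IsRat F₀ a → Q a = 0 → ∃ v, IsRat F₀ v ∧ (g : Matrix ι ι F) *ᵥ a = κ • v := by
    intro a ha haQ
    by_cases ha0 : a = 0
    · exact ⟨0, isRat_zero, by rw [ha0, smul_zero, Matrix.mulVec_zero]⟩
    obtain ⟨c, c', hc, hc', hcQ, hc'Q, hcc', hcS, hc'S⟩ := rat_hyp hQ S.rat ![a₀, a]
      (by
        intro i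
        fin_cases i
        · exact ha₀
        · exact ha) (by simp; omega)
    have hca₀ : pol Q c a₀ = 0 := hcS 0
    have hca : pol Q c a = 0 := hcS 1
    have hc'a₀ : pol Q c' a₀ = 0 := hc'S 0
    have hc'a : pol Q c' a = 0 := hc'S 1
    have hc0 : c ≠ 0 := by
      rintro rfl
      rw [pol_zero_left hQ] at hcc'
      exact zero_ne_one hcc'
    obtain ⟨vc, hvc, hgc⟩ := hstep a₀ c v₀ ha₀ ha₀Q ha₀0 hv₀ hκe hc hcQ (by rw [pol_symm hQ]; exact hca₀) (by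
      intro l _ e
      have h1 : pol Q c c' = l * pol Q a₀ c' := by rw [e, pol_smul_left hQ]
      rw [hcc', pol_symm hQ a₀ c', hc'a₀, mul_zero] at h1
      exact one_ne_zero h1)
    exact hstep c a vc hc hcQ hc0 hvc hgc ha haQ hca (by
      intro l _ e
      apply ha0
      have h1 : pol Q a c' = l * pol Q c c' := by rw [e, pol_smul_left hQ]
      rw [hcc', mul_one, pol_symm hQ a c', hc'a] at h1
      rw [e, ← h1, zero_smul])
  apply mem_subfield_of_lines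
  intro u hu
  have hone : ((1 : GL ι F)⁻¹ * g * 1 : GL ι F) = g := by simp
  rw [hone]
  obtain ⟨b₁, b₂, hb₁, hb₂, hb₁Q, hb₂Q, -, -, e⟩ := rat_decomp hQ S.rat hn (isRat_zero (F₀ := F₀)) hu
    (Q_zero hQ) (pol_zero_left hQ _)
  obtain ⟨v₁, hv₁, e1⟩ := hall b₁ hb₁ hb₁Q
  obtain ⟨v₂, hv₂, e2⟩ := hall b₂ hb₂ hb₂Q
  exact ⟨κ, v₁ + v₂, hv₁.add hv₂, by rw [e, Matrix.mulVec_add, e1, e2, smul_add]⟩

end Final

/-- **The maximality of the subfield group for a rational form.** -/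
theorem isMaximalIn_one [Fintype F] (hQ : IsNondegenerateQuadraticForm Q) (hrat : ∀ u : ι → F, IsRat F₀ u → Q u ∈ F₀)
    (hn : 13 ≤ Fintype.card ι) {r : ℕ} (hr : r.Prime) (hcard : Fintype.card F = Nat.card F₀ ^ r) :
    IsMaximalIn (omegaGL Q) (subfieldSubgroup F₀ 1 ⊓ omegaGL Q) := by
  haveI : Nonempty ι := by
    have : 0 < Fintype.card ι := by omega
    exact Fintype.card_pos_iff.mp this
  have hone : ∀ g : GL ι F, ((1 : GL ι F)⁻¹ * g * 1 : GL ι F) = g := fun g => by simp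
  -- rational Eichler transformations
  have hEH : ∀ (a b : ι → F) (g : GL ι F), IsRat F₀ a → IsRat F₀ b → Q a = 0 → pol Q a b = 0 → Eich Q g a b →
      g ∈ subfieldSubgroup F₀ 1 ⊓ omegaGL Q := by
    intro a b g ha hb haQ hab hg
    refine ⟨mem_subfield_of_entries ?_, hg.mem_omega hQ (by omega) haQ hab⟩
    intro i j
    rw [hone]
    have h1 : ((g : GL ι F) : Matrix ι ι F) i j = (((g : GL ι F) : Matrix ι ι F) *ᵥ Pi.single j 1) i := by simp
    rw [h1, hg _]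
    have hj : IsRat F₀ (Pi.single j (1 : F) : ι → F) := isRat_single j
    exact (((hj.add (ha.smul (pol_rat hrat hj hb))).sub (hb.smul (pol_rat hrat hj ha))).sub
      (ha.smul (F₀.mul_mem (hrat _ hb) (pol_rat hrat hj ha)))) i
  refine isMaximalIn_of_forall ?_ ?_
  · refine lt_of_le_of_ne inf_le_right ?_
    intro he
    obtain ⟨c, hc⟩ : ∃ c : F, c ∉ F₀ := by
      by_contra hcon
      push Not at hcon
      have h1 : Fintype.card F = Nat.card F₀ := by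
        have : F₀ = ⊤ := by
          rw [eq_top_iff]
          intro x _
          exact hcon x
        rw [this]
        simp
      have h2 : 1 < Nat.card F₀ := by
        rw [← h1]
        exact Fintype.one_lt_card
      rw [h1] at hcard
      have h3 : Nat.card F₀ ^ 1 = Nat.card F₀ ^ r := by
        rw [pow_one]
        exact hcard
      have h4 := Nat.pow_right_injective (by omega) h3
      exact hr.ne_one h4.symm
    obtain ⟨p, p', hp, hp', hpQ, hp'Q, hpp', -, -⟩ := rat_hyp hQ hrat (k := 0) ![] (by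
      intro i
      exact i.elim0) (by simp; omega)
    obtain ⟨b, b', hb, hb', hbQ, hb'Q, hbb', hbS, hb'S⟩ := rat_hyp hQ hrat ![p, p']
      (by
        intro i
        fin_cases i
        · exact hp
        · exact hp') (by simp; omega)
    have hbp : pol Q b p = 0 := hbS 0
    have hb'p : pol Q b' p = 0 := hb'S 0
    have hpb : pol Q p b = 0 := by rw [pol_symm hQ, hbp]
    have hp0 : p ≠ 0 := by
      rintro rfl
      rw [pol_zero_left hQ] at hpp'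
      exact zero_ne_one hpp'
    obtain ⟨g, hg⟩ := exists_eich hQ (p := p) (b := c • b) hpQ (by rw [pol_smul_right hQ, hpb, mul_zero])
    have hgH : g ∈ subfieldSubgroup F₀ 1 ⊓ omegaGL Q := by
      rw [he]
      exact hg.mem_omega hQ (by omega) hpQ (by rw [pol_smul_right hQ, hpb, mul_zero])
    obtain ⟨k, hk0, hk⟩ := exists_scalar_of_mem hgH.1
    rw [hone] at hk
    have hkv : ∀ z, IsRat F₀ z → IsRat F₀ (k • ((g : Matrix ι ι F) *ᵥ z)) := by
      intro z hz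
      rw [← Matrix.smul_mulVec]
      exact Cfsg.Agent.Lib.Geo.SUSymp.isRat_mulVec (fun i j => by
        rw [Matrix.smul_apply, smul_eq_mul]
        exact hk i j) hz
    have hgp : (g : Matrix ι ι F) *ᵥ p = p := by
      rw [hg p, pol_smul_right hQ, hpb, pol_singular hQ hpQ]
      simp
    have h1 := hkv p hp
    rw [hgp] at h1
    obtain ⟨i, hi⟩ : ∃ i, p i ≠ 0 := by
      by_contra hcon
      push Not at hcon
      exact hp0 (funext hcon)
    have hkF : k ∈ F₀ := by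
      have h2 := F₀.div_mem (h1 i) (hp i)
      rw [Pi.smul_apply, smul_eq_mul, mul_div_cancel_right₀ _ hi] at h2
      exact h2
    have hgb' : (g : Matrix ι ι F) *ᵥ b' = b' + c • p := by
      rw [hg b', pol_smul_right hQ, pol_symm hQ b' b, hbb', hb'p]
      simp
    have h2 := hkv b' hb'
    rw [hgb'] at h2
    have h3 : IsRat F₀ (c • p) := by
      have h4 := h2.smul (F₀.inv_mem hkF)
      rw [smul_smul, inv_mul_cancel₀ hk0, one_smul] at h4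
      have h5 := h4.sub hb'
      rwa [add_sub_cancel_left] at h5
    apply hc
    have h4 := F₀.div_mem (h3 i) (hp i)
    rwa [Pi.smul_apply, smul_eq_mul, mul_div_cancel_right₀ _ hi] at h4
  · intro M hHM hMI g hgM hgH
    by_contra hnot
    have hg : g ∉ subfieldSubgroup F₀ 1 := fun h => hgH ⟨h, hMI hgM⟩
    have S : OSys hQ F₀ M := ⟨hrat, fun g hg => by
      have := hMI hg
      rw [omegaGL_eq_commutator] at this
      exact (Subgroup.commutator_le_self _) this, fun a b g ha hb haQ hab hE => hHM (hEH a b g ha hb haQ hab hE)⟩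
    have hNC := S.nc hr hcard hn hnot
    exact hg (OSys.mem_subfield S hn (fun a ha haQ ha0 => OSys.line S hr hcard hn hNC hgM ha haQ ha0))

/-- The form pulled back along `P`, scaled by `ζ`. -/
theorem isNondeg_pull (hQ : IsNondegenerateQuadraticForm Q) (P : GL ι F) {ζ : F} (hζ : ζ ≠ 0) :
    IsNondegenerateQuadraticForm (fun x : ι → F => ζ * Q ((P : Matrix ι ι F) *ᵥ x)) := by
  have hpol : QuadraticMap.polar (fun x : ι → F => ζ * Q ((P : Matrix ι ι F) *ᵥ x)) =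
      fun x y => ζ * pol Q ((P : Matrix ι ι F) *ᵥ x) ((P : Matrix ι ι F) *ᵥ y) := by
    funext x y
    simp only [pol, QuadraticMap.polar, Matrix.mulVec_add]
    ring
  refine ⟨fun c v => ?_, ?_, ?_⟩
  · simp only [Matrix.mulVec_smul, hQ.smul]
    ring
  · rw [hpol]
    refine ⟨fun x y v => ?_, fun c x v => ?_, fun v x y => ?_, fun c v x => ?_⟩
    · simp only [Matrix.mulVec_add, pol_add_left hQ]
      ring
    · simp only [Matrix.mulVec_smul, pol_smul_left hQ]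
      ring
    · simp only [Matrix.mulVec_add, pol_add_right hQ]
      ring
    · simp only [Matrix.mulVec_smul, pol_smul_right hQ]
      ring
  · rw [hpol]
    intro y hy
    have hPy : (P : Matrix ι ι F) *ᵥ y ≠ 0 := by
      intro h
      apply hy
      have := inv_mulVec_mulVec P y
      rw [h, Matrix.mulVec_zero] at this
      exact this.symm
    obtain ⟨x, hx⟩ := (hQ.nondegenerate _ hPy).1
    obtain ⟨x', hx'⟩ := (hQ.nondegenerate _ hPy).2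
    refine ⟨⟨((P⁻¹ : GL ι F) : Matrix ι ι F) *ᵥ x, ?_⟩, ⟨((P⁻¹ : GL ι F) : Matrix ι ι F) *ᵥ x', ?_⟩⟩
    · simp only [mulVec_inv_mulVec]
      exact mul_ne_zero hζ hx
    · simp only [mulVec_inv_mulVec]
      exact mul_ne_zero hζ hx'

theorem isometry_pull (P : GL ι F) {ζ : F} (hζ : ζ ≠ 0) :
    isometryGroup F (fun x : ι → F => ζ * Q ((P : Matrix ι ι F) *ᵥ x)) =
      (isometryGroup F Q).map (MulAut.conj P⁻¹).toMonoidHom := by
  ext g
  rw [mem_map_conj_iff, inv_inv, mem_isometryGroup_iff, mem_isometryGroup_iff]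
  constructor
  · intro h x
    have := h (((P⁻¹ : GL ι F) : Matrix ι ι F) *ᵥ x)
    simp only [mulVec_inv_mulVec] at this
    have h2 := mul_left_cancel₀ hζ this
    simp only [Units.val_mul, ← Matrix.mulVec_mulVec]
    exact h2
  · intro h x
    have := h ((P : Matrix ι ι F) *ᵥ x)
    simp only [Units.val_mul, ← Matrix.mulVec_mulVec, inv_mulVec_mulVec] at this
    beta_reduce
    rw [this]

/-- **The subfield group is maximal in `Ω`.** -/
theorem isMaximalIn [Fintype F] (hQ : IsNondegenerateQuadraticForm Q) (hn : 13 ≤ Fintype.card ι) {r : ℕ} (hr : r.Prime)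
    (hcard : Fintype.card F = Nat.card F₀ ^ r) (P : GL ι F) {ζ : F} (hζ : ζ ≠ 0)
    (hP : IsQuadFormRationalStructure (fun v : ι → F => ζ * Q v) F₀ P) :
    IsMaximalIn (omegaGL Q) (subfieldSubgroup F₀ P ⊓ omegaGL Q) := by
  have key := isMaximalIn_one (isNondeg_pull hQ P hζ) (F₀ := F₀) (fun u hu => hP u hu) hn hr hcard
  have h1 := Cfsg.Agent.Lib.Geo.Basic.IsMaximalIn.conj key P
  have h2 : (omegaGL (fun x : ι → F => ζ * Q ((P : Matrix ι ι F) *ᵥ x))).map (MulAut.conj P).toMonoidHom = omegaGL Q := by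
    rw [omegaGL_eq_commutator, omegaGL_eq_commutator, isometry_pull P hζ, Subgroup.map_commutator]
    have h3 : ((isometryGroup F Q).map (MulAut.conj P⁻¹).toMonoidHom).map (MulAut.conj P).toMonoidHom = isometryGroup F Q := by
      ext g
      rw [mem_map_conj_iff, mem_map_conj_iff, inv_inv]
      have e : P * (P⁻¹ * g * P) * P⁻¹ = g := by group
      rw [e]
    rw [h3]
  have h3 : (subfieldSubgroup F₀ 1).map (MulAut.conj P).toMonoidHom = subfieldSubgroup F₀ P := by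
    ext g
    rw [mem_map_conj_iff, mem_subfield_iff, mem_subfield_iff]
    simp
  rw [map_conj_inf, h2, h3] at h1
  exact h1

end Cfsg.Agent.Lib.Geo.OmSub2
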