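/-
Stabilisers of orthogonal decompositions in `Ω`: the components of a vector, elements acting on one member of the
decomposition, and the passage from one Eichler transformation with a centre in a member to the whole of `Ω`.
-/
import Cfsg.Agent.Lib.Geo.OmSub2
import Cfsg.Agent.Lib.GeoOmega.Levi
import Cfsg.Agent.Lib.Geo.SpDecomp
set_option autoImplicit false

namespace Cfsg.Agent.Lib.Geo.OmDec

open Cfsg Cfsg.Geo Cfsg.Agent.Lib.Geo.Basic Cfsg.Agent.Lib.Geo.Parabolic Cfsg.Agent.Lib.Geo.Centres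
open Cfsg.Agent.Lib.Geo.Polar Cfsg.Agent.Lib.Geo.QForm
open Cfsg.Agent.Lib.GeoOmega.Basic Cfsg.Agent.Lib.GeoOmega.Eichler
open Cfsg.Agent.Lib.GeoOmega.Levi (rf rf_mulVec rf_mem rf_mul_mem_omega rf_inv)
open Cfsg.Agent.Lib.Geo.OmSub (Par Par.add Par.zero Par.neg Par.sub Par.conj Par.swap pol_sum_left eich_zero)
open Cfsg.Agent.Lib.Geo.SpDecomp (exists_comps mem_decompositionStabilizer_of_forall)
open scoped MatrixGroups Matrix

variable {ι : Type} [Fintype ι] [DecidableEq ι] {F : Type*} [Field F]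
variable {Q : (ι → F) → F} {t : ℕ} {D : Fin t → Submodule F (ι → F)}

/-- Non-degenerate pairwise orthogonal subspaces spanning the whole space. -/
structure Blk (Q : (ι → F) → F) (D : Fin t → Submodule F (ι → F)) : Prop where
  nd : ∀ i, IsNondegenerateOn (QuadraticMap.polar Q) (D i)
  orth : ∀ i j, i ≠ j → ∀ u ∈ D i, ∀ v ∈ D j, pol Q u v = 0
  sup : iSup D = ⊤

/-- The component of a vector in a member of the decomposition. -/
noncomputable def cp (D : Fin t → Submodule F (ι → F)) (i : Fin t) (x : ι → F) : ι → F :=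
  @dite _ (∃ c : Fin t → ι → F, (∀ i, c i ∈ D i) ∧ ∑ i, c i = x) (Classical.propDecidable _)
    (fun h => Classical.choose h i) (fun _ => 0)

section Comps

variable (hQ : IsNondegenerateQuadraticForm Q) (B : Blk Q D)
include hQ B

omit hQ in
theorem cp_mem (i : Fin t) (x : ι → F) : cp D i x ∈ D i := by
  have h := exists_comps B.sup x
  rw [cp, dif_pos h]
  exact (Classical.choose_spec h).1 i

omit hQ in
theorem sum_cp (x : ι → F) : ∑ i, cp D i x = x := by
  have h := exists_comps B.sup x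
  simp only [cp, dif_pos h]
  exact (Classical.choose_spec h).2

theorem pol_sum_mem {c : Fin t → ι → F} (hc : ∀ i, c i ∈ D i) {i : Fin t} {y : ι → F} (hy : y ∈ D i) :
    pol Q (∑ l, c l) y = pol Q (c i) y := by
  rw [pol_sum_left hQ]
  refine Finset.sum_eq_single i (fun l _ hl => B.orth l i hl _ (hc l) _ hy) (by simp)

theorem eq_zero_of_mem {i : Fin t} {z : ι → F} (hz : z ∈ D i) (h : ∀ y ∈ D i, pol Q y z = 0) : z = 0 := by
  by_contra h0
  obtain ⟨x, hx, hne⟩ := (B.nd i z hz h0).1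
  exact hne (h x hx)

theorem pol_cp (i : Fin t) (x : ι → F) {y : ι → F} (hy : y ∈ D i) : pol Q x y = pol Q (cp D i x) y := by
  conv_lhs => rw [← sum_cp B x]
  exact pol_sum_mem hQ B (fun l => cp_mem B l x) hy

theorem cp_unique {c : Fin t → ι → F} (hc : ∀ i, c i ∈ D i) {x : ι → F} (hx : ∑ i, c i = x) (i : Fin t) :
    cp D i x = c i := by
  have h1 : cp D i x - c i = 0 := by
    apply eq_zero_of_mem hQ B ((D i).sub_mem (cp_mem B i x) (hc i))
    intro y hy
    rw [pol_sub_right hQ, pol_symm hQ y, pol_symm hQ y, ← pol_cp hQ B i x hy, ← hx,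
      pol_sum_mem hQ B hc hy, sub_self]
  exact sub_eq_zero.mp h1

theorem cp_self {i : Fin t} {x : ι → F} (hx : x ∈ D i) : cp D i x = x := by
  have := cp_unique hQ B (c := Pi.single i x) (x := x) (fun l => by
    by_cases hl : l = i
    · subst hl
      simpa using hx
    · simp [Pi.single_eq_of_ne hl]) (by simp) i
  simpa using this

theorem cp_other {i j : Fin t} (hij : i ≠ j) {x : ι → F} (hx : x ∈ D j) : cp D i x = 0 := by
  have := cp_unique hQ B (c := Pi.single j x) (x := x) (fun l => by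
    by_cases hl : l = j
    · subst hl
      simpa using hx
    · simp [Pi.single_eq_of_ne hl]) (by simp) i
  rw [this]
  simp [Pi.single_eq_of_ne hij]

theorem cp_add (i : Fin t) (x y : ι → F) : cp D i (x + y) = cp D i x + cp D i y := by
  have := cp_unique hQ B (c := fun l => cp D l x + cp D l y) (x := x + y)
    (fun l => (D l).add_mem (cp_mem B l x) (cp_mem B l y))
    (by rw [Finset.sum_add_distrib, sum_cp B, sum_cp B]) i
  exact this

theorem cp_smul (i : Fin t) (a : F) (x : ι → F) : cp D i (a • x) = a • cp D i x := by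
  have := cp_unique hQ B (c := fun l => a • cp D l x) (x := a • x)
    (fun l => (D l).smul_mem a (cp_mem B l x))
    (by rw [← Finset.smul_sum, sum_cp B]) i
  exact this

theorem cp_neg (i : Fin t) (x : ι → F) : cp D i (-x) = - cp D i x := by
  have := cp_smul hQ B i (-1 : F) x
  simpa using this

theorem cp_sub (i : Fin t) (x y : ι → F) : cp D i (x - y) = cp D i x - cp D i y := by
  rw [sub_eq_add_neg, cp_add hQ B, cp_neg hQ B, sub_eq_add_neg]

theorem cp_zero (i : Fin t) : cp D i (0 : ι → F) = 0 := by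
  have := cp_smul hQ B i (0 : F) (0 : ι → F)
  simpa using this

theorem cp_cp (i : Fin t) (x : ι → F) : cp D i (cp D i x) = cp D i x :=
  cp_self hQ B (cp_mem B i x)

theorem cp_rest (i : Fin t) (x : ι → F) : cp D i (x - cp D i x) = 0 := by
  rw [cp_sub hQ B, cp_cp hQ B, sub_self]

theorem ext_cp {x y : ι → F} (h : ∀ i, cp D i x = cp D i y) : x = y := by
  rw [← sum_cp B x, ← sum_cp B y]
  exact Finset.sum_congr rfl fun i _ => h i

theorem mem_of_cp {j : Fin t} {x : ι → F} (h : ∀ i, i ≠ j → cp D i x = 0) : x ∈ D j := by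
  rw [← sum_cp B x, Finset.sum_eq_single j (fun l _ hl => h l hl) (by simp)]
  exact cp_mem B j x

theorem exists_cp_ne {j : Fin t} {x : ι → F} (h : x ∉ D j) : ∃ i, i ≠ j ∧ cp D i x ≠ 0 := by
  by_contra hcon
  push Not at hcon
  exact h (mem_of_cp hQ B hcon)

theorem pol_eq_zero_of_cp {j : Fin t} {x y : ι → F} (hx : cp D j x = 0) (hy : y ∈ D j) : pol Q x y = 0 := by
  rw [pol_cp hQ B j x hy, hx, pol_zero_left hQ]

theorem pol_cp_rest (i : Fin t) (x : ι → F) {y : ι → F} (hy : y ∈ D i) : pol Q y (x - cp D i x) = 0 := by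
  rw [pol_symm hQ]
  exact pol_eq_zero_of_cp hQ B (cp_rest hQ B i x) hy

theorem Q_rest (i : Fin t) {x : ι → F} (hx : Q x = 0) : Q (x - cp D i x) = - Q (cp D i x) := by
  have h1 : Q (cp D i x + (x - cp D i x)) = Q (cp D i x) + Q (x - cp D i x) + pol Q (cp D i x) (x - cp D i x) :=
    Q_add hQ _ _
  rw [pol_cp_rest hQ B i x (cp_mem B i x), add_sub_cancel, hx] at h1
  linear_combination -h1

end Comps


section GenW

/-- The subspace of the vectors of `W` orthogonal to `c`. -/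
noncomputable def cut (Q : (ι → F) → F) (W : Submodule F (ι → F)) (c : ι → F) : Submodule F (ι → F) :=
  W ⊓ LinearMap.ker (dualOfVec (formVec (pol Q) c))

theorem mem_cut (hQ : IsNondegenerateQuadraticForm Q) {W : Submodule F (ι → F)} {c y : ι → F} :
    y ∈ cut Q W c ↔ y ∈ W ∧ pol Q y c = 0 := by
  constructor
  · rintro ⟨h1, h2⟩
    have : dualOfVec (formVec (pol Q) c) y = 0 := h2
    rw [dualOfVec_apply, formVec_eq hQ] at this
    exact ⟨h1, this⟩
  · rintro ⟨h1, h2⟩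
    refine ⟨h1, ?_⟩
    change dualOfVec (formVec (pol Q) c) y = 0
    rw [dualOfVec_apply, formVec_eq hQ]
    exact h2

omit [DecidableEq ι] in
theorem finrank_cut [DecidableEq ι] (W : Submodule F (ι → F)) (c : ι → F) :
    Module.finrank F W ≤ Module.finrank F (cut Q W c) + 1 :=
  finrank_inf_ker W _

variable (hQ : IsNondegenerateQuadraticForm Q) {W : Submodule F (ι → F)}
  (hW : IsNondegenerateOn (QuadraticMap.polar Q) W)
include hQ hW

theorem exists_hypW {p : ι → F} (hp : p ∈ W) (hp0 : p ≠ 0) (hpQ : Q p = 0) :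
    ∃ p' ∈ W, Q p' = 0 ∧ pol Q p p' = 1 := by
  obtain ⟨x, hx, hne⟩ := (hW p hp hp0).2
  change pol Q p x ≠ 0 at hne
  obtain ⟨y, hy⟩ : ∃ y, y = (pol Q p x)⁻¹ • x := ⟨_, rfl⟩
  have h1 : pol Q p y = 1 := by
    rw [hy, pol_smul_right hQ]
    exact inv_mul_cancel₀ hne
  have h2 : y ∈ W := by
    rw [hy]
    exact W.smul_mem _ hx
  obtain ⟨c, hc⟩ : ∃ c, c = Q y := ⟨_, rfl⟩
  refine ⟨y - c • p, W.sub_mem h2 (W.smul_mem _ hp), ?_, ?_⟩
  · rw [Q_sub hQ, hQ.smul, hpQ, pol_smul_right hQ, pol_symm hQ y p, h1, hc]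
    ring
  · rw [pol_sub_right hQ, h1, pol_smul_right hQ, pol_singular hQ hpQ]
    ring

omit hW in
theorem span_hypW {p p' y : ι → F} (hp : p ∈ W) (hp' : p' ∈ W) (hpQ : Q p = 0) (hp'Q : Q p' = 0)
    (hpp' : pol Q p p' = 1) (hy : y ∈ W) :
    ∃ q ∈ W, ∃ α β : F, Q q = 0 ∧ pol Q p q = 1 ∧ y = α • p + β • p' + q - p' := by
  obtain ⟨c, hc⟩ : ∃ c, c = y - pol Q y p' • p - pol Q y p • p' := ⟨_, rfl⟩
  have hcW : c ∈ W := by
    rw [hc]
    exact W.sub_mem (W.sub_mem hy (W.smul_mem _ hp)) (W.smul_mem _ hp')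
  have hcp : pol Q c p = 0 := by
    rw [hc, pol_sub_left hQ, pol_sub_left hQ, pol_smul_left hQ, pol_smul_left hQ, pol_singular hQ hpQ,
      pol_symm hQ p' p, hpp']
    ring
  have hcp' : pol Q c p' = 0 := by
    rw [hc, pol_sub_left hQ, pol_sub_left hQ, pol_smul_left hQ, pol_smul_left hQ, pol_singular hQ hp'Q, hpp']
    ring
  obtain ⟨e, he⟩ : ∃ e, e = Q c := ⟨_, rfl⟩
  refine ⟨p' + c - e • p, W.sub_mem (W.add_mem hp' hcW) (W.smul_mem _ hp), pol Q y p' + e, pol Q y p, ?_, ?_, ?_⟩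
  · rw [Q_sub hQ, Q_add hQ, hQ.smul, hpQ, hp'Q, pol_smul_right hQ, pol_add_left hQ, pol_symm hQ p' p, hpp',
      pol_symm hQ p' c, hcp', hcp, he]
    ring
  · rw [pol_sub_right hQ, pol_add_right hQ, hpp', pol_symm hQ p c, hcp, pol_smul_right hQ, pol_singular hQ hpQ]
    ring
  · rw [hc] at *
    module

theorem exists_sing_not_orthW [Fintype F] (hd : 3 ≤ Module.finrank F W) {y : ι → F} (hy : y ∈ W) (hy0 : y ≠ 0) :
    ∃ q ∈ W, Q q = 0 ∧ pol Q y q ≠ 0 := by
  obtain ⟨p, hp, hp0, hpQ⟩ := exists_singular hQ W hd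
  obtain ⟨p', hp', hp'Q, hpp'⟩ := exists_hypW hQ hW hp hp0 hpQ
  by_cases h1 : pol Q y p = 0
  · by_cases h2 : pol Q y p' = 0
    · obtain ⟨x, hx, hne⟩ := (hW y hy hy0).2
      change pol Q y x ≠ 0 at hne
      obtain ⟨q, hq, α, β, hqQ, -, e⟩ := span_hypW hQ hp hp' hpQ hp'Q hpp' hx
      refine ⟨q, hq, hqQ, fun h3 => hne ?_⟩
      rw [e, pol_sub_right hQ, pol_add_right hQ, pol_add_right hQ, pol_smul_right hQ, pol_smul_right hQ, h1, h2, h3]
      ring
    · exact ⟨p', hp', hp'Q, h2⟩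
  · exact ⟨p, hp, hpQ, h1⟩

theorem exists_nonsingW (h2 : (2 : F) ≠ 0) {v : ι → F} (hv : v ∈ W) (hv0 : v ≠ 0) : ∃ b ∈ W, Q b ≠ 0 := by
  by_cases h1 : Q v = 0
  · obtain ⟨x, hx, hne⟩ := (hW v hv hv0).1
    change pol Q x v ≠ 0 at hne
    by_cases h3 : Q x = 0
    · refine ⟨x + v, W.add_mem hx hv, ?_⟩
      rw [Q_add hQ, h1, h3, zero_add, zero_add]
      exact hne
    · exact ⟨x, hx, h3⟩
  · exact ⟨v, hv, h1⟩

theorem exists_perp2W [Fintype F] (hd : 3 ≤ Module.finrank F W) (c₁ c₂ : ι → F) :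
    ∃ v ∈ W, v ≠ 0 ∧ pol Q v c₁ = 0 ∧ pol Q v c₂ = 0 := by
  have h1 := finrank_cut (Q := Q) W c₁
  have h2 := finrank_cut (Q := Q) (cut Q W c₁) c₂
  obtain ⟨v, hv, hv0⟩ := Submodule.exists_mem_ne_zero_of_ne_bot
    (p := cut Q (cut Q W c₁) c₂) (by
      intro h0
      rw [h0] at h2
      simp at h2
      omega)
  obtain ⟨hv1, hv2⟩ := (mem_cut hQ).mp hv
  obtain ⟨hv3, hv4⟩ := (mem_cut hQ).mp hv1
  exact ⟨v, hv3, hv0, hv4, hv2⟩

/-- A non-singular vector orthogonal to a singular vector. -/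
theorem exists_bW [Fintype F] (h2 : (2 : F) ≠ 0) (hd : 3 ≤ Module.finrank F W) {p : ι → F} (hp : p ∈ W) (hp0 : p ≠ 0)
    (hpQ : Q p = 0) : ∃ b ∈ W, pol Q p b = 0 ∧ Q b ≠ 0 := by
  obtain ⟨p', hp', hp'Q, hpp'⟩ := exists_hypW hQ hW hp hp0 hpQ
  obtain ⟨v, hv, hv0, hv1, hv2⟩ := exists_perp2W hQ hW hd p p'
  have hp'p : pol Q p' p = 1 := by rw [pol_symm hQ, hpp']
  obtain ⟨x, hx, hne⟩ := (hW v hv hv0).1
  change pol Q x v ≠ 0 at hne
  obtain ⟨c, hc⟩ : ∃ c, c = x - pol Q x p' • p - pol Q x p • p' := ⟨_, rfl⟩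
  have hcW : c ∈ W := by
    rw [hc]
    exact W.sub_mem (W.sub_mem hx (W.smul_mem _ hp)) (W.smul_mem _ hp')
  have hcp : pol Q p c = 0 := by
    rw [hc, pol_sub_right hQ, pol_sub_right hQ, pol_smul_right hQ, pol_smul_right hQ, pol_singular hQ hpQ,
      hpp', pol_symm hQ p x]
    ring
  have hcv : pol Q c v = pol Q x v := by
    rw [hc, pol_sub_left hQ, pol_sub_left hQ, pol_smul_left hQ, pol_smul_left hQ, pol_symm hQ p v, hv1,
      pol_symm hQ p' v, hv2]
    ring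
  have hvp : pol Q p v = 0 := by rw [pol_symm hQ, hv1]
  by_cases h3 : Q v = 0
  · by_cases h4 : Q c = 0
    · refine ⟨c + v, W.add_mem hcW hv, ?_, ?_⟩
      · rw [pol_add_right hQ, hcp, hvp, add_zero]
      · rw [Q_add hQ, h3, h4, zero_add, zero_add, hcv]
        exact hne
    · exact ⟨c, hcW, hcp, h4⟩
  · exact ⟨v, hv, hvp, h3⟩

end GenW

/-! ### Parameters -/

section Params

variable {M : Subgroup (GL ι F)}

theorem eich_fix {g : GL ι F} {p b a : ι → F} (hg : Eich Q g p b) (hab : pol Q a b = 0) (hap : pol Q a p = 0) :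
    (g : Matrix ι ι F) *ᵥ a = a := by
  rw [hg a, hab, hap]
  simp

variable (hQ : IsNondegenerateQuadraticForm Q)
include hQ

theorem par_zero_centre (y : ι → F) : Par Q M 0 y := by
  refine ⟨pol_zero_left hQ y, fun g hg => ?_⟩
  have : g = 1 := by
    apply gl_ext_mulVec
    intro x
    rw [hg x, pol_zero_right hQ]
    simp
  rw [this]
  exact M.one_mem

theorem par_trick (hM : M ≤ isometryGroup F Q) {a p b b' y : ι → F} (ha : Q a = 0) (hp : Q p = 0)
    (hap : pol Q a p = 0) (hab : pol Q a b = 0) (hab' : pol Q a b' = 0) (h1 : Par Q M p b) (h2 : Par Q M p b')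
    (h3 : Par Q M p (b + b')) (hy : Par Q M a y) : Par Q M a ((pol Q b b' * pol Q y p) • p) := by
  obtain ⟨g₁, hg₁⟩ := exists_eich hQ hp h1.1
  obtain ⟨g₂, hg₂⟩ := exists_eich hQ hp h2.1
  obtain ⟨g₃, hg₃⟩ := exists_eich hQ hp h3.1
  have e₁ := eich_fix hg₁ hab hap
  have e₂ := eich_fix hg₂ hab' hap
  have e₃ := eich_fix hg₃ (by rw [pol_add_right hQ, hab, hab', add_zero]) hap
  have P₁ := Par.conj hy (h1.2 _ hg₁) (hM (h1.2 _ hg₁))
  have P₂ := Par.conj hy (h2.2 _ hg₂) (hM (h2.2 _ hg₂))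
  have P₃ := Par.conj hy (h3.2 _ hg₃) (hM (h3.2 _ hg₃))
  rw [e₁] at P₁
  rw [e₂] at P₂
  rw [e₃] at P₃
  have key : (pol Q b b' * pol Q y p) • p = (g₁ : Matrix ι ι F) *ᵥ y + (g₂ : Matrix ι ι F) *ᵥ y -
      (g₃ : Matrix ι ι F) *ᵥ y - y := by
    rw [hg₁ y, hg₂ y, hg₃ y, pol_add_right hQ, Q_add hQ]
    module
  rw [key]
  exact Par.sub hQ ha (Par.sub hQ ha (Par.add hQ ha P₁ P₂) P₃) hy

theorem par_add_self {a v : ι → F} (ha : Q a = 0) (h : Par Q M a v) (c : F) : Par Q M a (v + c • a) := by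
  refine ⟨by rw [pol_add_right hQ, pol_smul_right hQ, pol_singular hQ ha, h.1]; ring, fun g hg => h.2 g ?_⟩
  intro x
  have hva : pol Q v a = 0 := by rw [pol_symm hQ, h.1]
  rw [hg x, pol_add_right hQ, pol_smul_right hQ, Q_add hQ, hQ.smul, ha, pol_smul_right hQ, hva]
  module

theorem par_centre_sub {u z c : ι → F} (hz : Q z = 0) (hw : Par Q M u c) (hcz : c = c) {s : F}
    (hc : c = s • z) (huz : pol Q u z = 0) : Par Q M (u - z) c := by
  subst hc
  refine ⟨by rw [pol_sub_left hQ, pol_smul_right hQ, pol_smul_right hQ, huz, pol_singular hQ hz]; ring,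
    fun g hg => hw.2 g ?_⟩
  intro x
  rw [hg x, pol_smul_right hQ, pol_sub_right hQ, hQ.smul, hz]
  module

theorem eich_centre_add {x a y : ι → F} {g₁ g₂ : GL ι F} (hg₁ : Eich Q g₁ x y) (hg₂ : Eich Q g₂ a (y - Q y • x))
    (hx : Q x = 0) (hxy : pol Q x y = 0) (hay : pol Q a y = 0) (hax : pol Q a x = 0) :
    Eich Q (g₁ * g₂) (x + a) y := by
  intro z
  obtain ⟨h, hh⟩ : ∃ h, h = Q y := ⟨_, rfl⟩
  have hQv : Q (y - h • x) = h := by
    rw [Q_sub hQ, hQ.smul, hx, pol_smul_right hQ, pol_symm hQ y x, hxy, hh]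
    ring
  have hpy : pol Q y y = 2 * h := by rw [pol_self hQ, hh]
  have hyx : pol Q y x = 0 := by rw [pol_symm hQ, hxy]
  rw [← hh] at hg₂
  rw [Units.val_mul, ← Matrix.mulVec_mulVec, hg₂ z, hg₁ _, ← hh]
  simp only [pol_sub_left hQ, pol_add_left hQ, pol_smul_left hQ, pol_sub_right hQ, pol_smul_right hQ,
    pol_add_right hQ, hQv, hay, hax, hpy, hyx, pol_singular hQ hx, hxy]
  module

end Params

/-- An Eichler transformation with centre in a member and parameter outside of it. -/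
def Good (Q : (ι → F) → F) (D : Fin t → Submodule F (ι → F)) (M : Subgroup (GL ι F)) : Prop :=
  ∃ j p v, p ∈ D j ∧ Q p = 0 ∧ p ≠ 0 ∧ Par Q M p v ∧ v ∉ D j

/-- The hypotheses: `M` lies between the stabiliser of the decomposition in `Ω` and `Ω`. -/
structure Ctx (Q : (ι → F) → F) (D : Fin t → Submodule F (ι → F)) (M : Subgroup (GL ι F)) (k : ℕ) : Prop where
  hQ : IsNondegenerateQuadraticForm Q
  blk : Blk Q D
  fin : ∀ i, Module.finrank F (D i) = k
  iso : ∀ i j, AreIsometricFor Q (D i) (D j)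
  card7 : 7 ≤ Fintype.card ι
  hH : decompositionStabilizer D ⊓ omegaGL Q ≤ M
  hM : M ≤ omegaGL Q
  two : (2 : F) ≠ 0
  k3 : 3 ≤ k

/-- An element of `M` acting on one member only. -/
structure BE (Q : (ι → F) → F) (D : Fin t → Submodule F (ι → F)) (M : Subgroup (GL ι F)) (j : Fin t)
    (X : GL ι F) : Prop where
  mem : X ∈ M
  iso : X ∈ isometryGroup F Q
  fix : ∀ v, cp D j v = 0 → (X : Matrix ι ι F) *ᵥ v = v
  pres : ∀ v ∈ D j, (X : Matrix ι ι F) *ᵥ v ∈ D j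

/-- An element of `M` acting on one member and pushing a vector along a singular direction. -/
def GS (Q : (ι → F) → F) (D : Fin t → Submodule F (ι → F)) (M : Subgroup (GL ι F)) (j : Fin t) (z : ι → F) : Prop :=
  ∃ (X : GL ι F) (c : F) (p : ι → F), BE Q D M j X ∧ (X : Matrix ι ι F) *ᵥ z = z + c • p ∧ c ≠ 0 ∧ Q p = 0 ∧
    p ∈ D j ∧ p ≠ 0 ∧ pol Q z p = 0

section Ctx

variable [Fintype F] {M : Subgroup (GL ι F)} {k : ℕ} (S : Ctx Q D M k)
include S

theorem Ctx.miso : M ≤ isometryGroup F Q := S.hM.trans (omegaGL_le_isometryGroup Q)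

theorem Ctx.mem_H {j : Fin t} {g : GL ι F} (hg : g ∈ omegaGL Q)
    (h1 : ∀ v, cp D j v = 0 → (g : Matrix ι ι F) *ᵥ v = v) (h2 : ∀ v ∈ D j, (g : Matrix ι ι F) *ᵥ v ∈ D j) :
    g ∈ M := by
  refine S.hH ⟨?_, hg⟩
  refine mem_decompositionStabilizer_of_forall (k := k) S.fin 1 g fun i x hx => ?_
  by_cases hij : i = j
  · subst hij
    exact h2 x hx
  · rw [h1 x (cp_other S.hQ S.blk (Ne.symm hij) hx)]
    exact hx

/-- Eichler transformations with centre and parameter in one member. -/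
theorem Ctx.be_eich {j : Fin t} {p b : ι → F} {g : GL ι F} (hp : p ∈ D j) (hb : b ∈ D j) (hpQ : Q p = 0)
    (hpb : pol Q p b = 0) (hg : Eich Q g p b) : BE Q D M j g := by
  have hQ := S.hQ
  have hgO := hg.mem_omega hQ S.card7 hpQ hpb
  have h1 : ∀ v, cp D j v = 0 → (g : Matrix ι ι F) *ᵥ v = v := fun v hv => by
    rw [hg v, pol_eq_zero_of_cp hQ S.blk hv hb, pol_eq_zero_of_cp hQ S.blk hv hp]
    simp
  have h2 : ∀ v ∈ D j, (g : Matrix ι ι F) *ᵥ v ∈ D j := fun v hv => by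
    rw [hg v]
    exact (D j).sub_mem ((D j).sub_mem ((D j).add_mem hv ((D j).smul_mem _ hp)) ((D j).smul_mem _ hb))
      ((D j).smul_mem _ hp)
  exact ⟨S.mem_H hgO h1 h2, omegaGL_le_isometryGroup Q hgO, h1, h2⟩

theorem Ctx.par_block {j : Fin t} {p b : ι → F} (hp : p ∈ D j) (hb : b ∈ D j) (hpQ : Q p = 0)
    (hpb : pol Q p b = 0) : Par Q M p b :=
  ⟨hpb, fun _ hg => (S.be_eich hp hb hpQ hpb hg).mem⟩

/-- Products of two reflections in vectors of the same norm in one member. -/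
theorem Ctx.be_rf {j : Fin t} {a b : ι → F} (ha : a ∈ D j) (hb : b ∈ D j) (hab : Q a = Q b)
    (ha0 : Q a ≠ 0) : BE Q D M j (rf S.hQ b * rf S.hQ a) := by
  have hQ := S.hQ
  have hgO : rf hQ b * rf hQ a ∈ omegaGL Q := rf_mul_mem_omega hQ S.card7 rfl hab.symm ha0
  have hf : ∀ x, ((rf hQ b * rf hQ a : GL ι F) : Matrix ι ι F) *ᵥ x =
      x - ((Q a)⁻¹ * pol Q x a) • a - ((Q b)⁻¹ * pol Q (x - ((Q a)⁻¹ * pol Q x a) • a) b) • b := fun x => by
    rw [Units.val_mul, ← Matrix.mulVec_mulVec, rf_mulVec, rf_mulVec]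
  have h1 : ∀ v, cp D j v = 0 → ((rf hQ b * rf hQ a : GL ι F) : Matrix ι ι F) *ᵥ v = v := fun v hv => by
    rw [hf, pol_eq_zero_of_cp hQ S.blk hv ha]
    simp only [mul_zero, zero_smul, sub_zero]
    rw [pol_eq_zero_of_cp hQ S.blk hv hb]
    simp
  have h2 : ∀ v ∈ D j, ((rf hQ b * rf hQ a : GL ι F) : Matrix ι ι F) *ᵥ v ∈ D j := fun v hv => by
    rw [hf]
    exact (D j).sub_mem ((D j).sub_mem hv ((D j).smul_mem _ ha)) ((D j).smul_mem _ hb)
  exact ⟨S.mem_H hgO h1 h2, omegaGL_le_isometryGroup Q hgO, h1, h2⟩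

/-- An element acting on one member only, applied to a vector. -/
theorem Ctx.be_apply {j : Fin t} {X : GL ι F} (hX : BE Q D M j X) (x : ι → F) :
    (X : Matrix ι ι F) *ᵥ x = x + ((X : Matrix ι ι F) *ᵥ (cp D j x) - cp D j x) := by
  have h1 : x = cp D j x + (x - cp D j x) := by abel
  conv_lhs => rw [h1, Matrix.mulVec_add, hX.fix _ (cp_rest S.hQ S.blk j x)]
  abel


theorem Ctx.exists_hyp {j : Fin t} {p : ι → F} (hp : p ∈ D j) (hp0 : p ≠ 0) (hpQ : Q p = 0) :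
    ∃ p' ∈ D j, Q p' = 0 ∧ pol Q p p' = 1 :=
  exists_hypW S.hQ (S.blk.nd j) hp hp0 hpQ

theorem Ctx.exists_sing {j : Fin t} : ∃ p ∈ D j, p ≠ 0 ∧ Q p = 0 :=
  exists_singular S.hQ (D j) (by rw [S.fin]; exact S.k3)

theorem Ctx.exists_sing_not_orth {j : Fin t} {y : ι → F} (hy : y ∈ D j) (hy0 : y ≠ 0) :
    ∃ q ∈ D j, Q q = 0 ∧ pol Q y q ≠ 0 :=
  exists_sing_not_orthW S.hQ (S.blk.nd j) (by rw [S.fin]; exact S.k3) hy hy0

theorem Ctx.exists_bb {j : Fin t} {p : ι → F} (hp : p ∈ D j) (hp0 : p ≠ 0) (hpQ : Q p = 0) :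
    ∃ b ∈ D j, ∃ b' ∈ D j, pol Q p b = 0 ∧ pol Q p b' = 0 ∧ pol Q b b' ≠ 0 := by
  obtain ⟨b, hb, hpb, hQb⟩ := exists_bW S.hQ (S.blk.nd j) S.two (by rw [S.fin]; exact S.k3) hp hp0 hpQ
  refine ⟨b, hb, b, hb, hpb, hpb, ?_⟩
  rw [pol_self S.hQ]
  exact mul_ne_zero S.two hQb

/-- The trick inside one member. -/
theorem Ctx.trick {i : Fin t} {a p y : ι → F} (ha : Q a = 0) (hp : p ∈ D i) (hp0 : p ≠ 0) (hpQ : Q p = 0)
    (hy : Par Q M a y) (hai : ∀ x ∈ D i, pol Q p x = 0 → pol Q a x = 0) (hap : pol Q a p = 0) (hyp : pol Q y p ≠ 0)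
    (s : F) : Par Q M a (s • p) := by
  have hQ := S.hQ
  obtain ⟨b, hb, b', hb', h1, h2, h3⟩ := S.exists_bb hp hp0 hpQ
  have hτ : pol Q p ((s * (pol Q b b' * pol Q y p)⁻¹) • b) = 0 := by
    rw [pol_smul_right hQ, h1, mul_zero]
  have hb₂ : (s * (pol Q b b' * pol Q y p)⁻¹) • b ∈ D i := (D i).smul_mem _ hb
  have hsum : pol Q p ((s * (pol Q b b' * pol Q y p)⁻¹) • b + b') = 0 := by
    rw [pol_add_right hQ, hτ, h2, add_zero]
  have := par_trick hQ S.miso ha hpQ hap (hai _ hb₂ hτ) (hai _ hb' h2)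
    (S.par_block hp hb₂ hpQ hτ) (S.par_block hp hb' hpQ h2)
    (S.par_block hp ((D i).add_mem hb₂ hb') hpQ hsum) hy
  have e : (pol Q ((s * (pol Q b b' * pol Q y p)⁻¹) • b) b' * pol Q y p) = s := by
    rw [pol_smul_left hQ]
    field_simp
  rwa [e] at this

theorem Ctx.goodA {u w : ι → F} (hu : Q u = 0) (hu0 : u ≠ 0) (hw : Par Q M u w) {i : Fin t}
    (hui : cp D i u = 0) (hwi : cp D i w ≠ 0) : Good Q D M := by
  have hQ := S.hQ
  have B := S.blk
  obtain ⟨p, hp, hpQ, hne⟩ := S.exists_sing_not_orth (cp_mem B i w) hwi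
  have hp0 : p ≠ 0 := by
    rintro rfl
    exact hne (pol_zero_right hQ _)
  rw [← pol_cp hQ B i w hp] at hne
  have h1 := S.trick hu hp hp0 hpQ hw (fun x hx _ => pol_eq_zero_of_cp hQ B hui hx)
    (pol_eq_zero_of_cp hQ B hui hp) hne 1
  have h2 := Par.swap hQ hu hpQ h1
  refine ⟨i, p, _, hp, hpQ, hp0, h2, fun hm => ?_⟩
  have h3 := cp_self hQ B hm
  rw [cp_smul hQ B, hui, smul_zero] at h3
  apply hu0
  have h4 : (-(1 : F)) • u = 0 := h3.symm
  simpa using h4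

/-- The parameter may be moved inside a member when the centre has a singular component there. -/
theorem Ctx.goodB {u w : ι → F} (hu : Q u = 0) (hw : Par Q M u w) {j : Fin t} (hz : Q (cp D j u) = 0)
    (hz0 : cp D j u ≠ 0) (hnot : u ∉ D j) (hwj : cp D j w ∉ Submodule.span F {cp D j u}) : Good Q D M := by
  have hQ := S.hQ
  have B := S.blk
  obtain ⟨z, hzd⟩ : ∃ z, z = cp D j u := ⟨_, rfl⟩
  rw [← hzd] at hz hz0 hwj
  have hzm : z ∈ D j := by
    rw [hzd]
    exact cp_mem B j u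
  have huz : ∀ x ∈ D j, pol Q u x = pol Q z x := fun x hx => by
    rw [hzd]
    exact pol_cp hQ B j u hx
  have hzz : pol Q z z = 0 := pol_singular hQ hz
  -- a non-zero multiple of `z` is a parameter of `u`
  have key : ∃ s : F, s ≠ 0 ∧ Par Q M u (s • z) := by
    by_cases hf : pol Q w z = 0
    · -- orthogonal case
      obtain ⟨z', hz', hz'Q, hzz'⟩ := S.exists_hyp hzm hz0 hz
      obtain ⟨w₀, hw₀⟩ : ∃ w₀, w₀ = cp D j w - pol Q w z' • z := ⟨_, rfl⟩
      have hw₀m : w₀ ∈ D j := by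
        rw [hw₀]
        exact (D j).sub_mem (cp_mem B j w) ((D j).smul_mem _ hzm)
      have hw₀0 : w₀ ≠ 0 := by
        intro h
        apply hwj
        rw [hw₀, sub_eq_zero] at h
        rw [h]
        exact Submodule.smul_mem _ _ (Submodule.mem_span_singleton_self z)
      obtain ⟨x, hx, hne⟩ := (B.nd j w₀ hw₀m hw₀0).1
      change pol Q x w₀ ≠ 0 at hne
      obtain ⟨c, hc⟩ : ∃ c, c = x - pol Q x z' • z - pol Q x z • z' := ⟨_, rfl⟩
      have hcm : c ∈ D j := by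
        rw [hc]
        exact (D j).sub_mem ((D j).sub_mem hx ((D j).smul_mem _ hzm)) ((D j).smul_mem _ hz')
      have hzc : pol Q z c = 0 := by
        rw [hc, pol_sub_right hQ, pol_sub_right hQ, pol_smul_right hQ, pol_smul_right hQ, hzz, hzz',
          pol_symm hQ z x]
        ring
      have hw₀z : pol Q w₀ z = 0 := by
        rw [hw₀, pol_sub_left hQ, pol_smul_left hQ, hzz, ← pol_cp hQ B j w hzm, hf]
        ring
      have hw₀z' : pol Q w₀ z' = 0 := by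
        rw [hw₀, pol_sub_left hQ, pol_smul_left hQ, hzz', ← pol_cp hQ B j w hz']
        ring
      have hcw : pol Q w c ≠ 0 := by
        have h1 : pol Q w c = pol Q w₀ c := by
          rw [pol_cp hQ B j w hcm, hw₀, pol_sub_left hQ, pol_smul_left hQ, hzc]
          ring
        rw [h1, pol_symm hQ, hc, pol_sub_left hQ, pol_sub_left hQ, pol_smul_left hQ, pol_smul_left hQ,
          pol_symm hQ z, hw₀z, pol_symm hQ z', hw₀z']
        simpa using hne
      obtain ⟨g, hg⟩ := exists_eich hQ hz hzc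
      have hgB := S.be_eich hzm hcm hz hzc hg
      have e₁ : (g : Matrix ι ι F) *ᵥ u = u := eich_fix hg (by rw [huz c hcm, hzc]) (by rw [huz z hzm, hzz])
      have P₁ := Par.conj hw hgB.mem hgB.iso
      rw [e₁] at P₁
      have e₂ : (g : Matrix ι ι F) *ᵥ w - w = pol Q w c • z := by
        rw [hg w, hf]
        simp
      refine ⟨pol Q w c, hcw, ?_⟩
      rw [← e₂]
      exact Par.sub hQ hu P₁ hw
    · refine ⟨1, one_ne_zero, S.trick hu hzm hz0 hz hw (fun x hx hx0 => ?_) ?_ hf 1⟩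
      · rw [huz x hx, hx0]
      · rw [huz z hzm, hzz]
  obtain ⟨s, hs, hP⟩ := key
  have hP₂ : Par Q M (u - z) (s • z) := par_centre_sub hQ hz hP rfl rfl (by rw [huz z hzm, hzz])
  have hrQ : Q (u - z) = 0 := by
    rw [Q_sub hQ, hu, hz, huz z hzm, hzz]
    ring
  have h3 := Par.swap hQ hrQ hz hP₂
  refine ⟨j, z, _, hzm, hz, hz0, h3, fun hm => hnot ?_⟩
  have h4 : u - z ∈ D j := by
    have := (D j).smul_mem (-s)⁻¹ hm
    rwa [smul_smul, inv_mul_cancel₀ (neg_ne_zero.mpr hs), one_smul] at this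
  have := (D j).add_mem h4 hzm
  simpa using this

/-- An Eichler transformation whose parameter has no component in a member. -/
theorem Ctx.not_mem_sub {u y : ι → F} {j : Fin t} (hu : Q u = 0) (hy0 : y ≠ 0) (hy : cp D j y = 0)
    (huy : pol Q u y = 0) : y - Q y • u ∉ D j := by
  have hQ := S.hQ
  have B := S.blk
  intro hm
  obtain ⟨h, hh⟩ : ∃ h, h = Q y := ⟨_, rfl⟩
  rw [← hh] at hm
  obtain ⟨r, hr⟩ : ∃ r, r = u - cp D j u := ⟨_, rfl⟩
  have hrj : cp D j r = 0 := by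
    rw [hr]
    exact cp_rest hQ B j u
  have e : y = h • r := by
    apply ext_cp hQ B
    intro i
    by_cases hij : i = j
    · subst hij
      rw [cp_smul hQ B, hrj, hy, smul_zero]
    · have h1 := cp_other hQ B hij hm
      rw [cp_sub hQ B, cp_smul hQ B, sub_eq_zero] at h1
      rw [h1, cp_smul hQ B, hr, cp_sub hQ B, cp_other hQ B hij (cp_mem B j u), sub_zero]
  have h2 : pol Q u r = 2 * Q r := by
    have h3 : u = cp D j u + r := by
      rw [hr]
      abel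
    conv_lhs => rw [h3]
    rw [pol_add_left hQ, pol_symm hQ, pol_eq_zero_of_cp hQ B hrj (cp_mem B j u), zero_add, pol_self hQ]
  rw [e, pol_smul_right hQ, h2] at huy
  have hQy : h = h ^ 2 * Q r := by
    conv_lhs => rw [hh, e]
    rw [hQ.smul]
  have h0 : h = 0 := by
    by_contra hne
    have h5 : Q r = 0 := by
      have := mul_eq_zero.mp huy
      rcases this with h6 | h6
      · exact absurd h6 hne
      · exact (mul_eq_zero.mp h6).resolve_left S.two
    rw [h5, mul_zero] at hQy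
    exact hne hQy
  apply hy0
  rw [e, h0, zero_smul]

/-- From a suitable element acting on a member to an Eichler transformation with centre in that member. -/
theorem Ctx.core1 {u y : ι → F} {j : Fin t} (hu : Q u = 0) (hy : Par Q M u y) (hy0 : y ≠ 0)
    (hyj : cp D j y = 0) (hGS : GS Q D M j (cp D j u)) : Good Q D M := by
  have hQ := S.hQ
  have B := S.blk
  obtain ⟨X, c, p, hX, hXz, hc, hpQ, hp, hp0, hzp⟩ := hGS
  have hXu : (X : Matrix ι ι F) *ᵥ u = u + c • p := by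
    rw [S.be_apply hX u, hXz]
    abel
  have hXy : (X : Matrix ι ι F) *ᵥ y = y := hX.fix y hyj
  have P₁ := Par.conj hy hX.mem hX.iso
  rw [hXu, hXy] at P₁
  have hup : pol Q u p = 0 := by rw [pol_cp hQ B j u hp, hzp]
  have hyp : pol Q y p = 0 := pol_eq_zero_of_cp hQ B hyj hp
  have hay : pol Q (c • p) y = 0 := by rw [pol_smul_left hQ, pol_symm hQ, hyp, mul_zero]
  have hax : pol Q (c • p) u = 0 := by rw [pol_smul_left hQ, pol_symm hQ, hup, mul_zero]
  have hcpQ : Q (c • p) = 0 := by rw [hQ.smul, hpQ, mul_zero]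
  have hP : Par Q M (c • p) (y - Q y • u) := by
    refine ⟨by rw [pol_sub_right hQ, hay, pol_smul_right hQ, hax]; ring, fun g hg => ?_⟩
    obtain ⟨g₁, hg₁⟩ := exists_eich hQ hu hy.1
    have h3 := eich_centre_add hQ hg₁ hg hu hy.1 hay hax
    have h4 := P₁.2 _ h3
    have h5 := hy.2 _ hg₁
    have h6 : g = g₁⁻¹ * (g₁ * g) := by group
    rw [h6]
    exact M.mul_mem (M.inv_mem h5) h4
  exact ⟨j, c • p, _, (D j).smul_mem _ hp, hcpQ, smul_ne_zero hc hp0, hP, S.not_mem_sub hu hy0 hyj hy.1⟩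

/-- Parameters: one non-zero component in another member gives the whole of that member. -/
theorem Ctx.mod {j i : Fin t} {p v : ι → F} (hpQ : Q p = 0) (hp : p ∈ D j) (hv : Par Q M p v) (hij : i ≠ j)
    (hvi : cp D i v ≠ 0) {y : ι → F} (hy : y ∈ D i) : Par Q M p y := by
  have hQ := S.hQ
  have B := S.blk
  have hperp : ∀ x ∈ D i, pol Q p x = 0 := fun x hx => B.orth j i (Ne.symm hij) p hp x hx
  obtain ⟨p₁, hp₁, hp₁Q, hne⟩ := S.exists_sing_not_orth (cp_mem B i v) hvi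
  have hp₁0 : p₁ ≠ 0 := by
    rintro rfl
    exact hne (pol_zero_right hQ _)
  rw [← pol_cp hQ B i v hp₁] at hne
  have h1 : ∀ s : F, Par Q M p (s • p₁) := fun s =>
    S.trick hpQ hp₁ hp₁0 hp₁Q hv (fun x hx _ => hperp x hx) (hperp p₁ hp₁) hne s
  obtain ⟨p₂, hp₂, hp₂Q, h12⟩ := S.exists_hyp hp₁ hp₁0 hp₁Q
  have h1' : Par Q M p p₁ := by simpa using h1 1
  -- a vector not orthogonal to `p₁`
  have step : ∀ q ∈ D i, Q q = 0 → pol Q p₁ q = 1 → ∀ s : F, Par Q M p (s • q) := by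
    intro q hq hqQ hq1 s
    have hq0 : q ≠ 0 := by
      rintro rfl
      rw [pol_zero_right hQ] at hq1
      exact zero_ne_one hq1
    exact S.trick hpQ hq hq0 hqQ h1' (fun x hx _ => hperp x hx) (hperp q hq) (by rw [hq1]; exact one_ne_zero) s
  obtain ⟨q, hq, α, β, hqQ, hq1, e⟩ := span_hypW hQ hp₁ hp₂ hp₁Q hp₂Q h12 hy
  rw [e]
  have hq' : Par Q M p q := by simpa using step q hq hqQ hq1 1
  have hp₂' : Par Q M p p₂ := by simpa using step p₂ hp₂ hp₂Q h12 1
  exact Par.sub hQ hpQ (Par.add hQ hpQ (Par.add hQ hpQ (h1 α) (step p₂ hp₂ hp₂Q h12 β)) hq') hp₂'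

/-- All members are related. -/
def Rel (Q : (ι → F) → F) (D : Fin t → Submodule F (ι → F)) (M : Subgroup (GL ι F)) (a b : Fin t) : Prop :=
  ∀ y ∈ D a, ∀ z ∈ D b, Q y = 0 → Q z = 0 → Par Q M y z

theorem Ctx.rel_symm {a b : Fin t} (h : Rel Q D M a b) : Rel Q D M b a := by
  intro z hz y hy hzQ hyQ
  have hQ := S.hQ
  have h1 := h y hy ((-1 : F) • z) ((D b).smul_mem _ hz) hyQ (by rw [hQ.smul, hzQ, mul_zero])
  have h2 := Par.swap hQ hyQ hzQ h1
  simpa using h2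

theorem Ctx.rel_of {j i : Fin t} {p : ι → F} (hp : p ∈ D j) (hp0 : p ≠ 0) (hpQ : Q p = 0) (hij : i ≠ j)
    (h : ∀ y ∈ D i, Par Q M p y) : Rel Q D M i j := by
  have hQ := S.hQ
  have B := S.blk
  intro z hz y hy hzQ _
  by_cases hz0 : z = 0
  · subst hz0
    exact par_zero_centre hQ y
  · have h1 : Par Q M p ((1 : F) • z) := by simpa using h z hz
    have h2 := Par.swap hQ hpQ hzQ h1
    refine S.mod hzQ hz h2 (Ne.symm hij) ?_ hy
    rw [cp_smul hQ B, cp_self hQ B hp]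
    exact smul_ne_zero (neg_ne_zero.mpr one_ne_zero) hp0

/-- Parameters in a member from its singular vectors. -/
theorem Ctx.par_of_singular {i : Fin t} {a : ι → F} (ha : Q a = 0) (h : ∀ z ∈ D i, Q z = 0 → Par Q M a z)
    {y : ι → F} (hy : y ∈ D i) : Par Q M a y := by
  have hQ := S.hQ
  obtain ⟨p, hp, hp0, hpQ⟩ := S.exists_sing (j := i)
  obtain ⟨p', hp', hp'Q, hpp'⟩ := S.exists_hyp hp hp0 hpQ
  obtain ⟨q, hq, α, β, hqQ, -, e⟩ := span_hypW hQ hp hp' hpQ hp'Q hpp' hy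
  rw [e]
  exact Par.sub hQ ha (Par.add hQ ha (Par.add hQ ha (h _ ((D i).smul_mem _ hp) (by rw [hQ.smul, hpQ, mul_zero]))
    (h _ ((D i).smul_mem _ hp') (by rw [hQ.smul, hp'Q, mul_zero]))) (h q hq hqQ)) (h p' hp' hp'Q)

/-- `Ω` from all the relations. -/
theorem Ctx.omega_le (hall : ∀ a b, a ≠ b → Rel Q D M a b) (j : Fin t) : omegaGL Q ≤ M := by
  have hQ := S.hQ
  have B := S.blk
  have hfull : ∀ p ∈ D j, Q p = 0 → Full Q M p := by
    intro p hp hpQ b g hb hg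
    have h1 : ∀ s : Finset (Fin t), Par Q M p (∑ l ∈ s, cp D l b) := by
      intro s
      induction s using Finset.induction_on with
      | empty => simpa using Par.zero hQ (M := M) p
      | insert a s ha ih =>
        rw [Finset.sum_insert ha]
        refine Par.add hQ hpQ ?_ ih
        by_cases haj : a = j
        · subst haj
          refine S.par_block hp (cp_mem B a b) hpQ ?_
          rw [pol_symm hQ, ← pol_cp hQ B a b hp, pol_symm hQ, hb]
        · exact S.par_of_singular hpQ (fun z hz hzQ => hall j a (Ne.symm haj) p hp z hz hpQ hzQ) (cp_mem B a b)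
    have h2 := h1 Finset.univ
    rw [sum_cp B] at h2
    exact h2.2 g hg
  obtain ⟨p, hp, hp0, hpQ⟩ := S.exists_sing (j := j)
  obtain ⟨p', hp', hp'Q, hpp'⟩ := S.exists_hyp hp hp0 hpQ
  exact omega_le_of_full hQ S.card7 hpQ hp'Q (hfull p hp hpQ) (hfull p' hp' hp'Q)
    (by rw [pol_symm hQ, hpp']; exact one_ne_zero)


/-- The element exchanging two members. -/
theorem Ctx.exists_swap {a b : Fin t} (hab : a ≠ b) :
    ∃ T : GL ι F, T ∈ isometryGroup F Q ∧ T * T = 1 ∧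
      ∀ i, ∀ x ∈ D i, (T : Matrix ι ι F) *ᵥ x ∈ D (Equiv.swap a b i) := by
  have hQ := S.hQ
  have B := S.blk
  obtain ⟨e, he⟩ := S.iso a b
  let E₁ : (ι → F) →ₗ[F] (ι → F) :=
    { toFun := fun x => ((e ⟨cp D a x, cp_mem B a x⟩ : D b) : ι → F)
      map_add' := fun x y => by
        have : (⟨cp D a (x + y), cp_mem B a _⟩ : D a) = ⟨cp D a x, cp_mem B a x⟩ + ⟨cp D a y, cp_mem B a y⟩ :=
          Subtype.ext (cp_add hQ B a x y)
        rw [this, map_add]
        rfl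
      map_smul' := fun c x => by
        have : (⟨cp D a (c • x), cp_mem B a _⟩ : D a) = c • ⟨cp D a x, cp_mem B a x⟩ :=
          Subtype.ext (cp_smul hQ B a c x)
        rw [this, map_smul]
        rfl }
  let E₂ : (ι → F) →ₗ[F] (ι → F) :=
    { toFun := fun x => ((e.symm ⟨cp D b x, cp_mem B b x⟩ : D a) : ι → F)
      map_add' := fun x y => by
        have : (⟨cp D b (x + y), cp_mem B b _⟩ : D b) = ⟨cp D b x, cp_mem B b x⟩ + ⟨cp D b y, cp_mem B b y⟩ :=
          Subtype.ext (cp_add hQ B b x y)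
        rw [this, map_add]
        rfl
      map_smul' := fun c x => by
        have : (⟨cp D b (c • x), cp_mem B b _⟩ : D b) = c • ⟨cp D b x, cp_mem B b x⟩ :=
          Subtype.ext (cp_smul hQ B b c x)
        rw [this, map_smul]
        rfl }
  have hE₁m : ∀ x, E₁ x ∈ D b := fun x => (e _).2
  have hE₂m : ∀ x, E₂ x ∈ D a := fun x => (e.symm _).2
  have hE₁c : ∀ y y', cp D a y = cp D a y' → E₁ y = E₁ y' := fun y y' h => by
    change ((e ⟨cp D a y, _⟩ : D b) : ι → F) = ((e ⟨cp D a y', _⟩ : D b) : ι → F)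
    have : (⟨cp D a y, cp_mem B a y⟩ : D a) = ⟨cp D a y', cp_mem B a y'⟩ := Subtype.ext h
    rw [this]
  have hE₂c : ∀ y y', cp D b y = cp D b y' → E₂ y = E₂ y' := fun y y' h => by
    change ((e.symm ⟨cp D b y, _⟩ : D a) : ι → F) = ((e.symm ⟨cp D b y', _⟩ : D a) : ι → F)
    have : (⟨cp D b y, cp_mem B b y⟩ : D b) = ⟨cp D b y', cp_mem B b y'⟩ := Subtype.ext h
    rw [this]
  have hE₂E₁ : ∀ x, E₂ (E₁ x) = cp D a x := fun x => by
    change ((e.symm ⟨cp D b (E₁ x), _⟩ : D a) : ι → F) = _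
    have : (⟨cp D b (E₁ x), cp_mem B b _⟩ : D b) = e ⟨cp D a x, cp_mem B a x⟩ :=
      Subtype.ext (cp_self hQ B (hE₁m x))
    rw [this, LinearEquiv.symm_apply_apply]
  have hE₁E₂ : ∀ x, E₁ (E₂ x) = cp D b x := fun x => by
    change ((e ⟨cp D a (E₂ x), _⟩ : D b) : ι → F) = _
    have : (⟨cp D a (E₂ x), cp_mem B a _⟩ : D a) = e.symm ⟨cp D b x, cp_mem B b x⟩ :=
      Subtype.ext (cp_self hQ B (hE₂m x))
    rw [this, LinearEquiv.apply_symm_apply]
  have hE₁0 : ∀ x, cp D a x = 0 → E₁ x = 0 := fun x hx => by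
    have := hE₁c x 0 (by rw [hx, cp_zero hQ B])
    rw [this, map_zero]
  have hE₂0 : ∀ x, cp D b x = 0 → E₂ x = 0 := fun x hx => by
    have := hE₂c x 0 (by rw [hx, cp_zero hQ B])
    rw [this, map_zero]
  have hQE₁ : ∀ x, Q (E₁ x) = Q (cp D a x) := fun x => he _
  have hQE₂ : ∀ x, Q (E₂ x) = Q (cp D b x) := fun x => by
    have := he (e.symm ⟨cp D b x, cp_mem B b x⟩)
    rw [LinearEquiv.apply_symm_apply] at this
    exact this.symm
  -- the linear map
  let L : (ι → F) →ₗ[F] (ι → F) :=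
    { toFun := fun x => x - cp D a x - cp D b x + E₁ x + E₂ x
      map_add' := fun x y => by
        simp only [cp_add hQ B, map_add]
        abel
      map_smul' := fun c x => by
        simp only [cp_smul hQ B, map_smul, RingHom.id_apply, smul_add, smul_sub] }
  have hL : ∀ x, L x = x - cp D a x - cp D b x + E₁ x + E₂ x := fun _ => rfl
  have hrest : ∀ x, cp D a (x - cp D a x - cp D b x) = 0 ∧ cp D b (x - cp D a x - cp D b x) = 0 := fun x => by
    constructor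
    · rw [cp_sub hQ B, cp_sub hQ B, cp_cp hQ B, cp_other hQ B hab (cp_mem B b x)]
      abel
    · rw [cp_sub hQ B, cp_sub hQ B, cp_cp hQ B, cp_other hQ B (Ne.symm hab) (cp_mem B a x)]
      abel
  have hcpa : ∀ x, cp D a (L x) = E₂ x := fun x => by
    rw [hL, cp_add hQ B, cp_add hQ B, (hrest x).1, cp_other hQ B hab (hE₁m x), cp_self hQ B (hE₂m x)]
    abel
  have hcpb : ∀ x, cp D b (L x) = E₁ x := fun x => by
    rw [hL, cp_add hQ B, cp_add hQ B, (hrest x).2, cp_self hQ B (hE₁m x), cp_other hQ B (Ne.symm hab) (hE₂m x)]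
    abel
  have hLL : ∀ x, L (L x) = x := fun x => by
    have h1 : E₁ (L x) = cp D b x := by
      rw [hE₁c (L x) (E₂ x) (by rw [hcpa, cp_self hQ B (hE₂m x)]), hE₁E₂]
    have h2 : E₂ (L x) = cp D a x := by
      rw [hE₂c (L x) (E₁ x) (by rw [hcpb, cp_self hQ B (hE₁m x)]), hE₂E₁]
    rw [hL (L x), hcpa, hcpb, h1, h2, hL x]
    abel
  have hQL : ∀ x, Q (L x) = Q x := fun x => by
    obtain ⟨r, hr⟩ : ∃ r, r = x - cp D a x - cp D b x := ⟨_, rfl⟩
    have hra : cp D a r = 0 := by rw [hr]; exact (hrest x).1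
    have hrb : cp D b r = 0 := by rw [hr]; exact (hrest x).2
    have e1 : x = cp D a x + cp D b x + r := by rw [hr]; abel
    have e2 : L x = r + E₁ x + E₂ x := by rw [hL, hr]
    have h1 : ∀ y ∈ D a, pol Q r y = 0 := fun y hy => pol_eq_zero_of_cp hQ B hra hy
    have h2 : ∀ y ∈ D b, pol Q r y = 0 := fun y hy => pol_eq_zero_of_cp hQ B hrb hy
    have h3 : Q (L x) = Q r + Q (cp D a x) + Q (cp D b x) := by
      rw [e2, Q_add hQ, Q_add hQ, pol_add_left hQ, h2 _ (hE₁m x), h1 _ (hE₂m x), hQE₁, hQE₂,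
        pol_symm hQ (E₁ x), B.orth a b hab _ (hE₂m x) _ (hE₁m x)]
      ring
    have h5 : pol Q (cp D a x) r = 0 := by
      rw [pol_symm hQ]
      exact h1 _ (cp_mem B a x)
    have h6 : pol Q (cp D b x) r = 0 := by
      rw [pol_symm hQ]
      exact h2 _ (cp_mem B b x)
    have h4 : Q x = Q r + Q (cp D a x) + Q (cp D b x) := by
      conv_lhs => rw [e1]
      rw [Q_add hQ, Q_add hQ, pol_add_left hQ, h5, h6, B.orth a b hab _ (cp_mem B a x) _ (cp_mem B b x)]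
      ring
    rw [h3, h4]
  have hLLc : L ∘ₗ L = LinearMap.id := LinearMap.ext hLL
  have hA : LinearMap.toMatrix' L * LinearMap.toMatrix' L = 1 := by
    rw [← LinearMap.toMatrix'_comp, hLLc, LinearMap.toMatrix'_id]
  refine ⟨⟨LinearMap.toMatrix' L, LinearMap.toMatrix' L, hA, hA⟩, ?_, ?_, ?_⟩
  · rw [mem_isometryGroup_iff]
    intro x
    change Q (LinearMap.toMatrix' L *ᵥ x) = Q x
    rw [LinearMap.toMatrix'_mulVec, hQL]
  · exact Units.ext hA
  · intro i x hx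
    change LinearMap.toMatrix' L *ᵥ x ∈ _
    rw [LinearMap.toMatrix'_mulVec, hL]
    by_cases hia : i = a
    · subst hia
      rw [Equiv.swap_apply_left, cp_self hQ B hx, cp_other hQ B (Ne.symm hab) hx,
        hE₂0 x (cp_other hQ B (Ne.symm hab) hx)]
      simpa using hE₁m x
    · by_cases hib : i = b
      · subst hib
        rw [Equiv.swap_apply_right, cp_other hQ B hab hx, cp_self hQ B hx, hE₁0 x (cp_other hQ B hab hx)]
        simpa using hE₂m x
      · rw [Equiv.swap_apply_of_ne_of_ne hia hib, cp_other hQ B (Ne.symm hia) hx, cp_other hQ B (Ne.symm hib) hx,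
          hE₁0 x (cp_other hQ B (Ne.symm hia) hx), hE₂0 x (cp_other hQ B (Ne.symm hib) hx)]
        simpa using hx

/-- Elements permuting the members carry relations along. -/
theorem Ctx.rel_perm {g : GL ι F} (hgM : g ∈ M) {τ : Equiv.Perm (Fin t)}
    (h : ∀ i, ∀ x ∈ D i, (g : Matrix ι ι F) *ᵥ x ∈ D (τ i)) {a b : Fin t} (hR : Rel Q D M a b) :
    Rel Q D M (τ a) (τ b) := by
  have hgI := S.miso hgM
  have hmap : ∀ i, (D i).map (Matrix.toLin' (g : Matrix ι ι F)) = D (τ i) := fun i => by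
    refine Submodule.eq_of_le_of_finrank_eq ?_ ?_
    · rintro _ ⟨x, hx, rfl⟩
      exact h i x hx
    · rw [finrank_map_toLin', S.fin, S.fin]
  intro y hy z hz hyQ hzQ
  rw [← hmap] at hy hz
  obtain ⟨y₀, hy₀, rfl⟩ := hy
  obtain ⟨z₀, hz₀, rfl⟩ := hz
  rw [Matrix.toLin'_apply] at hyQ hzQ ⊢
  rw [Matrix.toLin'_apply]
  have hI := (mem_isometryGroup_iff Q g).mp hgI
  rw [hI] at hyQ hzQ
  exact Par.conj (hR y₀ hy₀ z₀ hz₀ hyQ hzQ) hgM hgI

theorem Ctx.rel_third {a b c : Fin t} (hab : a ≠ b) (hca : c ≠ a) (hcb : c ≠ b) (hR : Rel Q D M a b) :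
    Rel Q D M c a ∧ Rel Q D M b c := by
  obtain ⟨T₁, hT₁, hT₁₁, hp₁⟩ := S.exists_swap hab
  obtain ⟨T₂, hT₂, hT₂₂, hp₂⟩ := S.exists_swap (a := b) (b := c) (Ne.symm hcb)
  have hinv₁ : T₁⁻¹ = T₁ := inv_eq_of_mul_eq_one_left hT₁₁
  have hinv₂ : T₂⁻¹ = T₂ := inv_eq_of_mul_eq_one_left hT₂₂
  have hgO : T₁ * T₂ * T₁ * T₂ ∈ omegaGL Q := by
    rw [omegaGL_eq_commutator]
    have := Subgroup.commutator_mem_commutator hT₁ hT₂
    rwa [commutatorElement_def, hinv₁, hinv₂] at this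
  obtain ⟨s₁, hs₁⟩ : ∃ s₁, s₁ = Equiv.swap a b := ⟨_, rfl⟩
  obtain ⟨s₂, hs₂⟩ : ∃ s₂, s₂ = Equiv.swap b c := ⟨_, rfl⟩
  rw [← hs₁] at hp₁
  rw [← hs₂] at hp₂
  have hperm : ∀ i, ∀ x ∈ D i, ((T₁ * T₂ * T₁ * T₂ : GL ι F) : Matrix ι ι F) *ᵥ x ∈ D ((s₁ * s₂ * s₁ * s₂) i) := by
    intro i x hx
    simp only [Units.val_mul, ← Matrix.mulVec_mulVec, Equiv.Perm.mul_apply]
    exact hp₁ _ _ (hp₂ _ _ (hp₁ _ _ (hp₂ _ _ hx)))
  have hgM : T₁ * T₂ * T₁ * T₂ ∈ M :=
    S.hH ⟨mem_decompositionStabilizer_of_forall (k := k) S.fin _ _ hperm, hgO⟩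
  have ha : (s₁ * s₂ * s₁ * s₂) a = c := by
    simp only [Equiv.Perm.mul_apply, hs₁, hs₂]
    rw [Equiv.swap_apply_of_ne_of_ne hab (Ne.symm hca), Equiv.swap_apply_left, Equiv.swap_apply_left,
      Equiv.swap_apply_of_ne_of_ne hca hcb]
  have hb : (s₁ * s₂ * s₁ * s₂) b = a := by
    simp only [Equiv.Perm.mul_apply, hs₁, hs₂]
    rw [Equiv.swap_apply_left, Equiv.swap_apply_of_ne_of_ne hca hcb, Equiv.swap_apply_right,
      Equiv.swap_apply_right]
  have hc : (s₁ * s₂ * s₁ * s₂) c = b := by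
    simp only [Equiv.Perm.mul_apply, hs₁, hs₂]
    rw [Equiv.swap_apply_right, Equiv.swap_apply_right, Equiv.swap_apply_of_ne_of_ne hab (Ne.symm hca),
      Equiv.swap_apply_left]
  have h1 := S.rel_perm hgM hperm hR
  rw [ha, hb] at h1
  have h2 := S.rel_perm hgM hperm h1
  rw [ha, hc] at h2
  exact ⟨h1, h2⟩

theorem Ctx.all_rel {a b : Fin t} (hab : a ≠ b) (hR : Rel Q D M a b) : ∀ c d, c ≠ d → Rel Q D M c d := by
  have h1 : ∀ x, a ≠ x → Rel Q D M a x := by
    intro x hx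
    by_cases hxb : x = b
    · rw [hxb]
      exact hR
    · exact S.rel_symm (S.rel_third hab (Ne.symm hx) hxb hR).1
  intro c d hcd
  by_cases hca : c = a
  · rw [hca]
    exact h1 d (by rw [← hca]; exact hcd)
  · by_cases hda : d = a
    · rw [hda]
      exact S.rel_symm (h1 c (Ne.symm hca))
    · exact (S.rel_third (Ne.symm hca) hda (Ne.symm hcd) (h1 c (Ne.symm hca))).2

/-- One Eichler transformation with centre in a member and parameter outside it gives the whole of `Ω`. -/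
theorem Ctx.final (hG : Good Q D M) : omegaGL Q ≤ M := by
  have hQ := S.hQ
  have B := S.blk
  obtain ⟨j, p, v, hp, hpQ, hp0, hP, hv⟩ := hG
  obtain ⟨i, hij, hvi⟩ := exists_cp_ne hQ B hv
  have h1 : ∀ y ∈ D i, Par Q M p y := fun y hy => S.mod hpQ hp hP hij hvi hy
  have h2 := S.rel_of hp hp0 hpQ hij h1
  exact S.omega_le (S.all_rel hij h2) j

/-- The start: an element of `M` outside the stabiliser gives an Eichler transformation in general position. -/
theorem Ctx.exists_start {g : GL ι F} (hg : g ∈ M) (hgs : g ∉ decompositionStabilizer D) :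
    ∃ u w, Q u = 0 ∧ Par Q M u w ∧ Q w ≠ 0 ∧ ∀ c, u ∉ D c := by
  have hQ := S.hQ
  have B := S.blk
  have hgI := S.miso hg
  have hI := (mem_isometryGroup_iff Q g).mp hgI
  have hk0 : ∀ i, ∃ x ∈ D i, x ≠ 0 := fun i => by
    obtain ⟨p, hp, hp0, -⟩ := S.exists_sing (j := i)
    exact ⟨p, hp, hp0⟩
  have hinj : ∀ x, (g : Matrix ι ι F) *ᵥ x = 0 → x = 0 := fun x hx => by
    have := inv_mulVec_mulVec g x
    rw [hx] at this
    simpa using this.symm
  have h1 : ∃ i, ∀ a, (D i).map (Matrix.toLin' (g : Matrix ι ι F)) ≠ D a := by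
    by_contra hcon
    push Not at hcon
    choose σ hσ using hcon
    have hσi : Function.Injective σ := by
      intro i i' hii
      by_contra hne
      obtain ⟨x, hx, hx0⟩ := hk0 i
      have h2 : (g : Matrix ι ι F) *ᵥ x ∈ D (σ i) := by
        rw [← hσ i]
        exact ⟨x, hx, Matrix.toLin'_apply _ _⟩
      rw [hii, ← hσ i'] at h2
      obtain ⟨y, hy, hyx⟩ := h2
      rw [Matrix.toLin'_apply] at hyx
      have h3 : y - x = 0 := by
        apply hinj
        rw [Matrix.mulVec_sub, hyx, sub_self]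
      have h4 : y = x := sub_eq_zero.mp h3
      rw [h4] at hy
      have h5 := cp_other hQ B hne hy
      rw [cp_self hQ B hx] at h5
      exact hx0 h5
    exact hgs ⟨Equiv.ofBijective σ (Finite.injective_iff_bijective.mp hσi), hσ⟩
  obtain ⟨i, hi⟩ := h1
  have hnot : ∀ a, ∃ x ∈ D i, (g : Matrix ι ι F) *ᵥ x ∉ D a := fun a => by
    by_contra hcon
    push Not at hcon
    apply hi a
    refine Submodule.eq_of_le_of_finrank_eq ?_ ?_
    · rintro _ ⟨x, hx, rfl⟩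
      rw [Matrix.toLin'_apply]
      exact hcon x hx
    · rw [finrank_map_toLin', S.fin, S.fin]
  -- a singular vector in general position
  obtain ⟨u₀, hu₀, hu₀0, hu₀Q⟩ := S.exists_sing (j := i)
  have hu : ∃ u ∈ D i, Q u = 0 ∧ ∀ c, (g : Matrix ι ι F) *ᵥ u ∉ D c := by
    by_cases h2 : ∀ c, (g : Matrix ι ι F) *ᵥ u₀ ∉ D c
    · exact ⟨u₀, hu₀, hu₀Q, h2⟩
    · push Not at h2
      obtain ⟨a, ha⟩ := h2
      obtain ⟨x, hx, hxa⟩ := hnot a
      obtain ⟨p', hp', hp'Q, hpp'⟩ := S.exists_hyp hu₀ hu₀0 hu₀Q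
      obtain ⟨q, hq, α, β, hqQ, -, e⟩ := span_hypW hQ hu₀ hp' hu₀Q hp'Q hpp' hx
      have h3 : ∃ u₁ ∈ D i, Q u₁ = 0 ∧ (g : Matrix ι ι F) *ᵥ u₁ ∉ D a := by
        by_contra hcon
        push Not at hcon
        apply hxa
        rw [e, Matrix.mulVec_sub, Matrix.mulVec_add, Matrix.mulVec_add, Matrix.mulVec_smul, Matrix.mulVec_smul]
        exact (D a).sub_mem ((D a).add_mem ((D a).add_mem ((D a).smul_mem _ ha)
          ((D a).smul_mem _ (hcon p' hp' hp'Q))) (hcon q hq hqQ)) (hcon p' hp' hp'Q)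
      obtain ⟨u₁, hu₁, hu₁Q, hu₁a⟩ := h3
      by_cases h4 : ∀ c, (g : Matrix ι ι F) *ᵥ u₁ ∉ D c
      · exact ⟨u₁, hu₁, hu₁Q, h4⟩
      · push Not at h4
        obtain ⟨b, hb⟩ := h4
        have hab : a ≠ b := by
          rintro rfl
          exact hu₁a hb
        have h5 : pol Q u₀ u₁ = 0 := by
          rw [← pol_isometry g hgI]
          exact B.orth a b hab _ ha _ hb
        have hg0 : (g : Matrix ι ι F) *ᵥ u₀ ≠ 0 := fun h => hu₀0 (hinj _ h)
        have hg1 : (g : Matrix ι ι F) *ᵥ u₁ ≠ 0 := fun h => hu₁a (by rw [h]; exact (D a).zero_mem)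
        refine ⟨u₀ + u₁, (D i).add_mem hu₀ hu₁, by rw [Q_add hQ, hu₀Q, hu₁Q, h5]; ring, fun c hc => ?_⟩
        rw [Matrix.mulVec_add] at hc
        by_cases hca : a = c
        · subst hca
          have h6 := cp_other hQ B (Ne.symm hab) hc
          rw [cp_add hQ B, cp_other hQ B (Ne.symm hab) ha, cp_self hQ B hb, zero_add] at h6
          exact hg1 h6
        · have h6 := cp_other hQ B hca hc
          rw [cp_add hQ B, cp_self hQ B ha] at h6
          by_cases hcb : b = c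
          · subst hcb
            rw [cp_other hQ B hab hb, add_zero] at h6
            exact hg0 h6
          · have h7 := cp_other hQ B hcb hc
            rw [cp_add hQ B, cp_self hQ B hb, cp_other hQ B (Ne.symm hab) ha, zero_add] at h7
            exact hg1 h7
  obtain ⟨u, huD, huQ, hup⟩ := hu
  have hu0 : u ≠ 0 := by
    rintro rfl
    apply hup i
    rw [Matrix.mulVec_zero]
    exact (D i).zero_mem
  obtain ⟨b, hb, hub, hbQ⟩ := exists_bW hQ (B.nd i) S.two (by rw [S.fin]; exact S.k3) huD hu0 huQ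
  refine ⟨(g : Matrix ι ι F) *ᵥ u, (g : Matrix ι ι F) *ᵥ b, by rw [hI]; exact huQ, ?_, by rw [hI]; exact hbQ, hup⟩
  exact Par.conj (S.par_block huD hb huQ hub) hg hgI

/-- Not every element of `Ω` permutes the members. -/
theorem Ctx.exists_not_stab {a b : Fin t} (hab : a ≠ b) : ∃ g ∈ omegaGL Q, g ∉ decompositionStabilizer D := by
  have hQ := S.hQ
  have B := S.blk
  obtain ⟨p, hp, hp0, hpQ⟩ := S.exists_sing (j := a)
  obtain ⟨y, hy, hy0, hyQ⟩ := S.exists_sing (j := b)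
  obtain ⟨x, hx, hne⟩ := (B.nd b y hy hy0).1
  change pol Q x y ≠ 0 at hne
  have hpy : pol Q p y = 0 := B.orth a b hab p hp y hy
  obtain ⟨g, hg⟩ := exists_eich hQ hpQ hpy
  refine ⟨g, hg.mem_omega hQ S.card7 hpQ hpy, ?_⟩
  rintro ⟨σ, hσ⟩
  have hypp : pol Q y p = 0 := by rw [pol_symm hQ, hpy]
  have h1 : (g : Matrix ι ι F) *ᵥ y = y := eich_fix hg (pol_singular hQ hyQ) hypp
  have h2 : y ∈ D (σ b) := by
    rw [← hσ b]
    exact ⟨y, hy, by rw [Matrix.toLin'_apply, h1]⟩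
  have h3 : σ b = b := by
    by_contra hne2
    have := cp_other hQ B hne2 hy
    rw [cp_self hQ B h2] at this
    exact hy0 this
  have h4 : (g : Matrix ι ι F) *ᵥ x ∈ D b := by
    have : (g : Matrix ι ι F) *ᵥ x ∈ D (σ b) := by
      rw [← hσ b]
      exact ⟨x, hx, Matrix.toLin'_apply _ _⟩
    rwa [h3] at this
  have hxp : pol Q x p = 0 := B.orth b a (Ne.symm hab) x hx p hp
  rw [hg x, hxp] at h4
  have h5 : pol Q x y • p ∈ D b := by
    have : pol Q x y • p = x + pol Q x y • p - (0 : F) • y - (Q y * 0) • p - x := by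
      simp
    rw [this]
    exact (D b).sub_mem h4 hx
  have h6 : p ∈ D b := by
    have := (D b).smul_mem (pol Q x y)⁻¹ h5
    rwa [smul_smul, inv_mul_cancel₀ hne, one_smul] at this
  have := cp_other hQ B (Ne.symm hab) hp
  rw [cp_self hQ B h6] at this
  exact hp0 this

/-! ### Pushing a vector along a singular direction -/

theorem Ctx.gs_of_gd {j : Fin t} {z p : ι → F} (hz : z ∈ D j) (hzQ : Q z ≠ 0) (hp : p ∈ D j) (hp0 : p ≠ 0)
    (hpQ : Q p = 0) (hzp : pol Q z p = 0) : GS Q D M j z := by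
  have hQ := S.hQ
  have hpz : pol Q p z = 0 := by rw [pol_symm hQ, hzp]
  obtain ⟨g, hg⟩ := exists_eich hQ hpQ hpz
  refine ⟨g, 2 * Q z, p, S.be_eich hp hz hpQ hpz hg, ?_, mul_ne_zero S.two hzQ, hpQ, hp, hp0, hzp⟩
  rw [hg z, hzp, pol_self hQ]
  simp

theorem Ctx.gs_sing_p {j : Fin t} {z p z' : ι → F} (hp : p ∈ D j) (hp0 : p ≠ 0) (hpQ : Q p = 0) (hzp : pol Q z p = 0)
    (hz' : z' ∈ D j) (hzz' : pol Q z z' = 1) (hpz' : pol Q p z' = 0) : GS Q D M j z := by
  have hQ := S.hQ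
  obtain ⟨g, hg⟩ := exists_eich hQ hpQ hpz'
  refine ⟨g, 1, p, S.be_eich hp hz' hpQ hpz' hg, ?_, one_ne_zero, hpQ, hp, hp0, hzp⟩
  rw [hg z, hzp, hzz']
  simp

theorem Ctx.gs_torus {j : Fin t} {z : ι → F} (hz : z ∈ D j) (hz0 : z ≠ 0) (hzQ : Q z = 0) {τ : F} (hτ : τ ≠ 0)
    (hτ1 : τ ^ 2 ≠ 1) : GS Q D M j z := by
  have hQ := S.hQ
  obtain ⟨z', hz', hz'Q, hzz'⟩ := S.exists_hyp hz hz0 hzQ
  obtain ⟨a₁, ha₁⟩ : ∃ a₁, a₁ = z - τ ^ 2 • z' := ⟨_, rfl⟩
  obtain ⟨a₂, ha₂⟩ : ∃ a₂, a₂ = τ • (z - z') := ⟨_, rfl⟩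
  have hz'z : pol Q z' z = 1 := by rw [pol_symm hQ, hzz']
  have hQ₁ : Q a₁ = - τ ^ 2 := by
    rw [ha₁, Q_sub hQ, hQ.smul, hz'Q, hzQ, pol_smul_right hQ, hzz']
    ring
  have hQ₂ : Q a₂ = - τ ^ 2 := by
    rw [ha₂, hQ.smul, Q_sub hQ, hz'Q, hzQ, hzz']
    ring
  have hne : - τ ^ 2 ≠ 0 := neg_ne_zero.mpr (pow_ne_zero 2 hτ)
  have hm₁ : a₁ ∈ D j := by
    rw [ha₁]
    exact (D j).sub_mem hz ((D j).smul_mem _ hz')
  have hm₂ : a₂ ∈ D j := by
    rw [ha₂]
    exact (D j).smul_mem _ ((D j).sub_mem hz hz')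
  refine ⟨rf hQ a₂ * rf hQ a₁, τ ^ 2 - 1, z, S.be_rf hm₁ hm₂ (by rw [hQ₁, hQ₂]) (by rw [hQ₁]; exact hne), ?_,
    sub_ne_zero.mpr hτ1, hzQ, hz, hz0, pol_singular hQ hzQ⟩
  have hzz : pol Q z z = 0 := pol_singular hQ hzQ
  have hz'z' : pol Q z' z' = 0 := pol_singular hQ hz'Q
  have h1 : pol Q z a₁ = - τ ^ 2 := by
    rw [ha₁, pol_sub_right hQ, hzz, pol_smul_right hQ, hzz']
    ring
  have h2 : pol Q z' a₂ = τ := by
    rw [ha₂, pol_smul_right hQ, pol_sub_right hQ, hz'z, hz'z']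
    ring
  have e1 : ((rf hQ a₁ : GL ι F) : Matrix ι ι F) *ᵥ z = τ ^ 2 • z' := by
    rw [rf_mulVec, hQ₁, h1, inv_mul_cancel₀ hne, one_smul, ha₁]
    abel
  rw [Units.val_mul, ← Matrix.mulVec_mulVec, e1, rf_mulVec, pol_smul_left hQ, h2, hQ₂, ha₂, smul_smul]
  have e2 : (-τ ^ 2)⁻¹ * (τ ^ 2 * τ) * τ = - τ ^ 2 := by
    field_simp
  rw [e2]
  module

/-! ### The main reduction -/

/-- Reduction to two cases. -/
theorem Ctx.reduce_core
    (hC : ∀ (u w : ι → F) (j : Fin t), Q u = 0 → Par Q M u w → Q (cp D j u) ≠ 0 → u ∉ D j →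
      cp D j w ∉ Submodule.span F {cp D j u} → Good Q D M)
    (hL : ∀ (u y : ι → F) (j : Fin t), Q u = 0 → Par Q M u y → Q y ≠ 0 → cp D j y = 0 → cp D j u ≠ 0 → u ∉ D j →
      Good Q D M)
    {u w : ι → F} (hu : Q u = 0) (hw : Par Q M u w) (hQw : Q w ≠ 0) (hnot : ∀ c, u ∉ D c) : Good Q D M := by
  have hQ := S.hQ
  have B := S.blk
  have hw0 : w ≠ 0 := by
    rintro rfl
    exact hQw (Q_zero hQ)
  obtain ⟨i₀, -⟩ : ∃ i, cp D i w ≠ 0 := by
    by_contra hcon
    push Not at hcon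
    apply hw0
    rw [← sum_cp B w]
    exact Finset.sum_eq_zero fun i _ => hcon i
  have hu0 : u ≠ 0 := by
    rintro rfl
    exact hnot i₀ (D i₀).zero_mem
  by_cases hj : ∃ j, cp D j u ≠ 0 ∧ cp D j w ∉ Submodule.span F {cp D j u}
  · obtain ⟨j, hj0, hj1⟩ := hj
    by_cases hz : Q (cp D j u) = 0
    · exact S.goodB hu hw hz hj0 (hnot j) hj1
    · exact hC u w j hu hw hz (hnot j) hj1
  · push Not at hj
    obtain ⟨j, hj0⟩ : ∃ j, cp D j u ≠ 0 := by
      by_contra hcon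
      push Not at hcon
      apply hu0
      rw [← sum_cp B u]
      exact Finset.sum_eq_zero fun i _ => hcon i
    obtain ⟨α, hα⟩ := Submodule.mem_span_singleton.mp (hj j hj0)
    have hP := par_add_self hQ hu hw (-α)
    have hwu : pol Q w u = 0 := by rw [pol_symm hQ, hw.1]
    have hQy : Q (w + (-α) • u) = Q w := by
      rw [Q_add hQ, hQ.smul, hu, pol_smul_right hQ, hwu]
      ring
    have hcp : cp D j (w + (-α) • u) = 0 := by
      rw [cp_add hQ B, cp_smul hQ B, ← hα, neg_smul]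
      abel
    exact hL u _ j hu hP (by rw [hQy]; exact hQw) hcp hj0 (hnot j)

/-- Non-singular components, large members. -/
theorem Ctx.goodC4 (hk : 4 ≤ k) {u w : ι → F} (hu : Q u = 0) (hw : Par Q M u w) {j : Fin t}
    (hz : Q (cp D j u) ≠ 0) (hnot : u ∉ D j) (hwj : cp D j w ∉ Submodule.span F {cp D j u}) : Good Q D M := by
  have hQ := S.hQ
  have B := S.blk
  obtain ⟨z, hzd⟩ : ∃ z, z = cp D j u := ⟨_, rfl⟩
  rw [← hzd] at hz hwj
  have hzm : z ∈ D j := by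
    rw [hzd]
    exact cp_mem B j u
  have huz : ∀ x ∈ D j, pol Q u x = pol Q z x := fun x hx => by
    rw [hzd]
    exact pol_cp hQ B j u hx
  have hzz : pol Q z z = 2 * Q z := pol_self hQ z
  have hzz0 : pol Q z z ≠ 0 := by
    rw [hzz]
    exact mul_ne_zero S.two hz
  have hd : 3 ≤ Module.finrank F (cut Q (D j) z) := by
    have := finrank_cut (Q := Q) (D j) z
    rw [S.fin] at this
    omega
  -- the projection
  have hproj : ∀ x ∈ D j, x - (pol Q x z / pol Q z z) • z ∈ cut Q (D j) z := fun x hx => by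
    rw [mem_cut hQ]
    refine ⟨(D j).sub_mem hx ((D j).smul_mem _ hzm), ?_⟩
    rw [pol_sub_left hQ, pol_smul_left hQ]
    field_simp
    ring
  have hnd : IsNondegenerateOn (QuadraticMap.polar Q) (cut Q (D j) z) := by
    intro v hv hv0
    obtain ⟨hv1, hv2⟩ := (mem_cut hQ).mp hv
    obtain ⟨x, hx, hne⟩ := (B.nd j v hv1 hv0).1
    change pol Q x v ≠ 0 at hne
    have hzv : pol Q z v = 0 := by rw [pol_symm hQ, hv2]
    have e : pol Q (x - (pol Q x z / pol Q z z) • z) v = pol Q x v := by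
      rw [pol_sub_left hQ, pol_smul_left hQ, hzv]
      ring
    refine ⟨⟨_, hproj x hx, by change pol Q _ v ≠ 0; rw [e]; exact hne⟩, ⟨_, hproj x hx, ?_⟩⟩
    change pol Q v _ ≠ 0
    rw [pol_symm hQ, e]
    exact hne
  have hcw := cp_mem B j w
  have hπ := hproj _ hcw
  have hπ0 : cp D j w - (pol Q (cp D j w) z / pol Q z z) • z ≠ 0 := by
    intro h
    apply hwj
    rw [sub_eq_zero.mp h]
    exact Submodule.smul_mem _ _ (Submodule.mem_span_singleton_self z)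
  obtain ⟨q, hq, hqQ, hne⟩ := exists_sing_not_orthW hQ hnd hd hπ hπ0
  obtain ⟨hq1, hq2⟩ := (mem_cut hQ).mp hq
  have hzq : pol Q z q = 0 := by rw [pol_symm hQ, hq2]
  have hq0 : q ≠ 0 := by
    rintro rfl
    exact hne (pol_zero_right hQ _)
  obtain ⟨b, hb, hqb, hbQ⟩ := exists_bW hQ hnd S.two hd hq hq0 hqQ
  obtain ⟨hb1, hb2⟩ := (mem_cut hQ).mp hb
  have hwq : pol Q w q ≠ 0 := by
    rw [pol_cp hQ B j w hq1]
    intro h
    apply hne
    rw [pol_sub_left hQ, pol_smul_left hQ, h, hzq]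
    ring
  have hbb : pol Q b b ≠ 0 := by
    rw [pol_self hQ]
    exact mul_ne_zero S.two hbQ
  have h1 := par_trick hQ S.miso (y := w) (a := u) (p := q) (b := b) (b' := b) hu hqQ (by rw [huz q hq1, hzq])
    (by rw [huz b hb1, pol_symm hQ, hb2]) (by rw [huz b hb1, pol_symm hQ, hb2])
    (S.par_block hq1 hb1 hqQ hqb) (S.par_block hq1 hb1 hqQ hqb)
    (S.par_block hq1 ((D j).add_mem hb1 hb1) hqQ (by rw [pol_add_right hQ, hqb, add_zero])) hw
  have h2 := Par.swap hQ hu hqQ h1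
  refine ⟨j, q, _, hq1, hqQ, hq0, h2, fun hm => hnot ?_⟩
  have := (D j).smul_mem (-(pol Q b b * pol Q w q))⁻¹ hm
  rwa [smul_smul, inv_mul_cancel₀ (neg_ne_zero.mpr (mul_ne_zero hbb hwq)), one_smul] at this

/-- The case of large members. -/
theorem Ctx.reduce4 (hk : 4 ≤ k) (hSing : ∀ (j : Fin t) (z : ι → F), z ∈ D j → z ≠ 0 → Q z = 0 → GS Q D M j z)
    {u w : ι → F} (hu : Q u = 0) (hw : Par Q M u w) (hQw : Q w ≠ 0) (hnot : ∀ c, u ∉ D c) : Good Q D M := by
  have hQ := S.hQ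
  have B := S.blk
  refine S.reduce_core (fun u w j hu hw hz hn hwj => S.goodC4 hk hu hw hz hn hwj) ?_ hu hw hQw hnot
  intro u y j hu hy hQy hyj hj0 _
  have hy0 : y ≠ 0 := by
    rintro rfl
    exact hQy (Q_zero hQ)
  refine S.core1 hu hy hy0 hyj ?_
  by_cases hz : Q (cp D j u) = 0
  · exact hSing j _ (cp_mem B j u) hj0 hz
  · have hd : 3 ≤ Module.finrank F (cut Q (D j) (cp D j u)) := by
      have := finrank_cut (Q := Q) (D j) (cp D j u)
      rw [S.fin] at this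
      omega
    obtain ⟨p, hp, hp0, hpQ⟩ := exists_singular hQ _ hd
    obtain ⟨hp1, hp2⟩ := (mem_cut hQ).mp hp
    exact S.gs_of_gd (cp_mem B j u) hz hp1 hp0 hpQ (by rw [pol_symm hQ, hp2])

/-- Singular vectors when the members have dimension at least five. -/
theorem Ctx.hSing5 (hk : 5 ≤ k) (j : Fin t) (z : ι → F) (hz : z ∈ D j) (hz0 : z ≠ 0) (hzQ : Q z = 0) :
    GS Q D M j z := by
  have hQ := S.hQ
  obtain ⟨z', hz', hz'Q, hzz'⟩ := S.exists_hyp hz hz0 hzQ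
  have h1 := finrank_cut (Q := Q) (D j) z
  have h2 := finrank_cut (Q := Q) (cut Q (D j) z) z'
  rw [S.fin] at h1
  obtain ⟨p, hp, hp0, hpQ⟩ := exists_singular hQ (cut Q (cut Q (D j) z) z') (by omega)
  obtain ⟨hp1, hp2⟩ := (mem_cut hQ).mp hp
  obtain ⟨hp3, hp4⟩ := (mem_cut hQ).mp hp1
  exact S.gs_sing_p hp3 hp0 hpQ (by rw [pol_symm hQ, hp4]) hz' hzz' hp2

end Ctx

/-- The abstract maximality statement. -/
theorem isMaximalIn_of [Fintype F] {k : ℕ} (hQ : IsNondegenerateQuadraticForm Q) (B : Blk Q D)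
    (hfin : ∀ i, Module.finrank F (D i) = k) (hiso : ∀ i j, AreIsometricFor Q (D i) (D j))
    (h7 : 7 ≤ Fintype.card ι) (h2 : (2 : F) ≠ 0) (hk : 3 ≤ k) {a b : Fin t} (hab : a ≠ b)
    (hred : ∀ M : Subgroup (GL ι F), Ctx Q D M k → ∀ u w : ι → F, Q u = 0 → Par Q M u w → Q w ≠ 0 →
      (∀ c, u ∉ D c) → Good Q D M) :
    IsMaximalIn (omegaGL Q) (decompositionStabilizer D ⊓ omegaGL Q) := by
  have mk : ∀ M : Subgroup (GL ι F), decompositionStabilizer D ⊓ omegaGL Q ≤ M → M ≤ omegaGL Q → Ctx Q D M k :=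
    fun M h1 h3 => ⟨hQ, B, hfin, hiso, h7, h1, h3, h2, hk⟩
  refine ⟨?_, fun M h1 h3 => ?_⟩
  · obtain ⟨g, hg, hgs⟩ := (mk (omegaGL Q) inf_le_right le_rfl).exists_not_stab hab
    exact SetLike.lt_iff_le_and_exists.mpr ⟨inf_le_right, g, hg, fun h => hgs h.1⟩
  · by_cases hle : M ≤ decompositionStabilizer D ⊓ omegaGL Q
    · exact Or.inl (le_antisymm hle h1)
    · obtain ⟨g, hg, hgn⟩ := SetLike.not_le_iff_exists.mp hle
      have hgs : g ∉ decompositionStabilizer D := fun h => hgn ⟨h, h3 hg⟩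
      have S := mk M h1 h3
      obtain ⟨u, w, hu, hw, hQw, hnot⟩ := S.exists_start hg hgs
      exact Or.inr (le_antisymm h3 (S.final (hred M S u w hu hw hQw hnot)))

end Cfsg.Agent.Lib.Geo.OmDec
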