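/-
Stabilisers of orthogonal decompositions in `Ω`: members of dimension three.
-/
import Cfsg.Agent.Lib.Geo.OmDec
set_option autoImplicit false

namespace Cfsg.Agent.Lib.Geo.OmDec

open Cfsg Cfsg.Geo Cfsg.Agent.Lib.Geo.Basic Cfsg.Agent.Lib.Geo.Parabolic Cfsg.Agent.Lib.Geo.Centres
open Cfsg.Agent.Lib.Geo.Polar Cfsg.Agent.Lib.Geo.QForm
open Cfsg.Agent.Lib.GeoOmega.Basic Cfsg.Agent.Lib.GeoOmega.Eichler
open Cfsg.Agent.Lib.GeoOmega.Levi (rf rf_mulVec rf_mem rf_mul_mem_omega rf_inv)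
open Cfsg.Agent.Lib.Geo.OmSub (Par Par.add Par.zero Par.neg Par.sub Par.conj Par.swap pol_sum_left eich_zero)
open scoped MatrixGroups Matrix

variable {ι : Type} [Fintype ι] [DecidableEq ι] {F : Type*} [Field F]
variable {Q : (ι → F) → F} {t : ℕ} {D : Fin t → Submodule F (ι → F)}

/-- Elements of the field. -/
theorem exists_tau [Fintype F] (hq : 5 ≤ Fintype.card F) : ∃ τ : F, τ ≠ 0 ∧ τ ^ 2 ≠ 1 := by
  classical
  by_contra hcon
  push Not at hcon
  have h1 : (Finset.univ : Finset F) ⊆ {0, 1, -1} := by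
    intro x _
    by_cases hx : x = 0
    · simp [hx]
    · have h2 := hcon x hx
      have h3 : (x - 1) * (x + 1) = 0 := by
        linear_combination h2
      rcases mul_eq_zero.mp h3 with h4 | h4
      · have : x = 1 := sub_eq_zero.mp h4
        simp [this]
      · have : x = -1 := eq_neg_of_add_eq_zero_left h4
        simp [this]
  have h5 := Finset.card_le_card h1
  have h6 : ({0, 1, -1} : Finset F).card ≤ 3 := Finset.card_le_three
  rw [Finset.card_univ] at h5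
  omega

/-- The product of two non-squares is a square. -/
theorem isSquare_mul_of_not [Fintype F] (hodd : Fintype.card F % 2 = 1) {a b : F} (ha : ¬ IsSquare a)
    (hb : ¬ IsSquare b) : IsSquare (a * b) := by
  have h2 : ringChar F ≠ 2 := by
    intro h
    have := FiniteField.even_card_of_char_two h
    omega
  classical
  have ha0 : a ≠ 0 := fun h => ha (by rw [h]; exact IsSquare.zero)
  have hb0 : b ≠ 0 := fun h => hb (by rw [h]; exact IsSquare.zero)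
  rw [← quadraticChar_one_iff_isSquare (mul_ne_zero ha0 hb0), map_mul,
    quadraticChar_neg_one_iff_not_isSquare.mpr ha, quadraticChar_neg_one_iff_not_isSquare.mpr hb]
  simp

/-- Sums of two squares with coefficients. -/
theorem exists_sq_sum [Fintype F] (hodd : Fintype.card F % 2 = 1) {A B : F} (hA : A ≠ 0) (hB : B ≠ 0) (e : F) :
    ∃ x y : F, x ^ 2 * A + y ^ 2 * B = e := by
  have h1 : Polynomial.degree (Polynomial.C A * Polynomial.X ^ 2 : Polynomial F) = 2 :=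
    Polynomial.degree_C_mul_X_pow 2 hA
  have h0 : Polynomial.degree (Polynomial.C B * Polynomial.X ^ 2 : Polynomial F) = 2 :=
    Polynomial.degree_C_mul_X_pow 2 hB
  have h2 : Polynomial.degree (Polynomial.C B * Polynomial.X ^ 2 - Polynomial.C e : Polynomial F) = 2 := by
    rw [Polynomial.degree_sub_eq_left_of_degree_lt (by
      rw [h0]
      exact lt_of_le_of_lt Polynomial.degree_C_le (by norm_num)), h0]
  obtain ⟨x, y, h⟩ := FiniteField.exists_root_sum_quadratic h1 h2 hodd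
  refine ⟨x, y, ?_⟩
  simp only [Polynomial.eval_mul, Polynomial.eval_C, Polynomial.eval_pow, Polynomial.eval_X, Polynomial.eval_sub] at h
  linear_combination h

/-- The product of two reflections. -/
theorem rf2_apply (hQ : IsNondegenerateQuadraticForm Q) {a b : ι → F} (hab : Q a = Q b) (x : ι → F) :
    ((rf hQ b * rf hQ a : GL ι F) : Matrix ι ι F) *ᵥ x =
      x - ((Q a)⁻¹ * pol Q x a) • a - ((Q a)⁻¹ * (pol Q x b - (Q a)⁻¹ * pol Q x a * pol Q a b)) • b := by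
  rw [Units.val_mul, ← Matrix.mulVec_mulVec, rf_mulVec, rf_mulVec, pol_sub_left hQ, pol_smul_left hQ, ← hab]

/-- The multiplier of `s - 1` on a plane. -/
theorem plane_kappa (hQ : IsNondegenerateQuadraticForm Q) {a b : ι → F} (hab : Q a = Q b) (ha : Q a ≠ 0) (α β : F) :
    Q (((rf hQ b * rf hQ a : GL ι F) : Matrix ι ι F) *ᵥ (α • a + β • b) - (α • a + β • b)) =
      (4 - (pol Q a b) ^ 2 / (Q a) ^ 2) * Q (α • a + β • b) := by
  obtain ⟨c, hc⟩ : ∃ c, c = Q a := ⟨_, rfl⟩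
  obtain ⟨τ, hτ⟩ : ∃ τ, τ = pol Q a b := ⟨_, rfl⟩
  have hbc : Q b = c := by rw [← hab, hc]
  have hc0 : c ≠ 0 := by rw [hc]; exact ha
  have haa : pol Q a a = 2 * c := by rw [pol_self hQ, hc]
  have hbb : pol Q b b = 2 * c := by rw [pol_self hQ, hbc]
  have hba : pol Q b a = τ := by rw [pol_symm hQ, hτ]
  have hA : pol Q (α • a + β • b) a = 2 * c * α + τ * β := by
    rw [pol_add_left hQ, pol_smul_left hQ, pol_smul_left hQ, haa, hba]
    ring
  have hB : pol Q (α • a + β • b) b = τ * α + 2 * c * β := by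
    rw [pol_add_left hQ, pol_smul_left hQ, pol_smul_left hQ, hbb, ← hτ]
    ring
  have e : ((rf hQ b * rf hQ a : GL ι F) : Matrix ι ι F) *ᵥ (α • a + β • b) - (α • a + β • b) =
      (-(c⁻¹ * (2 * c * α + τ * β))) • a + (-(c⁻¹ * (τ * α + 2 * c * β - c⁻¹ * (2 * c * α + τ * β) * τ))) • b := by
    rw [rf2_apply hQ hab, hA, hB, ← hτ, ← hc]
    module
  rw [e, Q_smul_add hQ, Q_smul_add hQ, ← hτ, ← hc, hbc]
  field_simp
  ring

/-- Orthogonal frames, planes. -/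
structure Pl (Q : (ι → F) → F) (D : Fin t → Submodule F (ι → F)) (j : Fin t) (z a b : ι → F) : Prop where
  ha : a ∈ D j
  hb : b ∈ D j
  az : pol Q a z = 0
  bz : pol Q b z = 0
  eq : Q a = Q b
  ne : Q a ≠ 0
  ind : ∀ α β : F, α • a + β • b = 0 → α = 0 ∧ β = 0
  sp : ∀ v ∈ D j, pol Q v z = 0 → ∃ α β : F, v = α • a + β • b

/-- Vectors with a prescribed norm etc. -/
def Gd (Q : (ι → F) → F) (D : Fin t → Submodule F (ι → F)) (l : Fin t) (z : ι → F) : Prop :=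
  ∃ p ∈ D l, p ≠ 0 ∧ Q p = 0 ∧ pol Q z p = 0

section Ctx3

variable [Fintype F] {M : Subgroup (GL ι F)} (S : Ctx Q D M 3)
include S

theorem Ctx.cut_nd {j : Fin t} {z : ι → F} (hz : z ∈ D j) (hzQ : Q z ≠ 0) :
    IsNondegenerateOn (QuadraticMap.polar Q) (cut Q (D j) z) := by
  have hQ := S.hQ
  have B := S.blk
  have hzz0 : pol Q z z ≠ 0 := by
    rw [pol_self hQ]
    exact mul_ne_zero S.two hzQ
  have hproj : ∀ x ∈ D j, x - (pol Q x z / pol Q z z) • z ∈ cut Q (D j) z := fun x hx => by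
    rw [mem_cut hQ]
    refine ⟨(D j).sub_mem hx ((D j).smul_mem _ hz), ?_⟩
    rw [pol_sub_left hQ, pol_smul_left hQ]
    field_simp
    ring
  intro v hv hv0
  obtain ⟨hv1, hv2⟩ := (mem_cut hQ).mp hv
  obtain ⟨x, hx, hne⟩ := (B.nd j v hv1 hv0).1
  change pol Q x v ≠ 0 at hne
  have hzv : pol Q z v = 0 := by rw [pol_symm hQ, hv2]
  have e : pol Q (x - (pol Q x z / pol Q z z) • z) v = pol Q x v := by
    rw [pol_sub_left hQ, pol_smul_left hQ, hzv]
    ring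
  refine ⟨⟨_, hproj x hx, by change pol Q _ v ≠ 0; rw [e]; exact hne⟩, ⟨_, hproj x hx, ?_⟩⟩
  change pol Q v _ ≠ 0
  rw [pol_symm hQ, e]
  exact hne

/-- An orthogonal frame of a member containing a given non-singular vector. -/
theorem Ctx.frame {j : Fin t} {z : ι → F} (hz : z ∈ D j) (hzQ : Q z ≠ 0) :
    ∃ a ∈ D j, ∃ a' ∈ D j, pol Q a z = 0 ∧ pol Q a' z = 0 ∧ pol Q a a' = 0 ∧ Q a ≠ 0 ∧ Q a' ≠ 0 ∧
      ∀ v ∈ D j, ∃ α β γ : F, v = α • z + β • a + γ • a' := by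
  have hQ := S.hQ
  have B := S.blk
  have hd : 2 ≤ Module.finrank F (cut Q (D j) z) := by
    have := finrank_cut (Q := Q) (D j) z
    rw [S.fin] at this
    omega
  obtain ⟨v₀, hv₀, hv₀0⟩ := Submodule.exists_mem_ne_zero_of_ne_bot (p := cut Q (D j) z) (by
    intro h0
    rw [h0] at hd
    simp at hd)
  obtain ⟨a, ha, haQ⟩ := exists_nonsingW hQ (S.cut_nd hz hzQ) S.two hv₀ hv₀0
  obtain ⟨a', ha', ha'0, ha'a⟩ := exists_mem_orth hQ (cut Q (D j) z) hd a
  obtain ⟨ha1, ha2⟩ := (mem_cut hQ).mp ha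
  obtain ⟨ha'1, ha'2⟩ := (mem_cut hQ).mp ha'
  have hzz0 : pol Q z z ≠ 0 := by
    rw [pol_self hQ]
    exact mul_ne_zero S.two hzQ
  have haa0 : pol Q a a ≠ 0 := by
    rw [pol_self hQ]
    exact mul_ne_zero S.two haQ
  have hza : pol Q z a = 0 := by rw [pol_symm hQ, ha2]
  have hza' : pol Q z a' = 0 := by rw [pol_symm hQ, ha'2]
  have haa' : pol Q a a' = 0 := by rw [pol_symm hQ, ha'a]
  have hind : LinearIndependent F ![z, a, a'] := by
    rw [Fintype.linearIndependent_iff]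
    intro g hg i
    simp only [Fin.sum_univ_three, Matrix.cons_val_zero, Matrix.cons_val_one, Matrix.cons_val] at hg
    have h1 := congrArg (fun x => pol Q x z) hg
    simp only [pol_add_left hQ, pol_smul_left hQ, ha2, ha'2, pol_zero_left hQ] at h1
    have h2 := congrArg (fun x => pol Q x a) hg
    simp only [pol_add_left hQ, pol_smul_left hQ, hza, ha'a, pol_zero_left hQ] at h2
    have g0 : g 0 = 0 := by
      have : g 0 * pol Q z z = 0 := by linear_combination h1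
      exact (mul_eq_zero.mp this).resolve_right hzz0
    have g1 : g 1 = 0 := by
      have : g 1 * pol Q a a = 0 := by linear_combination h2
      exact (mul_eq_zero.mp this).resolve_right haa0
    have g2 : g 2 = 0 := by
      rw [g0, g1] at hg
      simp only [zero_smul, zero_add] at hg
      exact (smul_eq_zero.mp hg).resolve_right ha'0
    fin_cases i
    · exact g0
    · exact g1
    · exact g2
  have hspan : Submodule.span F (Set.range ![z, a, a']) = D j := by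
    refine Submodule.eq_of_le_of_finrank_eq ?_ ?_
    · rw [Submodule.span_le]
      rintro _ ⟨i, rfl⟩
      fin_cases i
      · exact hz
      · exact ha1
      · exact ha'1
    · rw [finrank_span_eq_card hind, S.fin]
      simp
  have hsp : ∀ v ∈ D j, ∃ α β γ : F, v = α • z + β • a + γ • a' := by
    intro v hv
    rw [← hspan] at hv
    obtain ⟨c, hc⟩ := (Submodule.mem_span_range_iff_exists_fun F).mp hv
    refine ⟨c 0, c 1, c 2, ?_⟩
    rw [← hc, Fin.sum_univ_three]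
    simp
  have hQa' : Q a' ≠ 0 := by
    intro h0
    apply ha'0
    apply eq_zero_of_mem hQ B ha'1
    intro y hy
    obtain ⟨α, β, γ, rfl⟩ := hsp y hy
    rw [pol_add_left hQ, pol_add_left hQ, pol_smul_left hQ, pol_smul_left hQ, pol_smul_left hQ, hza', haa',
      pol_singular hQ h0]
    ring
  exact ⟨a, ha1, a', ha'1, ha2, ha'2, haa', haQ, hQa', hsp⟩

/-- The perpendicular plane represents everything. -/
theorem Ctx.exists_norm (hodd : Fintype.card F % 2 = 1) {j : Fin t} {z : ι → F} (hz : z ∈ D j) (hzQ : Q z ≠ 0) (e : F) :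
    ∃ π ∈ D j, pol Q π z = 0 ∧ Q π = e := by
  have hQ := S.hQ
  obtain ⟨a, ha, a', ha', haz, ha'z, haa', haQ, ha'Q, -⟩ := S.frame hz hzQ
  obtain ⟨x, y, hxy⟩ := exists_sq_sum hodd haQ ha'Q e
  refine ⟨x • a + y • a', (D j).add_mem ((D j).smul_mem _ ha) ((D j).smul_mem _ ha'), ?_, ?_⟩
  · rw [pol_add_left hQ, pol_smul_left hQ, pol_smul_left hQ, haz, ha'z]
    ring
  · rw [Q_smul_add hQ, haa', ← hxy]
    ring

/-- The plane attached to a non-singular vector. -/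
theorem Ctx.exists_pl (hq : 5 ≤ Fintype.card F) {j : Fin t} {z : ι → F} (hz : z ∈ D j) (hzQ : Q z ≠ 0) :
    ∃ a b, Pl Q D j z a b := by
  have hQ := S.hQ
  obtain ⟨a, ha, a', ha', haz, ha'z, haa', haQ, ha'Q, hsp⟩ := S.frame hz hzQ
  obtain ⟨ρ, hρ⟩ : ∃ ρ, ρ = Q a' / Q a := ⟨_, rfl⟩
  have hρ0 : ρ ≠ 0 := by
    rw [hρ]
    exact div_ne_zero ha'Q haQ
  -- a point on the conic
  obtain ⟨e, he0, he1⟩ : ∃ e : F, e ≠ 0 ∧ e ^ 2 + ρ ≠ 0 := by
    by_contra hcon
    push Not at hcon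
    obtain ⟨τ, hτ0, hτ1⟩ := exists_tau hq
    have h1 := hcon 1 one_ne_zero
    have h2 := hcon τ hτ0
    apply hτ1
    linear_combination h2 - h1
  obtain ⟨x, hx⟩ : ∃ x, x = (ρ / e - e) / 2 := ⟨_, rfl⟩
  obtain ⟨s, hs⟩ : ∃ s, s = (e + ρ / e) / 2 := ⟨_, rfl⟩
  have h2 := S.two
  have hs0 : s ≠ 0 := by
    rw [hs]
    apply div_ne_zero _ h2
    intro h
    apply he1
    field_simp at h
    linear_combination h
  have hconic : s ^ 2 = x ^ 2 + ρ := by
    rw [hs, hx]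
    field_simp
    ring
  have haa0 : pol Q a a ≠ 0 := by
    rw [pol_self hQ]
    exact mul_ne_zero S.two haQ
  have ha'a'0 : pol Q a' a' ≠ 0 := by
    rw [pol_self hQ]
    exact mul_ne_zero S.two ha'Q
  have ha'a : pol Q a' a = 0 := by rw [pol_symm hQ, haa']
  have hzz0 : pol Q z z ≠ 0 := by
    rw [pol_self hQ]
    exact mul_ne_zero S.two hzQ
  have hza : pol Q z a = 0 := by rw [pol_symm hQ, haz]
  have hza' : pol Q z a' = 0 := by rw [pol_symm hQ, ha'z]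
  refine ⟨a, s⁻¹ • (x • a + a'), ha, (D j).smul_mem _ ((D j).add_mem ((D j).smul_mem _ ha) ha'), haz, ?_, ?_, haQ, ?_, ?_⟩
  · rw [pol_smul_left hQ, pol_add_left hQ, pol_smul_left hQ, haz, ha'z]
    ring
  · have e1 : x • a + a' = x • a + (1 : F) • a' := by rw [one_smul]
    rw [hQ.smul, e1, Q_smul_add hQ, haa']
    have e2 : Q a' = ρ * Q a := by
      rw [hρ]
      field_simp
    rw [e2]
    field_simp
    rw [hconic]
    ring
  · intro α β h
    have h3 := congrArg (fun y => pol Q y a') h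
    simp only [pol_add_left hQ, pol_smul_left hQ, haa', pol_zero_left hQ] at h3
    have hβ : β = 0 := by
      have h4 : β * s⁻¹ * pol Q a' a' = 0 := by
        rw [mul_assoc]
        linear_combination h3
      rcases mul_eq_zero.mp h4 with h5 | h5
      · exact (mul_eq_zero.mp h5).resolve_right (inv_ne_zero hs0)
      · exact absurd h5 ha'a'0
    refine ⟨?_, hβ⟩
    rw [hβ, zero_smul, add_zero] at h
    have h6 := smul_eq_zero.mp h
    exact h6.resolve_right (by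
      rintro rfl
      exact haQ (Q_zero hQ))
  · intro v hv hvz
    obtain ⟨α, β, γ, rfl⟩ := hsp v hv
    rw [pol_add_left hQ, pol_add_left hQ, pol_smul_left hQ, pol_smul_left hQ, pol_smul_left hQ, haz, ha'z] at hvz
    have hα : α = 0 := by
      have : α * pol Q z z = 0 := by linear_combination hvz
      exact (mul_eq_zero.mp this).resolve_right hzz0
    refine ⟨β - γ * x, γ * s, ?_⟩
    rw [hα, zero_smul, zero_add, smul_smul, mul_assoc, mul_inv_cancel₀ hs0]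
    module

omit S in
theorem Pl.perp_zero {j : Fin t} {z a b v : ι → F} (S : Ctx Q D M 3) (P : Pl Q D j z a b) (hz : z ∈ D j) (hzQ : Q z ≠ 0)
    (hv : v ∈ D j) (hvz : pol Q v z = 0) (hva : pol Q v a = 0) (hvb : pol Q v b = 0) : v = 0 := by
  have hQ := S.hQ
  have B := S.blk
  have hzz0 : pol Q z z ≠ 0 := by
    rw [pol_self hQ]
    exact mul_ne_zero S.two hzQ
  apply eq_zero_of_mem hQ B hv
  intro y hy
  have hproj : pol Q (y - (pol Q y z / pol Q z z) • z) z = 0 := by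
    rw [pol_sub_left hQ, pol_smul_left hQ]
    field_simp
    ring
  obtain ⟨α, β, e⟩ := P.sp _ ((D j).sub_mem hy ((D j).smul_mem _ hz)) hproj
  have e2 : y = (pol Q y z / pol Q z z) • z + α • a + β • b := by
    rw [add_assoc, ← e]
    abel
  have h1 : pol Q z v = 0 := by rw [pol_symm hQ, hvz]
  have h2 : pol Q a v = 0 := by rw [pol_symm hQ, hva]
  have h3 : pol Q b v = 0 := by rw [pol_symm hQ, hvb]
  rw [e2, pol_add_left hQ, pol_add_left hQ, pol_smul_left hQ, pol_smul_left hQ, pol_smul_left hQ, h1, h2, h3]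
  ring

theorem Ctx.exists_tr (hodd : Fintype.card F % 2 = 1) {l : Fin t} {z z' : ι → F} (hz : z ∈ D l) (hz' : z' ∈ D l)
    (hzQ : Q z ≠ 0) (hQz' : Q z' = Q z) (hd : Q (z - z') ≠ 0) : ∃ X, BE Q D M l X ∧ (X : Matrix ι ι F) *ᵥ z = z' := by
  have hQ := S.hQ
  obtain ⟨a, ha, haz, haQ⟩ := S.exists_norm hodd hz hzQ (Q (z - z'))
  refine ⟨rf hQ (z - z') * rf hQ a, S.be_rf ha ((D l).sub_mem hz hz') haQ (by rw [haQ]; exact hd), ?_⟩
  rw [Units.val_mul, ← Matrix.mulVec_mulVec, rf_mulVec hQ a, pol_symm hQ z a, haz, mul_zero, zero_smul, sub_zero,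
    rf_mulVec]
  have e : pol Q z (z - z') = Q (z - z') := by
    rw [pol_sub_right hQ, pol_self hQ, Q_sub hQ, hQz']
    ring
  rw [e, inv_mul_cancel₀ hd, one_smul]
  abel

theorem Ctx.exists_z (hodd : Fintype.card F % 2 = 1) {l : Fin t} {z : ι → F} (hz : z ∈ D l) (hzQ : Q z ≠ 0) (d : F) :
    ∃ z' ∈ D l, Q z' = Q z ∧ Q (z' - z) = d := by
  have hQ := S.hQ
  have h2 := S.two
  obtain ⟨c, hc⟩ : ∃ c, c = Q z := ⟨_, rfl⟩
  have hc0 : c ≠ 0 := by rw [hc]; exact hzQ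
  obtain ⟨α, hα⟩ : ∃ α, α = 1 - d / (2 * c) := ⟨_, rfl⟩
  obtain ⟨π, hπ, hπz, hπQ⟩ := S.exists_norm hodd hz hzQ (c * (1 - α ^ 2))
  have hzπ : pol Q z π = 0 := by rw [pol_symm hQ, hπz]
  refine ⟨α • z + π, (D l).add_mem ((D l).smul_mem _ hz) hπ, ?_, ?_⟩
  · rw [Q_add hQ, hQ.smul, pol_smul_left hQ, hπQ, hzπ, ← hc]
    ring
  · have e : α • z + π - z = (α - 1) • z + π := by module
    rw [e, Q_add hQ, hQ.smul, pol_smul_left hQ, hπQ, hzπ, ← hc, hα]
    field_simp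
    ring

theorem Ctx.exists_z' (hodd : Fintype.card F % 2 = 1) {l : Fin t} {z : ι → F} (hz : z ∈ D l) (hzQ : Q z ≠ 0) :
    ∃ z' ∈ D l, Q z' = Q z ∧ Q (z' - z) ≠ 0 ∧ ∀ τ : F, z' ≠ τ • z := by
  have hQ := S.hQ
  have h2 := S.two
  obtain ⟨d, hd0, hd1⟩ : ∃ d : F, d ≠ 0 ∧ d ≠ 4 * Q z := by
    by_cases h3 : Q z = 4 * Q z
    · refine ⟨- Q z, neg_ne_zero.mpr hzQ, fun h => ?_⟩
      have : 2 * Q z = 0 := by linear_combination h3 - h
      exact (mul_ne_zero h2 hzQ) this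
    · exact ⟨Q z, hzQ, h3⟩
  obtain ⟨z', hz', hQz', hQd⟩ := S.exists_z hodd hz hzQ d
  refine ⟨z', hz', hQz', by rw [hQd]; exact hd0, fun τ hτ => ?_⟩
  rw [hτ, hQ.smul] at hQz'
  have hτ2 : (τ - 1) * (τ + 1) = 0 := by
    have : (τ ^ 2 - 1) * Q z = 0 := by linear_combination hQz'
    have h3 := (mul_eq_zero.mp this).resolve_right hzQ
    linear_combination h3
  rcases mul_eq_zero.mp hτ2 with h4 | h4
  · have h5 : τ = 1 := sub_eq_zero.mp h4
    rw [hτ, h5] at hQd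
    simp only [one_smul, sub_self] at hQd
    rw [Q_zero hQ] at hQd
    exact hd0 hQd.symm
  · have h5 : τ = -1 := eq_neg_of_add_eq_zero_left h4
    rw [hτ, h5] at hQd
    have e : (-1 : F) • z - z = (-2 : F) • z := by module
    rw [e, hQ.smul] at hQd
    apply hd1
    rw [← hQd]
    ring

/-! ### The classes of vectors -/

theorem Ctx.gd_of_eq_norm {l : Fin t} {z w : ι → F} (hz : z ∈ D l) (hw : w ∈ D l) (hzQ : Q z ≠ 0) (hzw : Q z = Q w)
    (hG : Gd Q D l z) : Gd Q D l w := by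
  have hQ := S.hQ
  have h2 := S.two
  obtain ⟨p, hp, hp0, hpQ, hzp⟩ := hG
  have hmem : ∀ {a : ι → F}, a ∈ D l → ((rf hQ a : GL ι F) : Matrix ι ι F) *ᵥ p ∈ D l := fun ha => by
    rw [rf_mulVec]
    exact (D l).sub_mem hp ((D l).smul_mem _ ha)
  have hinj : ∀ a : ι → F, ((rf hQ a : GL ι F) : Matrix ι ι F) *ᵥ p ≠ 0 := fun a h => by
    have := inv_mulVec_mulVec (rf hQ a) p
    rw [h] at this
    apply hp0
    simpa using this.symm
  have hQp : ∀ a : ι → F, Q (((rf hQ a : GL ι F) : Matrix ι ι F) *ᵥ p) = 0 := fun a => by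
    rw [(mem_isometryGroup_iff Q _).mp (rf_mem hQ a), hpQ]
  by_cases h1 : Q (z - w) = 0
  · -- then the sum is non-singular
    have h3 : Q (z + w) ≠ 0 := by
      intro h4
      have h5 : Q (z - w) = Q z + Q w - pol Q z w := Q_sub hQ z w
      have h6 : Q (z + w) = Q z + Q w + pol Q z w := Q_add hQ z w
      have h7 : 2 * (2 * Q z) = 0 := by
        rw [h1] at h5
        rw [h4] at h6
        linear_combination (-1 : F) * h5 - h6 + 2 * hzw
      exact (mul_ne_zero h2 (mul_ne_zero h2 hzQ)) h7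
    refine ⟨_, hmem ((D l).add_mem hz hw), hinj _, hQp _, ?_⟩
    have e1 : pol Q z (z + w) = Q (z + w) := by
      rw [pol_add_right hQ, pol_self hQ, Q_add hQ, ← hzw]
      ring
    have e2 : ((rf hQ (z + w) : GL ι F) : Matrix ι ι F) *ᵥ z = - w := by
      rw [rf_mulVec, e1, inv_mul_cancel₀ h3, one_smul]
      abel
    have e3 := pol_isometry (rf hQ (z + w)) (rf_mem hQ _) z p
    rw [e2, pol_neg_left hQ, hzp] at e3
    exact neg_eq_zero.mp e3
  · refine ⟨_, hmem ((D l).sub_mem hz hw), hinj _, hQp _, ?_⟩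
    have e1 : pol Q z (z - w) = Q (z - w) := by
      rw [pol_sub_right hQ, pol_self hQ, Q_sub hQ, ← hzw]
      ring
    have e2 : ((rf hQ (z - w) : GL ι F) : Matrix ι ι F) *ᵥ z = w := by
      rw [rf_mulVec, e1, inv_mul_cancel₀ h1, one_smul]
      abel
    have e3 := pol_isometry (rf hQ (z - w)) (rf_mem hQ _) z p
    rw [e2, hzp] at e3
    exact e3

/-- Vectors whose norms lie in the same class. -/
theorem Ctx.gd_F3 {l l' : Fin t} {z z' : ι → F} (hz : z ∈ D l) (hz' : z' ∈ D l') (hzQ : Q z ≠ 0) (hz'Q : Q z' ≠ 0)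
    (hsq : IsSquare (Q z * Q z')) (hG : Gd Q D l' z') : Gd Q D l z := by
  have hQ := S.hQ
  obtain ⟨e, he⟩ := S.iso l' l
  have hpol : ∀ x y : D l', pol Q ((e x : D l) : ι → F) ((e y : D l) : ι → F) = pol Q (x : ι → F) y := fun x y => by
    simp only [pol, QuadraticMap.polar]
    have h1 : ((e x : D l) : ι → F) + ((e y : D l) : ι → F) = ((e (x + y) : D l) : ι → F) := by
      rw [map_add]
      rfl
    rw [h1, he, he, he]
    rfl
  obtain ⟨w, hw⟩ : ∃ w, w = ((e ⟨z', hz'⟩ : D l) : ι → F) := ⟨_, rfl⟩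
  have hwm : w ∈ D l := by
    rw [hw]
    exact (e _).2
  have hwQ : Q w = Q z' := by
    rw [hw, he]
  have hGw : Gd Q D l w := by
    obtain ⟨p, hp, hp0, hpQ, hzp⟩ := hG
    refine ⟨((e ⟨p, hp⟩ : D l) : ι → F), (e _).2, ?_, ?_, ?_⟩
    · intro h
      apply hp0
      have h1 : e ⟨p, hp⟩ = 0 := Subtype.ext h
      have h2 := (LinearEquiv.map_eq_zero_iff e).mp h1
      exact congrArg Subtype.val h2
    · rw [he]
      exact hpQ
    · rw [hw, hpol]
      exact hzp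
  obtain ⟨r, hr⟩ := hsq
  have hr0 : r ≠ 0 := by
    rintro rfl
    rw [mul_zero] at hr
    exact (mul_ne_zero hzQ hz'Q) hr
  obtain ⟨s, hs⟩ : ∃ s, s = Q z' / r := ⟨_, rfl⟩
  have hs0 : s ≠ 0 := by
    rw [hs]
    exact div_ne_zero hz'Q hr0
  have hnorm : Q (s • z) = Q w := by
    have hr2 : r ^ 2 = Q z * Q z' := by rw [hr]; ring
    rw [hQ.smul, hwQ, hs, div_pow, hr2]
    field_simp
  have h5 := S.gd_of_eq_norm hwm ((D l).smul_mem s hz) (by rw [hwQ]; exact hz'Q) hnorm.symm hGw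
  obtain ⟨p, hp, hp0, hpQ, hzp⟩ := h5
  refine ⟨p, hp, hp0, hpQ, ?_⟩
  rw [pol_smul_left hQ] at hzp
  exact (mul_eq_zero.mp hzp).resolve_left hs0

theorem Ctx.gd_F2 (hodd : Fintype.card F % 2 = 1) {l l' : Fin t} {z z' : ι → F} (hz : z ∈ D l) (hz' : z' ∈ D l')
    (hzQ : Q z ≠ 0) (hz'Q : Q z' ≠ 0) (hsq : ¬ IsSquare (Q z * Q z')) (hG : ¬ Gd Q D l z) : Gd Q D l' z' := by
  have hQ := S.hQ
  obtain ⟨p, hp, hp0, hpQ⟩ := S.exists_sing (j := l')
  obtain ⟨b, hb, hpb, hbQ⟩ := exists_bW hQ (S.blk.nd l') S.two (by rw [S.fin]) hp hp0 hpQ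
  have hGb : Gd Q D l' b := ⟨p, hp, hp0, hpQ, by rw [pol_symm hQ, hpb]⟩
  have h1 : ¬ IsSquare (Q z * Q b) := fun h => hG (S.gd_F3 hz hb hzQ hbQ h hGb)
  have h2 := isSquare_mul_of_not hodd hsq h1
  obtain ⟨r, hr⟩ := h2
  refine S.gd_F3 hz' hb hz'Q hbQ ⟨r / Q z, ?_⟩ hGb
  field_simp
  linear_combination hr

/-! ### A non-singular component of the centre -/

theorem Ctx.goodSing {u y : ι → F} {j : Fin t} (hu : Q u = 0) (hy : Par Q M u y) (hym : y ∈ D j) (hy0 : y ≠ 0)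
    (hyQ : Q y = 0) (hnot : u ∉ D j) : Good Q D M := by
  have hQ := S.hQ
  have h1 : Par Q M u ((1 : F) • y) := by rwa [one_smul]
  have h2 := Par.swap hQ hu hyQ h1
  refine ⟨j, y, _, hym, hyQ, hy0, h2, fun hm => hnot ?_⟩
  have := (D j).smul_mem (-1 : F) hm
  simpa using this

/-- Moving a parameter with a product of two reflections in the plane perpendicular to the component. -/
theorem Ctx.pl_step {U W z a b : ι → F} {j : Fin t} (P : Pl Q D j z a b) (hzm : z ∈ D j) (hzQ : Q z ≠ 0)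
    (hzd : cp D j U = z) (hU : Q U = 0) (hW : Par Q M U W) (hWj : cp D j W ∉ Submodule.span F {z}) :
    Par Q M U (((rf S.hQ b * rf S.hQ a : GL ι F) : Matrix ι ι F) *ᵥ W - W) ∧
    ((rf S.hQ b * rf S.hQ a : GL ι F) : Matrix ι ι F) *ᵥ W - W ≠ 0 ∧
    ((rf S.hQ b * rf S.hQ a : GL ι F) : Matrix ι ι F) *ᵥ W - W ∈ D j ∧
    pol Q (((rf S.hQ b * rf S.hQ a : GL ι F) : Matrix ι ι F) *ᵥ W - W) z = 0 := by
  have hQ := S.hQ
  have B := S.blk
  have hs := S.be_rf P.ha P.hb P.eq P.ne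
  obtain ⟨c, hc⟩ : ∃ c, c = Q a := ⟨_, rfl⟩
  obtain ⟨τ, hτ⟩ : ∃ τ, τ = pol Q a b := ⟨_, rfl⟩
  have hc0 : c ≠ 0 := by rw [hc]; exact P.ne
  have hza : pol Q z a = 0 := by rw [pol_symm hQ, P.az]
  have hzb : pol Q z b = 0 := by rw [pol_symm hQ, P.bz]
  have hUa : pol Q U a = 0 := by rw [pol_cp hQ B j U P.ha, hzd, hza]
  have hUb : pol Q U b = 0 := by rw [pol_cp hQ B j U P.hb, hzd, hzb]
  have hsU : ((rf hQ b * rf hQ a : GL ι F) : Matrix ι ι F) *ᵥ U = U := by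
    rw [rf2_apply hQ P.eq, hUa, hUb]
    simp
  have P₁ := Par.conj hW hs.mem hs.iso
  rw [hsU] at P₁
  have P₂ := Par.sub hQ hU P₁ hW
  obtain ⟨A, hA⟩ : ∃ A, A = pol Q W a := ⟨_, rfl⟩
  obtain ⟨B', hB'⟩ : ∃ B', B' = pol Q W b := ⟨_, rfl⟩
  have e : ((rf hQ b * rf hQ a : GL ι F) : Matrix ι ι F) *ᵥ W - W =
      (-(c⁻¹ * A)) • a + (-(c⁻¹ * (B' - c⁻¹ * A * τ))) • b := by
    rw [rf2_apply hQ P.eq, ← hA, ← hB', ← hc, ← hτ]
    module
  refine ⟨P₂, ?_, ?_, ?_⟩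
  · intro h0
    rw [e] at h0
    obtain ⟨h1, h2⟩ := P.ind _ _ h0
    have hA0 : A = 0 := by
      have h3 : c⁻¹ * A = 0 := neg_eq_zero.mp h1
      exact (mul_eq_zero.mp h3).resolve_left (inv_ne_zero hc0)
    have hB0 : B' = 0 := by
      have h3 : c⁻¹ * (B' - c⁻¹ * A * τ) = 0 := neg_eq_zero.mp h2
      have h4 := (mul_eq_zero.mp h3).resolve_left (inv_ne_zero hc0)
      rw [hA0] at h4
      simpa using h4
    apply hWj
    have hzz0 : pol Q z z ≠ 0 := by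
      rw [pol_self hQ]
      exact mul_ne_zero S.two hzQ
    have hv := Pl.perp_zero S P hzm hzQ (v := cp D j W - (pol Q (cp D j W) z / pol Q z z) • z)
      ((D j).sub_mem (cp_mem B j W) ((D j).smul_mem _ hzm))
      (by
        rw [pol_sub_left hQ, pol_smul_left hQ]
        field_simp
        ring)
      (by
        rw [pol_sub_left hQ, pol_smul_left hQ, hza, ← pol_cp hQ B j W P.ha, ← hA, hA0]
        ring)
      (by
        rw [pol_sub_left hQ, pol_smul_left hQ, hzb, ← pol_cp hQ B j W P.hb, ← hB', hB0]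
        ring)
    rw [sub_eq_zero.mp hv]
    exact Submodule.smul_mem _ _ (Submodule.mem_span_singleton_self z)
  · rw [e]
    exact (D j).add_mem ((D j).smul_mem _ P.ha) ((D j).smul_mem _ P.hb)
  · rw [e, pol_add_left hQ, pol_smul_left hQ, pol_smul_left hQ, P.az, P.bz]
    ring

theorem Ctx.goodC2 (hq : 5 ≤ Fintype.card F) {U W : ι → F} {i j : Fin t} (hU : Q U = 0) (hW : Par Q M U W)
    (hij : i ≠ j) (hz : Q (cp D j U) ≠ 0) (hWj : cp D j W ∉ Submodule.span F {cp D j U})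
    (hGS : GS Q D M i (cp D i U)) : Good Q D M := by
  have hQ := S.hQ
  have B := S.blk
  obtain ⟨a, b, P⟩ := S.exists_pl hq (cp_mem B j U) hz
  obtain ⟨h1, h2, h3, -⟩ := S.pl_step P (cp_mem B j U) hz rfl hU hW hWj
  exact S.core1 hU h1 h2 (cp_other hQ B hij h3) hGS

/-- A new centre with components in two members only. -/
theorem Ctx.newPair (hodd : Fintype.card F % 2 = 1) {u y z' : ι → F} {j l : Fin t} (hlj : l ≠ j) (hu : Q u = 0)
    (hy : Par Q M u y) (hym : y ∈ D j) (hh : Q y ≠ 0) (hcl : Q (cp D l u) ≠ 0) (hz'm : z' ∈ D l)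
    (hz'Q : Q z' = Q (cp D l u)) (hd : Q (z' - cp D l u) = -(Q y)⁻¹) :
    Q ((z' - cp D l u) - (Q y)⁻¹ • y) = 0 ∧ Par Q M ((z' - cp D l u) - (Q y)⁻¹ • y) (y + (2 * Q y) • u) := by
  have hQ := S.hQ
  have B := S.blk
  obtain ⟨h, hh'⟩ : ∃ h, h = Q y := ⟨_, rfl⟩
  rw [← hh'] at hh hd ⊢
  obtain ⟨z, hzd⟩ : ∃ z, z = cp D l u := ⟨_, rfl⟩
  rw [← hzd] at hcl hz'Q hd ⊢
  have hzm : z ∈ D l := by
    rw [hzd]
    exact cp_mem B l u
  obtain ⟨δ, hδ⟩ : ∃ δ, δ = z' - z := ⟨_, rfl⟩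
  rw [← hδ] at hd ⊢
  have hδm : δ ∈ D l := by
    rw [hδ]
    exact (D l).sub_mem hz'm hzm
  have hd' : Q (z - z') ≠ 0 := by
    have e : z - z' = (-1 : F) • (z' - z) := by module
    rw [e, hQ.smul, ← hδ, hd]
    simpa using hh
  obtain ⟨X, hX, hXz⟩ := S.exists_tr hodd hzm hz'm hcl hz'Q hd'
  have hXu : (X : Matrix ι ι F) *ᵥ u = u + δ := by
    rw [S.be_apply hX u, ← hzd, hXz, hδ]
  have hXy : (X : Matrix ι ι F) *ᵥ y = y := hX.fix y (cp_other hQ B hlj hym)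
  have P₁ := Par.conj hy hX.mem hX.iso
  rw [hXu, hXy] at P₁
  have hQu' : Q (u + δ) = 0 := by
    rw [← hXu, (mem_isometryGroup_iff Q _).mp hX.iso u, hu]
  have hμ : pol Q δ u = h⁻¹ := by
    rw [Q_add hQ, hu, hd, pol_symm hQ] at hQu'
    linear_combination hQu'
  obtain ⟨g, hg⟩ := exists_eich hQ hu hy.1
  have hgI := hg.mem_isometry hQ hu hy.1
  have P₂ := Par.conj P₁ (hy.2 g hg) hgI
  have huu : pol Q u u = 0 := pol_singular hQ hu
  have hyu : pol Q y u = 0 := by rw [pol_symm hQ, hy.1]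
  have hδy : pol Q δ y = 0 := B.orth l j hlj δ hδm y hym
  have e₁ : (g : Matrix ι ι F) *ᵥ (u + δ) = δ - h⁻¹ • y := by
    rw [hg, pol_add_left hQ, pol_add_left hQ, hy.1, hδy, huu, hμ, ← hh']
    simp only [add_zero, zero_add]
    rw [mul_inv_cancel₀ hh]
    module
  have e₂ : (g : Matrix ι ι F) *ᵥ y = y + (2 * h) • u := by
    rw [hg, pol_self hQ, hyu, ← hh']
    module
  rw [e₁, e₂] at P₂
  refine ⟨?_, P₂⟩
  rw [← e₁, (mem_isometryGroup_iff Q _).mp hgI, hQu']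

theorem Ctx.kappa_nonsq (hodd : Fintype.card F % 2 = 1) {j l : Fin t} {z a b zl : ι → F} (P : Pl Q D j z a b)
    (hz : z ∈ D j) (hzQ : Q z ≠ 0) (hzl : zl ∈ D l) (hzlQ : Q zl ≠ 0) (hG : ¬ Gd Q D l zl) (hzz : Q z = - Q zl) :
    ¬ IsSquare (4 - (pol Q a b) ^ 2 / (Q a) ^ 2) := by
  have hQ := S.hQ
  have h2 := S.two
  obtain ⟨c, hc⟩ : ∃ c, c = Q a := ⟨_, rfl⟩
  obtain ⟨τ, hτ⟩ : ∃ τ, τ = pol Q a b := ⟨_, rfl⟩
  rw [← hc, ← hτ]
  have hc0 : c ≠ 0 := by rw [hc]; exact P.ne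
  have hbc : Q b = c := by rw [← P.eq, hc]
  rintro ⟨f, hf⟩
  have hf' : (f * c) ^ 2 = 4 * c ^ 2 - τ ^ 2 := by
    have h3 : 4 - τ ^ 2 / c ^ 2 = f ^ 2 := by rw [hf]; ring
    field_simp at h3
    linear_combination -h3
  by_cases hm : IsSquare (-1 : F)
  · obtain ⟨i, hi⟩ := hm
    have hsq : IsSquare (Q zl * Q z) := ⟨i * Q zl, by
      rw [hzz]
      linear_combination (Q zl) ^ 2 * hi⟩
    have hnG : ¬ Gd Q D j z := fun hh => hG (S.gd_F3 hzl hz hzlQ hzQ hsq hh)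
    apply hnG
    obtain ⟨e, he⟩ : ∃ e, e = i * f * c := ⟨_, rfl⟩
    have he2 : e ^ 2 = τ ^ 2 - 4 * c ^ 2 := by
      rw [he]
      have h5 : i ^ 2 = -1 := by rw [hi]; ring
      have h6 : (i * f * c) ^ 2 = i ^ 2 * (f * c) ^ 2 := by ring
      rw [h6, h5, hf']
      ring
    obtain ⟨x, hx⟩ : ∃ x, x = (e - τ) / (2 * c) := ⟨_, rfl⟩
    refine ⟨x • a + (1 : F) • b, (D j).add_mem ((D j).smul_mem _ P.ha) ((D j).smul_mem _ P.hb), ?_, ?_, ?_⟩
    · intro h
      exact one_ne_zero (P.ind _ _ h).2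
    · rw [Q_smul_add hQ, ← hc, hbc, ← hτ, hx]
      field_simp
      linear_combination he2
    · rw [pol_add_right hQ, pol_smul_right hQ, pol_smul_right hQ, pol_symm hQ z a, P.az, pol_symm hQ z b, P.bz]
      ring
  · have hnsq : ¬ IsSquare (Q zl * Q z) := by
      rintro ⟨r, hr⟩
      apply hm
      refine ⟨r / Q zl, ?_⟩
      rw [hzz] at hr
      field_simp
      linear_combination hr
    have hGj : Gd Q D j z := S.gd_F2 hodd hzl hz hzlQ hzQ hnsq hG
    obtain ⟨p, hp, hp0, hpQ, hzp⟩ := hGj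
    obtain ⟨α, β, e⟩ := P.sp p hp (by rw [pol_symm hQ]; exact hzp)
    rw [e, Q_smul_add hQ, ← hc, hbc, ← hτ] at hpQ
    have hβ : β ≠ 0 := by
      rintro rfl
      have h3 : α ^ 2 * c = 0 := by linear_combination hpQ
      have h4 : α = 0 := pow_eq_zero_iff (two_ne_zero) |>.mp ((mul_eq_zero.mp h3).resolve_right hc0)
      apply hp0
      rw [e, h4]
      simp
    have he : (2 * c * α + τ * β) ^ 2 = - (f * c) ^ 2 * β ^ 2 := by
      rw [hf']
      linear_combination 4 * c * hpQ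
    by_cases hf0 : f = 0
    · have hτ2 : τ ^ 2 = 4 * c ^ 2 := by
        rw [hf0] at hf'
        linear_combination hf'
      have h3 : (2 * c * α + τ * β) ^ 2 = 0 := by
        rw [he, hf0]
        ring
      have h4 : 2 * c * α + τ * β = 0 := pow_eq_zero_iff (two_ne_zero) |>.mp h3
      have h5 : τ * α + 2 * c * β = 0 := by
        have h6 : (2 * c) * (τ * α + 2 * c * β) = 0 := by
          linear_combination τ * h4 - β * hτ2
        exact (mul_eq_zero.mp h6).resolve_left (mul_ne_zero h2 hc0)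
      apply hp0
      refine Pl.perp_zero S P hz hzQ hp (by rw [pol_symm hQ]; exact hzp) ?_ ?_
      · rw [e, pol_add_left hQ, pol_smul_left hQ, pol_smul_left hQ, pol_self hQ, ← hc, pol_symm hQ b a, ← hτ]
        linear_combination h4
      · rw [e, pol_add_left hQ, pol_smul_left hQ, pol_smul_left hQ, pol_self hQ, hbc, ← hτ]
        linear_combination h5
    · apply hm
      refine ⟨(2 * c * α + τ * β) / (f * c * β), ?_⟩
      field_simp
      linear_combination -he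

/-- When the norm condition holds. -/
theorem Ctx.finish2 (hq : 5 ≤ Fintype.card F) (hodd : Fintype.card F % 2 = 1) {u y : ι → F} {j l : Fin t} (hlj : l ≠ j)
    (hu : Q u = 0) (hy : Par Q M u y) (hym : y ∈ D j) (hh : Q y ≠ 0) (hz0 : cp D j u ≠ 0) (hlQ : Q (cp D l u) ≠ 0)
    (hlG : ¬ Gd Q D l (cp D l u)) (hns : ¬ IsSquare (- Q y * Q (cp D l u))) : Good Q D M := by
  have hQ := S.hQ
  have B := S.blk
  obtain ⟨z', hz', hz'Q, hzd⟩ := S.exists_z hodd (cp_mem B l u) hlQ (-(Q y)⁻¹)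
  obtain ⟨hUQ, hP⟩ := S.newPair hodd hlj hu hy hym hh hlQ hz' hz'Q hzd
  obtain ⟨δ, hδ⟩ : ∃ δ, δ = z' - cp D l u := ⟨_, rfl⟩
  rw [← hδ] at hUQ hP hzd
  have hδm : δ ∈ D l := by
    rw [hδ]
    exact (D l).sub_mem hz' (cp_mem B l u)
  have hδQ : Q δ ≠ 0 := by
    rw [hzd]
    exact neg_ne_zero.mpr (inv_ne_zero hh)
  have hGδ : Gd Q D l δ := by
    refine S.gd_F2 hodd (cp_mem B l u) hδm hlQ hδQ ?_ hlG
    rintro ⟨r, hr⟩
    apply hns
    refine ⟨r * Q y, ?_⟩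
    rw [hzd] at hr
    field_simp at hr
    linear_combination (Q y) * hr
  have hGS : GS Q D M l δ := by
    obtain ⟨p, hp, hp0, hpQ, hzp⟩ := hGδ
    exact S.gs_of_gd hδm hδQ hp hp0 hpQ hzp
  have hcl : cp D l (δ - (Q y)⁻¹ • y) = δ := by
    rw [cp_sub hQ B, cp_self hQ B hδm, cp_smul hQ B, cp_other hQ B hlj hym]
    simp
  have hcj : cp D j (δ - (Q y)⁻¹ • y) = -((Q y)⁻¹ • y) := by
    rw [cp_sub hQ B, cp_other hQ B (Ne.symm hlj) hδm, cp_smul hQ B, cp_self hQ B hym]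
    simp
  have hyz : pol Q (cp D j u) y = 0 := by
    rw [← pol_cp hQ B j u hym]
    exact hy.1
  have hyy : pol Q y y ≠ 0 := by
    rw [pol_self hQ]
    exact mul_ne_zero S.two hh
  refine S.goodC2 hq hUQ hP hlj ?_ ?_ (by rw [hcl]; exact hGS)
  · rw [hcj, ← neg_one_smul F, hQ.smul, hQ.smul]
    field_simp
    simpa using hh
  · rw [hcj]
    intro hmem
    obtain ⟨σ, hσ⟩ := Submodule.mem_span_singleton.mp hmem
    rw [cp_add hQ B, cp_self hQ B hym, cp_smul hQ B] at hσ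
    -- `σ • (-(h⁻¹ • y)) = y + (2 h) • z`
    have h3 := congrArg (fun x => pol Q x y) hσ
    simp only [pol_smul_left hQ, pol_neg_left hQ, pol_add_left hQ, hyz] at h3
    have h4 : -(σ * (Q y)⁻¹) = 1 := by
      have h5 : (-(σ * (Q y)⁻¹) - 1) * pol Q y y = 0 := by linear_combination h3
      have h6 := (mul_eq_zero.mp h5).resolve_right hyy
      linear_combination h6
    have h7 : σ • -((Q y)⁻¹ • y) = y := by
      have e7 : σ • -((Q y)⁻¹ • y) = (-(σ * (Q y)⁻¹)) • y := by module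
      rw [e7, h4, one_smul]
    rw [h7] at hσ
    have h8 : (2 * Q y) • cp D j u = 0 := left_eq_add.mp hσ
    exact hz0 ((smul_eq_zero.mp h8).resolve_left (mul_ne_zero S.two hh))

/-- Non-singular components in dimension three. -/
theorem Ctx.goodC (hq : 5 ≤ Fintype.card F) (hodd : Fintype.card F % 2 = 1) {u w : ι → F} {j : Fin t} (hu : Q u = 0)
    (hw : Par Q M u w) (hz : Q (cp D j u) ≠ 0) (hnot : u ∉ D j) (hwj : cp D j w ∉ Submodule.span F {cp D j u}) :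
    Good Q D M := by
  have hQ := S.hQ
  have B := S.blk
  by_cases hGi : ∃ i, i ≠ j ∧ GS Q D M i (cp D i u)
  · obtain ⟨i, hij, hi⟩ := hGi
    exact S.goodC2 hq hu hw hij hz hwj hi
  push Not at hGi
  obtain ⟨l, hlj, hl0⟩ := exists_cp_ne hQ B hnot
  obtain ⟨τ₀, hτ₀, hτ₁⟩ := exists_tau hq
  have hlQ : Q (cp D l u) ≠ 0 := fun h => hGi l hlj (S.gs_torus (cp_mem B l u) hl0 h hτ₀ hτ₁)
  have hlG : ¬ Gd Q D l (cp D l u) := by
    rintro ⟨p, hp, hp0, hpQ, hzp⟩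
    exact hGi l hlj (S.gs_of_gd (cp_mem B l u) hlQ hp hp0 hpQ hzp)
  obtain ⟨z, hzd⟩ : ∃ z, z = cp D j u := ⟨_, rfl⟩
  rw [← hzd] at hz hwj
  have hzm : z ∈ D j := by
    rw [hzd]
    exact cp_mem B j u
  have hz0 : z ≠ 0 := by
    rintro rfl
    exact hz (Q_zero hQ)
  obtain ⟨a, b, P⟩ := S.exists_pl hq hzm hz
  obtain ⟨hy₁, hy₁0, hy₁m, hy₁z⟩ := S.pl_step P hzm hz hzd.symm hu hw hwj
  obtain ⟨y₁, hy₁d⟩ : ∃ y₁, y₁ = ((rf hQ b * rf hQ a : GL ι F) : Matrix ι ι F) *ᵥ w - w := ⟨_, rfl⟩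
  rw [← hy₁d] at hy₁ hy₁0 hy₁m hy₁z
  have hzz0 : pol Q z z ≠ 0 := by
    rw [pol_self hQ]
    exact mul_ne_zero S.two hz
  have hy₁n : cp D j y₁ ∉ Submodule.span F {z} := by
    rw [cp_self hQ B hy₁m]
    intro hmem
    obtain ⟨σ, hσ⟩ := Submodule.mem_span_singleton.mp hmem
    rw [← hσ, pol_smul_left hQ] at hy₁z
    have h0 : σ = 0 := (mul_eq_zero.mp hy₁z).resolve_right hzz0
    rw [h0, zero_smul] at hσ
    exact hy₁0 hσ.symm
  obtain ⟨hy₂, hy₂0, hy₂m, hy₂z⟩ := S.pl_step P hzm hz hzd.symm hu hy₁ hy₁n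
  obtain ⟨α, β, hαβ⟩ := P.sp y₁ hy₁m hy₁z
  have hκ := plane_kappa hQ P.eq P.ne α β
  rw [← hαβ] at hκ
  obtain ⟨y₂, hy₂d⟩ : ∃ y₂, y₂ = ((rf hQ b * rf hQ a : GL ι F) : Matrix ι ι F) *ᵥ y₁ - y₁ := ⟨_, rfl⟩
  rw [← hy₂d] at hy₂ hy₂0 hy₂m hy₂z hκ
  by_cases hQ₁ : Q y₁ = 0
  · exact S.goodSing hu hy₁ hy₁m hy₁0 hQ₁ hnot
  by_cases hQ₂ : Q y₂ = 0
  · exact S.goodSing hu hy₂ hy₂m hy₂0 hQ₂ hnot
  by_cases hm : ∃ m, m ≠ j ∧ m ≠ l ∧ cp D m u ≠ 0
  · obtain ⟨m, hmj, hml, hm0⟩ := hm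
    obtain ⟨z', hz', hz'Q, hd⟩ := S.exists_z hodd (cp_mem B l u) hlQ (-(Q y₁)⁻¹)
    obtain ⟨hUQ, hP⟩ := S.newPair hodd hlj hu hy₁ hy₁m hQ₁ hlQ hz' hz'Q hd
    have hδm : z' - cp D l u ∈ D l := (D l).sub_mem hz' (cp_mem B l u)
    have hU0 : (z' - cp D l u) - (Q y₁)⁻¹ • y₁ ≠ 0 := by
      intro h0
      have h1 := congrArg (cp D j) h0
      rw [cp_sub hQ B, cp_other hQ B (Ne.symm hlj) hδm, cp_smul hQ B, cp_self hQ B hy₁m, cp_zero hQ B, zero_sub] at h1
      have h2 := neg_eq_zero.mp h1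
      exact hy₁0 ((smul_eq_zero.mp h2).resolve_left (inv_ne_zero hQ₁))
    refine S.goodA hUQ hU0 hP (i := m) ?_ ?_
    · rw [cp_sub hQ B, cp_other hQ B hml hδm, cp_smul hQ B, cp_other hQ B hmj hy₁m]
      simp
    · rw [cp_add hQ B, cp_other hQ B hmj hy₁m, cp_smul hQ B, zero_add]
      exact smul_ne_zero (mul_ne_zero S.two hQ₁) hm0
  push Not at hm
  have hsum : u - z = cp D l u := by
    apply ext_cp hQ B
    intro i
    by_cases hij : i = j
    · subst hij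
      rw [hzd, cp_rest hQ B, cp_other hQ B (Ne.symm hlj) (cp_mem B l u)]
    · by_cases hil : i = l
      · subst hil
        rw [cp_sub hQ B, cp_other hQ B hij hzm, sub_zero, cp_cp hQ B]
      · rw [cp_sub hQ B, cp_other hQ B hij hzm, sub_zero, hm i hij hil, cp_other hQ B hil (cp_mem B l u)]
  have hnorm : Q z = - Q (cp D l u) := by
    have h5 := Q_rest hQ B j hu
    rw [← hzd, hsum] at h5
    linear_combination h5
  have hκns := S.kappa_nonsq hodd P hzm hz (cp_mem B l u) hlQ hlG hnorm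
  obtain ⟨κ, hκd⟩ : ∃ κ, κ = 4 - (pol Q a b) ^ 2 / (Q a) ^ 2 := ⟨_, rfl⟩
  rw [← hκd] at hκ hκns
  have hz0' : cp D j u ≠ 0 := by
    rw [← hzd]
    exact hz0
  by_cases hs : IsSquare (- Q y₁ * Q (cp D l u))
  · refine S.finish2 hq hodd hlj hu hy₂ hy₂m hQ₂ hz0' hlQ hlG ?_
    rintro ⟨r, hr⟩
    obtain ⟨r₁, hr₁⟩ := hs
    have hr₁0 : r₁ ≠ 0 := by
      rintro rfl
      rw [mul_zero] at hr₁
      exact (mul_ne_zero (neg_ne_zero.mpr hQ₁) hlQ) hr₁
    apply hκns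
    refine ⟨r / r₁, ?_⟩
    rw [hκ] at hr
    field_simp
    have h7 : κ * (r₁ * r₁) = r * r := by
      rw [← hr₁, ← hr]
      ring
    linear_combination h7
  · exact S.finish2 hq hodd hlj hu hy₁ hy₁m hQ₁ hz0' hlQ hlG hs

/-- A parameter without component in the member. -/
theorem Ctx.goodL3 (hq : 5 ≤ Fintype.card F) (hodd : Fintype.card F % 2 = 1) {u y : ι → F} {j : Fin t} (hu : Q u = 0)
    (hy : Par Q M u y) (hQy : Q y ≠ 0) (hyj : cp D j y = 0) (hj0 : cp D j u ≠ 0) (hnot : u ∉ D j) : Good Q D M := by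
  have hQ := S.hQ
  have B := S.blk
  have hy0 : y ≠ 0 := by
    rintro rfl
    exact hQy (Q_zero hQ)
  by_cases hz : Q (cp D j u) = 0
  · obtain ⟨τ₀, hτ₀, hτ₁⟩ := exists_tau hq
    exact S.core1 hu hy hy0 hyj (S.gs_torus (cp_mem B j u) hj0 hz hτ₀ hτ₁)
  obtain ⟨z, hzd⟩ : ∃ z, z = cp D j u := ⟨_, rfl⟩
  rw [← hzd] at hz hj0
  have hzm : z ∈ D j := by
    rw [hzd]
    exact cp_mem B j u
  obtain ⟨z', hz', hz'Q, hd, hne⟩ := S.exists_z' hodd hzm hz
  have hd' : Q (z - z') ≠ 0 := by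
    have e : z - z' = (-1 : F) • (z' - z) := by module
    rw [e, hQ.smul]
    simpa using hd
  obtain ⟨X, hX, hXz⟩ := S.exists_tr hodd hzm hz' hz hz'Q hd'
  obtain ⟨δ, hδ⟩ : ∃ δ, δ = z' - z := ⟨_, rfl⟩
  have hδm : δ ∈ D j := by
    rw [hδ]
    exact (D j).sub_mem hz' hzm
  have hXu : (X : Matrix ι ι F) *ᵥ u = u + δ := by
    rw [S.be_apply hX u, ← hzd, hXz, hδ]
  have hXy : (X : Matrix ι ι F) *ᵥ y = y := hX.fix y hyj
  have P₁ := Par.conj hy hX.mem hX.iso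
  rw [hXu, hXy] at P₁
  have hQu' : Q (u + δ) = 0 := by
    rw [← hXu, (mem_isometryGroup_iff Q _).mp hX.iso u, hu]
  obtain ⟨g, hg⟩ := exists_eich hQ hu hy.1
  have hgI := hg.mem_isometry hQ hu hy.1
  have P₂ := Par.conj P₁ (hy.2 g hg) hgI
  have huu : pol Q u u = 0 := pol_singular hQ hu
  have hyu : pol Q y u = 0 := by rw [pol_symm hQ, hy.1]
  have hδy : pol Q δ y = 0 := by
    rw [pol_symm hQ]
    exact pol_eq_zero_of_cp hQ B hyj hδm
  obtain ⟨h, hh⟩ : ∃ h, h = Q y := ⟨_, rfl⟩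
  obtain ⟨μ, hμ⟩ : ∃ μ, μ = pol Q δ u := ⟨_, rfl⟩
  have e₁ : (g : Matrix ι ι F) *ᵥ (u + δ) = u + δ - μ • y - (h * μ) • u := by
    rw [hg, pol_add_left hQ, pol_add_left hQ, hy.1, hδy, huu, ← hμ, ← hh]
    module
  have e₂ : (g : Matrix ι ι F) *ᵥ y = y + (2 * h) • u := by
    rw [hg, pol_self hQ, hyu, ← hh]
    module
  have hUQ : Q (u + δ - μ • y - (h * μ) • u) = 0 := by
    rw [← e₁, (mem_isometryGroup_iff Q _).mp hgI, hQu']
  rw [e₁, e₂] at P₂
  have hcU : cp D j (u + δ - μ • y - (h * μ) • u) = z' - (h * μ) • z := by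
    rw [cp_sub hQ B, cp_sub hQ B, cp_add hQ B, cp_self hQ B hδm, cp_smul hQ B, cp_smul hQ B, hyj, ← hzd, hδ]
    simp
  have hcW : cp D j (y + (2 * h) • u) = (2 * h) • z := by
    rw [cp_add hQ B, hyj, cp_smul hQ B, ← hzd, zero_add]
  have hh0 : h ≠ 0 := by
    rw [hh]
    exact hQy
  have hU0 : z' - (h * μ) • z ≠ 0 := fun h0 => hne _ (sub_eq_zero.mp h0)
  have hsp : (2 * h) • z ∉ Submodule.span F {z' - (h * μ) • z} := by
    intro hmem
    obtain ⟨σ, hσ⟩ := Submodule.mem_span_singleton.mp hmem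
    have hσ0 : σ ≠ 0 := by
      rintro rfl
      rw [zero_smul] at hσ
      exact hj0 ((smul_eq_zero.mp hσ.symm).resolve_left (mul_ne_zero S.two hh0))
    apply hne (σ⁻¹ * (2 * h) + h * μ)
    have h1 : z' - (h * μ) • z = σ⁻¹ • ((2 * h) • z) := by
      rw [← hσ, smul_smul, inv_mul_cancel₀ hσ0, one_smul]
    have h2 : z' = (z' - (h * μ) • z) + (h * μ) • z := by abel
    rw [h2, h1]
    module
  have hWn : y + (2 * h) • u ∉ D j := by
    intro hm
    have e : y = (-(2 * h)) • (u - z) := by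
      apply ext_cp hQ B
      intro i
      by_cases hij : i = j
      · subst hij
        rw [hyj, cp_smul hQ B, hzd, cp_rest hQ B, smul_zero]
      · have h1 := cp_other hQ B hij hm
        rw [cp_add hQ B, cp_smul hQ B] at h1
        rw [cp_smul hQ B, cp_sub hQ B, cp_other hQ B hij hzm, sub_zero, neg_smul]
        exact eq_neg_of_add_eq_zero_left h1
    have h3 := hy.1
    rw [e, pol_smul_right hQ, pol_sub_right hQ, huu, pol_cp hQ B j u hzm, ← hzd, pol_self hQ] at h3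
    have h4 : (2 * h) * (2 * Q z) = 0 := by
      linear_combination h3
    exact (mul_ne_zero (mul_ne_zero S.two hh0) (mul_ne_zero S.two hz)) h4
  by_cases hUj : u + δ - μ • y - (h * μ) • u ∈ D j
  · refine ⟨j, _, _, hUj, hUQ, ?_, P₂, hWn⟩
    intro h0
    rw [h0, cp_zero hQ B] at hcU
    exact hU0 hcU.symm
  rw [← hcU, ← hcW] at hsp
  by_cases hQU : Q (cp D j (u + δ - μ • y - (h * μ) • u)) = 0
  · exact S.goodB hUQ P₂ hQU (by rw [hcU]; exact hU0) hUj hsp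
  · exact S.goodC hq hodd hUQ P₂ hQU hUj hsp

/-- The reduction in dimension three. -/
theorem Ctx.reduce3 (hq : 5 ≤ Fintype.card F) (hodd : Fintype.card F % 2 = 1) {u w : ι → F} (hu : Q u = 0)
    (hw : Par Q M u w) (hQw : Q w ≠ 0) (hnot : ∀ c, u ∉ D c) : Good Q D M :=
  S.reduce_core (fun _ _ _ hu hw hz hn hwj => S.goodC hq hodd hu hw hz hn hwj)
    (fun _ _ _ hu hy hQy hyj hj0 hn => S.goodL3 hq hodd hu hy hQy hyj hj0 hn) hu hw hQw hnot

end Ctx3

/-- The stabiliser of an orthogonal decomposition is maximal in `Ω`. -/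
theorem isMaximalIn_dec [Fintype F] (hQ : IsNondegenerateQuadraticForm Q) (hodd : Fintype.card F % 2 = 1)
    (h7 : 7 ≤ Fintype.card ι) {k : ℕ} (hk : 3 ≤ k) (hk4 : k ≠ 4) (hk35 : k = 3 → 5 ≤ Fintype.card F)
    (hD : IsOrthogonalMDecomposition Q k D) :
    IsMaximalIn (omegaGL Q) (decompositionStabilizer D ⊓ omegaGL Q) := by
  have h2 : (2 : F) ≠ 0 := by
    intro h
    haveI : CharP F 2 := by
      haveI := CharTwo.of_one_ne_zero_of_two_eq_zero (R := F) one_ne_zero h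
      infer_instance
    have h3 : ringChar F = 2 := ringChar.eq F 2
    have h4 := FiniteField.even_card_of_char_two h3
    omega
  have B : Blk Q D := ⟨hD.decomp.nondegenerate, fun i j hij u hu v hv => hD.decomp.orthogonal i j hij u hu v hv,
    hD.decomp.decomp.iSup_eq_top⟩
  have h2t := hD.decomp.decomp.two_le
  have hab : (⟨0, by omega⟩ : Fin t) ≠ ⟨1, by omega⟩ := by
    simp [Fin.ext_iff]
  refine isMaximalIn_of hQ B hD.decomp.decomp.finrank_eq hD.isometric h7 h2 hk hab ?_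
  intro M S u w hu hw hQw hnot
  by_cases h3 : k = 3
  · subst h3
    exact S.reduce3 (hk35 rfl) hodd hu hw hQw hnot
  · have h5 : 5 ≤ k := by omega
    exact S.reduce4 (by omega) (S.hSing5 h5) hu hw hQw hnot

end Cfsg.Agent.Lib.Geo.OmDec
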