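/-
Stabilisers of orthogonal decompositions in `Ω`: members of dimension four, odd characteristic.
-/
import Cfsg.Agent.Lib.Geo.OmDec3
set_option autoImplicit false

namespace Cfsg.Agent.Lib.Geo.OmDec

open Cfsg Cfsg.Geo Cfsg.Agent.Lib.Geo.Basic Cfsg.Agent.Lib.Geo.Parabolic Cfsg.Agent.Lib.Geo.Centres
open Cfsg.Agent.Lib.Geo.Polar Cfsg.Agent.Lib.Geo.QForm
open Cfsg.Agent.Lib.GeoOmega.Basic Cfsg.Agent.Lib.GeoOmega.Eichler
open Cfsg.Agent.Lib.GeoOmega.Levi (rf rf_mulVec rf_mem rf_mul_mem_omega rf_inv)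
open Cfsg.Agent.Lib.Geo.OmSub (Par Par.add Par.zero Par.neg Par.sub Par.conj Par.swap pol_sum_left eich_zero)
open scoped MatrixGroups Matrix

variable {ι : Type} [Fintype ι] [DecidableEq ι] {F : Type*} [Field F]
variable {Q : (ι → F) → F} {t : ℕ} {D : Fin t → Submodule F (ι → F)}

/-- Cutting a non-degenerate subspace by a non-singular vector in odd characteristic. -/
theorem cut_nd_of (hQ : IsNondegenerateQuadraticForm Q) (h2 : (2 : F) ≠ 0) {W : Submodule F (ι → F)}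
    (hW : IsNondegenerateOn (QuadraticMap.polar Q) W) {z : ι → F} (hz : z ∈ W) (hzQ : Q z ≠ 0) :
    IsNondegenerateOn (QuadraticMap.polar Q) (cut Q W z) := by
  have hzz0 : pol Q z z ≠ 0 := by
    rw [pol_self hQ]
    exact mul_ne_zero h2 hzQ
  have hproj : ∀ x ∈ W, x - (pol Q x z / pol Q z z) • z ∈ cut Q W z := fun x hx => by
    rw [mem_cut hQ]
    refine ⟨W.sub_mem hx (W.smul_mem _ hz), ?_⟩
    rw [pol_sub_left hQ, pol_smul_left hQ]
    field_simp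
    ring
  intro v hv hv0
  obtain ⟨hv1, hv2⟩ := (mem_cut hQ).mp hv
  obtain ⟨x, hx, hne⟩ := (hW v hv1 hv0).1
  change pol Q x v ≠ 0 at hne
  have hzv : pol Q z v = 0 := by rw [pol_symm hQ, hv2]
  have e : pol Q (x - (pol Q x z / pol Q z z) • z) v = pol Q x v := by
    rw [pol_sub_left hQ, pol_smul_left hQ, hzv]
    ring
  refine ⟨⟨_, hproj x hx, by change pol Q _ v ≠ 0; rw [e]; exact hne⟩, ⟨_, hproj x hx, ?_⟩⟩
  change pol Q v _ ≠ 0
  rw [pol_symm hQ, e]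
  exact hne

section Four

variable [Fintype F] {M : Subgroup (GL ι F)} {k : ℕ}

theorem BE.mul {j : Fin t} {X Y : GL ι F} (hX : BE Q D M j X) (hY : BE Q D M j Y) : BE Q D M j (X * Y) := by
  refine ⟨M.mul_mem hX.mem hY.mem, (isometryGroup F Q).mul_mem hX.iso hY.iso, fun v hv => ?_, fun v hv => ?_⟩
  · rw [Units.val_mul, ← Matrix.mulVec_mulVec, hY.fix v hv, hX.fix v hv]
  · rw [Units.val_mul, ← Matrix.mulVec_mulVec]
    exact hX.pres _ (hY.pres v hv)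

/-- Singular vectors when the members have dimension at least four, in odd characteristic. -/
theorem Ctx.hSing4 (S : Ctx Q D M k) (hk : 4 ≤ k) (hodd : Fintype.card F % 2 = 1) (j : Fin t) (z : ι → F)
    (hz : z ∈ D j) (hz0 : z ≠ 0) (hzQ : Q z = 0) : GS Q D M j z := by
  have hQ := S.hQ
  have B := S.blk
  have h2 := S.two
  obtain ⟨z', hz', hz'Q, hzz'⟩ := S.exists_hyp hz hz0 hzQ
  have hz'z : pol Q z' z = 1 := by rw [pol_symm hQ, hzz']
  have hzz : pol Q z z = 0 := pol_singular hQ hzQ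
  have hz'z' : pol Q z' z' = 0 := pol_singular hQ hz'Q
  obtain ⟨h₁, hh₁⟩ : ∃ h₁, h₁ = z + z' := ⟨_, rfl⟩
  obtain ⟨h₂, hh₂⟩ : ∃ h₂, h₂ = z - z' := ⟨_, rfl⟩
  have h₁D : h₁ ∈ D j := by rw [hh₁]; exact (D j).add_mem hz hz'
  have h₂D : h₂ ∈ D j := by rw [hh₂]; exact (D j).sub_mem hz hz'
  have h₁Q : Q h₁ = 1 := by rw [hh₁, Q_add hQ, hzQ, hz'Q, hzz']; ring
  have h₂Q : Q h₂ = -1 := by rw [hh₂, Q_sub hQ, hzQ, hz'Q, hzz']; ring
  have h12 : pol Q h₂ h₁ = 0 := by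
    rw [hh₁, hh₂, pol_add_right hQ, pol_sub_left hQ, pol_sub_left hQ, hzz, hzz', hz'z, hz'z']
    ring
  have hn1 : IsNondegenerateOn (QuadraticMap.polar Q) (cut Q (D j) h₁) :=
    cut_nd_of hQ h2 (B.nd j) h₁D (by rw [h₁Q]; exact one_ne_zero)
  have h₂m : h₂ ∈ cut Q (D j) h₁ := (mem_cut hQ).mpr ⟨h₂D, h12⟩
  have hn2 : IsNondegenerateOn (QuadraticMap.polar Q) (cut Q (cut Q (D j) h₁) h₂) :=
    cut_nd_of hQ h2 hn1 h₂m (by rw [h₂Q]; exact neg_ne_zero.mpr one_ne_zero)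
  have hf1 := finrank_cut (Q := Q) (D j) h₁
  have hf2 := finrank_cut (Q := Q) (cut Q (D j) h₁) h₂
  rw [S.fin] at hf1
  have hf3 : 2 ≤ Module.finrank F (cut Q (cut Q (D j) h₁) h₂) := by omega
  obtain ⟨c₀, hc₀, hc₀0⟩ := Submodule.exists_mem_ne_zero_of_ne_bot
    (p := cut Q (cut Q (D j) h₁) h₂) (by
      intro h0
      rw [h0] at hf3
      simp at hf3)
  obtain ⟨e₁, he₁, he₁Q⟩ := exists_nonsingW hQ hn2 h2 hc₀ hc₀0
  have hn3 : IsNondegenerateOn (QuadraticMap.polar Q) (cut Q (cut Q (cut Q (D j) h₁) h₂) e₁) :=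
    cut_nd_of hQ h2 hn2 he₁ he₁Q
  have hf4 := finrank_cut (Q := Q) (cut Q (cut Q (D j) h₁) h₂) e₁
  obtain ⟨c₁, hc₁, hc₁0⟩ := Submodule.exists_mem_ne_zero_of_ne_bot
    (p := cut Q (cut Q (cut Q (D j) h₁) h₂) e₁) (by
      intro h0
      rw [h0] at hf4
      simp at hf4
      omega)
  obtain ⟨e₂, he₂, he₂Q⟩ := exists_nonsingW hQ hn3 h2 hc₁ hc₁0
  obtain ⟨he₂1, he₂e₁⟩ := (mem_cut hQ).mp he₂
  -- vectors of given norm orthogonal to `z` and `z'`
  have hnorm : ∀ e : F, ∃ a ∈ D j, pol Q a z = 0 ∧ pol Q a z' = 0 ∧ Q a = e := by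
    intro e
    obtain ⟨x, y, hxy⟩ := exists_sq_sum hodd he₁Q he₂Q e
    have hmem : x • e₁ + y • e₂ ∈ cut Q (cut Q (D j) h₁) h₂ :=
      Submodule.add_mem _ (Submodule.smul_mem _ _ he₁) (Submodule.smul_mem _ _ he₂1)
    obtain ⟨hm1, hm2⟩ := (mem_cut hQ).mp hmem
    obtain ⟨hm3, hm4⟩ := (mem_cut hQ).mp hm1
    obtain ⟨a, ha⟩ : ∃ a, a = x • e₁ + y • e₂ := ⟨_, rfl⟩
    rw [← ha] at hm1 hm2 hm3 hm4
    have h5 : pol Q a h₁ + pol Q a h₂ = 2 * pol Q a z := by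
      rw [hh₁, hh₂, pol_add_right hQ, pol_sub_right hQ]
      ring
    have h6 : pol Q a h₁ - pol Q a h₂ = 2 * pol Q a z' := by
      rw [hh₁, hh₂, pol_add_right hQ, pol_sub_right hQ]
      ring
    rw [hm4, hm2] at h5 h6
    refine ⟨a, hm3, ?_, ?_, ?_⟩
    · have : 2 * pol Q a z = 0 := by rw [← h5]; ring
      exact (mul_eq_zero.mp this).resolve_left h2
    · have : 2 * pol Q a z' = 0 := by rw [← h6]; ring
      exact (mul_eq_zero.mp this).resolve_left h2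
    · rw [ha, Q_smul_add hQ, pol_symm hQ e₁ e₂, he₂e₁, ← hxy]
      ring
  obtain ⟨a, ha, haz, haz', haQ⟩ := hnorm 1
  obtain ⟨b, hb, hbz, hbz', hbQ⟩ := hnorm (-1)
  have hm1 : (-1 : F) ≠ 0 := neg_ne_zero.mpr one_ne_zero
  have hX₁ : BE Q D M j (rf hQ a * rf hQ h₁) :=
    S.be_rf h₁D ha (by rw [h₁Q, haQ]) (by rw [h₁Q]; exact one_ne_zero)
  have hX₂ : BE Q D M j (rf hQ b * rf hQ h₂) :=
    S.be_rf h₂D hb (by rw [h₂Q, hbQ]) (by rw [h₂Q]; exact hm1)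
  refine ⟨_, -2, z, BE.mul hX₁ hX₂, ?_, neg_ne_zero.mpr h2, hzQ, hz, hz0, hzz⟩
  have e1 : ((rf hQ h₂ : GL ι F) : Matrix ι ι F) *ᵥ z = z' := by
    rw [rf_mulVec, h₂Q, hh₂, pol_sub_right hQ, hzz, hzz']
    have : ((-1 : F)⁻¹ * (0 - 1)) = 1 := by
      field_simp
      ring
    rw [this, one_smul]
    abel
  have e2 : ((rf hQ b : GL ι F) : Matrix ι ι F) *ᵥ z' = z' := by
    rw [rf_mulVec, pol_symm hQ, hbz']
    simp
  have e3 : ((rf hQ h₁ : GL ι F) : Matrix ι ι F) *ᵥ z' = -z := by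
    rw [rf_mulVec, h₁Q, hh₁, pol_add_right hQ, hz'z, hz'z']
    simp only [inv_one, add_zero, one_mul, one_smul]
    abel
  have e4 : ((rf hQ a : GL ι F) : Matrix ι ι F) *ᵥ (-z) = -z := by
    rw [rf_mulVec, pol_neg_left hQ, pol_symm hQ, haz]
    simp
  simp only [Units.val_mul, ← Matrix.mulVec_mulVec]
  rw [e1, e2, e3, e4]
  module

end Four

/-- Decompositions in odd characteristic, all dimensions. -/
theorem isMaximalIn_dec_odd [Fintype F] (hQ : IsNondegenerateQuadraticForm Q) (hodd : Fintype.card F % 2 = 1)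
    (h7 : 7 ≤ Fintype.card ι) {k : ℕ} (hk : 3 ≤ k) (hk35 : k = 3 → 5 ≤ Fintype.card F)
    (hD : IsOrthogonalMDecomposition Q k D) :
    IsMaximalIn (omegaGL Q) (decompositionStabilizer D ⊓ omegaGL Q) := by
  by_cases hk4 : k = 4
  · subst hk4
    have h2 : (2 : F) ≠ 0 := by
      intro h
      haveI : CharP F 2 := by
        haveI := CharTwo.of_one_ne_zero_of_two_eq_zero (R := F) one_ne_zero h
        infer_instance
      have h3 : ringChar F = 2 := ringChar.eq F 2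
      have h4 := FiniteField.even_card_of_char_two h3
      omega
    have B : Blk Q D := ⟨hD.decomp.nondegenerate, fun i j hij u hu v hv => hD.decomp.orthogonal i j hij u hu v hv,
      hD.decomp.decomp.iSup_eq_top⟩
    have h2t := hD.decomp.decomp.two_le
    have hab : (⟨0, by omega⟩ : Fin t) ≠ ⟨1, by omega⟩ := by
      simp [Fin.ext_iff]
    refine isMaximalIn_of hQ B hD.decomp.decomp.finrank_eq hD.isometric h7 h2 hk hab ?_
    intro M S u w hu hw hQw hnot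
    exact S.reduce4 le_rfl (S.hSing4 le_rfl hodd) hu hw hQw hnot
  · exact isMaximalIn_dec hQ hodd h7 hk hk4 hk35 hD

end Cfsg.Agent.Lib.Geo.OmDec
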