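/-
Stabilisers of orthogonal decompositions in `Ω`: the context without restriction on the characteristic or the dimension of
the members, elements exchanging or cycling members, and sums over components.
-/
import Cfsg.Agent.Lib.Geo.OmDec4
set_option autoImplicit false

namespace Cfsg.Agent.Lib.Geo.OmB

open Cfsg Cfsg.Geo Cfsg.Agent.Lib.Geo.Basic Cfsg.Agent.Lib.Geo.Parabolic Cfsg.Agent.Lib.Geo.Centres
open Cfsg.Agent.Lib.Geo.Polar Cfsg.Agent.Lib.Geo.QForm
open Cfsg.Agent.Lib.GeoOmega.Basic Cfsg.Agent.Lib.GeoOmega.Eichler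
open Cfsg.Agent.Lib.GeoOmega.Levi (rf rf_mulVec rf_mem rf_mul_mem_omega rf_inv rf_conj)
open Cfsg.Agent.Lib.Geo.OmSub (Par Par.add Par.zero Par.neg Par.sub Par.conj Par.swap pol_sum_left eich_zero)
open Cfsg.Agent.Lib.Geo.SpDecomp (exists_comps mem_decompositionStabilizer_of_forall)
open Cfsg.Agent.Lib.Geo.OmDec
open scoped MatrixGroups Matrix

variable {ι : Type} [Fintype ι] [DecidableEq ι] {F : Type*} [Field F]
variable {Q : (ι → F) → F} {t : ℕ} {D : Fin t → Submodule F (ι → F)}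

/-- The hypotheses: `M` lies between the stabiliser of the decomposition in `Ω` and `Ω`. -/
structure CtxB (Q : (ι → F) → F) (D : Fin t → Submodule F (ι → F)) (M : Subgroup (GL ι F)) (k : ℕ) : Prop where
  hQ : IsNondegenerateQuadraticForm Q
  blk : Blk Q D
  fin : ∀ i, Module.finrank F (D i) = k
  iso : ∀ i j, AreIsometricFor Q (D i) (D j)
  card7 : 7 ≤ Fintype.card ι
  hH : decompositionStabilizer D ⊓ omegaGL Q ≤ M
  hM : M ≤ omegaGL Q

section Sums

variable (hQ : IsNondegenerateQuadraticForm Q) (B : Blk Q D)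
include hQ B

theorem Q_sum_of_mem (s : Finset (Fin t)) {c : Fin t → ι → F} (hc : ∀ i, c i ∈ D i) :
    Q (∑ i ∈ s, c i) = ∑ i ∈ s, Q (c i) := by
  classical
  induction s using Finset.induction_on with
  | empty => simpa using Q_zero hQ
  | insert a s ha ih =>
    rw [Finset.sum_insert ha, Finset.sum_insert ha, Q_add hQ, ih]
    have : pol Q (c a) (∑ i ∈ s, c i) = 0 := by
      rw [pol_symm hQ, pol_sum_left hQ]
      refine Finset.sum_eq_zero fun i hi => B.orth i a ?_ _ (hc i) _ (hc a)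
      rintro rfl
      exact ha hi
    rw [this]
    ring

theorem Q_eq_sum (x : ι → F) : Q x = ∑ i, Q (cp D i x) := by
  conv_lhs => rw [← sum_cp B x]
  exact Q_sum_of_mem hQ B _ (fun i => cp_mem B i x)

theorem pol_eq_sum (x y : ι → F) : pol Q x y = ∑ i, pol Q (cp D i x) (cp D i y) := by
  conv_lhs => rw [← sum_cp B x, pol_sum_left hQ]
  refine Finset.sum_congr rfl fun i _ => ?_
  rw [pol_symm hQ, pol_cp hQ B i y (cp_mem B i x), pol_symm hQ]

/-- A vector with two non-zero components lies in no member. -/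
theorem not_mem_of_two {x : ι → F} {a b : Fin t} (hab : a ≠ b) (ha : cp D a x ≠ 0) (hb : cp D b x ≠ 0) (c : Fin t) :
    x ∉ D c := by
  intro hc
  by_cases hac : a = c
  · subst hac
    exact hb (cp_other hQ B (Ne.symm hab) hc)
  · exact ha (cp_other hQ B hac hc)

/-- Linear algebra in a member. -/
theorem exists_perp_not {j : Fin t} {z x : ι → F} (hz : z ∈ D j) (hz0 : z ≠ 0) (hx : x ∈ D j)
    (hxz : ∀ c : F, x ≠ c • z) : ∃ y ∈ D j, pol Q z y = 0 ∧ pol Q x y ≠ 0 := by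
  obtain ⟨y₀, hy₀, hne⟩ := (B.nd j z hz hz0).2
  change pol Q z y₀ ≠ 0 at hne
  by_contra hcon
  push Not at hcon
  obtain ⟨l, hl⟩ : ∃ l, l = pol Q x y₀ / pol Q z y₀ := ⟨_, rfl⟩
  apply hxz l
  have h1 : x - l • z = 0 := by
    apply eq_zero_of_mem hQ B ((D j).sub_mem hx ((D j).smul_mem _ hz))
    intro y hy
    have h2 : y - (pol Q z y / pol Q z y₀) • y₀ ∈ D j := (D j).sub_mem hy ((D j).smul_mem _ hy₀)
    have h3 : pol Q z (y - (pol Q z y / pol Q z y₀) • y₀) = 0 := by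
      rw [pol_sub_right hQ, pol_smul_right hQ]
      field_simp
      ring
    have h4 := hcon _ h2 h3
    rw [pol_sub_right hQ, pol_smul_right hQ] at h4
    rw [pol_symm hQ, pol_sub_left hQ, pol_smul_left hQ, hl]
    linear_combination h4
  exact sub_eq_zero.mp h1

end Sums

section Ctx

variable {M : Subgroup (GL ι F)} {k : ℕ} (S : CtxB Q D M k)
include S

theorem CtxB.miso : M ≤ isometryGroup F Q := S.hM.trans (omegaGL_le_isometryGroup Q)

theorem CtxB.mem_perm {g : GL ι F} (hg : g ∈ omegaGL Q) {τ : Equiv.Perm (Fin t)}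
    (h : ∀ i, ∀ x ∈ D i, (g : Matrix ι ι F) *ᵥ x ∈ D (τ i)) : g ∈ M :=
  S.hH ⟨mem_decompositionStabilizer_of_forall (k := k) S.fin τ g h, hg⟩

theorem CtxB.mem_pres {g : GL ι F} (hg : g ∈ omegaGL Q)
    (h : ∀ i, ∀ x ∈ D i, (g : Matrix ι ι F) *ᵥ x ∈ D i) : g ∈ M :=
  S.mem_perm hg (τ := 1) h

theorem CtxB.exists_swap {a b : Fin t} (hab : a ≠ b) :
    ∃ T : GL ι F, T ∈ isometryGroup F Q ∧ T * T = 1 ∧
      (∀ i, ∀ x ∈ D i, (T : Matrix ι ι F) *ᵥ x ∈ D (Equiv.swap a b i)) ∧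
      ∀ i, i ≠ a → i ≠ b → ∀ x ∈ D i, (T : Matrix ι ι F) *ᵥ x = x := by
  have hQ := S.hQ
  have B := S.blk
  obtain ⟨e, he⟩ := S.iso a b
  let E₁ : (ι → F) →ₗ[F] (ι → F) :=
    { toFun := fun x => ((e ⟨cp D a x, cp_mem B a x⟩ : D b) : ι → F)
      map_add' := fun x y => by
        have : (⟨cp D a (x + y), cp_mem B a _⟩ : D a) = ⟨cp D a x, cp_mem B a x⟩ + ⟨cp D a y, cp_mem B a y⟩ :=
          Subtype.ext (cp_add hQ B a x y)
        rw [this, map_add]
        rfl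
      map_smul' := fun c x => by
        have : (⟨cp D a (c • x), cp_mem B a _⟩ : D a) = c • ⟨cp D a x, cp_mem B a x⟩ :=
          Subtype.ext (cp_smul hQ B a c x)
        rw [this, map_smul]
        rfl }
  let E₂ : (ι → F) →ₗ[F] (ι → F) :=
    { toFun := fun x => ((e.symm ⟨cp D b x, cp_mem B b x⟩ : D a) : ι → F)
      map_add' := fun x y => by
        have : (⟨cp D b (x + y), cp_mem B b _⟩ : D b) = ⟨cp D b x, cp_mem B b x⟩ + ⟨cp D b y, cp_mem B b y⟩ :=
          Subtype.ext (cp_add hQ B b x y)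
        rw [this, map_add]
        rfl
      map_smul' := fun c x => by
        have : (⟨cp D b (c • x), cp_mem B b _⟩ : D b) = c • ⟨cp D b x, cp_mem B b x⟩ :=
          Subtype.ext (cp_smul hQ B b c x)
        rw [this, map_smul]
        rfl }
  have hE₁m : ∀ x, E₁ x ∈ D b := fun x => (e _).2
  have hE₂m : ∀ x, E₂ x ∈ D a := fun x => (e.symm _).2
  have hE₁c : ∀ y y', cp D a y = cp D a y' → E₁ y = E₁ y' := fun y y' h => by
    change ((e ⟨cp D a y, _⟩ : D b) : ι → F) = ((e ⟨cp D a y', _⟩ : D b) : ι → F)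
    have : (⟨cp D a y, cp_mem B a y⟩ : D a) = ⟨cp D a y', cp_mem B a y'⟩ := Subtype.ext h
    rw [this]
  have hE₂c : ∀ y y', cp D b y = cp D b y' → E₂ y = E₂ y' := fun y y' h => by
    change ((e.symm ⟨cp D b y, _⟩ : D a) : ι → F) = ((e.symm ⟨cp D b y', _⟩ : D a) : ι → F)
    have : (⟨cp D b y, cp_mem B b y⟩ : D b) = ⟨cp D b y', cp_mem B b y'⟩ := Subtype.ext h
    rw [this]
  have hE₂E₁ : ∀ x, E₂ (E₁ x) = cp D a x := fun x => by
    change ((e.symm ⟨cp D b (E₁ x), _⟩ : D a) : ι → F) = _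
    have : (⟨cp D b (E₁ x), cp_mem B b _⟩ : D b) = e ⟨cp D a x, cp_mem B a x⟩ :=
      Subtype.ext (cp_self hQ B (hE₁m x))
    rw [this, LinearEquiv.symm_apply_apply]
  have hE₁E₂ : ∀ x, E₁ (E₂ x) = cp D b x := fun x => by
    change ((e ⟨cp D a (E₂ x), _⟩ : D b) : ι → F) = _
    have : (⟨cp D a (E₂ x), cp_mem B a _⟩ : D a) = e.symm ⟨cp D b x, cp_mem B b x⟩ :=
      Subtype.ext (cp_self hQ B (hE₂m x))
    rw [this, LinearEquiv.apply_symm_apply]
  have hE₁0 : ∀ x, cp D a x = 0 → E₁ x = 0 := fun x hx => by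
    have := hE₁c x 0 (by rw [hx, cp_zero hQ B])
    rw [this, map_zero]
  have hE₂0 : ∀ x, cp D b x = 0 → E₂ x = 0 := fun x hx => by
    have := hE₂c x 0 (by rw [hx, cp_zero hQ B])
    rw [this, map_zero]
  have hQE₁ : ∀ x, Q (E₁ x) = Q (cp D a x) := fun x => he _
  have hQE₂ : ∀ x, Q (E₂ x) = Q (cp D b x) := fun x => by
    have := he (e.symm ⟨cp D b x, cp_mem B b x⟩)
    rw [LinearEquiv.apply_symm_apply] at this
    exact this.symm
  -- the linear map
  let L : (ι → F) →ₗ[F] (ι → F) :=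
    { toFun := fun x => x - cp D a x - cp D b x + E₁ x + E₂ x
      map_add' := fun x y => by
        simp only [cp_add hQ B, map_add]
        abel
      map_smul' := fun c x => by
        simp only [cp_smul hQ B, map_smul, RingHom.id_apply, smul_add, smul_sub] }
  have hL : ∀ x, L x = x - cp D a x - cp D b x + E₁ x + E₂ x := fun _ => rfl
  have hrest : ∀ x, cp D a (x - cp D a x - cp D b x) = 0 ∧ cp D b (x - cp D a x - cp D b x) = 0 := fun x => by
    constructor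
    · rw [cp_sub hQ B, cp_sub hQ B, cp_cp hQ B, cp_other hQ B hab (cp_mem B b x)]
      abel
    · rw [cp_sub hQ B, cp_sub hQ B, cp_cp hQ B, cp_other hQ B (Ne.symm hab) (cp_mem B a x)]
      abel
  have hcpa : ∀ x, cp D a (L x) = E₂ x := fun x => by
    rw [hL, cp_add hQ B, cp_add hQ B, (hrest x).1, cp_other hQ B hab (hE₁m x), cp_self hQ B (hE₂m x)]
    abel
  have hcpb : ∀ x, cp D b (L x) = E₁ x := fun x => by
    rw [hL, cp_add hQ B, cp_add hQ B, (hrest x).2, cp_self hQ B (hE₁m x), cp_other hQ B (Ne.symm hab) (hE₂m x)]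
    abel
  have hLL : ∀ x, L (L x) = x := fun x => by
    have h1 : E₁ (L x) = cp D b x := by
      rw [hE₁c (L x) (E₂ x) (by rw [hcpa, cp_self hQ B (hE₂m x)]), hE₁E₂]
    have h2 : E₂ (L x) = cp D a x := by
      rw [hE₂c (L x) (E₁ x) (by rw [hcpb, cp_self hQ B (hE₁m x)]), hE₂E₁]
    rw [hL (L x), hcpa, hcpb, h1, h2, hL x]
    abel
  have hQL : ∀ x, Q (L x) = Q x := fun x => by
    obtain ⟨r, hr⟩ : ∃ r, r = x - cp D a x - cp D b x := ⟨_, rfl⟩
    have hra : cp D a r = 0 := by rw [hr]; exact (hrest x).1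
    have hrb : cp D b r = 0 := by rw [hr]; exact (hrest x).2
    have e1 : x = cp D a x + cp D b x + r := by rw [hr]; abel
    have e2 : L x = r + E₁ x + E₂ x := by rw [hL, hr]
    have h1 : ∀ y ∈ D a, pol Q r y = 0 := fun y hy => pol_eq_zero_of_cp hQ B hra hy
    have h2 : ∀ y ∈ D b, pol Q r y = 0 := fun y hy => pol_eq_zero_of_cp hQ B hrb hy
    have h3 : Q (L x) = Q r + Q (cp D a x) + Q (cp D b x) := by
      rw [e2, Q_add hQ, Q_add hQ, pol_add_left hQ, h2 _ (hE₁m x), h1 _ (hE₂m x), hQE₁, hQE₂,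
        pol_symm hQ (E₁ x), B.orth a b hab _ (hE₂m x) _ (hE₁m x)]
      ring
    have h5 : pol Q (cp D a x) r = 0 := by
      rw [pol_symm hQ]
      exact h1 _ (cp_mem B a x)
    have h6 : pol Q (cp D b x) r = 0 := by
      rw [pol_symm hQ]
      exact h2 _ (cp_mem B b x)
    have h4 : Q x = Q r + Q (cp D a x) + Q (cp D b x) := by
      conv_lhs => rw [e1]
      rw [Q_add hQ, Q_add hQ, pol_add_left hQ, h5, h6, B.orth a b hab _ (cp_mem B a x) _ (cp_mem B b x)]
      ring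
    rw [h3, h4]
  have hLLc : L ∘ₗ L = LinearMap.id := LinearMap.ext hLL
  have hA : LinearMap.toMatrix' L * LinearMap.toMatrix' L = 1 := by
    rw [← LinearMap.toMatrix'_comp, hLLc, LinearMap.toMatrix'_id]
  refine ⟨⟨LinearMap.toMatrix' L, LinearMap.toMatrix' L, hA, hA⟩, ?_, ?_, ?_, ?_⟩
  · rw [mem_isometryGroup_iff]
    intro x
    change Q (LinearMap.toMatrix' L *ᵥ x) = Q x
    rw [LinearMap.toMatrix'_mulVec, hQL]
  · exact Units.ext hA
  · intro i x hx
    change LinearMap.toMatrix' L *ᵥ x ∈ _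
    rw [LinearMap.toMatrix'_mulVec, hL]
    by_cases hia : i = a
    · subst hia
      rw [Equiv.swap_apply_left, cp_self hQ B hx, cp_other hQ B (Ne.symm hab) hx,
        hE₂0 x (cp_other hQ B (Ne.symm hab) hx)]
      simpa using hE₁m x
    · by_cases hib : i = b
      · subst hib
        rw [Equiv.swap_apply_right, cp_other hQ B hab hx, cp_self hQ B hx, hE₁0 x (cp_other hQ B hab hx)]
        simpa using hE₂m x
      · rw [Equiv.swap_apply_of_ne_of_ne hia hib, cp_other hQ B (Ne.symm hia) hx, cp_other hQ B (Ne.symm hib) hx,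
          hE₁0 x (cp_other hQ B (Ne.symm hia) hx), hE₂0 x (cp_other hQ B (Ne.symm hib) hx)]
        simpa using hx
  · intro i hia hib x hx
    change LinearMap.toMatrix' L *ᵥ x = _
    rw [LinearMap.toMatrix'_mulVec, hL, cp_other hQ B (Ne.symm hia) hx, cp_other hQ B (Ne.symm hib) hx,
      hE₁0 x (cp_other hQ B (Ne.symm hia) hx), hE₂0 x (cp_other hQ B (Ne.symm hib) hx)]
    simp

/-- An element of `M` cycling three members and fixing the others pointwise. -/
theorem CtxB.exists_cycle {a b c : Fin t} (hab : a ≠ b) (hca : c ≠ a) (hcb : c ≠ b) :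
    ∃ g : GL ι F, g ∈ M ∧ (∀ x ∈ D a, (g : Matrix ι ι F) *ᵥ x ∈ D c) ∧ (∀ x ∈ D b, (g : Matrix ι ι F) *ᵥ x ∈ D a) ∧
      (∀ x ∈ D c, (g : Matrix ι ι F) *ᵥ x ∈ D b) ∧
      ∀ i, i ≠ a → i ≠ b → i ≠ c → ∀ x ∈ D i, (g : Matrix ι ι F) *ᵥ x = x := by
  obtain ⟨T₁, hT₁, hT₁₁, hp₁, hf₁⟩ := S.exists_swap hab
  obtain ⟨T₂, hT₂, hT₂₂, hp₂, hf₂⟩ := S.exists_swap (a := b) (b := c) (Ne.symm hcb)
  have hinv₁ : T₁⁻¹ = T₁ := inv_eq_of_mul_eq_one_left hT₁₁
  have hinv₂ : T₂⁻¹ = T₂ := inv_eq_of_mul_eq_one_left hT₂₂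
  have hgO : T₁ * T₂ * T₁ * T₂ ∈ omegaGL Q := by
    rw [omegaGL_eq_commutator]
    have := Subgroup.commutator_mem_commutator hT₁ hT₂
    rwa [commutatorElement_def, hinv₁, hinv₂] at this
  obtain ⟨s₁, hs₁⟩ : ∃ s₁, s₁ = Equiv.swap a b := ⟨_, rfl⟩
  obtain ⟨s₂, hs₂⟩ : ∃ s₂, s₂ = Equiv.swap b c := ⟨_, rfl⟩
  rw [← hs₁] at hp₁
  rw [← hs₂] at hp₂
  have hperm : ∀ i, ∀ x ∈ D i, ((T₁ * T₂ * T₁ * T₂ : GL ι F) : Matrix ι ι F) *ᵥ x ∈ D ((s₁ * s₂ * s₁ * s₂) i) := by
    intro i x hx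
    simp only [Units.val_mul, ← Matrix.mulVec_mulVec, Equiv.Perm.mul_apply]
    exact hp₁ _ _ (hp₂ _ _ (hp₁ _ _ (hp₂ _ _ hx)))
  have ha : (s₁ * s₂ * s₁ * s₂) a = c := by
    simp only [Equiv.Perm.mul_apply, hs₁, hs₂]
    rw [Equiv.swap_apply_of_ne_of_ne hab (Ne.symm hca), Equiv.swap_apply_left, Equiv.swap_apply_left,
      Equiv.swap_apply_of_ne_of_ne hca hcb]
  have hb : (s₁ * s₂ * s₁ * s₂) b = a := by
    simp only [Equiv.Perm.mul_apply, hs₁, hs₂]
    rw [Equiv.swap_apply_left, Equiv.swap_apply_of_ne_of_ne hca hcb, Equiv.swap_apply_right,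
      Equiv.swap_apply_right]
  have hc : (s₁ * s₂ * s₁ * s₂) c = b := by
    simp only [Equiv.Perm.mul_apply, hs₁, hs₂]
    rw [Equiv.swap_apply_right, Equiv.swap_apply_right, Equiv.swap_apply_of_ne_of_ne hab (Ne.symm hca),
      Equiv.swap_apply_left]
  refine ⟨_, S.mem_perm hgO hperm, ?_, ?_, ?_, ?_⟩
  · intro x hx
    have := hperm a x hx
    rwa [ha] at this
  · intro x hx
    have := hperm b x hx
    rwa [hb] at this
  · intro x hx
    have := hperm c x hx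
    rwa [hc] at this
  · intro i hia hib hic x hx
    simp only [Units.val_mul, ← Matrix.mulVec_mulVec]
    rw [hf₂ i hib hic x hx, hf₁ i hia hib x hx, hf₂ i hib hic x hx, hf₁ i hia hib x hx]

end Ctx

end Cfsg.Agent.Lib.Geo.OmB
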