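/-
Stabilisers of orthogonal decompositions in `Ω`: characteristic two, members of dimension at least four.
-/
import Cfsg.Agent.Lib.Geo.OmB
set_option autoImplicit false

namespace Cfsg.Agent.Lib.Geo.OmDecE

open Cfsg Cfsg.Geo Cfsg.Agent.Lib.Geo.Basic Cfsg.Agent.Lib.Geo.Parabolic Cfsg.Agent.Lib.Geo.Centres
open Cfsg.Agent.Lib.Geo.Polar Cfsg.Agent.Lib.Geo.QForm
open Cfsg.Agent.Lib.GeoOmega.Basic Cfsg.Agent.Lib.GeoOmega.Eichler
open Cfsg.Agent.Lib.GeoOmega.Levi (rf rf_mulVec rf_mem rf_mul_mem_omega rf_inv)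
open Cfsg.Agent.Lib.Geo.OmSub (Par Par.add Par.zero Par.neg Par.sub Par.conj Par.swap pol_sum_left eich_zero)
open Cfsg.Agent.Lib.Geo.SpDecomp (exists_comps mem_decompositionStabilizer_of_forall)
open Cfsg.Agent.Lib.Geo.OmDec
open Cfsg.Agent.Lib.Geo.OmB
open scoped MatrixGroups Matrix

variable {ι : Type} [Fintype ι] [DecidableEq ι] {F : Type*} [Field F]
variable {Q : (ι → F) → F} {t : ℕ} {D : Fin t → Submodule F (ι → F)}

/-- A non-singular vector orthogonal to a singular vector. -/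
theorem exists_bW' [Fintype F] {W : Submodule F (ι → F)} (hQ : IsNondegenerateQuadraticForm Q)
    (hW : IsNondegenerateOn (QuadraticMap.polar Q) W) (hd : 3 ≤ Module.finrank F W) {p : ι → F} (hp : p ∈ W)
    (hp0 : p ≠ 0) (hpQ : Q p = 0) : ∃ b ∈ W, ∃ b' ∈ W, pol Q p b = 0 ∧ pol Q p b' = 0 ∧ pol Q b b' ≠ 0 := by
  obtain ⟨p', hp', hp'Q, hpp'⟩ := exists_hypW hQ hW hp hp0 hpQ
  obtain ⟨v, hv, hv0, hv1, hv2⟩ := exists_perp2W hQ hW hd p p'
  have hp'p : pol Q p' p = 1 := by rw [pol_symm hQ, hpp']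
  obtain ⟨x, hx, hne⟩ := (hW v hv hv0).1
  change pol Q x v ≠ 0 at hne
  obtain ⟨c, hc⟩ : ∃ c, c = x - pol Q x p' • p - pol Q x p • p' := ⟨_, rfl⟩
  have hcW : c ∈ W := by
    rw [hc]
    exact W.sub_mem (W.sub_mem hx (W.smul_mem _ hp)) (W.smul_mem _ hp')
  have hcp : pol Q p c = 0 := by
    rw [hc, pol_sub_right hQ, pol_sub_right hQ, pol_smul_right hQ, pol_smul_right hQ, pol_singular hQ hpQ,
      hpp', pol_symm hQ p x]
    ring
  have hcv : pol Q c v = pol Q x v := by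
    rw [hc, pol_sub_left hQ, pol_sub_left hQ, pol_smul_left hQ, pol_smul_left hQ, pol_symm hQ p v, hv1,
      pol_symm hQ p' v, hv2]
    ring
  have hvp : pol Q p v = 0 := by rw [pol_symm hQ, hv1]
  exact ⟨c, hcW, v, hv, hcp, hvp, by rw [hcv]; exact hne⟩

/-- The field with two elements. -/
theorem eq_one_of_card_two [Fintype F] (h : Fintype.card F = 2) {x : F} (hx : x ≠ 0) : x = 1 := by
  have := FiniteField.pow_card_sub_one_eq_one x hx
  rw [h] at this
  simpa using this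

/-- The hypotheses in characteristic two. -/
structure CtxE [Fintype F] (Q : (ι → F) → F) (D : Fin t → Submodule F (ι → F)) (M : Subgroup (GL ι F)) (k : ℕ) : Prop where
  hQ : IsNondegenerateQuadraticForm Q
  blk : Blk Q D
  fin : ∀ i, Module.finrank F (D i) = k
  iso : ∀ i j, AreIsometricFor Q (D i) (D j)
  card7 : 7 ≤ Fintype.card ι
  hH : decompositionStabilizer D ⊓ omegaGL Q ≤ M
  hM : M ≤ omegaGL Q
  two : (2 : F) = 0
  k4 : 4 ≤ k
  nts : Fintype.card F = 2 → k = 4 → ∀ i, ∀ p ∈ D i, ∀ b ∈ D i, Q p = 0 → Q b = 0 → pol Q p b = 0 → p ≠ 0 →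
    ∃ c : F, b = c • p

section CtxE

variable [Fintype F] {M : Subgroup (GL ι F)} {k : ℕ} (S : CtxE Q D M k)
include S

theorem CtxE.base : CtxB Q D M k := ⟨S.hQ, S.blk, S.fin, S.iso, S.card7, S.hH, S.hM⟩

theorem CtxE.mem_H {j : Fin t} {g : GL ι F} (hg : g ∈ omegaGL Q)
    (h1 : ∀ v, cp D j v = 0 → (g : Matrix ι ι F) *ᵥ v = v) (h2 : ∀ v ∈ D j, (g : Matrix ι ι F) *ᵥ v ∈ D j) :
    g ∈ M := by
  refine S.hH ⟨?_, hg⟩
  refine mem_decompositionStabilizer_of_forall (k := k) S.fin 1 g fun i x hx => ?_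
  by_cases hij : i = j
  · subst hij
    exact h2 x hx
  · rw [h1 x (cp_other S.hQ S.blk (Ne.symm hij) hx)]
    exact hx

theorem CtxE.miso : M ≤ isometryGroup F Q := S.hM.trans (omegaGL_le_isometryGroup Q)

theorem CtxE.be_eich {j : Fin t} {p b : ι → F} {g : GL ι F} (hp : p ∈ D j) (hb : b ∈ D j) (hpQ : Q p = 0)
    (hpb : pol Q p b = 0) (hg : Eich Q g p b) : BE Q D M j g := by
  have hQ := S.hQ
  have hgO := hg.mem_omega hQ S.card7 hpQ hpb
  have h1 : ∀ v, cp D j v = 0 → (g : Matrix ι ι F) *ᵥ v = v := fun v hv => by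
    rw [hg v, pol_eq_zero_of_cp hQ S.blk hv hb, pol_eq_zero_of_cp hQ S.blk hv hp]
    simp
  have h2 : ∀ v ∈ D j, (g : Matrix ι ι F) *ᵥ v ∈ D j := fun v hv => by
    rw [hg v]
    exact (D j).sub_mem ((D j).sub_mem ((D j).add_mem hv ((D j).smul_mem _ hp)) ((D j).smul_mem _ hb))
      ((D j).smul_mem _ hp)
  exact ⟨S.mem_H hgO h1 h2, omegaGL_le_isometryGroup Q hgO, h1, h2⟩

theorem CtxE.par_block {j : Fin t} {p b : ι → F} (hp : p ∈ D j) (hb : b ∈ D j) (hpQ : Q p = 0)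
    (hpb : pol Q p b = 0) : Par Q M p b :=
  ⟨hpb, fun _ hg => (S.be_eich hp hb hpQ hpb hg).mem⟩

theorem CtxE.be_apply {j : Fin t} {X : GL ι F} (hX : BE Q D M j X) (x : ι → F) :
    (X : Matrix ι ι F) *ᵥ x = x + ((X : Matrix ι ι F) *ᵥ (cp D j x) - cp D j x) := by
  have h1 : x = cp D j x + (x - cp D j x) := by abel
  conv_lhs => rw [h1, Matrix.mulVec_add, hX.fix _ (cp_rest S.hQ S.blk j x)]
  abel


theorem CtxE.exists_hyp {j : Fin t} {p : ι → F} (hp : p ∈ D j) (hp0 : p ≠ 0) (hpQ : Q p = 0) :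
    ∃ p' ∈ D j, Q p' = 0 ∧ pol Q p p' = 1 :=
  exists_hypW S.hQ (S.blk.nd j) hp hp0 hpQ

theorem CtxE.exists_sing {j : Fin t} : ∃ p ∈ D j, p ≠ 0 ∧ Q p = 0 :=
  exists_singular S.hQ (D j) (by rw [S.fin]; exact (by have := S.k4; omega))

theorem CtxE.exists_sing_not_orth {j : Fin t} {y : ι → F} (hy : y ∈ D j) (hy0 : y ≠ 0) :
    ∃ q ∈ D j, Q q = 0 ∧ pol Q y q ≠ 0 :=
  exists_sing_not_orthW S.hQ (S.blk.nd j) (by rw [S.fin]; exact (by have := S.k4; omega)) hy hy0

theorem CtxE.exists_bb {j : Fin t} {p : ι → F} (hp : p ∈ D j) (hp0 : p ≠ 0) (hpQ : Q p = 0) :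
    ∃ b ∈ D j, ∃ b' ∈ D j, pol Q p b = 0 ∧ pol Q p b' = 0 ∧ pol Q b b' ≠ 0 :=
  exists_bW' S.hQ (S.blk.nd j) (by rw [S.fin]; have := S.k4; omega) hp hp0 hpQ

theorem CtxE.trick {i : Fin t} {a p y : ι → F} (ha : Q a = 0) (hp : p ∈ D i) (hp0 : p ≠ 0) (hpQ : Q p = 0)
    (hy : Par Q M a y) (hai : ∀ x ∈ D i, pol Q p x = 0 → pol Q a x = 0) (hap : pol Q a p = 0) (hyp : pol Q y p ≠ 0)
    (s : F) : Par Q M a (s • p) := by
  have hQ := S.hQ
  obtain ⟨b, hb, b', hb', h1, h2, h3⟩ := S.exists_bb hp hp0 hpQ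
  have hτ : pol Q p ((s * (pol Q b b' * pol Q y p)⁻¹) • b) = 0 := by
    rw [pol_smul_right hQ, h1, mul_zero]
  have hb₂ : (s * (pol Q b b' * pol Q y p)⁻¹) • b ∈ D i := (D i).smul_mem _ hb
  have hsum : pol Q p ((s * (pol Q b b' * pol Q y p)⁻¹) • b + b') = 0 := by
    rw [pol_add_right hQ, hτ, h2, add_zero]
  have := par_trick hQ S.miso ha hpQ hap (hai _ hb₂ hτ) (hai _ hb' h2)
    (S.par_block hp hb₂ hpQ hτ) (S.par_block hp hb' hpQ h2)
    (S.par_block hp ((D i).add_mem hb₂ hb') hpQ hsum) hy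
  have e : (pol Q ((s * (pol Q b b' * pol Q y p)⁻¹) • b) b' * pol Q y p) = s := by
    rw [pol_smul_left hQ]
    field_simp
  rwa [e] at this

theorem CtxE.goodA {u w : ι → F} (hu : Q u = 0) (hu0 : u ≠ 0) (hw : Par Q M u w) {i : Fin t}
    (hui : cp D i u = 0) (hwi : cp D i w ≠ 0) : Good Q D M := by
  have hQ := S.hQ
  have B := S.blk
  obtain ⟨p, hp, hpQ, hne⟩ := S.exists_sing_not_orth (cp_mem B i w) hwi
  have hp0 : p ≠ 0 := by
    rintro rfl
    exact hne (pol_zero_right hQ _)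
  rw [← pol_cp hQ B i w hp] at hne
  have h1 := S.trick hu hp hp0 hpQ hw (fun x hx _ => pol_eq_zero_of_cp hQ B hui hx)
    (pol_eq_zero_of_cp hQ B hui hp) hne 1
  have h2 := Par.swap hQ hu hpQ h1
  refine ⟨i, p, _, hp, hpQ, hp0, h2, fun hm => ?_⟩
  have h3 := cp_self hQ B hm
  rw [cp_smul hQ B, hui, smul_zero] at h3
  apply hu0
  have h4 : (-(1 : F)) • u = 0 := h3.symm
  simpa using h4

theorem CtxE.goodB {u w : ι → F} (hu : Q u = 0) (hw : Par Q M u w) {j : Fin t} (hz : Q (cp D j u) = 0)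
    (hz0 : cp D j u ≠ 0) (hnot : u ∉ D j) (hwj : cp D j w ∉ Submodule.span F {cp D j u}) : Good Q D M := by
  have hQ := S.hQ
  have B := S.blk
  obtain ⟨z, hzd⟩ : ∃ z, z = cp D j u := ⟨_, rfl⟩
  rw [← hzd] at hz hz0 hwj
  have hzm : z ∈ D j := by
    rw [hzd]
    exact cp_mem B j u
  have huz : ∀ x ∈ D j, pol Q u x = pol Q z x := fun x hx => by
    rw [hzd]
    exact pol_cp hQ B j u hx
  have hzz : pol Q z z = 0 := pol_singular hQ hz
  -- a non-zero multiple of `z` is a parameter of `u`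
  have key : ∃ s : F, s ≠ 0 ∧ Par Q M u (s • z) := by
    by_cases hf : pol Q w z = 0
    · -- orthogonal case
      obtain ⟨z', hz', hz'Q, hzz'⟩ := S.exists_hyp hzm hz0 hz
      obtain ⟨w₀, hw₀⟩ : ∃ w₀, w₀ = cp D j w - pol Q w z' • z := ⟨_, rfl⟩
      have hw₀m : w₀ ∈ D j := by
        rw [hw₀]
        exact (D j).sub_mem (cp_mem B j w) ((D j).smul_mem _ hzm)
      have hw₀0 : w₀ ≠ 0 := by
        intro h
        apply hwj
        rw [hw₀, sub_eq_zero] at h
        rw [h]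
        exact Submodule.smul_mem _ _ (Submodule.mem_span_singleton_self z)
      obtain ⟨x, hx, hne⟩ := (B.nd j w₀ hw₀m hw₀0).1
      change pol Q x w₀ ≠ 0 at hne
      obtain ⟨c, hc⟩ : ∃ c, c = x - pol Q x z' • z - pol Q x z • z' := ⟨_, rfl⟩
      have hcm : c ∈ D j := by
        rw [hc]
        exact (D j).sub_mem ((D j).sub_mem hx ((D j).smul_mem _ hzm)) ((D j).smul_mem _ hz')
      have hzc : pol Q z c = 0 := by
        rw [hc, pol_sub_right hQ, pol_sub_right hQ, pol_smul_right hQ, pol_smul_right hQ, hzz, hzz',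
          pol_symm hQ z x]
        ring
      have hw₀z : pol Q w₀ z = 0 := by
        rw [hw₀, pol_sub_left hQ, pol_smul_left hQ, hzz, ← pol_cp hQ B j w hzm, hf]
        ring
      have hw₀z' : pol Q w₀ z' = 0 := by
        rw [hw₀, pol_sub_left hQ, pol_smul_left hQ, hzz', ← pol_cp hQ B j w hz']
        ring
      have hcw : pol Q w c ≠ 0 := by
        have h1 : pol Q w c = pol Q w₀ c := by
          rw [pol_cp hQ B j w hcm, hw₀, pol_sub_left hQ, pol_smul_left hQ, hzc]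
          ring
        rw [h1, pol_symm hQ, hc, pol_sub_left hQ, pol_sub_left hQ, pol_smul_left hQ, pol_smul_left hQ,
          pol_symm hQ z, hw₀z, pol_symm hQ z', hw₀z']
        simpa using hne
      obtain ⟨g, hg⟩ := exists_eich hQ hz hzc
      have hgB := S.be_eich hzm hcm hz hzc hg
      have e₁ : (g : Matrix ι ι F) *ᵥ u = u := eich_fix hg (by rw [huz c hcm, hzc]) (by rw [huz z hzm, hzz])
      have P₁ := Par.conj hw hgB.mem hgB.iso
      rw [e₁] at P₁
      have e₂ : (g : Matrix ι ι F) *ᵥ w - w = pol Q w c • z := by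
        rw [hg w, hf]
        simp
      refine ⟨pol Q w c, hcw, ?_⟩
      rw [← e₂]
      exact Par.sub hQ hu P₁ hw
    · refine ⟨1, one_ne_zero, S.trick hu hzm hz0 hz hw (fun x hx hx0 => ?_) ?_ hf 1⟩
      · rw [huz x hx, hx0]
      · rw [huz z hzm, hzz]
  obtain ⟨s, hs, hP⟩ := key
  have hP₂ : Par Q M (u - z) (s • z) := par_centre_sub hQ hz hP rfl rfl (by rw [huz z hzm, hzz])
  have hrQ : Q (u - z) = 0 := by
    rw [Q_sub hQ, hu, hz, huz z hzm, hzz]
    ring
  have h3 := Par.swap hQ hrQ hz hP₂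
  refine ⟨j, z, _, hzm, hz, hz0, h3, fun hm => hnot ?_⟩
  have h4 : u - z ∈ D j := by
    have := (D j).smul_mem (-s)⁻¹ hm
    rwa [smul_smul, inv_mul_cancel₀ (neg_ne_zero.mpr hs), one_smul] at this
  have := (D j).add_mem h4 hzm
  simpa using this

theorem CtxE.mod {j i : Fin t} {p v : ι → F} (hpQ : Q p = 0) (hp : p ∈ D j) (hv : Par Q M p v) (hij : i ≠ j)
    (hvi : cp D i v ≠ 0) {y : ι → F} (hy : y ∈ D i) : Par Q M p y := by
  have hQ := S.hQ
  have B := S.blk
  have hperp : ∀ x ∈ D i, pol Q p x = 0 := fun x hx => B.orth j i (Ne.symm hij) p hp x hx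
  obtain ⟨p₁, hp₁, hp₁Q, hne⟩ := S.exists_sing_not_orth (cp_mem B i v) hvi
  have hp₁0 : p₁ ≠ 0 := by
    rintro rfl
    exact hne (pol_zero_right hQ _)
  rw [← pol_cp hQ B i v hp₁] at hne
  have h1 : ∀ s : F, Par Q M p (s • p₁) := fun s =>
    S.trick hpQ hp₁ hp₁0 hp₁Q hv (fun x hx _ => hperp x hx) (hperp p₁ hp₁) hne s
  obtain ⟨p₂, hp₂, hp₂Q, h12⟩ := S.exists_hyp hp₁ hp₁0 hp₁Q
  have h1' : Par Q M p p₁ := by simpa using h1 1
  -- a vector not orthogonal to `p₁`
  have step : ∀ q ∈ D i, Q q = 0 → pol Q p₁ q = 1 → ∀ s : F, Par Q M p (s • q) := by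
    intro q hq hqQ hq1 s
    have hq0 : q ≠ 0 := by
      rintro rfl
      rw [pol_zero_right hQ] at hq1
      exact zero_ne_one hq1
    exact S.trick hpQ hq hq0 hqQ h1' (fun x hx _ => hperp x hx) (hperp q hq) (by rw [hq1]; exact one_ne_zero) s
  obtain ⟨q, hq, α, β, hqQ, hq1, e⟩ := span_hypW hQ hp₁ hp₂ hp₁Q hp₂Q h12 hy
  rw [e]
  have hq' : Par Q M p q := by simpa using step q hq hqQ hq1 1
  have hp₂' : Par Q M p p₂ := by simpa using step p₂ hp₂ hp₂Q h12 1
  exact Par.sub hQ hpQ (Par.add hQ hpQ (Par.add hQ hpQ (h1 α) (step p₂ hp₂ hp₂Q h12 β)) hq') hp₂'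

theorem CtxE.rel_symm {a b : Fin t} (h : Rel Q D M a b) : Rel Q D M b a := by
  intro z hz y hy hzQ hyQ
  have hQ := S.hQ
  have h1 := h y hy ((-1 : F) • z) ((D b).smul_mem _ hz) hyQ (by rw [hQ.smul, hzQ, mul_zero])
  have h2 := Par.swap hQ hyQ hzQ h1
  simpa using h2

theorem CtxE.rel_of {j i : Fin t} {p : ι → F} (hp : p ∈ D j) (hp0 : p ≠ 0) (hpQ : Q p = 0) (hij : i ≠ j)
    (h : ∀ y ∈ D i, Par Q M p y) : Rel Q D M i j := by
  have hQ := S.hQ
  have B := S.blk
  intro z hz y hy hzQ _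
  by_cases hz0 : z = 0
  · subst hz0
    exact par_zero_centre hQ y
  · have h1 : Par Q M p ((1 : F) • z) := by simpa using h z hz
    have h2 := Par.swap hQ hpQ hzQ h1
    refine S.mod hzQ hz h2 (Ne.symm hij) ?_ hy
    rw [cp_smul hQ B, cp_self hQ B hp]
    exact smul_ne_zero (neg_ne_zero.mpr one_ne_zero) hp0

theorem CtxE.par_of_singular {i : Fin t} {a : ι → F} (ha : Q a = 0) (h : ∀ z ∈ D i, Q z = 0 → Par Q M a z)
    {y : ι → F} (hy : y ∈ D i) : Par Q M a y := by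
  have hQ := S.hQ
  obtain ⟨p, hp, hp0, hpQ⟩ := S.exists_sing (j := i)
  obtain ⟨p', hp', hp'Q, hpp'⟩ := S.exists_hyp hp hp0 hpQ
  obtain ⟨q, hq, α, β, hqQ, -, e⟩ := span_hypW hQ hp hp' hpQ hp'Q hpp' hy
  rw [e]
  exact Par.sub hQ ha (Par.add hQ ha (Par.add hQ ha (h _ ((D i).smul_mem _ hp) (by rw [hQ.smul, hpQ, mul_zero]))
    (h _ ((D i).smul_mem _ hp') (by rw [hQ.smul, hp'Q, mul_zero]))) (h q hq hqQ)) (h p' hp' hp'Q)

theorem CtxE.omega_le (hall : ∀ a b, a ≠ b → Rel Q D M a b) (j : Fin t) : omegaGL Q ≤ M := by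
  have hQ := S.hQ
  have B := S.blk
  have hfull : ∀ p ∈ D j, Q p = 0 → Full Q M p := by
    intro p hp hpQ b g hb hg
    have h1 : ∀ s : Finset (Fin t), Par Q M p (∑ l ∈ s, cp D l b) := by
      intro s
      induction s using Finset.induction_on with
      | empty => simpa using Par.zero hQ (M := M) p
      | insert a s ha ih =>
        rw [Finset.sum_insert ha]
        refine Par.add hQ hpQ ?_ ih
        by_cases haj : a = j
        · subst haj
          refine S.par_block hp (cp_mem B a b) hpQ ?_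
          rw [pol_symm hQ, ← pol_cp hQ B a b hp, pol_symm hQ, hb]
        · exact S.par_of_singular hpQ (fun z hz hzQ => hall j a (Ne.symm haj) p hp z hz hpQ hzQ) (cp_mem B a b)
    have h2 := h1 Finset.univ
    rw [sum_cp B] at h2
    exact h2.2 g hg
  obtain ⟨p, hp, hp0, hpQ⟩ := S.exists_sing (j := j)
  obtain ⟨p', hp', hp'Q, hpp'⟩ := S.exists_hyp hp hp0 hpQ
  exact omega_le_of_full hQ S.card7 hpQ hp'Q (hfull p hp hpQ) (hfull p' hp' hp'Q)
    (by rw [pol_symm hQ, hpp']; exact one_ne_zero)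


theorem CtxE.exists_swap {a b : Fin t} (hab : a ≠ b) :
    ∃ T : GL ι F, T ∈ isometryGroup F Q ∧ T * T = 1 ∧
      ∀ i, ∀ x ∈ D i, (T : Matrix ι ι F) *ᵥ x ∈ D (Equiv.swap a b i) := by
  obtain ⟨T, h1, h2, h3, -⟩ := S.base.exists_swap hab
  exact ⟨T, h1, h2, h3⟩

theorem CtxE.rel_perm {g : GL ι F} (hgM : g ∈ M) {τ : Equiv.Perm (Fin t)}
    (h : ∀ i, ∀ x ∈ D i, (g : Matrix ι ι F) *ᵥ x ∈ D (τ i)) {a b : Fin t} (hR : Rel Q D M a b) :
    Rel Q D M (τ a) (τ b) := by
  have hgI := S.miso hgM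
  have hmap : ∀ i, (D i).map (Matrix.toLin' (g : Matrix ι ι F)) = D (τ i) := fun i => by
    refine Submodule.eq_of_le_of_finrank_eq ?_ ?_
    · rintro _ ⟨x, hx, rfl⟩
      exact h i x hx
    · rw [finrank_map_toLin', S.fin, S.fin]
  intro y hy z hz hyQ hzQ
  rw [← hmap] at hy hz
  obtain ⟨y₀, hy₀, rfl⟩ := hy
  obtain ⟨z₀, hz₀, rfl⟩ := hz
  rw [Matrix.toLin'_apply] at hyQ hzQ ⊢
  rw [Matrix.toLin'_apply]
  have hI := (mem_isometryGroup_iff Q g).mp hgI
  rw [hI] at hyQ hzQ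
  exact Par.conj (hR y₀ hy₀ z₀ hz₀ hyQ hzQ) hgM hgI

theorem CtxE.rel_third {a b c : Fin t} (hab : a ≠ b) (hca : c ≠ a) (hcb : c ≠ b) (hR : Rel Q D M a b) :
    Rel Q D M c a ∧ Rel Q D M b c := by
  obtain ⟨T₁, hT₁, hT₁₁, hp₁⟩ := S.exists_swap hab
  obtain ⟨T₂, hT₂, hT₂₂, hp₂⟩ := S.exists_swap (a := b) (b := c) (Ne.symm hcb)
  have hinv₁ : T₁⁻¹ = T₁ := inv_eq_of_mul_eq_one_left hT₁₁
  have hinv₂ : T₂⁻¹ = T₂ := inv_eq_of_mul_eq_one_left hT₂₂
  have hgO : T₁ * T₂ * T₁ * T₂ ∈ omegaGL Q := by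
    rw [omegaGL_eq_commutator]
    have := Subgroup.commutator_mem_commutator hT₁ hT₂
    rwa [commutatorElement_def, hinv₁, hinv₂] at this
  obtain ⟨s₁, hs₁⟩ : ∃ s₁, s₁ = Equiv.swap a b := ⟨_, rfl⟩
  obtain ⟨s₂, hs₂⟩ : ∃ s₂, s₂ = Equiv.swap b c := ⟨_, rfl⟩
  rw [← hs₁] at hp₁
  rw [← hs₂] at hp₂
  have hperm : ∀ i, ∀ x ∈ D i, ((T₁ * T₂ * T₁ * T₂ : GL ι F) : Matrix ι ι F) *ᵥ x ∈ D ((s₁ * s₂ * s₁ * s₂) i) := by
    intro i x hx
    simp only [Units.val_mul, ← Matrix.mulVec_mulVec, Equiv.Perm.mul_apply]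
    exact hp₁ _ _ (hp₂ _ _ (hp₁ _ _ (hp₂ _ _ hx)))
  have hgM : T₁ * T₂ * T₁ * T₂ ∈ M :=
    S.hH ⟨mem_decompositionStabilizer_of_forall (k := k) S.fin _ _ hperm, hgO⟩
  have ha : (s₁ * s₂ * s₁ * s₂) a = c := by
    simp only [Equiv.Perm.mul_apply, hs₁, hs₂]
    rw [Equiv.swap_apply_of_ne_of_ne hab (Ne.symm hca), Equiv.swap_apply_left, Equiv.swap_apply_left,
      Equiv.swap_apply_of_ne_of_ne hca hcb]
  have hb : (s₁ * s₂ * s₁ * s₂) b = a := by
    simp only [Equiv.Perm.mul_apply, hs₁, hs₂]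
    rw [Equiv.swap_apply_left, Equiv.swap_apply_of_ne_of_ne hca hcb, Equiv.swap_apply_right,
      Equiv.swap_apply_right]
  have hc : (s₁ * s₂ * s₁ * s₂) c = b := by
    simp only [Equiv.Perm.mul_apply, hs₁, hs₂]
    rw [Equiv.swap_apply_right, Equiv.swap_apply_right, Equiv.swap_apply_of_ne_of_ne hab (Ne.symm hca),
      Equiv.swap_apply_left]
  have h1 := S.rel_perm hgM hperm hR
  rw [ha, hb] at h1
  have h2 := S.rel_perm hgM hperm h1
  rw [ha, hc] at h2
  exact ⟨h1, h2⟩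

theorem CtxE.all_rel {a b : Fin t} (hab : a ≠ b) (hR : Rel Q D M a b) : ∀ c d, c ≠ d → Rel Q D M c d := by
  have h1 : ∀ x, a ≠ x → Rel Q D M a x := by
    intro x hx
    by_cases hxb : x = b
    · rw [hxb]
      exact hR
    · exact S.rel_symm (S.rel_third hab (Ne.symm hx) hxb hR).1
  intro c d hcd
  by_cases hca : c = a
  · rw [hca]
    exact h1 d (by rw [← hca]; exact hcd)
  · by_cases hda : d = a
    · rw [hda]
      exact S.rel_symm (h1 c (Ne.symm hca))
    · exact (S.rel_third (Ne.symm hca) hda (Ne.symm hcd) (h1 c (Ne.symm hca))).2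

theorem CtxE.final (hG : Good Q D M) : omegaGL Q ≤ M := by
  have hQ := S.hQ
  have B := S.blk
  obtain ⟨j, p, v, hp, hpQ, hp0, hP, hv⟩ := hG
  obtain ⟨i, hij, hvi⟩ := exists_cp_ne hQ B hv
  have h1 : ∀ y ∈ D i, Par Q M p y := fun y hy => S.mod hpQ hp hP hij hvi hy
  have h2 := S.rel_of hp hp0 hpQ hij h1
  exact S.omega_le (S.all_rel hij h2) j

theorem CtxE.exists_not_stab {a b : Fin t} (hab : a ≠ b) : ∃ g ∈ omegaGL Q, g ∉ decompositionStabilizer D := by
  have hQ := S.hQ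
  have B := S.blk
  obtain ⟨p, hp, hp0, hpQ⟩ := S.exists_sing (j := a)
  obtain ⟨y, hy, hy0, hyQ⟩ := S.exists_sing (j := b)
  obtain ⟨x, hx, hne⟩ := (B.nd b y hy hy0).1
  change pol Q x y ≠ 0 at hne
  have hpy : pol Q p y = 0 := B.orth a b hab p hp y hy
  obtain ⟨g, hg⟩ := exists_eich hQ hpQ hpy
  refine ⟨g, hg.mem_omega hQ S.card7 hpQ hpy, ?_⟩
  rintro ⟨σ, hσ⟩
  have hypp : pol Q y p = 0 := by rw [pol_symm hQ, hpy]
  have h1 : (g : Matrix ι ι F) *ᵥ y = y := eich_fix hg (pol_singular hQ hyQ) hypp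
  have h2 : y ∈ D (σ b) := by
    rw [← hσ b]
    exact ⟨y, hy, by rw [Matrix.toLin'_apply, h1]⟩
  have h3 : σ b = b := by
    by_contra hne2
    have := cp_other hQ B hne2 hy
    rw [cp_self hQ B h2] at this
    exact hy0 this
  have h4 : (g : Matrix ι ι F) *ᵥ x ∈ D b := by
    have : (g : Matrix ι ι F) *ᵥ x ∈ D (σ b) := by
      rw [← hσ b]
      exact ⟨x, hx, Matrix.toLin'_apply _ _⟩
    rwa [h3] at this
  have hxp : pol Q x p = 0 := B.orth b a (Ne.symm hab) x hx p hp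
  rw [hg x, hxp] at h4
  have h5 : pol Q x y • p ∈ D b := by
    have : pol Q x y • p = x + pol Q x y • p - (0 : F) • y - (Q y * 0) • p - x := by
      simp
    rw [this]
    exact (D b).sub_mem h4 hx
  have h6 : p ∈ D b := by
    have := (D b).smul_mem (pol Q x y)⁻¹ h5
    rwa [smul_smul, inv_mul_cancel₀ hne, one_smul] at this
  have := cp_other hQ B (Ne.symm hab) hp
  rw [cp_self hQ B h6] at this
  exact hp0 this

theorem CtxE.gs_sing_p {j : Fin t} {z p z' : ι → F} (hp : p ∈ D j) (hp0 : p ≠ 0) (hpQ : Q p = 0) (hzp : pol Q z p = 0)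
    (hz' : z' ∈ D j) (hzz' : pol Q z z' = 1) (hpz' : pol Q p z' = 0) : GS Q D M j z := by
  have hQ := S.hQ
  obtain ⟨g, hg⟩ := exists_eich hQ hpQ hpz'
  refine ⟨g, 1, p, S.be_eich hp hz' hpQ hpz' hg, ?_, one_ne_zero, hpQ, hp, hp0, hzp⟩
  rw [hg z, hzp, hzz']
  simp

/-- Characteristic two: the form vanishes on the diagonal. -/
theorem CtxE.pol_self0 (x : ι → F) : pol Q x x = 0 := by
  rw [pol_self S.hQ, S.two, zero_mul]

theorem CtxE.exists_sqrt (a : F) : ∃ b : F, b ^ 2 = a := by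
  have h2 : (2 : F) = 0 := S.two
  haveI : CharP F 2 := CharTwo.of_one_ne_zero_of_two_eq_zero (R := F) one_ne_zero h2
  have h3 : ringChar F = 2 := ringChar.eq F 2
  obtain ⟨b, hb⟩ := FiniteField.isSquare_of_char_two h3 a
  exact ⟨b, by rw [hb, sq]⟩

/-- An Eichler transformation with singular centre in a member and non-singular parameter in the same member moves a
parameter by a vector of the member. -/
theorem CtxE.par_move {u v z q : ι → F} {j : Fin t} (hu : Q u = 0) (hv : Par Q M u v) (hzu : z = cp D j u)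
    (hq : q ∈ D j) (hqQ : Q q = 0) (hqz : pol Q q z = 0) (l : F) :
    Par Q M u ((l * pol Q v z - l ^ 2 * Q z * pol Q v q) • q - (l * pol Q v q) • z) := by
  have hQ := S.hQ
  have B := S.blk
  have hz : z ∈ D j := by
    rw [hzu]
    exact cp_mem B j u
  have huz : ∀ x ∈ D j, pol Q u x = pol Q z x := fun x hx => by
    rw [hzu]
    exact pol_cp hQ B j u hx
  have hql : pol Q q (l • z) = 0 := by rw [pol_smul_right hQ, hqz, mul_zero]
  obtain ⟨g, hg⟩ := exists_eich hQ hqQ hql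
  have hgB := S.be_eich hq ((D j).smul_mem _ hz) hqQ hql hg
  have hgu : (g : Matrix ι ι F) *ᵥ u = u :=
    eich_fix hg (by rw [huz _ ((D j).smul_mem _ hz), pol_smul_right hQ, S.pol_self0, mul_zero])
      (by rw [huz q hq, pol_symm hQ, hqz])
  have P₁ := Par.conj hv hgB.mem hgB.iso
  rw [hgu] at P₁
  have h := Par.sub hQ hu P₁ hv
  have e : (g : Matrix ι ι F) *ᵥ v - v =
      (l * pol Q v z - l ^ 2 * Q z * pol Q v q) • q - (l * pol Q v q) • z := by
    rw [hg v, pol_smul_right hQ, hQ.smul]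
    module
  rwa [e] at h

/-- A combination of a singular vector and a non-singular vector with non-zero second coefficient does not vanish. -/
theorem CtxE.comb_ne {q z : ι → F} (hqQ : Q q = 0) (hzQ : Q z ≠ 0) {α β : F} (hβ : β ≠ 0) : α • q + β • z ≠ 0 := by
  have hQ := S.hQ
  intro h
  have h1 : β • z = (-α) • q := by
    have : β • z = -(α • q) := eq_neg_of_add_eq_zero_right h
    rw [this, neg_smul]
  have h2 : Q (β • z) = 0 := by rw [h1, hQ.smul, hqQ, mul_zero]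
  rw [hQ.smul] at h2
  exact (mul_ne_zero (pow_ne_zero 2 hβ) hzQ) h2

theorem CtxE.comb_ne' {q z : ι → F} (hq0 : q ≠ 0) (hqQ : Q q = 0) (hzQ : Q z ≠ 0) {α β : F} (hα : α ≠ 0) :
    α • q + β • z ≠ 0 := by
  have hQ := S.hQ
  intro h
  by_cases hβ : β = 0
  · subst hβ
    simp only [zero_smul, add_zero] at h
    exact (smul_ne_zero hα hq0) h
  · exact S.comb_ne hqQ hzQ hβ h

/-- A singular vector orthogonal to `z` and not to `w`. -/
theorem CtxE.exists_q {j : Fin t} {z w : ι → F} (hz : z ∈ D j) (hzQ : Q z ≠ 0) (hw : w ∈ D j)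
    (hwz : ∀ c : F, w ≠ c • z) : ∃ q ∈ D j, q ≠ 0 ∧ Q q = 0 ∧ pol Q q z = 0 ∧ pol Q w q ≠ 0 := by
  have hQ := S.hQ
  have B := S.blk
  have hz0 : z ≠ 0 := by
    rintro rfl
    exact hzQ (Q_zero hQ)
  have hzz : pol Q z z = 0 := S.pol_self0 z
  -- the singular lift
  have lift : ∀ x ∈ D j, pol Q x z = 0 → ∃ α : F, Q (x + α • z) = 0 := by
    intro x _ hxz
    obtain ⟨α, hα⟩ := S.exists_sqrt (Q x / Q z)
    refine ⟨α, ?_⟩
    rw [Q_add hQ, hQ.smul, hα, pol_smul_right hQ, hxz, mul_zero, add_zero]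
    have : Q x / Q z * Q z = Q x := by field_simp
    rw [this]
    linear_combination Q x * S.two
  obtain ⟨x, hx, hxz, hwx⟩ : ∃ x ∈ D j, pol Q x z = 0 ∧ pol Q w x ≠ 0 := by
    obtain ⟨y, hy, h1, h2⟩ := exists_perp_not hQ B hz hz0 hw hwz
    exact ⟨y, hy, by rw [pol_symm hQ, h1], h2⟩
  have hmem : ∀ x ∈ D j, ∀ α : F, x + α • z ∈ D j := fun x hx α => (D j).add_mem hx ((D j).smul_mem _ hz)
  have hnz : ∀ {q : ι → F}, pol Q w q ≠ 0 → q ≠ 0 := by
    rintro q h rfl
    exact h (pol_zero_right hQ _)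
  have hperp : ∀ x, pol Q x z = 0 → ∀ α : F, pol Q (x + α • z) z = 0 := fun x h α => by
    rw [pol_add_left hQ, pol_smul_left hQ, h, hzz, mul_zero, add_zero]
  by_cases hA : pol Q w z = 0
  · obtain ⟨α, hα⟩ := lift x hx hxz
    have h1 : pol Q w (x + α • z) = pol Q w x := by
      rw [pol_add_right hQ, pol_smul_right hQ, hA, mul_zero, add_zero]
    exact ⟨_, hmem x hx α, hnz (by rw [h1]; exact hwx), hα, hperp x hxz α, by rw [h1]; exact hwx⟩
  · by_contra hcon
    push Not at hcon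
    -- a second vector in the orthogonal of `z`
    have hdim : ∃ x₀ ∈ D j, pol Q x₀ z = 0 ∧ ∀ c : F, x₀ ≠ c • z := by
      have hf := finrank_cut (Q := Q) (D j) z
      rw [S.fin] at hf
      have hk := S.k4
      have h2 : 2 ≤ Module.finrank F (cut Q (D j) z) := by omega
      obtain ⟨x₀, hx₀, hx₀n⟩ := Cfsg.Agent.Lib.GeoOmega.Levi.exists_not_mem (T := cut Q (D j) z)
        (X := Submodule.span F {z}) (by
          have := Cfsg.Agent.Lib.GeoOmega.Levi.finrank_single_le z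
          omega)
      obtain ⟨h3, h4⟩ := (mem_cut hQ).mp hx₀
      exact ⟨x₀, h3, h4, fun c hc => hx₀n (by rw [hc]; exact Submodule.smul_mem _ _ (Submodule.mem_span_singleton_self z))⟩
    obtain ⟨x₀, hx₀, hx₀z, hx₀c⟩ := hdim
    obtain ⟨y₀, hy₀, hzy₀, hx₀y₀⟩ := exists_perp_not hQ B hz hz0 hx₀ hx₀c
    have hy₀z : pol Q y₀ z = 0 := by rw [pol_symm hQ, hzy₀]
    obtain ⟨α, hα⟩ := lift x₀ hx₀ hx₀z
    obtain ⟨β, hβ⟩ := lift y₀ hy₀ hy₀z
    have h1 : pol Q (x₀ + α • z) (y₀ + β • z) = pol Q x₀ y₀ := by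
      simp only [pol_add_left hQ, pol_add_right hQ, pol_smul_left hQ, pol_smul_right hQ, hx₀z, hzy₀, hzz]
      ring
    obtain ⟨s₁, hs₁⟩ : ∃ s₁, s₁ = x₀ + α • z := ⟨_, rfl⟩
    obtain ⟨s₂, hs₂⟩ : ∃ s₂, s₂ = y₀ + β • z := ⟨_, rfl⟩
    rw [← hs₁] at hα h1
    rw [← hs₂] at hβ h1
    have hs₁z : pol Q s₁ z = 0 := by rw [hs₁]; exact hperp x₀ hx₀z α
    have hs₂z : pol Q s₂ z = 0 := by rw [hs₂]; exact hperp y₀ hy₀z β
    have hs₁D : s₁ ∈ D j := by rw [hs₁]; exact hmem x₀ hx₀ α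
    have hs₂D : s₂ ∈ D j := by rw [hs₂]; exact hmem y₀ hy₀ β
    obtain ⟨γ, hγ⟩ := lift (s₁ + s₂) ((D j).add_mem hs₁D hs₂D) (by rw [pol_add_left hQ, hs₁z, hs₂z, add_zero])
    have hγ0 : γ ≠ 0 := by
      rintro rfl
      rw [zero_smul, add_zero, Q_add hQ, hα, hβ, h1] at hγ
      apply hx₀y₀
      linear_combination hγ
    have hs₁w : pol Q w s₁ = 0 := by
      by_contra h
      exact h (hcon s₁ hs₁D (hnz h) hα hs₁z)
    have hs₂w : pol Q w s₂ = 0 := by
      by_contra h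
      exact h (hcon s₂ hs₂D (hnz h) hβ hs₂z)
    have h3 : pol Q w (s₁ + s₂ + γ • z) ≠ 0 := by
      rw [pol_add_right hQ, pol_add_right hQ, pol_smul_right hQ, hs₁w, hs₂w, zero_add, zero_add]
      exact mul_ne_zero hγ0 hA
    exact h3 (hcon _ (hmem _ ((D j).add_mem hs₁D hs₂D) γ) (hnz h3) hγ
        (hperp _ (by rw [pol_add_left hQ, hs₁z, hs₂z, add_zero]) γ))

/-- Non-singular vectors are moved along singular vectors. -/
theorem CtxE.gs_nonsing {j : Fin t} {z : ι → F} (hz : z ∈ D j) (hzQ : Q z ≠ 0) : GS Q D M j z := by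
  have hQ := S.hQ
  have B := S.blk
  have hf := finrank_cut (Q := Q) (D j) z
  rw [S.fin] at hf
  have hk := S.k4
  obtain ⟨p, hp, hp0, hpQ⟩ := exists_singular hQ (cut Q (D j) z) (by omega)
  obtain ⟨hp1, hp2⟩ := (mem_cut hQ).mp hp
  have hzc : ∀ c : F, z ≠ c • p := by
    intro c hc
    apply hzQ
    rw [hc, hQ.smul, hpQ, mul_zero]
  obtain ⟨y, hy, h1, h2⟩ := exists_perp_not hQ B hp1 hp0 hz hzc
  obtain ⟨z', hz'⟩ : ∃ z', z' = (pol Q z y)⁻¹ • y := ⟨_, rfl⟩
  refine S.gs_sing_p (z' := z') hp1 hp0 hpQ (by rw [pol_symm hQ, hp2]) (by rw [hz']; exact (D j).smul_mem _ hy) ?_ ?_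
  · rw [hz', pol_smul_right hQ]
    exact inv_mul_cancel₀ h2
  · rw [hz', pol_smul_right hQ, h1, mul_zero]

/-- From a suitable element acting on a member to an Eichler transformation with centre in that member. -/
theorem CtxE.core1 {u y : ι → F} {j : Fin t} (hu : Q u = 0) (hy : Par Q M u y) (hyj : cp D j y = 0)
    (hGS : GS Q D M j (cp D j u)) (hnot : y - Q y • u ∉ D j) : Good Q D M := by
  have hQ := S.hQ
  have B := S.blk
  obtain ⟨X, c, p, hX, hXz, hc, hpQ, hp, hp0, hzp⟩ := hGS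
  have hXu : (X : Matrix ι ι F) *ᵥ u = u + c • p := by
    rw [S.be_apply hX u, hXz]
    abel
  have hXy : (X : Matrix ι ι F) *ᵥ y = y := hX.fix y hyj
  have P₁ := Par.conj hy hX.mem hX.iso
  rw [hXu, hXy] at P₁
  have hup : pol Q u p = 0 := by rw [pol_cp hQ B j u hp, hzp]
  have hyp : pol Q y p = 0 := pol_eq_zero_of_cp hQ B hyj hp
  have hay : pol Q (c • p) y = 0 := by rw [pol_smul_left hQ, pol_symm hQ, hyp, mul_zero]
  have hax : pol Q (c • p) u = 0 := by rw [pol_smul_left hQ, pol_symm hQ, hup, mul_zero]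
  have hcpQ : Q (c • p) = 0 := by rw [hQ.smul, hpQ, mul_zero]
  have hP : Par Q M (c • p) (y - Q y • u) := by
    refine ⟨by rw [pol_sub_right hQ, hay, pol_smul_right hQ, hax]; ring, fun g hg => ?_⟩
    obtain ⟨g₁, hg₁⟩ := exists_eich hQ hu hy.1
    have h3 := eich_centre_add hQ hg₁ hg hu hy.1 hay hax
    have h4 := P₁.2 _ h3
    have h5 := hy.2 _ hg₁
    have h6 : g = g₁⁻¹ * (g₁ * g) := by group
    rw [h6]
    exact M.mul_mem (M.inv_mem h5) h4
  exact ⟨j, c • p, _, (D j).smul_mem _ hp, hcpQ, smul_ne_zero hc hp0, hP, hnot⟩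

/-- Another component of `u` is non-singular. -/
theorem CtxE.exists_other {u : ι → F} {j : Fin t} (hu : Q u = 0) (hz : Q (cp D j u) ≠ 0) :
    ∃ j', j' ≠ j ∧ Q (cp D j' u) ≠ 0 := by
  have hQ := S.hQ
  have B := S.blk
  by_contra hcon
  push Not at hcon
  have h1 := Q_eq_sum hQ B u
  rw [hu, Finset.sum_eq_single j (fun i _ hi => hcon i hi) (by simp)] at h1
  exact hz h1.symm

/-- The case where the orthogonal of the plane `⟨z, w⟩` contains a singular vector. -/
theorem CtxE.good_iso {u v q : ι → F} {j : Fin t} (hu : Q u = 0) (hv : Par Q M u v) (hnot : u ∉ D j)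
    (hq : q ∈ D j) (hq0 : q ≠ 0) (hqQ : Q q = 0) (hqz : pol Q q (cp D j u) = 0) (hvq : pol Q v q = 0)
    (hA : pol Q v (cp D j u) ≠ 0) : Good Q D M := by
  have hQ := S.hQ
  have h := S.par_move hu hv rfl hq hqQ hqz 1
  rw [hvq] at h
  simp only [one_mul, one_pow, mul_zero, sub_zero, zero_smul] at h
  have h3 := Par.swap hQ hu hqQ h
  refine ⟨j, q, _, hq, hqQ, hq0, h3, fun hm => hnot ?_⟩
  have := (D j).smul_mem (-pol Q v (cp D j u))⁻¹ hm
  rwa [smul_smul, inv_mul_cancel₀ (neg_ne_zero.mpr hA), one_smul] at this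

/-- Over the field with two elements a member of dimension four not of plus type. -/
theorem CtxE.lemK (h2 : Fintype.card F = 2) (hk : k = 4) {j : Fin t} {z w : ι → F} (hz : z ∈ D j) (hw : w ∈ D j)
    (hzQ : Q z ≠ 0) (hA : pol Q w z ≠ 0) (hC : ∀ q ∈ D j, q ≠ 0 → Q q = 0 → pol Q q z = 0 → pol Q w q ≠ 0) :
    Q w = 0 := by
  have hQ := S.hQ
  have B := S.blk
  by_contra hwQ
  have hz1 : Q z = 1 := eq_one_of_card_two h2 hzQ
  have hw1 : Q w = 1 := eq_one_of_card_two h2 hwQ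
  have hA1 : pol Q w z = 1 := eq_one_of_card_two h2 hA
  have hzw : pol Q z w = 1 := by rw [pol_symm hQ, hA1]
  have two := S.two
  have hf1 := finrank_cut (Q := Q) (D j) z
  have hf2 := finrank_cut (Q := Q) (cut Q (D j) z) w
  rw [S.fin] at hf1
  obtain ⟨c, hc, hc0⟩ := Submodule.exists_mem_ne_zero_of_ne_bot (p := cut Q (cut Q (D j) z) w) (by
    intro h0
    rw [h0] at hf2
    simp at hf2
    omega)
  obtain ⟨hc1, hc2⟩ := (mem_cut hQ).mp hc
  obtain ⟨hc3, hc4⟩ := (mem_cut hQ).mp hc1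
  obtain ⟨x, hx, hne⟩ := (B.nd j c hc3 hc0).2
  change pol Q c x ≠ 0 at hne
  obtain ⟨d, hd⟩ : ∃ d, d = x + pol Q x w • z + pol Q x z • w := ⟨_, rfl⟩
  have hdD : d ∈ D j := by
    rw [hd]
    exact (D j).add_mem ((D j).add_mem hx ((D j).smul_mem _ hz)) ((D j).smul_mem _ hw)
  have hzz : pol Q z z = 0 := S.pol_self0 z
  have hww : pol Q w w = 0 := S.pol_self0 w
  have hdz : pol Q d z = 0 := by
    rw [hd, pol_add_left hQ, pol_add_left hQ, pol_smul_left hQ, pol_smul_left hQ, hzz, hA1]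
    linear_combination pol Q x z * two
  have hdw : pol Q d w = 0 := by
    rw [hd, pol_add_left hQ, pol_add_left hQ, pol_smul_left hQ, pol_smul_left hQ, hzw, hww]
    linear_combination pol Q x w * two
  have hcd : pol Q c d = 1 := by
    apply eq_one_of_card_two h2
    rw [hd, pol_add_right hQ, pol_add_right hQ, pol_smul_right hQ, pol_smul_right hQ, hc4, hc2]
    simpa using hne
  have hd0 : d ≠ 0 := by
    rintro rfl
    rw [pol_zero_right hQ] at hcd
    exact zero_ne_one hcd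
  have hcQ : Q c = 1 := by
    apply eq_one_of_card_two h2
    intro h
    exact hC c hc3 hc0 h hc4 (by rw [pol_symm hQ, hc2])
  have hdQ : Q d = 1 := by
    apply eq_one_of_card_two h2
    intro h
    exact hC d hdD hd0 h hdz (by rw [pol_symm hQ, hdw])
  have hu1 : Q (z + c) = 0 := by
    rw [Q_add hQ, hz1, hcQ, pol_symm hQ, hc4]
    linear_combination two
  have hu2 : Q (w + d) = 0 := by
    rw [Q_add hQ, hw1, hdQ, pol_symm hQ, hdw]
    linear_combination two
  have hu12 : pol Q (z + c) (w + d) = 0 := by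
    rw [pol_add_left hQ, pol_add_right hQ, pol_add_right hQ, hzw, hc2, hcd, pol_symm hQ z d, hdz]
    linear_combination two
  have hu0 : z + c ≠ 0 := by
    intro h
    have h3 : pol Q (z + c) w = 1 := by
      rw [pol_add_left hQ, hzw, hc2, add_zero]
    rw [h, pol_zero_left hQ] at h3
    exact zero_ne_one h3
  obtain ⟨μ, hμ⟩ := S.nts h2 hk j _ ((D j).add_mem hz hc3) _ ((D j).add_mem hw hdD) hu1 hu2 hu12 hu0
  have h3 : pol Q (w + d) z = 1 := by
    rw [pol_add_left hQ, hA1, hdz, add_zero]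
  rw [hμ, pol_smul_left hQ, pol_add_left hQ, hzz, hc4] at h3
  simp at h3

/-- Non-singular components. -/
theorem CtxE.goodZ {u v : ι → F} {j : Fin t} (hu : Q u = 0) (hv : Par Q M u v) (hzQ : Q (cp D j u) ≠ 0)
    (hnot : ∀ c, u ∉ D c) (hvj : ∀ c : F, cp D j v ≠ c • cp D j u)
    (hV : Fintype.card F = 2 → k = 4 → Q v ≠ 0) : Good Q D M := by
  have hQ := S.hQ
  have B := S.blk
  have two := S.two
  -- a good vector in the centre's component with a non-zero pairing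
  have hCase : ∀ {j : Fin t}, Q (cp D j u) ≠ 0 → pol Q v (cp D j u) ≠ 0 →
      (∃ q ∈ D j, q ≠ 0 ∧ Q q = 0 ∧ pol Q q (cp D j u) = 0 ∧ pol Q v q = 0) → Good Q D M := by
    rintro j _ hA ⟨q, hq, hq0, hqQ, hqz, hvq⟩
    exact S.good_iso hu hv (hnot j) hq hq0 hqQ hqz hvq hA
  obtain ⟨z, hzd⟩ : ∃ z, z = cp D j u := ⟨_, rfl⟩
  have hzm : z ∈ D j := by
    rw [hzd]
    exact cp_mem B j u
  rw [← hzd] at hzQ hvj
  obtain ⟨w, hwd⟩ : ∃ w, w = cp D j v := ⟨_, rfl⟩
  have hwm : w ∈ D j := by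
    rw [hwd]
    exact cp_mem B j v
  rw [← hwd] at hvj
  have hvx : ∀ x ∈ D j, pol Q v x = pol Q w x := fun x hx => by
    rw [hwd]
    exact pol_cp hQ B j v hx
  have huz : ∀ x ∈ D j, pol Q u x = pol Q z x := fun x hx => by
    rw [hzd]
    exact pol_cp hQ B j u hx
  obtain ⟨q, hq, hq0, hqQ, hqz, hwq⟩ := S.exists_q hzm hzQ hwm hvj
  have hB : pol Q v q ≠ 0 := by rw [hvx q hq]; exact hwq
  obtain ⟨j', hj'j, hj'Q⟩ := S.exists_other hu (by rw [← hzd]; exact hzQ)
  have hGS : GS Q D M j' (cp D j' u) := S.gs_nonsing (cp_mem B j' u) hj'Q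
  -- the general step: a vector of the member with a non-vanishing component
  have key : ∀ y ∈ D j, Par Q M u y → y - Q y • z ≠ 0 → Good Q D M := by
    intro y hy hP hne
    refine S.core1 (j := j') hu hP (cp_other hQ B hj'j hy) hGS fun hm => hne ?_
    have h1 := cp_other hQ B (Ne.symm hj'j) hm
    rw [cp_sub hQ B, cp_smul hQ B, cp_self hQ B hy, ← hzd] at h1
    exact h1
  have hQy : ∀ α β : F, Q (α • q + β • z) = β ^ 2 * Q z := fun α β => by
    rw [Q_smul_add hQ, hqQ, hqz]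
    simp
  by_cases hA : pol Q v z = 0
  · -- first case
    have h1 := S.par_move hu hv hzd hq hqQ hqz 1
    rw [hA] at h1
    obtain ⟨α, hα⟩ : ∃ α : F, α = (1 * 0 - 1 ^ 2 * Q z * pol Q v q) := ⟨_, rfl⟩
    obtain ⟨β, hβ⟩ : ∃ β : F, β = -(1 * pol Q v q) := ⟨_, rfl⟩
    have e : (1 * 0 - 1 ^ 2 * Q z * pol Q v q) • q - (1 * pol Q v q) • z = α • q + β • z := by
      rw [hα, hβ, neg_smul, sub_eq_add_neg]
    rw [e] at h1
    have hα0 : α ≠ 0 := by
      rw [hα]
      simpa using ⟨hzQ, hB⟩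
    refine key _ ((D j).add_mem ((D j).smul_mem _ hq) ((D j).smul_mem _ hzm)) h1 ?_
    rw [hQy]
    have e2 : α • q + β • z - (β ^ 2 * Q z) • z = α • q + (β - β ^ 2 * Q z) • z := by module
    rw [e2]
    exact S.comb_ne' hq0 hqQ hzQ hα0
  · by_cases hiso : ∃ q' ∈ D j, q' ≠ 0 ∧ Q q' = 0 ∧ pol Q q' z = 0 ∧ pol Q v q' = 0
    · exact hCase (by rw [← hzd]; exact hzQ) (by rw [← hzd]; exact hA) (by rw [← hzd]; exact hiso)
    · push Not at hiso
      by_cases hq2 : Fintype.card F = 2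
      · -- the field with two elements
        have hz1 : Q z = 1 := eq_one_of_card_two hq2 hzQ
        have hA1 : pol Q v z = 1 := eq_one_of_card_two hq2 hA
        have hB1 : pol Q v q = 1 := eq_one_of_card_two hq2 hB
        have h1 := S.par_move hu hv hzd hq hqQ hqz 1
        rw [hA1, hB1, hz1] at h1
        simp only [one_mul, one_pow, mul_one, sub_self, zero_smul, zero_sub, one_smul] at h1
        have h1' : Par Q M u z := by
          have := Par.neg hQ hu h1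
          simpa using this
        have hk4 : k = 4 := by
          by_contra hne
          have hk4 := S.k4
          -- a singular vector in the orthogonal of the plane
          have hf1 := finrank_cut (Q := Q) (D j) z
          have hf2 := finrank_cut (Q := Q) (cut Q (D j) z) w
          rw [S.fin] at hf1
          obtain ⟨q', hq', hq'0, hq'Q⟩ := exists_singular hQ (cut Q (cut Q (D j) z) w) (by omega)
          obtain ⟨h3, h4⟩ := (mem_cut hQ).mp hq'
          obtain ⟨h5, h6⟩ := (mem_cut hQ).mp h3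
          apply hiso q' h5 hq'0 hq'Q h6
          rw [hvx q' h5, pol_symm hQ, h4]
        have hw0 : Q w = 0 := S.lemK hq2 hk4 hzm hwm hzQ (by rw [← hvx z hzm]; exact hA)
          (fun q₁ h₁ h₂ h₃ h₄ h₅ => hiso q₁ h₁ h₂ h₃ h₄ (by rw [hvx q₁ h₁]; exact h₅))
        by_cases hr : u - z ∈ D j'
        · -- two components
          obtain ⟨b, hb⟩ : ∃ b, b = u - z := ⟨_, rfl⟩
          rw [← hb] at hr
          have hub : u = z + b := by rw [hb]; abel
          have hcb : cp D j' u = b := by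
            rw [hub, cp_add hQ B, hzd, cp_other hQ B hj'j (cp_mem B j u), cp_self hQ B hr, zero_add]
          have hpolb : pol Q v b = pol Q v z := by
            have h3 : pol Q v u = 0 := by rw [pol_symm hQ, hv.1]
            rw [hub, pol_add_right hQ] at h3
            have h4 : pol Q v b = - pol Q v z := by linear_combination h3
            rw [h4, hA1]
            linear_combination -two
          have hbQ : Q b ≠ 0 := by rw [← hcb]; exact hj'Q
          by_cases hiso2 : ∃ q' ∈ D j', q' ≠ 0 ∧ Q q' = 0 ∧ pol Q q' b = 0 ∧ pol Q v q' = 0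
          · refine hCase (j := j') hj'Q ?_ ?_
            · rw [hcb, hpolb]
              exact hA
            · rw [hcb]
              exact hiso2
          · push Not at hiso2
            have hw'0 : Q (cp D j' v) = 0 := by
              refine S.lemK hq2 hk4 hr (cp_mem B j' v) hbQ ?_ ?_
              · rw [← pol_cp hQ B j' v hr, hpolb]
                exact hA
              · intro q₁ h₁ h₂ h₃ h₄ h₅
                exact hiso2 q₁ h₁ h₂ h₃ h₄ (by rw [pol_cp hQ B j' v h₁]; exact h₅)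
            -- other components of `v`
            by_cases hoth : ∃ i, i ≠ j ∧ i ≠ j' ∧ cp D i v ≠ 0
            · obtain ⟨i, hij, hij', hi⟩ := hoth
              refine S.goodA hu ?_ hv (i := i) ?_ hi
              · rintro rfl
                exact hnot j (D j).zero_mem
              · rw [hub, cp_add hQ B, hzd, cp_other hQ B hij (cp_mem B j u), cp_other hQ B hij' hr, add_zero]
            · push Not at hoth
              exfalso
              apply hV hq2 hk4
              have h3 := Q_eq_sum hQ B v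
              rw [h3]
              refine Finset.sum_eq_zero fun i _ => ?_
              by_cases hij : i = j
              · rw [hij, ← hwd, hw0]
              · by_cases hij' : i = j'
                · rw [hij', hw'0]
                · rw [hoth i hij hij', Q_zero hQ]
        · refine S.core1 (j := j') hu h1' (cp_other hQ B hj'j hzm) hGS fun hm => hr ?_
          rw [hz1, one_smul] at hm
          have := (D j').neg_mem hm
          simpa using this
      · -- at least four elements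
        have hq4 : ∃ l : F, l ≠ 0 ∧ l * pol Q v q * Q z ≠ 1 := by
          classical
          by_contra hcon
          push Not at hcon
          have h3 : ∀ l : F, l ≠ 0 → l = (pol Q v q * Q z)⁻¹ := fun l hl => by
            have := hcon l hl
            field_simp
            linear_combination this
          have h4 : Fintype.card F ≤ 2 := by
            have h5 : (Finset.univ : Finset F) ⊆ {0, (pol Q v q * Q z)⁻¹} := by
              intro x _
              by_cases hx : x = 0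
              · simp [hx]
              · simp [h3 x hx]
            have h6 := Finset.card_le_card h5
            rw [Finset.card_univ] at h6
            exact h6.trans (Finset.card_le_two)
          have h5 : 1 < Fintype.card F := Fintype.one_lt_card
          omega
        obtain ⟨l, hl0, hl1⟩ := hq4
        have h1 := S.par_move hu hv hzd hq hqQ hqz l
        obtain ⟨α, hα⟩ : ∃ α : F, α = (l * pol Q v z - l ^ 2 * Q z * pol Q v q) := ⟨_, rfl⟩
        obtain ⟨β, hβ⟩ : ∃ β : F, β = -(l * pol Q v q) := ⟨_, rfl⟩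
        have e : (l * pol Q v z - l ^ 2 * Q z * pol Q v q) • q - (l * pol Q v q) • z = α • q + β • z := by
          rw [hα, hβ, neg_smul, sub_eq_add_neg]
        rw [e] at h1
        refine key _ ((D j).add_mem ((D j).smul_mem _ hq) ((D j).smul_mem _ hzm)) h1 ?_
        rw [hQy]
        have e2 : α • q + β • z - (β ^ 2 * Q z) • z = α • q + (β - β ^ 2 * Q z) • z := by module
        rw [e2]
        refine S.comb_ne hqQ hzQ ?_
        have e3 : β - β ^ 2 * Q z = β * (1 - β * Q z) := by ring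
        rw [e3]
        refine mul_ne_zero ?_ ?_
        · rw [hβ]
          exact neg_ne_zero.mpr (mul_ne_zero hl0 hB)
        · rw [hβ]
          intro h
          apply hl1
          linear_combination (1 : F) * (l * pol Q v q * Q z) * two + h * (-1 : F) + (l * pol Q v q * Q z) * 0
  

/-- The start in characteristic two. -/
theorem CtxE.exists_start {g : GL ι F} (hg : g ∈ M) (hgs : g ∉ decompositionStabilizer D) :
    ∃ u v, Q u = 0 ∧ Par Q M u v ∧ (∀ c, u ∉ D c) ∧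
      (∃ i, (cp D i u = 0 ∧ cp D i v ≠ 0) ∨ (cp D i u ≠ 0 ∧ ∀ c : F, cp D i v ≠ c • cp D i u)) ∧
      (Fintype.card F = 2 → k = 4 → Q v ≠ 0) := by
  have hQ := S.hQ
  have B := S.blk
  have hgI := S.miso hg
  have hI := (mem_isometryGroup_iff Q g).mp hgI
  have hk0 : ∀ i, ∃ x ∈ D i, x ≠ 0 := fun i => by
    obtain ⟨p, hp, hp0, -⟩ := S.exists_sing (j := i)
    exact ⟨p, hp, hp0⟩
  have hinj : ∀ x, (g : Matrix ι ι F) *ᵥ x = 0 → x = 0 := fun x hx => by
    have := inv_mulVec_mulVec g x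
    rw [hx] at this
    simpa using this.symm
  have h1 : ∃ i, ∀ a, (D i).map (Matrix.toLin' (g : Matrix ι ι F)) ≠ D a := by
    by_contra hcon
    push Not at hcon
    choose σ hσ using hcon
    have hσi : Function.Injective σ := by
      intro i i' hii
      by_contra hne
      obtain ⟨x, hx, hx0⟩ := hk0 i
      have h2 : (g : Matrix ι ι F) *ᵥ x ∈ D (σ i) := by
        rw [← hσ i]
        exact ⟨x, hx, Matrix.toLin'_apply _ _⟩
      rw [hii, ← hσ i'] at h2
      obtain ⟨y, hy, hyx⟩ := h2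
      rw [Matrix.toLin'_apply] at hyx
      have h3 : y - x = 0 := by
        apply hinj
        rw [Matrix.mulVec_sub, hyx, sub_self]
      have h4 : y = x := sub_eq_zero.mp h3
      rw [h4] at hy
      have h5 := cp_other hQ B hne hy
      rw [cp_self hQ B hx] at h5
      exact hx0 h5
    exact hgs ⟨Equiv.ofBijective σ (Finite.injective_iff_bijective.mp hσi), hσ⟩
  obtain ⟨i, hi⟩ := h1
  have hnot : ∀ a, ∃ x ∈ D i, (g : Matrix ι ι F) *ᵥ x ∉ D a := fun a => by
    by_contra hcon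
    push Not at hcon
    apply hi a
    refine Submodule.eq_of_le_of_finrank_eq ?_ ?_
    · rintro _ ⟨x, hx, rfl⟩
      rw [Matrix.toLin'_apply]
      exact hcon x hx
    · rw [finrank_map_toLin', S.fin, S.fin]
  -- a singular vector in general position
  obtain ⟨u₀, hu₀, hu₀0, hu₀Q⟩ := S.exists_sing (j := i)
  have hu : ∃ u ∈ D i, Q u = 0 ∧ ∀ c, (g : Matrix ι ι F) *ᵥ u ∉ D c := by
    by_cases h2 : ∀ c, (g : Matrix ι ι F) *ᵥ u₀ ∉ D c
    · exact ⟨u₀, hu₀, hu₀Q, h2⟩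
    · push Not at h2
      obtain ⟨a, ha⟩ := h2
      obtain ⟨x, hx, hxa⟩ := hnot a
      obtain ⟨p', hp', hp'Q, hpp'⟩ := S.exists_hyp hu₀ hu₀0 hu₀Q
      obtain ⟨q, hq, α, β, hqQ, -, e⟩ := span_hypW hQ hu₀ hp' hu₀Q hp'Q hpp' hx
      have h3 : ∃ u₁ ∈ D i, Q u₁ = 0 ∧ (g : Matrix ι ι F) *ᵥ u₁ ∉ D a := by
        by_contra hcon
        push Not at hcon
        apply hxa
        rw [e, Matrix.mulVec_sub, Matrix.mulVec_add, Matrix.mulVec_add, Matrix.mulVec_smul, Matrix.mulVec_smul]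
        exact (D a).sub_mem ((D a).add_mem ((D a).add_mem ((D a).smul_mem _ ha)
          ((D a).smul_mem _ (hcon p' hp' hp'Q))) (hcon q hq hqQ)) (hcon p' hp' hp'Q)
      obtain ⟨u₁, hu₁, hu₁Q, hu₁a⟩ := h3
      by_cases h4 : ∀ c, (g : Matrix ι ι F) *ᵥ u₁ ∉ D c
      · exact ⟨u₁, hu₁, hu₁Q, h4⟩
      · push Not at h4
        obtain ⟨b, hb⟩ := h4
        have hab : a ≠ b := by
          rintro rfl
          exact hu₁a hb
        have h5 : pol Q u₀ u₁ = 0 := by
          rw [← pol_isometry g hgI]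
          exact B.orth a b hab _ ha _ hb
        have hg0 : (g : Matrix ι ι F) *ᵥ u₀ ≠ 0 := fun h => hu₀0 (hinj _ h)
        have hg1 : (g : Matrix ι ι F) *ᵥ u₁ ≠ 0 := fun h => hu₁a (by rw [h]; exact (D a).zero_mem)
        refine ⟨u₀ + u₁, (D i).add_mem hu₀ hu₁, by rw [Q_add hQ, hu₀Q, hu₁Q, h5]; ring, fun c hc => ?_⟩
        rw [Matrix.mulVec_add] at hc
        by_cases hca : a = c
        · subst hca
          have h6 := cp_other hQ B (Ne.symm hab) hc
          rw [cp_add hQ B, cp_other hQ B (Ne.symm hab) ha, cp_self hQ B hb, zero_add] at h6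
          exact hg1 h6
        · have h6 := cp_other hQ B hca hc
          rw [cp_add hQ B, cp_self hQ B ha] at h6
          by_cases hcb : b = c
          · subst hcb
            rw [cp_other hQ B hab hb, add_zero] at h6
            exact hg0 h6
          · have h7 := cp_other hQ B hcb hc
            rw [cp_add hQ B, cp_self hQ B hb, cp_other hQ B (Ne.symm hab) ha, zero_add] at h7
            exact hg1 h7
  obtain ⟨u, huD, huQ, hup⟩ := hu
  have hu0 : u ≠ 0 := by
    rintro rfl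
    apply hup i
    rw [Matrix.mulVec_zero]
    exact (D i).zero_mem
  obtain ⟨b, hb, b', hb', hub, hub', hbb'⟩ := S.exists_bb huD hu0 huQ
  -- both parameters cannot be proportional to the components everywhere
  obtain ⟨U, hU⟩ : ∃ U, U = (g : Matrix ι ι F) *ᵥ u := ⟨_, rfl⟩
  have hUQ : Q U = 0 := by rw [hU, hI]; exact huQ
  have hP : ∀ y ∈ D i, pol Q u y = 0 → Par Q M U ((g : Matrix ι ι F) *ᵥ y) := fun y hy huy => by
    rw [hU]
    exact Par.conj (S.par_block huD hy huQ huy) hg hgI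
  have hnts : Fintype.card F = 2 → k = 4 → ∀ y ∈ D i, pol Q u y = 0 → pol Q y b ≠ 0 ∨ pol Q y b' ≠ 0 → Q y ≠ 0 := by
    intro h2 h4 y hy huy hne hyQ
    obtain ⟨c, hc⟩ := S.nts h2 h4 i u huD y hy huQ hyQ huy hu0
    rcases hne with hne | hne
    · apply hne
      rw [hc, pol_smul_left hQ, hub, mul_zero]
    · apply hne
      rw [hc, pol_smul_left hQ, hub', mul_zero]
  have hnorm : ∀ y ∈ D i, Q ((g : Matrix ι ι F) *ᵥ y) = Q y := fun y _ => hI y
  by_cases hc1 : ∃ l, (cp D l U = 0 ∧ cp D l ((g : Matrix ι ι F) *ᵥ b) ≠ 0) ∨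
      (cp D l U ≠ 0 ∧ ∀ c : F, cp D l ((g : Matrix ι ι F) *ᵥ b) ≠ c • cp D l U)
  · refine ⟨U, _, hUQ, hP b hb hub, by rw [hU]; exact hup, hc1, fun h2 h4 => ?_⟩
    rw [hI]
    refine hnts h2 h4 b hb hub (Or.inr hbb')
  · by_cases hc2 : ∃ l, (cp D l U = 0 ∧ cp D l ((g : Matrix ι ι F) *ᵥ b') ≠ 0) ∨
        (cp D l U ≠ 0 ∧ ∀ c : F, cp D l ((g : Matrix ι ι F) *ᵥ b') ≠ c • cp D l U)
    · refine ⟨U, _, hUQ, hP b' hb' hub', by rw [hU]; exact hup, hc2, fun h2 h4 => ?_⟩
      rw [hI]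
      refine hnts h2 h4 b' hb' hub' (Or.inl ?_)
      rw [pol_symm hQ]
      exact hbb'
    · exfalso
      push Not at hc1 hc2
      apply hbb'
      rw [← pol_isometry g hgI, pol_eq_sum hQ B]
      refine Finset.sum_eq_zero fun l _ => ?_
      by_cases hl : cp D l U = 0
      · rw [(hc1 l).1 hl, pol_zero_left hQ]
      · obtain ⟨c₁, h₁⟩ := (hc1 l).2 hl
        obtain ⟨c₂, h₂⟩ := (hc2 l).2 hl
        rw [h₁, h₂, pol_smul_left hQ, pol_smul_right hQ, S.pol_self0]
        ring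

end CtxE

/-- The abstract maximality statement. -/
theorem isMaximalIn_decE [Fintype F] {k : ℕ} (hQ : IsNondegenerateQuadraticForm Q) (h2 : (2 : F) = 0)
    (h7 : 7 ≤ Fintype.card ι) (hk : 4 ≤ k) (hD : IsOrthogonalMDecomposition Q k D)
    (hnts : Fintype.card F = 2 → k = 4 → ∀ i, ∀ p ∈ D i, ∀ b ∈ D i, Q p = 0 → Q b = 0 → pol Q p b = 0 → p ≠ 0 →
      ∃ c : F, b = c • p) :
    IsMaximalIn (omegaGL Q) (decompositionStabilizer D ⊓ omegaGL Q) := by
  have B : Blk Q D := ⟨hD.decomp.nondegenerate, fun i j hij u hu v hv => hD.decomp.orthogonal i j hij u hu v hv,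
    hD.decomp.decomp.iSup_eq_top⟩
  have h2t := hD.decomp.decomp.two_le
  have hab : (⟨0, by omega⟩ : Fin t) ≠ ⟨1, by omega⟩ := by
    simp [Fin.ext_iff]
  have mk : ∀ M : Subgroup (GL ι F), decompositionStabilizer D ⊓ omegaGL Q ≤ M → M ≤ omegaGL Q → CtxE Q D M k :=
    fun M h1 h3 => ⟨hQ, B, hD.decomp.decomp.finrank_eq, hD.isometric, h7, h1, h3, h2, hk, hnts⟩
  refine ⟨?_, fun M h1 h3 => ?_⟩
  · obtain ⟨g, hg, hgs⟩ := (mk (omegaGL Q) inf_le_right le_rfl).exists_not_stab hab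
    exact SetLike.lt_iff_le_and_exists.mpr ⟨inf_le_right, g, hg, fun h => hgs h.1⟩
  · by_cases hle : M ≤ decompositionStabilizer D ⊓ omegaGL Q
    · exact Or.inl (le_antisymm hle h1)
    · obtain ⟨g, hg, hgn⟩ := SetLike.not_le_iff_exists.mp hle
      have hgs : g ∉ decompositionStabilizer D := fun h => hgn ⟨h, h3 hg⟩
      have S := mk M h1 h3
      obtain ⟨u, v, hu, hP, hnot, ⟨i, hi⟩, hV⟩ := S.exists_start hg hgs
      have hu0 : u ≠ 0 := by
        rintro rfl
        exact hnot i (D i).zero_mem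
      have hG : Good Q D M := by
        rcases hi with ⟨h4, h5⟩ | ⟨h4, h5⟩
        · exact S.goodA hu hu0 hP h4 h5
        · by_cases hz : Q (cp D i u) = 0
          · refine S.goodB hu hP hz h4 (hnot i) fun hm => ?_
            obtain ⟨c, hc⟩ := Submodule.mem_span_singleton.mp hm
            exact h5 c hc.symm
          · exact S.goodZ hu hP hz hnot h5 hV
      exact Or.inr (le_antisymm h3 (S.final hG))

end Cfsg.Agent.Lib.Geo.OmDecE
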