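/-
Stabilisers of orthogonal decompositions in `Ω`: members of dimension two. Reflections, links between vectors of the same
norm, elements acting on the members.
-/
import Cfsg.Agent.Lib.Geo.OmDecE
set_option autoImplicit false

namespace Cfsg.Agent.Lib.Geo.Om2

open Cfsg Cfsg.Geo Cfsg.Agent.Lib.Geo.Basic Cfsg.Agent.Lib.Geo.Parabolic Cfsg.Agent.Lib.Geo.Centres
open Cfsg.Agent.Lib.Geo.Polar Cfsg.Agent.Lib.Geo.QForm
open Cfsg.Agent.Lib.GeoOmega.Basic Cfsg.Agent.Lib.GeoOmega.Eichler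
open Cfsg.Agent.Lib.GeoOmega.Levi (rf rf_mulVec rf_mem rf_mul_mem_omega rf_inv rf_conj)
open Cfsg.Agent.Lib.Geo.OmSub (Par Par.add Par.zero Par.neg Par.sub Par.conj Par.swap pol_sum_left eich_zero)
open Cfsg.Agent.Lib.Geo.SpDecomp (exists_comps mem_decompositionStabilizer_of_forall)
open Cfsg.Agent.Lib.Geo.OmDec
open Cfsg.Agent.Lib.Geo.OmB
open scoped MatrixGroups Matrix

variable {ι : Type} [Fintype ι] [DecidableEq ι] {F : Type*} [Field F]
variable {Q : (ι → F) → F} {t : ℕ} {D : Fin t → Submodule F (ι → F)}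

section Refl

variable (hQ : IsNondegenerateQuadraticForm Q)
include hQ

theorem rf_smul {c : F} (hc : c ≠ 0) (v : ι → F) : rf hQ (c • v) = rf hQ v := by
  apply gl_ext_mulVec
  intro x
  rw [rf_mulVec, rf_mulVec, hQ.smul, pol_smul_right hQ, smul_smul]
  by_cases hv : Q v = 0
  · simp [hv]
  · congr 2
    field_simp

omit hQ in
theorem comm_mem_omega {g h : GL ι F} (hg : g ∈ isometryGroup F Q) (hh : h ∈ isometryGroup F Q) :
    g * h * g⁻¹ * h⁻¹ ∈ omegaGL Q := by
  rw [omegaGL_eq_commutator]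
  have := Subgroup.commutator_mem_commutator hg hh
  rwa [commutatorElement_def] at this

omit hQ in
theorem conj_mem_omega {g w : GL ι F} (hg : g ∈ isometryGroup F Q) (hw : w ∈ omegaGL Q) :
    g * w * g⁻¹ ∈ omegaGL Q := by
  have h1 := comm_mem_omega hg (omegaGL_le_isometryGroup Q hw)
  have h2 : g * w * g⁻¹ = (g * w * g⁻¹ * w⁻¹) * w := by group
  rw [h2]
  exact (omegaGL Q).mul_mem h1 hw

/-- The product of two reflections in vectors whose norms differ by a square. -/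
theorem rf_mul_mem_omega_sq [Finite F] (hn : 7 ≤ Fintype.card ι) {a b : ι → F} (ha : Q a ≠ 0) (hb : Q b ≠ 0)
    (hs : IsSquare (Q a * Q b)) : rf hQ a * rf hQ b ∈ omegaGL Q := by
  obtain ⟨r, hr⟩ := hs
  have hr0 : r ≠ 0 := by
    rintro rfl
    exact (mul_ne_zero ha hb) (by simpa using hr)
  have hs0 : r / Q b ≠ 0 := div_ne_zero hr0 hb
  have h1 : Q ((r / Q b) • b) = Q a := by
    rw [hQ.smul]
    field_simp
    linear_combination -hr
  have h2 := rf_mul_mem_omega hQ hn (u := (r / Q b) • b) (v := a) h1 rfl ha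
  rwa [rf_smul hQ hs0] at h2

theorem rf_mul_self (a : ι → F) : rf hQ a * rf hQ a = 1 := by
  have := rf_inv hQ a
  nth_rewrite 1 [← this]
  exact inv_mul_cancel _

end Refl

/-- Two vectors of the same norm are linked when the product of their reflections lies in `M`. -/
def Lk (hQ : IsNondegenerateQuadraticForm Q) (M : Subgroup (GL ι F)) (a b : ι → F) : Prop :=
  Q a = Q b ∧ Q a ≠ 0 ∧ rf hQ a * rf hQ b ∈ M

section Links

variable {hQ : IsNondegenerateQuadraticForm Q} {M : Subgroup (GL ι F)}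

theorem Lk.symm {a b : ι → F} (h : Lk hQ M a b) : Lk hQ M b a := by
  refine ⟨h.1.symm, by rw [← h.1]; exact h.2.1, ?_⟩
  have := M.inv_mem h.2.2
  rwa [mul_inv_rev, rf_inv, rf_inv] at this

theorem Lk.trans {a b c : ι → F} (h₁ : Lk hQ M a b) (h₂ : Lk hQ M b c) : Lk hQ M a c := by
  refine ⟨h₁.1.trans h₂.1, h₁.2.1, ?_⟩
  have e : rf hQ a * rf hQ c = (rf hQ a * rf hQ b) * (rf hQ b * rf hQ c) := by
    have h3 := rf_mul_self hQ b
    calc rf hQ a * rf hQ c = rf hQ a * (rf hQ b * rf hQ b) * rf hQ c := by rw [h3, mul_one]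
      _ = _ := by group
  rw [e]
  exact M.mul_mem h₁.2.2 h₂.2.2

theorem Lk.refl {a : ι → F} (h : Q a ≠ 0) : Lk hQ M a a :=
  ⟨rfl, h, by rw [rf_mul_self hQ]; exact M.one_mem⟩

theorem Lk.conj {a b : ι → F} (l : Lk hQ M a b) {h : GL ι F} (hh : h ∈ M) (hI : h ∈ isometryGroup F Q) :
    Lk hQ M ((h : Matrix ι ι F) *ᵥ a) ((h : Matrix ι ι F) *ᵥ b) := by
  have hq := (mem_isometryGroup_iff Q h).mp hI
  refine ⟨by rw [hq, hq, l.1], by rw [hq]; exact l.2.1, ?_⟩
  rw [← rf_conj hQ h hI, ← rf_conj hQ h hI]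
  have e : h * rf hQ a * h⁻¹ * (h * rf hQ b * h⁻¹) = h * (rf hQ a * rf hQ b) * h⁻¹ := by group
  rw [e]
  exact M.mul_mem (M.mul_mem hh l.2.2) (M.inv_mem hh)

/-- Moving a link by an element fixing one of its ends. -/
theorem Lk.move {a b : ι → F} (l : Lk hQ M a b) {h : GL ι F} (hh : h ∈ M) (hI : h ∈ isometryGroup F Q)
    (hfix : (h : Matrix ι ι F) *ᵥ a = a) : Lk hQ M b ((h : Matrix ι ι F) *ᵥ b) := by
  have h1 := l.conj hh hI
  rw [hfix] at h1
  exact l.symm.trans h1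

/-- The Eichler transformation attached to a link with singular difference. -/
theorem Lk.par {a b : ι → F} (l : Lk hQ M a b) (hd : Q (a - b) = 0) : Par Q M (a - b) ((Q b)⁻¹ • b) := by
  obtain ⟨hab, hc, hm⟩ := l
  obtain ⟨c, hcc⟩ : ∃ c, c = Q b := ⟨_, rfl⟩
  rw [← hcc] at hab ⊢
  rw [hab] at hc
  have hq : Q a + Q b - pol Q a b = 0 := by
    rw [← Q_sub hQ]
    exact hd
  have hab2 : pol Q a b = 2 * c := by
    rw [hab, ← hcc] at hq
    linear_combination -hq
  have hba2 : pol Q b a = 2 * c := by rw [pol_symm hQ, hab2]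
  have hbb : pol Q b b = 2 * c := by rw [pol_self hQ, ← hcc]
  have hpol : pol Q (a - b) (c⁻¹ • b) = 0 := by
    rw [pol_smul_right hQ, pol_sub_left hQ, hab2, hbb]
    ring
  refine ⟨hpol, fun g hg => ?_⟩
  have hE : Eich Q (rf hQ a * rf hQ b) (a - b) (c⁻¹ • b) := by
    intro x
    rw [Units.val_mul, ← Matrix.mulVec_mulVec, rf_mulVec, rf_mulVec, pol_sub_left hQ, pol_smul_left hQ, hba2, hab,
      ← hcc, pol_smul_right hQ, pol_sub_right hQ, hQ.smul, ← hcc]
    have e1 : c⁻¹ * (pol Q x a - c⁻¹ * pol Q x b * (2 * c)) = c⁻¹ * (pol Q x a - 2 * pol Q x b) := by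
      field_simp
    have e2 : (c⁻¹) ^ 2 * c * (pol Q x a - pol Q x b) = c⁻¹ * (pol Q x a - pol Q x b) := by
      field_simp
    rw [e1, e2]
    module
  rw [Eich.unique' hg hE]
  exact hm

end Links

/-- The hypotheses for members of dimension two. -/
structure Ctx2 (Q : (ι → F) → F) (D : Fin t → Submodule F (ι → F)) (M : Subgroup (GL ι F)) : Prop where
  hQ : IsNondegenerateQuadraticForm Q
  blk : Blk Q D
  fin : ∀ i, Module.finrank F (D i) = 2
  iso : ∀ i j, AreIsometricFor Q (D i) (D j)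
  card7 : 7 ≤ Fintype.card ι
  t7 : 7 ≤ t
  hH : decompositionStabilizer D ⊓ omegaGL Q ≤ M
  hM : M ≤ omegaGL Q

section Plane

variable (hQ : IsNondegenerateQuadraticForm Q) (B : Blk Q D) (hfin : ∀ i, Module.finrank F (D i) = 2)
include hQ B hfin

omit hQ B in
/-- Two independent vectors span a member. -/
theorem span2 {j : Fin t} {x y : ι → F} (hx : x ∈ D j) (hy : y ∈ D j) (hx0 : x ≠ 0) (hyx : ∀ c : F, y ≠ c • x)
    {a : ι → F} (ha : a ∈ D j) : ∃ α β : F, a = α • x + β • y := by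
  have hli : LinearIndependent F ![x, y] := by
    rw [LinearIndependent.pair_iff]
    intro α β h
    have hβ : β = 0 := by
      by_contra hβ
      apply hyx (-α / β)
      have h1 : β • y = (-α) • x := by
        have : β • y = -(α • x) := eq_neg_of_add_eq_zero_right h
        rw [this, neg_smul]
      calc y = β⁻¹ • (β • y) := by rw [smul_smul, inv_mul_cancel₀ hβ, one_smul]
        _ = (-α / β) • x := by
          rw [h1, smul_smul]
          congr 1
          field_simp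
    subst hβ
    simp only [zero_smul, add_zero] at h
    exact ⟨(smul_eq_zero.mp h).resolve_right hx0, rfl⟩
  have h1 := finrank_span_eq_card hli
  have h2 : Set.range ![x, y] = {x, y} := by
    ext z
    constructor
    · rintro ⟨i, rfl⟩
      fin_cases i <;> simp
    · rintro (rfl | rfl)
      · exact ⟨0, rfl⟩
      · exact ⟨1, rfl⟩
  rw [h2] at h1
  have h3 : Submodule.span F {x, y} = D j := by
    refine Submodule.eq_of_le_of_finrank_eq ?_ ?_
    · rw [Submodule.span_le]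
      rintro z (rfl | rfl)
      · exact hx
      · exact hy
    · rw [h1, hfin]
      simp
  rw [← h3] at ha
  obtain ⟨α, β, hab⟩ := Submodule.mem_span_pair.mp ha
  exact ⟨α, β, hab.symm⟩

omit hfin in
theorem not_smul_of_pol {j : Fin t} {x y : ι → F} (hxQ : Q x ≠ 0) (h2 : pol Q x x = 0) (hxy : pol Q x y ≠ 0) :
    ∀ c : F, y ≠ c • x := by
  rintro c rfl
  rw [pol_smul_right hQ, h2, mul_zero] at hxy
  exact hxy rfl

/-- A singular vector orthogonal to a vector of the same plane is proportional to it. -/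
theorem eq_smul_of_sing {j : Fin t} {s z : ι → F} (hs : s ∈ D j) (hs0 : s ≠ 0) (hsQ : Q s = 0) (hz : z ∈ D j)
    (hsz : pol Q s z = 0) : ∃ c : F, z = c • s := by
  by_contra hcon
  push Not at hcon
  apply hs0
  apply eq_zero_of_mem hQ B hs
  intro y hy
  obtain ⟨α, β, e⟩ := span2 hfin hs hz hs0 hcon hy
  rw [e, pol_add_left hQ, pol_smul_left hQ, pol_smul_left hQ, pol_singular hQ hsQ, pol_symm hQ z s, hsz]
  ring

/-- The difference of two distinct vectors of the same norm of a member is non-singular. -/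
theorem q_sub_ne {j : Fin t} {z w : ι → F} (hz : z ∈ D j) (hw : w ∈ D j) (hzQ : Q z ≠ 0) (hzw : Q w = Q z)
    (hne : w ≠ z) : Q (z - w) ≠ 0 := by
  intro h0
  have h1 : Q z + Q w - pol Q z w = 0 := by
    rw [← Q_sub hQ]
    exact h0
  have h2 : pol Q (z - w) z = 0 := by
    rw [pol_sub_left hQ, pol_self hQ, pol_symm hQ w z]
    rw [hzw] at h1
    linear_combination h1
  obtain ⟨c, hc⟩ := eq_smul_of_sing hQ B hfin ((D j).sub_mem hz hw) (sub_ne_zero.mpr (Ne.symm hne)) h0 hz h2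
  apply hzQ
  rw [hc, hQ.smul, h0, mul_zero]

/-- A non-singular vector fixed by the reflection in a given non-singular vector. -/
theorem exists_perp {j : Fin t} {z : ι → F} (hz : z ∈ D j) (hzQ : Q z ≠ 0) :
    ∃ b ∈ D j, b ≠ 0 ∧ Q b ≠ 0 ∧ pol Q z b = 0 := by
  have hf := finrank_cut (Q := Q) (D j) z
  rw [hfin] at hf
  obtain ⟨b, hb, hb0⟩ := Submodule.exists_mem_ne_zero_of_ne_bot (p := cut Q (D j) z) (by
    intro h0
    rw [h0] at hf
    simp at hf)
  obtain ⟨h1, h2⟩ := (mem_cut hQ).mp hb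
  refine ⟨b, h1, hb0, fun h3 => ?_, by rw [pol_symm hQ]; exact h2⟩
  obtain ⟨c, hc⟩ := eq_smul_of_sing hQ B hfin h1 hb0 h3 hz h2
  apply hzQ
  rw [hc, hQ.smul, h3, mul_zero]

/-- The line orthogonal to a non-zero vector. -/
theorem perp_line {j : Fin t} {z a b : ι → F} (hz : z ∈ D j) (hz0 : z ≠ 0) (ha : a ∈ D j) (hb : b ∈ D j) (ha0 : a ≠ 0)
    (haz : pol Q a z = 0) (hbz : pol Q b z = 0) : ∃ c : F, b = c • a := by
  by_contra hcon
  push Not at hcon
  apply hz0
  apply eq_zero_of_mem hQ B hz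
  intro y hy
  obtain ⟨α, β, e⟩ := span2 hfin ha hb ha0 hcon hy
  rw [e, pol_add_left hQ, pol_smul_left hQ, pol_smul_left hQ, haz, hbz]
  ring

end Plane

omit [DecidableEq ι] in
theorem pres_of_rf [DecidableEq ι] (hQ : IsNondegenerateQuadraticForm Q) (B : Blk Q D) {j : Fin t} {b : ι → F}
    (hb : b ∈ D j) (i : Fin t) {x : ι → F} (hx : x ∈ D i) : ((rf hQ b : GL ι F) : Matrix ι ι F) *ᵥ x ∈ D i := by
  rw [rf_mulVec]
  by_cases hij : i = j
  · subst hij
    exact (D i).sub_mem hx ((D i).smul_mem _ hb)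
  · rw [B.orth i j hij x hx b hb]
    simpa using hx

theorem fix_of_rf (hQ : IsNondegenerateQuadraticForm Q) (B : Blk Q D) {j : Fin t} {b v : ι → F}
    (hb : b ∈ D j) (hv : cp D j v = 0) : ((rf hQ b : GL ι F) : Matrix ι ι F) *ᵥ v = v := by
  rw [rf_mulVec, pol_eq_zero_of_cp hQ B hv hb]
  simp

/-- An isometry acting on one member only, a product of at most two reflections. -/
structure Rot (hQ : IsNondegenerateQuadraticForm Q) (D : Fin t → Submodule F (ι → F)) (j : Fin t) (ζ : GL ι F) : Prop where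
  iso : ζ ∈ isometryGroup F Q
  pres : ∀ i, ∀ x ∈ D i, (ζ : Matrix ι ι F) *ᵥ x ∈ D i
  fix : ∀ v, cp D j v = 0 → (ζ : Matrix ι ι F) *ᵥ v = v
  pair : ζ = 1 ∨ ∃ a b : ι → F, Q a ≠ 0 ∧ Q b ≠ 0 ∧ ζ = rf hQ a * rf hQ b

section Rot

variable {hQ : IsNondegenerateQuadraticForm Q}

theorem Rot.apply {j : Fin t} {ζ : GL ι F} (B : Blk Q D) (hζ : Rot hQ D j ζ) (x : ι → F) :
    (ζ : Matrix ι ι F) *ᵥ x = x + ((ζ : Matrix ι ι F) *ᵥ (cp D j x) - cp D j x) := by
  have h1 : x = cp D j x + (x - cp D j x) := by abel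
  conv_lhs => rw [h1, Matrix.mulVec_add, hζ.fix _ (cp_rest hQ B j x)]
  abel

theorem exists_rot (B : Blk Q D) (hfin : ∀ i, Module.finrank F (D i) = 2) {j : Fin t} {z w : ι → F} (hz : z ∈ D j)
    (hw : w ∈ D j) (hzQ : Q z ≠ 0) (hzw : Q w = Q z) :
    ∃ ζ : GL ι F, Rot hQ D j ζ ∧ (ζ : Matrix ι ι F) *ᵥ z = w := by
  by_cases hne : w = z
  · subst hne
    refine ⟨1, ⟨(isometryGroup F Q).one_mem, fun i x hx => ?_, fun v _ => ?_, Or.inl rfl⟩, ?_⟩ <;> simp_all
  · obtain ⟨b, hb, -, hbQ, hzb⟩ := exists_perp hQ B hfin hz hzQ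
    have huQ := q_sub_ne hQ B hfin hz hw hzQ hzw hne
    obtain ⟨u, hu⟩ : ∃ u, u = z - w := ⟨_, rfl⟩
    rw [← hu] at huQ
    have huD : u ∈ D j := by
      rw [hu]
      exact (D j).sub_mem hz hw
    refine ⟨rf hQ u * rf hQ b, ⟨(isometryGroup F Q).mul_mem (rf_mem hQ u) (rf_mem hQ b), fun i x hx => ?_, fun v hv => ?_,
      Or.inr ⟨u, b, huQ, hbQ, rfl⟩⟩, ?_⟩
    · rw [Units.val_mul, ← Matrix.mulVec_mulVec]
      exact pres_of_rf hQ B huD i (pres_of_rf hQ B hb i hx)
    · rw [Units.val_mul, ← Matrix.mulVec_mulVec, fix_of_rf hQ B hb hv, fix_of_rf hQ B huD hv]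
    · rw [Units.val_mul, ← Matrix.mulVec_mulVec, rf_mulVec hQ b z, hzb]
      simp only [mul_zero, zero_smul, sub_zero]
      rw [rf_mulVec]
      have h1 : pol Q z u = Q u := by
        rw [hu, pol_sub_right hQ, Q_sub hQ, pol_self hQ, hzw]
        ring
      rw [h1, inv_mul_cancel₀ huQ, one_smul, hu]
      abel

end Rot

/-- Elements of the isometry group modulo `Ω`. -/
def Dich (Q : (ι → F) → F) (x g : GL ι F) : Prop := g ∈ omegaGL Q ∨ g * x ∈ omegaGL Q

/-- A reference element for the parity of products of two reflections. -/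
structure PX (hQ : IsNondegenerateQuadraticForm Q) (x : GL ι F) : Prop where
  iso : x ∈ isometryGroup F Q
  sq : x * x ∈ omegaGL Q
  dich : ∀ a b : ι → F, Q a ≠ 0 → Q b ≠ 0 → Dich Q x (rf hQ a * rf hQ b)

section PX

variable {hQ : IsNondegenerateQuadraticForm Q} {x : GL ι F}

theorem Dich.one : Dich Q x 1 := Or.inl (omegaGL Q).one_mem

theorem Dich.mul (hx : x ∈ isometryGroup F Q) (hs : x * x ∈ omegaGL Q) {g h : GL ι F} (hg : g ∈ isometryGroup F Q)
    (hh : h ∈ isometryGroup F Q) (h₁ : Dich Q x g) (h₂ : Dich Q x h) : Dich Q x (g * h) := by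
  have hxi : x⁻¹ ∈ isometryGroup F Q := (isometryGroup F Q).inv_mem hx
  rcases h₁ with h₁ | h₁ <;> rcases h₂ with h₂ | h₂
  · exact Or.inl ((omegaGL Q).mul_mem h₁ h₂)
  · right
    rw [mul_assoc]
    exact (omegaGL Q).mul_mem h₁ h₂
  · right
    have e : g * h * x = (g * x) * (x⁻¹ * h * x⁻¹⁻¹) := by group
    rw [e]
    exact (omegaGL Q).mul_mem h₁ (conj_mem_omega hxi h₂)
  · left
    have hc := comm_mem_omega hx hh
    have hhi : h⁻¹ ∈ isometryGroup F Q := (isometryGroup F Q).inv_mem hh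
    have h3 := conj_mem_omega hhi hc
    have e : g * h = ((g * x) * (h * x)) * (x * x)⁻¹ * (h⁻¹ * (x * h * x⁻¹ * h⁻¹) * h⁻¹⁻¹)⁻¹ := by group
    rw [e]
    exact (omegaGL Q).mul_mem ((omegaGL Q).mul_mem ((omegaGL Q).mul_mem h₁ h₂) ((omegaGL Q).inv_mem hs))
      ((omegaGL Q).inv_mem h3)

theorem Rot.dich {j : Fin t} {ζ : GL ι F} (hP : PX hQ x) (h : Rot hQ D j ζ) : Dich Q x ζ := by
  rcases h.pair with h1 | ⟨a, b, ha, hb, h1⟩
  · rw [h1]
    exact Dich.one
  · rw [h1]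
    exact hP.dich a b ha hb

end PX

end Cfsg.Agent.Lib.Geo.Om2
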