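/-
Stabilisers of orthogonal decompositions in `Ω`, members of dimension two: parity of elements acting on members, vectors
linked to a vector of a member.
-/
import Cfsg.Agent.Lib.Geo.Om2
set_option autoImplicit false

namespace Cfsg.Agent.Lib.Geo.Om2

open Cfsg Cfsg.Geo Cfsg.Agent.Lib.Geo.Basic Cfsg.Agent.Lib.Geo.Parabolic Cfsg.Agent.Lib.Geo.Centres
open Cfsg.Agent.Lib.Geo.Polar Cfsg.Agent.Lib.Geo.QForm
open Cfsg.Agent.Lib.GeoOmega.Basic Cfsg.Agent.Lib.GeoOmega.Eichler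
open Cfsg.Agent.Lib.GeoOmega.Levi (rf rf_mulVec rf_mem rf_mul_mem_omega rf_inv rf_conj)
open Cfsg.Agent.Lib.Geo.OmSub (Par Par.add Par.zero Par.neg Par.sub Par.conj Par.swap pol_sum_left eich_zero)
open Cfsg.Agent.Lib.Geo.SpDecomp (exists_comps mem_decompositionStabilizer_of_forall)
open Cfsg.Agent.Lib.Geo.OmDec
open Cfsg.Agent.Lib.Geo.OmB
open scoped MatrixGroups Matrix

variable {ι : Type} [Fintype ι] [DecidableEq ι] {F : Type*} [Field F]
variable {Q : (ι → F) → F} {t : ℕ} {D : Fin t → Submodule F (ι → F)}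

/-- Elements preserving each member. -/
def Bw (D : Fin t → Submodule F (ι → F)) (g : GL ι F) : Prop :=
  ∀ i, ∀ x ∈ D i, (g : Matrix ι ι F) *ᵥ x ∈ D i

omit [Fintype ι] in
theorem Bw.one [Fintype ι] : Bw D (1 : GL ι F) := fun i x hx => by simpa using hx

theorem Bw.mul {g h : GL ι F} (hg : Bw D g) (hh : Bw D h) : Bw D (g * h) := fun i x hx => by
  rw [Units.val_mul, ← Matrix.mulVec_mulVec]
  exact hg i _ (hh i x hx)

/-- Parity of an isometry with respect to every reference element. -/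
def Ev (hQ : IsNondegenerateQuadraticForm Q) (g : GL ι F) : Prop :=
  ∀ x : GL ι F, PX hQ x → Dich Q x g

section EvSec

variable {hQ : IsNondegenerateQuadraticForm Q}

theorem Rot.ev {j : Fin t} {ζ : GL ι F} (h : Rot hQ D j ζ) : Ev hQ ζ := fun _ hP => h.dich hP

theorem Ev.mul {g h : GL ι F} (hg : g ∈ isometryGroup F Q) (hh : h ∈ isometryGroup F Q) (h₁ : Ev hQ g)
    (h₂ : Ev hQ h) : Ev hQ (g * h) := fun x hP => Dich.mul hP.iso hP.sq hg hh (h₁ x hP) (h₂ x hP)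

/-- Two elements outside `Ω`. -/
theorem odd_mul_mem {x g h : GL ι F} (hx : x ∈ isometryGroup F Q) (hs : x * x ∈ omegaGL Q) (hh : h ∈ isometryGroup F Q)
    (h₁ : g * x ∈ omegaGL Q) (h₂ : h * x ∈ omegaGL Q) : g * h ∈ omegaGL Q := by
  have hc := comm_mem_omega hx hh
  have hhi : h⁻¹ ∈ isometryGroup F Q := (isometryGroup F Q).inv_mem hh
  have h3 := conj_mem_omega hhi hc
  have e : g * h = ((g * x) * (h * x)) * (x * x)⁻¹ * (h⁻¹ * (x * h * x⁻¹ * h⁻¹) * h⁻¹⁻¹)⁻¹ := by group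
  rw [e]
  exact (omegaGL Q).mul_mem ((omegaGL Q).mul_mem ((omegaGL Q).mul_mem h₁ h₂) ((omegaGL Q).inv_mem hs))
    ((omegaGL Q).inv_mem h3)

end EvSec

/-- Squares. -/
theorem isSquare_of_mul_sq {X Y : F} (hY : Y ≠ 0) (h : IsSquare (X * Y ^ 2)) : IsSquare X := by
  obtain ⟨r, hr⟩ := h
  refine ⟨r / Y, ?_⟩
  field_simp
  linear_combination hr

theorem isSquare_mul_sq {X Y : F} (h : IsSquare X) : IsSquare (X * Y ^ 2) := by
  obtain ⟨r, hr⟩ := h
  exact ⟨r * Y, by rw [hr]; ring⟩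

/-- The product `A C` and `A B · C E` squares give `B E` a square. -/
theorem isSquare_aux {X Y : F} (hX : X ≠ 0) (h1 : IsSquare X) (h2 : IsSquare (X * Y)) : IsSquare Y := by
  obtain ⟨r, hr⟩ := h1
  obtain ⟨u, hu⟩ := h2
  have hr0 : r ≠ 0 := by
    rintro rfl
    exact hX (by simpa using hr)
  refine ⟨u / r, ?_⟩
  rw [hr] at hu
  field_simp
  linear_combination hu

section CtxS

variable {M : Subgroup (GL ι F)} (S : Ctx2 Q D M)
include S

theorem Ctx2.base : CtxB Q D M 2 := ⟨S.hQ, S.blk, S.fin, S.iso, S.card7, S.hH, S.hM⟩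

theorem Ctx2.miso : M ≤ isometryGroup F Q := S.hM.trans (omegaGL_le_isometryGroup Q)

theorem Ctx2.mem_bw {g : GL ι F} (hg : g ∈ omegaGL Q) (hb : Bw D g) : g ∈ M := S.base.mem_pres hg hb

theorem Ctx2.bw_rf {j : Fin t} {b : ι → F} (hb : b ∈ D j) : Bw D (rf S.hQ b) :=
  fun i _ hx => pres_of_rf S.hQ S.blk hb i hx

/-- Distinct members. -/
theorem Ctx2.exists_ne (s : Finset (Fin t)) (hs : s.card < t) : ∃ i, i ∉ s := by
  by_contra hcon
  push Not at hcon
  have : s = Finset.univ := Finset.eq_univ_iff_forall.mpr hcon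
  rw [this, Finset.card_univ, Fintype.card_fin] at hs
  exact lt_irrefl _ hs

theorem Ctx2.exists_ne3 (a b c : Fin t) : ∃ i, i ≠ a ∧ i ≠ b ∧ i ≠ c := by
  have h7 := S.t7
  obtain ⟨i, hi⟩ := S.exists_ne {a, b, c} (lt_of_le_of_lt Finset.card_le_three (by omega))
  simp only [Finset.mem_insert, Finset.mem_singleton] at hi
  push Not at hi
  exact ⟨i, hi.1, hi.2.1, hi.2.2⟩

theorem Ctx2.exists_ne4 (a b c d : Fin t) : ∃ i, i ≠ a ∧ i ≠ b ∧ i ≠ c ∧ i ≠ d := by
  have h7 := S.t7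
  obtain ⟨i, hi⟩ := S.exists_ne {a, b, c, d} (lt_of_le_of_lt Finset.card_le_four (by omega))
  simp only [Finset.mem_insert, Finset.mem_singleton] at hi
  push Not at hi
  exact ⟨i, hi.1, hi.2.1, hi.2.2.1, hi.2.2.2⟩

theorem Ctx2.exists_ne5 (a b c d e : Fin t) : ∃ i, i ≠ a ∧ i ≠ b ∧ i ≠ c ∧ i ≠ d ∧ i ≠ e := by
  have h7 := S.t7
  obtain ⟨i, hi⟩ := S.exists_ne {a, b, c, d, e} (lt_of_le_of_lt Finset.card_le_five (by omega))
  simp only [Finset.mem_insert, Finset.mem_singleton] at hi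
  push Not at hi
  exact ⟨i, hi.1, hi.2.1, hi.2.2.1, hi.2.2.2.1, hi.2.2.2.2⟩

/-- A reference element acting on one member. -/
theorem Ctx2.exists_PX [Fintype F] (f : Fin t) :
    ∃ x : GL ι F, PX S.hQ x ∧ Bw D x ∧ ∀ v, cp D f v = 0 → (x : Matrix ι ι F) *ᵥ v = v := by
  have hQ := S.hQ
  have B := S.blk
  by_cases h2 : (2 : F) = 0
  · haveI : CharP F 2 := CharTwo.of_one_ne_zero_of_two_eq_zero (R := F) one_ne_zero h2
    have h3 : ringChar F = 2 := ringChar.eq F 2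
    refine ⟨1, ⟨(isometryGroup F Q).one_mem, ?_, fun a b ha hb => Or.inl ?_⟩, Bw.one, fun v _ => by simp⟩
    · rw [one_mul]
      exact (omegaGL Q).one_mem
    · exact rf_mul_mem_omega_sq hQ S.card7 ha hb (FiniteField.isSquare_of_char_two h3 _)
  · have hchar : ringChar F ≠ 2 := by
      intro h
      haveI : CharP F 2 := ringChar.of_eq h
      exact h2 (by exact_mod_cast CharP.cast_eq_zero F 2)
    have hodd : Fintype.card F % 2 = 1 := FiniteField.odd_card_of_char_ne_two hchar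
    obtain ⟨n, hn⟩ := FiniteField.exists_nonsquare hchar
    have hn0 : n ≠ 0 := fun h => hn (by rw [h]; exact IsSquare.zero)
    obtain ⟨v, hv, hv0⟩ := Submodule.exists_mem_ne_zero_of_ne_bot (p := D f) (by
      intro h0
      have := S.fin f
      rw [h0] at this
      simp at this)
    obtain ⟨a₀, ha₀, ha₀Q⟩ := exists_nonsingW hQ (B.nd f) h2 hv hv0
    obtain ⟨b, hb, -, hbQ, ha₀b⟩ := exists_perp hQ B S.fin ha₀ ha₀Q
    obtain ⟨α, β, hαβ⟩ := exists_sq_sum hodd ha₀Q hbQ (n * Q a₀)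
    obtain ⟨a₁, ha₁⟩ : ∃ a₁, a₁ = α • a₀ + β • b := ⟨_, rfl⟩
    have ha₁D : a₁ ∈ D f := by
      rw [ha₁]
      exact (D f).add_mem ((D f).smul_mem _ ha₀) ((D f).smul_mem _ hb)
    have hQ₁ : Q a₁ = n * Q a₀ := by
      rw [ha₁, Q_smul_add hQ, ha₀b, ← hαβ]
      ring
    have ha₁Q : Q a₁ ≠ 0 := by
      rw [hQ₁]
      exact mul_ne_zero hn0 ha₀Q
    have hns : ¬ IsSquare (Q a₀ * Q a₁) := by
      intro h
      apply hn
      apply isSquare_of_mul_sq ha₀Q
      rw [hQ₁] at h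
      convert h using 1
      ring
    refine ⟨rf hQ a₀ * rf hQ a₁, ⟨(isometryGroup F Q).mul_mem (rf_mem hQ a₀) (rf_mem hQ a₁), ?_, fun a b' ha hb' => ?_⟩,
      (S.bw_rf ha₀).mul (S.bw_rf ha₁D), fun v hv' => ?_⟩
    · have := comm_mem_omega (rf_mem hQ a₀) (rf_mem hQ a₁)
      rw [rf_inv, rf_inv] at this
      rw [← mul_assoc]
      exact this
    · by_cases hsq : IsSquare (Q a * Q b')
      · exact Or.inl (rf_mul_mem_omega_sq hQ S.card7 ha hb' hsq)
      · right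
        have hall := isSquare_mul_of_not hodd hsq hns
        by_cases h1 : IsSquare (Q a * Q a₀)
        · have h3 : IsSquare (Q b' * Q a₁) := by
            refine isSquare_aux (mul_ne_zero ha ha₀Q) h1 ?_
            convert hall using 1
            ring
          have e : rf hQ a * rf hQ b' * (rf hQ a₀ * rf hQ a₁) =
              (rf hQ a * rf hQ a₀) * (rf hQ a₀ * rf hQ b' * (rf hQ a₀)⁻¹ * (rf hQ b')⁻¹) * (rf hQ b' * rf hQ a₁) := by
            rw [rf_inv, rf_inv]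
            have h5 := rf_mul_self hQ a₀
            have h6 := rf_mul_self hQ b'
            calc rf hQ a * rf hQ b' * (rf hQ a₀ * rf hQ a₁)
                = rf hQ a * (rf hQ a₀ * rf hQ a₀) * rf hQ b' * rf hQ a₀ * (rf hQ b' * rf hQ b') * rf hQ a₁ := by
                  rw [h5, h6]
                  group
              _ = _ := by group
          rw [e]
          exact (omegaGL Q).mul_mem ((omegaGL Q).mul_mem (rf_mul_mem_omega_sq hQ S.card7 ha ha₀Q h1)
            (comm_mem_omega (rf_mem hQ a₀) (rf_mem hQ b'))) (rf_mul_mem_omega_sq hQ S.card7 hb' ha₁Q h3)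
        · have h3 : IsSquare (Q a * Q a₁) := by
            have h4 := isSquare_mul_of_not hodd h1 hns
            apply isSquare_of_mul_sq ha₀Q
            convert h4 using 1
            ring
          have h5 : IsSquare (Q b' * Q a₀) := by
            have h4 := isSquare_mul_of_not hodd hsq h1
            apply isSquare_of_mul_sq ha
            convert h4 using 1
            ring
          have e : rf hQ a * rf hQ b' * (rf hQ a₀ * rf hQ a₁) =
              (rf hQ a * rf hQ a₁) * (rf hQ a₁ * (rf hQ b' * rf hQ a₀) * (rf hQ a₁)⁻¹ * (rf hQ b' * rf hQ a₀)⁻¹) *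
                (rf hQ b' * rf hQ a₀) := by
            rw [rf_inv]
            have h6 := rf_mul_self hQ a₁
            calc rf hQ a * rf hQ b' * (rf hQ a₀ * rf hQ a₁)
                = rf hQ a * (rf hQ a₁ * rf hQ a₁) * rf hQ b' * rf hQ a₀ * rf hQ a₁ := by
                  rw [h6]
                  group
              _ = _ := by group
          rw [e]
          exact (omegaGL Q).mul_mem ((omegaGL Q).mul_mem (rf_mul_mem_omega_sq hQ S.card7 ha ha₁Q h3)
            (comm_mem_omega (rf_mem hQ a₁) ((isometryGroup F Q).mul_mem (rf_mem hQ b') (rf_mem hQ a₀))))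
            (rf_mul_mem_omega_sq hQ S.card7 hb' ha₀Q h5)
    · rw [Units.val_mul, ← Matrix.mulVec_mulVec, fix_of_rf hQ B ha₁D hv', fix_of_rf hQ B ha₀ hv']

/-- An isometry preserving each member, corrected on one member to lie in `M`. -/
theorem Ctx2.exists_lift [Fintype F] (f : Fin t) {ζ : GL ι F} (hI : ζ ∈ isometryGroup F Q) (hB : Bw D ζ) (hE : Ev S.hQ ζ) :
    ∃ h : GL ι F, h ∈ M ∧ h ∈ isometryGroup F Q ∧ Bw D h ∧ ∀ v, cp D f v = 0 → (h : Matrix ι ι F) *ᵥ v = (ζ : Matrix ι ι F) *ᵥ v := by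
  obtain ⟨x, hP, hxB, hxf⟩ := S.exists_PX f
  rcases hE x hP with h | h
  · exact ⟨ζ, S.mem_bw h hB, hI, hB, fun _ _ => rfl⟩
  · refine ⟨ζ * x, S.mem_bw h (hB.mul hxB), (isometryGroup F Q).mul_mem hI hP.iso, hB.mul hxB, fun v hv => ?_⟩
    rw [Units.val_mul, ← Matrix.mulVec_mulVec, hxf v hv]

/-- Vectors of the same norm in members are linked. -/
theorem Ctx2.lk_pure [Fintype F] {j m : Fin t} {p p' : ι → F} (hp : p ∈ D j) (hp' : p' ∈ D m) (h : Q p = Q p') (h0 : Q p ≠ 0) :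
    Lk S.hQ M p p' :=
  ⟨h, h0, S.mem_bw (rf_mul_mem_omega S.hQ S.card7 h.symm rfl h0) ((S.bw_rf hp).mul (S.bw_rf hp'))⟩

end CtxS

/-- Vectors linked to a vector of a member. -/
def Phi (hQ : IsNondegenerateQuadraticForm Q) (D : Fin t → Submodule F (ι → F)) (M : Subgroup (GL ι F)) (e : ι → F) : Prop :=
  ∃ j p, p ∈ D j ∧ Lk hQ M e p

section PhiS

variable [Fintype F] {M : Subgroup (GL ι F)} (S : Ctx2 Q D M)
include S

theorem Ctx2.phi_pure {j : Fin t} {p : ι → F} (hp : p ∈ D j) (h0 : Q p ≠ 0) : Phi S.hQ D M p :=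
  ⟨j, p, hp, Lk.refl h0⟩

theorem Ctx2.phi_lk {e f : ι → F} (he : Phi S.hQ D M e) (hf : Phi S.hQ D M f) (hq : Q e = Q f) : Lk S.hQ M e f := by
  obtain ⟨j, p, hp, h₁⟩ := he
  obtain ⟨m, p', hp', h₂⟩ := hf
  exact h₁.trans ((S.lk_pure hp hp' (by rw [← h₁.1, ← h₂.1, hq]) (by rw [← h₁.1]; exact h₁.2.1)).trans h₂.symm)

/-- Images under elements of `M` permuting members. -/
theorem Ctx2.phi_map {e : ι → F} (he : Phi S.hQ D M e) {g : GL ι F} (hg : g ∈ M)
    (hb : ∀ i, ∃ i', ∀ x ∈ D i, (g : Matrix ι ι F) *ᵥ x ∈ D i') : Phi S.hQ D M ((g : Matrix ι ι F) *ᵥ e) := by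
  obtain ⟨j, p, hp, h₁⟩ := he
  obtain ⟨j', hj'⟩ := hb j
  exact ⟨j', _, hj' p hp, h₁.conj hg (S.miso hg)⟩

theorem Ctx2.phi_bw {e : ι → F} (he : Phi S.hQ D M e) {g : GL ι F} (hg : g ∈ M) (hb : Bw D g) :
    Phi S.hQ D M ((g : Matrix ι ι F) *ᵥ e) :=
  S.phi_map he hg fun i => ⟨i, hb i⟩

/-- Reflections in vectors of the same norm. -/
theorem Ctx2.phi_rf {e f : ι → F} (he : Phi S.hQ D M e) (hf : Phi S.hQ D M f) (hq : Q e = Q f) :
    Phi S.hQ D M (((rf S.hQ e : GL ι F) : Matrix ι ι F) *ᵥ f) := by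
  have hQ := S.hQ
  obtain ⟨j, p, hp, h₁⟩ := he
  have hq' : Q f = Q p := by rw [← hq, h₁.1]
  have h₂ : Lk hQ M f p := S.phi_lk hf (S.phi_pure hp (by rw [← h₁.1]; exact h₁.2.1)) hq'
  have h₃ : Lk hQ M e f := h₁.trans h₂.symm
  have hI := rf_mem hQ e
  have hIq := (mem_isometryGroup_iff Q (rf hQ e)).mp hI
  refine ⟨j, p, hp, by rw [hIq]; exact h₂.1, by rw [hIq]; exact h₂.2.1, ?_⟩
  rw [← rf_conj hQ (rf hQ e) hI f, rf_inv]
  have e2 : rf hQ e * rf hQ f * rf hQ e * rf hQ p = (rf hQ e * rf hQ f) * (rf hQ e * rf hQ p) := by group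
  rw [e2]
  exact M.mul_mem h₃.2.2 h₁.2.2

end PhiS

/-- The properties of the members used below. -/
structure TD (hQ : IsNondegenerateQuadraticForm Q) (D : Fin t → Submodule F (ι → F)) (s : F) : Prop where
  s0 : s ≠ 0
  s4 : s ^ 2 ≠ 4
  circ : ∀ j z, z ∈ D j → Q z ≠ 0 → ∃ w ∈ D j, Q w = Q z ∧ pol Q z w = s * Q z
  ii : ∀ j m z z', z ∈ D j → z' ∈ D m → Q z ≠ 0 → Q z' ≠ 0 → ∃ w ∈ D j, ∃ w' ∈ D m, Q w = Q z ∧ Q w' = Q z' ∧
    w ≠ z ∧ w' ≠ z' ∧ Q (z - w) + Q (z' - w') = 0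
  span : ∀ (r : Fin t) (P : (ι → F) → Prop), (∀ a b, P a → P b → P (a + b)) → (∀ a, P a → P (-a)) →
    (∀ a ∈ D r, P a → ∀ ζ, Rot hQ D r ζ → P ((ζ : Matrix ι ι F) *ᵥ a)) →
    ∀ y ∈ D r, Q y ≠ 0 → P y → ∀ a ∈ D r, P a

section TDS

variable {hQ : IsNondegenerateQuadraticForm Q} {s : F} (T : TD hQ D s)
include T

/-- A second vector of the same norm. -/
theorem TD.v3 {j : Fin t} {z : ι → F} (hz : z ∈ D j) (hzQ : Q z ≠ 0) :
    ∃ w ∈ D j, Q w = Q z ∧ pol Q z w = s * Q z ∧ ∀ c : F, w ≠ c • z := by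
  obtain ⟨w, hw, hwQ, hzw⟩ := T.circ j z hz hzQ
  refine ⟨w, hw, hwQ, hzw, ?_⟩
  rintro c rfl
  rw [hQ.smul] at hwQ
  rw [pol_smul_right hQ, pol_self hQ] at hzw
  have h1 : c ^ 2 = 1 := by
    apply mul_right_cancel₀ hzQ
    linear_combination hwQ
  have h2 : c * 2 = s := by
    apply mul_right_cancel₀ hzQ
    linear_combination hzw
  apply T.s4
  rw [← h2]
  linear_combination 4 * h1

end TDS

end Cfsg.Agent.Lib.Geo.Om2
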