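/-
Stabilisers of orthogonal decompositions in `Ω`, members of dimension two: from one Eichler transformation with centre in
two members and parameter in a third one to the whole of `Ω`.
-/
import Cfsg.Agent.Lib.Geo.Om2A
set_option autoImplicit false

namespace Cfsg.Agent.Lib.Geo.Om2

open Cfsg Cfsg.Geo Cfsg.Agent.Lib.Geo.Basic Cfsg.Agent.Lib.Geo.Parabolic Cfsg.Agent.Lib.Geo.Centres
open Cfsg.Agent.Lib.Geo.Polar Cfsg.Agent.Lib.Geo.QForm
open Cfsg.Agent.Lib.GeoOmega.Basic Cfsg.Agent.Lib.GeoOmega.Eichler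
open Cfsg.Agent.Lib.GeoOmega.Levi (rf rf_mulVec rf_mem rf_mul_mem_omega rf_inv rf_conj)
open Cfsg.Agent.Lib.Geo.OmSub (Par Par.add Par.zero Par.neg Par.sub Par.conj Par.swap pol_sum_left eich_zero)
open Cfsg.Agent.Lib.Geo.SpDecomp (exists_comps mem_decompositionStabilizer_of_forall)
open Cfsg.Agent.Lib.Geo.OmDec
open Cfsg.Agent.Lib.Geo.OmB
open scoped MatrixGroups Matrix

variable {ι : Type} [Fintype ι] [DecidableEq ι] {F : Type*} [Field F]
variable {Q : (ι → F) → F} {t : ℕ} {D : Fin t → Submodule F (ι → F)}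

theorem pol_neg_left_aux (hQ : IsNondegenerateQuadraticForm Q) (x v : ι → F) : pol Q (-x) v = - pol Q x v := by
  have h := pol_smul_left hQ (-1 : F) x v
  simpa using h

section Elem

variable (hQ : IsNondegenerateQuadraticForm Q) (B : Blk Q D)
include hQ B

theorem cp_two {l m i : Fin t} {x z : ι → F} (hx : x ∈ D l) (hz : z ∈ D m) (hl : i ≠ l) (hm : i ≠ m) :
    cp D i (x + z) = 0 := by
  rw [cp_add hQ B, cp_other hQ B hl hx, cp_other hQ B hm hz, add_zero]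

theorem pol_two {l m : Fin t} (hlm : l ≠ m) {a a' b b' : ι → F} (ha : a ∈ D l) (ha' : a' ∈ D l) (hb : b ∈ D m)
    (hb' : b' ∈ D m) : pol Q (a + b) (a' + b') = pol Q a a' + pol Q b b' := by
  rw [pol_add_left hQ, pol_add_right hQ, pol_add_right hQ, B.orth l m hlm a ha b' hb', B.orth m l hlm.symm b hb a' ha']
  ring

theorem Q_two {l m : Fin t} (hlm : l ≠ m) {a b : ι → F} (ha : a ∈ D l) (hb : b ∈ D m) : Q (a + b) = Q a + Q b := by
  rw [Q_add hQ, B.orth l m hlm a ha b hb, add_zero]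

end Elem

/-- Two elements acting on two members. -/
theorem rot2_apply {hQ : IsNondegenerateQuadraticForm Q} (B : Blk Q D) {j m : Fin t} (hjm : j ≠ m) {ζ₁ ζ₂ : GL ι F}
    (hζ₁ : Rot hQ D j ζ₁) (hζ₂ : Rot hQ D m ζ₂) {v w₁ w₂ : ι → F} (e₁ : (ζ₁ : Matrix ι ι F) *ᵥ cp D j v = w₁)
    (e₂ : (ζ₂ : Matrix ι ι F) *ᵥ cp D m v = w₂) (hw₂ : w₂ ∈ D m) :
    ((ζ₁ * ζ₂ : GL ι F) : Matrix ι ι F) *ᵥ v = v - ((cp D j v - w₁) + (cp D m v - w₂)) := by
  rw [Units.val_mul, ← Matrix.mulVec_mulVec, hζ₂.apply B v, e₂, Matrix.mulVec_add, hζ₁.apply B v, e₁,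
    hζ₁.fix _ (cp_other hQ B hjm ((D m).sub_mem hw₂ (cp_mem B m v)))]
  abel

section EG

variable [Fintype F] {M : Subgroup (GL ι F)} (S : Ctx2 Q D M)
include S

theorem Ctx2.par_conj_fix {p v : ι → F} (hP : Par Q M p v) {k : GL ι F} (hk : k ∈ M)
    (hfix : (k : Matrix ι ι F) *ᵥ p = p) : Par Q M p ((k : Matrix ι ι F) *ᵥ v) := by
  have h := Par.conj hP hk (S.miso hk)
  rwa [hfix] at h

theorem Ctx2.exists_pol (r : Fin t) (c : F) : ∃ b ∈ D r, ∃ b' ∈ D r, pol Q b b' = c := by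
  obtain ⟨y, hy, hy0⟩ := Submodule.exists_mem_ne_zero_of_ne_bot (p := D r) (by
    intro h0
    have := S.fin r
    rw [h0] at this
    simp at this)
  obtain ⟨x, hx, hne⟩ := (S.blk.nd r y hy hy0).2
  change pol Q y x ≠ 0 at hne
  refine ⟨y, hy, (c / pol Q y x) • x, (D r).smul_mem _ hx, ?_⟩
  rw [pol_smul_right S.hQ]
  field_simp

/-- Commutators of two Eichler transformations with parameters in one member. -/
theorem Ctx2.par_comm {p p' : ι → F} {r : Fin t} (hpQ : Q p = 0) (hp'Q : Q p' = 0) (hpp' : pol Q p p' = 0)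
    (hr : cp D r p = 0) (hr' : cp D r p' = 0) (h1 : ∀ b ∈ D r, Par Q M p b) (h2 : ∀ b ∈ D r, Par Q M p' b) (c : F) :
    Par Q M p (c • p') := by
  have hQ := S.hQ
  have B := S.blk
  obtain ⟨b, hb, b', hb', hbb⟩ := S.exists_pol r c
  obtain ⟨k, hk⟩ := exists_eich hQ hp'Q (h2 b' hb').1
  have hkM := (h2 b' hb').2 k hk
  have hfix : (k : Matrix ι ι F) *ᵥ p = p := by
    rw [hk p, pol_eq_zero_of_cp hQ B hr hb', hpp']
    simp
  have hkb : (k : Matrix ι ι F) *ᵥ b = b + c • p' := by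
    have h3 : pol Q b p' = 0 := by
      rw [pol_symm hQ]
      exact pol_eq_zero_of_cp hQ B hr' hb
    rw [hk b, hbb, h3]
    simp
  have P := S.par_conj_fix (h1 b hb) hkM hfix
  rw [hkb] at P
  have h4 := Par.sub hQ hpQ P (h1 b hb)
  rwa [add_sub_cancel_left] at h4

variable {s : F} (T : TD S.hQ D s)
include T

/-- The main step. -/
theorem Ctx2.eg_two {l m r : Fin t} (hlm : l ≠ m) (hrl : r ≠ l) (hrm : r ≠ m) {x z y : ι → F} (hx : x ∈ D l)
    (hz : z ∈ D m) (hxQ : Q x ≠ 0) (hxz : Q x + Q z = 0) (hy : y ∈ D r) (hyQ : Q y ≠ 0) (hP : Par Q M (x + z) y) :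
    omegaGL Q ≤ M := by
  have hQ := S.hQ
  have B := S.blk
  obtain ⟨p, hp⟩ : ∃ p, p = x + z := ⟨_, rfl⟩
  rw [← hp] at hP
  have hpQ : Q p = 0 := by
    rw [hp, Q_two hQ B hlm hx hz, hxz]
  have hzQ : Q z ≠ 0 := by
    intro h0
    rw [h0, add_zero] at hxz
    exact hxQ hxz
  have hcp : ∀ i, i ≠ l → i ≠ m → cp D i p = 0 := fun i h1 h2 => by
    rw [hp]
    exact cp_two hQ B hx hz h1 h2
  -- parameters in the member
  have hblock : ∀ a ∈ D r, Par Q M p a := by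
    refine T.span r (Par Q M p) (fun a b ha hb => Par.add hQ hpQ ha hb) (fun a ha => Par.neg hQ hpQ ha)
      (fun a ha hPa ζ hζ => ?_) y hy hyQ hP
    obtain ⟨f', h1, h2, h3⟩ := S.exists_ne3 l m r
    obtain ⟨h, hM, -, -, hv⟩ := S.exists_lift f' hζ.iso hζ.pres hζ.ev
    have hfix : (h : Matrix ι ι F) *ᵥ p = p := by
      rw [hv p (hcp f' h1 h2), hζ.fix p (hcp r hrl hrm)]
    have := S.par_conj_fix hPa hM hfix
    rwa [hv a (cp_other hQ B h3 ha)] at this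
  -- parameters in the other members
  have hother : ∀ r', r' ≠ l → r' ≠ m → ∀ a ∈ D r', Par Q M p a := by
    intro r' h1 h2 a ha
    by_cases hrr : r' = r
    · subst hrr
      exact hblock a ha
    · obtain ⟨r'', h3, h4, h5, h6⟩ := S.exists_ne4 l m r r'
      obtain ⟨g, hg, hg1, -, -, hg2⟩ := S.base.exists_cycle (a := r') (b := r'') (c := r) (Ne.symm h6) (Ne.symm hrr)
        (Ne.symm h5)
      have hgp : (g : Matrix ι ι F) *ᵥ p = p := by
        rw [hp, Matrix.mulVec_add, hg2 l (Ne.symm h1) (Ne.symm h3) (Ne.symm hrl) x hx,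
          hg2 m (Ne.symm h2) (Ne.symm h4) (Ne.symm hrm) z hz]
      have hgi : ((g⁻¹ : GL ι F) : Matrix ι ι F) *ᵥ p = p := by
        conv_lhs => rw [← hgp]
        exact inv_mulVec_mulVec g p
      have := S.par_conj_fix (hblock _ (hg1 a ha)) (M.inv_mem hg) hgi
      rwa [inv_mulVec_mulVec] at this
  -- images of the centre
  obtain ⟨f', hf1, hf2, hf3⟩ := S.exists_ne3 l m r
  have himg : ∀ w ∈ D l, ∀ w' ∈ D m, Q w = Q x → Q w' = Q z → ∃ h : GL ι F, h ∈ M ∧ (h : Matrix ι ι F) *ᵥ p = w + w' ∧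
      ∀ b ∈ D r, (h : Matrix ι ι F) *ᵥ b = b := by
    intro w hw w' hw' h1 h2
    obtain ⟨ζ₁, hζ₁, e₁⟩ := exists_rot (hQ := hQ) B S.fin hx hw hxQ h1
    obtain ⟨ζ₂, hζ₂, e₂⟩ := exists_rot (hQ := hQ) B S.fin hz hw' hzQ h2
    obtain ⟨h, hM, -, -, hv⟩ := S.exists_lift f' ((isometryGroup F Q).mul_mem hζ₁.iso hζ₂.iso)
      (Bw.mul hζ₁.pres hζ₂.pres) (Ev.mul hζ₁.iso hζ₂.iso hζ₁.ev hζ₂.ev)
    refine ⟨h, hM, ?_, fun b hb => ?_⟩
    · rw [hv p (hcp f' hf1 hf2), Units.val_mul, ← Matrix.mulVec_mulVec, hp, Matrix.mulVec_add,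
        hζ₂.fix x (cp_other hQ B hlm.symm hx), e₂, Matrix.mulVec_add, e₁, hζ₁.fix w' (cp_other hQ B hlm hw')]
    · rw [hv b (cp_other hQ B hf3 hb), Units.val_mul, ← Matrix.mulVec_mulVec,
        hζ₂.fix b (cp_other hQ B hrm.symm hb), hζ₁.fix b (cp_other hQ B hrl.symm hb)]
  -- the second and third vectors
  obtain ⟨x', hx', hx'Q, hxx', hx'c⟩ := T.v3 hx hxQ
  obtain ⟨z', hz', hz'Q, hzz', hz'c⟩ := T.v3 hz hzQ
  have hz2 : s • z - z' ∈ D m := (D m).sub_mem ((D m).smul_mem _ hz) hz'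
  have hz2Q : Q (s • z - z') = Q z := by
    rw [Q_sub hQ, hQ.smul, hz'Q, pol_smul_left hQ, hzz']
    ring
  have hz2p : pol Q z (s • z - z') = s * Q z := by
    rw [pol_sub_right hQ, pol_smul_right hQ, pol_self hQ, hzz']
    ring
  have hQzx : Q z = - Q x := by linear_combination hxz
  -- Eichler transformations for the images
  have hpar : ∀ w ∈ D l, ∀ w' ∈ D m, Q w = Q x → Q w' = Q z → pol Q x w = s * Q x → pol Q z w' = s * Q z →
      ∀ c : F, Par Q M p (c • (w + w')) := by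
    intro w hw w' hw' h1 h2 h3 h4 c
    obtain ⟨h, hM, he, hb⟩ := himg w hw w' hw' h1 h2
    refine S.par_comm (r := r) hpQ ?_ ?_ (hcp r hrl hrm) (cp_two hQ B hw hw' hrl hrm) hblock (fun b hb' => ?_) c
    · rw [Q_two hQ B hlm hw hw', h1, h2, hxz]
    · rw [hp, pol_two hQ B hlm hx hw hz hw', h3, h4]
      linear_combination s * hxz
    · have := Par.conj (hblock b hb') hM (S.miso hM)
      rwa [he, hb b hb'] at this
  have H₁ := hpar x' hx' z' hz' hx'Q hz'Q hxx' hzz'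
  have H₂ := hpar x' hx' _ hz2 hx'Q hz2Q hxx' hz2p
  have H₀ : ∀ c : F, Par Q M p (c • p) := fun c => by
    have := par_add_self hQ hpQ (Par.zero hQ p : Par Q M p 0) c
    rwa [zero_add] at this
  have hx0 : x ≠ 0 := fun h => hxQ (by rw [h, Q_zero hQ])
  have hz0 : z ≠ 0 := fun h => hzQ (by rw [h, Q_zero hQ])
  -- parameters in the two members
  have hsum : ∀ a ∈ D l, ∀ b ∈ D m, pol Q (a + b) p = 0 → Par Q M p (a + b) := by
    intro a ha b hb hab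
    obtain ⟨A, C₀, ea⟩ := span2 S.fin hx hx' hx0 hx'c ha
    obtain ⟨C, E, eb⟩ := span2 S.fin hz hz' hz0 hz'c hb
    have hrel : 2 * A + C₀ * s - 2 * C - E * s = 0 := by
      rw [hp, pol_two hQ B hlm ha hx hb hz, ea, eb, pol_add_left hQ, pol_add_left hQ, pol_smul_left hQ,
        pol_smul_left hQ, pol_smul_left hQ, pol_smul_left hQ, pol_self hQ, pol_self hQ, pol_symm hQ x' x, hxx',
        pol_symm hQ z' z, hzz', hQzx] at hab
      apply mul_left_cancel₀ hxQ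
      linear_combination hab
    by_cases h2 : (2 : F) = 0
    · have hs0 := T.s0
      have hBE : C₀ = E := by
        have h3 : (C₀ - E) * s = 0 := by
          rw [h2] at hrel
          linear_combination hrel
        have := (mul_eq_zero.mp h3).resolve_right hs0
        exact sub_eq_zero.mp this
      have H₃ : ∀ c : F, Par Q M p (c • z) := fun c => by
        obtain ⟨d, hd⟩ : ∃ d, d = -c / s := ⟨_, rfl⟩
        have h3 := Par.sub hQ hpQ (H₁ d) (H₂ d)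
        have e1 : c = d * (-s) := by
          rw [hd]
          field_simp
        have e : d • (x' + z') - d • (x' + (s • z - z')) = c • z + (d * 2) • z' := by
          rw [e1]
          module
        rw [e, h2, mul_zero, zero_smul, add_zero] at h3
        exact h3
      have e : a + b = A • p + (C - A) • z + C₀ • (x' + z') := by
        rw [ea, eb, hp, hBE]
        module
      rw [e]
      exact Par.add hQ hpQ (Par.add hQ hpQ (H₀ A) (H₃ _)) (H₁ _)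
    · obtain ⟨μ₁, hμ₁⟩ : ∃ μ₁, μ₁ = (C₀ + E) / 2 := ⟨_, rfl⟩
      obtain ⟨μ₂, hμ₂⟩ : ∃ μ₂, μ₂ = (C₀ - E) / 2 := ⟨_, rfl⟩
      have hB : C₀ = μ₁ + μ₂ := by
        rw [hμ₁, hμ₂]
        field_simp
        ring
      have hE : E = μ₁ - μ₂ := by
        rw [hμ₁, hμ₂]
        field_simp
        ring
      have hC : C = A + s * μ₂ := by
        rw [hμ₂]
        field_simp
        linear_combination -hrel
      have e : a + b = A • p + μ₁ • (x' + z') + μ₂ • (x' + (s • z - z')) := by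
        rw [ea, eb, hp, hB, hE, hC]
        module
      rw [e]
      exact Par.add hQ hpQ (Par.add hQ hpQ (H₀ A) (H₁ _)) (H₂ _)
  -- all parameters
  have hF : Full Q M p := by
    intro b g hb hg
    refine (?_ : Par Q M p b).2 g hg
    have e1 : b = cp D l b + cp D m b + ∑ i ∈ (Finset.univ.erase l).erase m, cp D i b := by
      conv_lhs => rw [← sum_cp B b, ← Finset.add_sum_erase Finset.univ _ (Finset.mem_univ l),
        ← Finset.add_sum_erase (Finset.univ.erase l) _ (Finset.mem_erase.mpr ⟨hlm.symm, Finset.mem_univ m⟩)]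
      rw [add_assoc]
    have h1 : pol Q (cp D l b + cp D m b) p = 0 := by
      rw [hp, pol_two hQ B hlm (cp_mem B l b) hx (cp_mem B m b) hz, ← pol_cp hQ B l b hx, ← pol_cp hQ B m b hz,
        ← pol_add_right hQ, ← hp, pol_symm hQ]
      exact hb
    have h3 : Par Q M p (∑ i ∈ (Finset.univ.erase l).erase m, cp D i b) := by
      refine Finset.sum_induction _ (Par Q M p) (fun a b ha hb => Par.add hQ hpQ ha hb) (Par.zero hQ p) fun i hi => ?_
      simp only [Finset.mem_erase, Finset.mem_univ, and_true] at hi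
      exact hother i hi.2 hi.1 _ (cp_mem B i b)
    rw [e1]
    exact Par.add hQ hpQ (hsum _ (cp_mem B l b) _ (cp_mem B m b) h1) h3
  -- the opposite centre
  obtain ⟨h₃, hM₃, he₃, -⟩ := himg x' hx' z hz hx'Q rfl
  have hF3 := hF.conj hM₃ (S.miso hM₃)
  rw [he₃] at hF3
  refine omega_le_of_full hQ S.card7 hpQ ?_ hF hF3 ?_
  · rw [Q_two hQ B hlm hx' hz, hx'Q, hxz]
  · rw [hp, pol_two hQ B hlm hx' hx hz hz, pol_symm hQ x' x, hxx', pol_self hQ, hQzx]
    have hs2 : s - 2 ≠ 0 := by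
      intro h
      have h3 : s = 2 := sub_eq_zero.mp h
      apply T.s4
      rw [h3]
      norm_num
    have : s * Q x + 2 * -Q x = (s - 2) * Q x := by ring
    rw [this]
    exact mul_ne_zero hs2 hxQ

/-- An element of `M` rotating a vector of a member. -/
theorem Ctx2.exists_even {r : Fin t} {z : ι → F} (hz : z ∈ D r) (hzQ : Q z ≠ 0) :
    ∃ (ρ : GL ι F) (b : ι → F), b ∈ D r ∧ Q b = Q z ∧ pol Q z b = s * Q z ∧ (∀ c : F, b ≠ c • z) ∧ ρ ∈ M ∧ Bw D ρ ∧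
      (∀ v, cp D r v = 0 → (ρ : Matrix ι ι F) *ᵥ v = v) ∧ (ρ : Matrix ι ι F) *ᵥ z = -z + s • b := by
  have hQ := S.hQ
  have B := S.blk
  obtain ⟨b, hb, hbQ, hzb, hbc⟩ := T.v3 hz hzQ
  refine ⟨rf hQ b * rf hQ z, b, hb, hbQ, hzb, hbc,
    S.mem_bw (rf_mul_mem_omega hQ S.card7 rfl hbQ hzQ) ((S.bw_rf hb).mul (S.bw_rf hz)), (S.bw_rf hb).mul (S.bw_rf hz),
    fun v hv => ?_, ?_⟩
  · rw [Units.val_mul, ← Matrix.mulVec_mulVec, fix_of_rf hQ B hz hv, fix_of_rf hQ B hb hv]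
  · rw [Units.val_mul, ← Matrix.mulVec_mulVec, rf_mulVec, rf_mulVec, pol_self hQ, pol_sub_left hQ, pol_smul_left hQ,
      hzb, hbQ]
    have e1 : (Q z)⁻¹ * (2 * Q z) = 2 := by field_simp
    have e2 : (Q z)⁻¹ * (s * Q z - 2 * (s * Q z)) = -s := by
      field_simp
      ring
    rw [e1, e2]
    module

/-- From an Eichler transformation to one with parameter in a member. -/
theorem Ctx2.step_rot {δ f : ι → F} {r : Fin t} {c : F} (hδ : Q δ = 0) (hr : cp D r δ = 0) (hf : Q (cp D r f) ≠ 0)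
    (hc : c ≠ 0) (hP : Par Q M δ (c • f)) : ∃ y ∈ D r, Q y ≠ 0 ∧ Par Q M δ y := by
  have hQ := S.hQ
  have B := S.blk
  obtain ⟨z, hz⟩ : ∃ z, z = cp D r f := ⟨_, rfl⟩
  rw [← hz] at hf
  have hzD : z ∈ D r := by
    rw [hz]
    exact cp_mem B r f
  obtain ⟨ρ, b, hb, hbQ, hzb, hbc, hρM, hρB, hρf, hρz⟩ := S.exists_even T hzD hf
  have P1 := S.par_conj_fix hP hρM (hρf δ hr)
  have P2 := Par.sub hQ hδ P1 hP
  have hρI := (mem_isometryGroup_iff Q ρ).mp (S.miso hρM)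
  have e1 : (ρ : Matrix ι ι F) *ᵥ f = f + ((ρ : Matrix ι ι F) *ᵥ z - z) := by
    have h1 : f = z + (f - z) := by abel
    conv_lhs => rw [h1, Matrix.mulVec_add, hρf (f - z) (by rw [hz]; exact cp_rest hQ B r f)]
    abel
  have e2 : (ρ : Matrix ι ι F) *ᵥ (c • f) - c • f = c • ((ρ : Matrix ι ι F) *ᵥ z - z) := by
    rw [Matrix.mulVec_smul, e1]
    module
  rw [e2] at P2
  refine ⟨_, (D r).smul_mem _ ((D r).sub_mem (hρB r z hzD) hzD), ?_, P2⟩
  rw [hQ.smul]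
  refine mul_ne_zero (pow_ne_zero _ hc) ?_
  have hne : (ρ : Matrix ι ι F) *ᵥ z ≠ z := by
    intro h
    rw [hρz] at h
    apply hbc (2 / s)
    have hs0 := T.s0
    have h3 : s • b = (2 : F) • z := by
      have : s • b = -z + s • b + z := by abel
      rw [this, h]
      module
    calc b = s⁻¹ • (s • b) := by rw [smul_smul, inv_mul_cancel₀ hs0, one_smul]
      _ = (2 / s) • z := by
        rw [h3, smul_smul]
        congr 1
        field_simp
  have h4 := q_sub_ne hQ B S.fin hzD (hρB r z hzD) hf (hρI z) hne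
  have e3 : (ρ : Matrix ι ι F) *ᵥ z - z = (-1 : F) • (z - (ρ : Matrix ι ι F) *ᵥ z) := by module
  rw [e3, hQ.smul]
  simpa using h4

/-- An element of `M` moving a vector linked to a member by a singular vector. -/
theorem Ctx2.two_comp {e : ι → F} {h : GL ι F} {j m r : Fin t} (he : Phi S.hQ D M e) (hM : h ∈ M) (hB : Bw D h)
    (hjm : j ≠ m) (hrj : r ≠ j) (hrm : r ≠ m) {x z : ι → F} (hx : x ∈ D j) (hz : z ∈ D m) (hxQ : Q x ≠ 0)
    (hxz : Q x + Q z = 0) (hhe : (h : Matrix ι ι F) *ᵥ e = e - (x + z)) (hr : Q (cp D r e) ≠ 0) : omegaGL Q ≤ M := by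
  have hQ := S.hQ
  have B := S.blk
  have he' := S.phi_bw he hM hB
  have hI := (mem_isometryGroup_iff Q h).mp (S.miso hM)
  have hL := S.phi_lk he he' (hI e).symm
  have hδ : Q (x + z) = 0 := by rw [Q_two hQ B hjm hx hz, hxz]
  have hd : e - (h : Matrix ι ι F) *ᵥ e = x + z := by
    rw [hhe]
    abel
  have hP := hL.par (by rw [hd]; exact hδ)
  rw [hd] at hP
  have hc : (Q ((h : Matrix ι ι F) *ᵥ e))⁻¹ ≠ 0 := by
    rw [hI]
    exact inv_ne_zero hL.2.1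
  obtain ⟨y, hy, hyQ, hPy⟩ := S.step_rot T (r := r) hδ (cp_two hQ B hx hz hrj hrm) (by
    rw [hhe, cp_sub hQ B, cp_two hQ B hx hz hrj hrm, sub_zero]
    exact hr) hc hP
  exact S.eg_two T hjm hrj hrm hx hz hxQ hxz hy hyQ hPy

/-- Reduction of the number of non-zero components of the centre. -/
theorem Ctx2.reduce {δ y : ι → F} {r j m o : Fin t} (hjm : j ≠ m) (hoj : o ≠ j) (hom : o ≠ m) (hrj : r ≠ j) (hrm : r ≠ m)
    (hδ : Q δ = 0) (hr : cp D r δ = 0) (hy : y ∈ D r) (hyQ : Q y ≠ 0) (hP : Par Q M δ y) (hj : Q (cp D j δ) ≠ 0)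
    (hm : Q (cp D m δ) ≠ 0) (ho : Q (cp D o δ) ≠ 0) : omegaGL Q ≤ M := by
  have hQ := S.hQ
  have B := S.blk
  have hj' := cp_mem B j δ
  have hm' := cp_mem B m δ
  obtain ⟨w₁, hw₁, w₂, hw₂, hw₁Q, hw₂Q, hne₁, hne₂, hsum⟩ := T.ii j m _ _ hj' hm' hj hm
  obtain ⟨ζ₁, hζ₁, e₁⟩ := exists_rot (hQ := hQ) B S.fin hj' hw₁ hj hw₁Q
  obtain ⟨ζ₂, hζ₂, e₂⟩ := exists_rot (hQ := hQ) B S.fin hm' hw₂ hm hw₂Q
  obtain ⟨h, hM, hhI, hB, hv⟩ := S.exists_lift r ((isometryGroup F Q).mul_mem hζ₁.iso hζ₂.iso)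
    (Bw.mul hζ₁.pres hζ₂.pres) (Ev.mul hζ₁.iso hζ₂.iso hζ₁.ev hζ₂.ev)
  obtain ⟨x, hxd⟩ : ∃ x, x = cp D j δ - w₁ := ⟨_, rfl⟩
  obtain ⟨z, hzd⟩ : ∃ z, z = cp D m δ - w₂ := ⟨_, rfl⟩
  rw [← hxd, ← hzd] at hsum
  have hx : x ∈ D j := by
    rw [hxd]
    exact (D j).sub_mem hj' hw₁
  have hz : z ∈ D m := by
    rw [hzd]
    exact (D m).sub_mem hm' hw₂
  have hxQ : Q x ≠ 0 := by
    rw [hxd]
    exact q_sub_ne hQ B S.fin hj' hw₁ hj hw₁Q hne₁
  have hIh := (mem_isometryGroup_iff Q h).mp hhI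
  have hδ' : (h : Matrix ι ι F) *ᵥ δ = δ - (x + z) := by
    rw [hv δ hr, rot2_apply B hjm hζ₁ hζ₂ e₁ e₂ hw₂, hxd, hzd]
  obtain ⟨δ', hδ'd⟩ : ∃ δ', δ' = (h : Matrix ι ι F) *ᵥ δ := ⟨_, rfl⟩
  rw [← hδ'd] at hδ'
  have hδ'Q : Q δ' = 0 := by
    rw [hδ'd, hIh, hδ]
  have hx2 : Q (x + z) = 0 := by rw [Q_two hQ B hjm hx hz, hsum]
  have hdiff : δ - δ' = x + z := by
    rw [hδ']
    abel
  have hpol : pol Q δ δ' = 0 := by
    have h1 := Q_sub hQ δ δ'
    rw [hdiff, hx2, hδ, hδ'Q] at h1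
    linear_combination h1
  have hδ'r : cp D r δ' = 0 := by
    rw [hδ', cp_sub hQ B, hr, cp_two hQ B hx hz hrj hrm, sub_zero]
  obtain ⟨hyy, hhyd⟩ : ∃ hyy, hyy = (h : Matrix ι ι F) *ᵥ y := ⟨_, rfl⟩
  have hP' : Par Q M δ' hyy := by
    rw [hδ'd, hhyd]
    exact Par.conj hP hM hhI
  have hyyD : hyy ∈ D r := by
    rw [hhyd]
    exact hB r y hy
  have hyy0 : hyy ≠ 0 := by
    intro h0
    apply hyQ
    rw [← hIh y, ← hhyd, h0, Q_zero hQ]
  obtain ⟨ρ, b, hb, hbQ, hzb, hbc, hρM, hρB, hρf, hρz⟩ := S.exists_even T hy hyQ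
  have hs0 := T.s0
  have hy0 : y ≠ 0 := fun h0 => hyQ (by rw [h0, Q_zero hQ])
  have hex : ∃ y₁ ∈ D r, Par Q M δ y₁ ∧ pol Q y₁ hyy ≠ 0 := by
    by_contra hcon
    push Not at hcon
    have P₂ := S.par_conj_fix hP hρM (hρf δ hr)
    have h1 := hcon y hy hP
    have h2 := hcon _ (hρB r y hy) P₂
    rw [hρz, pol_add_left hQ, pol_smul_left hQ, pol_neg_left_aux hQ, h1] at h2
    have h3 : pol Q b hyy = 0 := by
      have : s * pol Q b hyy = 0 := by linear_combination h2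
      exact (mul_eq_zero.mp this).resolve_left hs0
    apply hyy0
    apply eq_zero_of_mem hQ B hyyD
    intro a ha
    obtain ⟨α, β, e⟩ := span2 S.fin hy hb hy0 hbc ha
    rw [e, pol_add_left hQ, pol_smul_left hQ, pol_smul_left hQ, h1, h3]
    ring
  obtain ⟨y₁, hy₁, hPy₁, hne⟩ := hex
  obtain ⟨k, hk⟩ := exists_eich hQ hδ'Q hP'.1
  have hkM := hP'.2 k hk
  have hkδ : (k : Matrix ι ι F) *ᵥ δ = δ := by
    rw [hk δ, pol_eq_zero_of_cp hQ B hr hyyD, hpol]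
    simp
  have hky : (k : Matrix ι ι F) *ᵥ y₁ = y₁ + pol Q y₁ hyy • δ' := by
    have h3 : pol Q y₁ δ' = 0 := by
      rw [pol_symm hQ]
      exact pol_eq_zero_of_cp hQ B hδ'r hy₁
    rw [hk y₁, h3]
    simp
  have P₃ := S.par_conj_fix hPy₁ hkM hkδ
  rw [hky] at P₃
  have P₄ := Par.sub hQ hδ P₃ hPy₁
  rw [add_sub_cancel_left] at P₄
  have P₅ := par_centre_sub hQ hδ'Q P₄ rfl rfl hpol
  rw [hdiff] at P₅
  obtain ⟨y₂, hy₂, hy₂Q, hPy₂⟩ := S.step_rot T (r := o) hx2 (cp_two hQ B hx hz hoj hom) (by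
    rw [hδ', cp_sub hQ B, cp_two hQ B hx hz hoj hom, sub_zero]
    exact ho) hne P₅
  exact S.eg_two T hjm hoj hom hx hz hxQ hsum hy₂ hy₂Q hPy₂

/-- Vectors linked to a member with three non-zero components. -/
theorem Ctx2.main_three {e : ι → F} {j m r : Fin t} (he : Phi S.hQ D M e) (hjm : j ≠ m) (hrj : r ≠ j) (hrm : r ≠ m)
    (hns : ∀ i, cp D i e ≠ 0 → Q (cp D i e) ≠ 0) (hj : cp D j e ≠ 0) (hm : cp D m e ≠ 0) (hr : cp D r e ≠ 0) :
    omegaGL Q ≤ M := by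
  have hQ := S.hQ
  have B := S.blk
  -- a pair of members
  have hpair : ∀ j m : Fin t, j ≠ m → cp D j e ≠ 0 → cp D m e ≠ 0 → ∃ (ζ₁ ζ₂ : GL ι F) (x z : ι → F), Rot hQ D j ζ₁ ∧
      Rot hQ D m ζ₂ ∧ x ∈ D j ∧ z ∈ D m ∧ Q x ≠ 0 ∧ Q x + Q z = 0 ∧
      ((ζ₁ * ζ₂ : GL ι F) : Matrix ι ι F) *ᵥ e = e - (x + z) := by
    intro j m hjm hj hm
    have hj' := cp_mem B j e
    have hm' := cp_mem B m e
    obtain ⟨w₁, hw₁, w₂, hw₂, hw₁Q, hw₂Q, hne₁, hne₂, hsum⟩ := T.ii j m _ _ hj' hm' (hns j hj) (hns m hm)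
    obtain ⟨ζ₁, hζ₁, e₁⟩ := exists_rot (hQ := hQ) B S.fin hj' hw₁ (hns j hj) hw₁Q
    obtain ⟨ζ₂, hζ₂, e₂⟩ := exists_rot (hQ := hQ) B S.fin hm' hw₂ (hns m hm) hw₂Q
    exact ⟨ζ₁, ζ₂, _, _, hζ₁, hζ₂, (D j).sub_mem hj' hw₁, (D m).sub_mem hm' hw₂,
      q_sub_ne hQ B S.fin hj' hw₁ (hns j hj) hw₁Q hne₁, hsum, rot2_apply B hjm hζ₁ hζ₂ e₁ e₂ hw₂⟩
  obtain ⟨ζ₁, ζ₂, x, z, hζ₁, hζ₂, hx, hz, hxQ, hxz, hA⟩ := hpair j m hjm hj hm
  have hI12 := (isometryGroup F Q).mul_mem hζ₁.iso hζ₂.iso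
  have hB12 : Bw D (ζ₁ * ζ₂) := Bw.mul hζ₁.pres hζ₂.pres
  have hE12 := Ev.mul hζ₁.iso hζ₂.iso hζ₁.ev hζ₂.ev
  by_cases hf : ∃ f, cp D f e = 0
  · obtain ⟨f, hf⟩ := hf
    obtain ⟨h, hM, -, hB', hv⟩ := S.exists_lift f hI12 hB12 hE12
    exact S.two_comp T he hM hB' hjm hrj hrm hx hz hxQ hxz (by rw [hv e hf, hA]) (hns r hr)
  · push Not at hf
    obtain ⟨i₄, h41, h42, h43⟩ := S.exists_ne3 j m r
    obtain ⟨i₅, h51, h52, h53, h54⟩ := S.exists_ne4 j m r i₄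
    obtain ⟨ζ₃, ζ₄, x', z', hζ₃, hζ₄, hx', hz', hx'Q, hxz', hB⟩ := hpair r i₄ (Ne.symm h43) hr (hf i₄)
    have hI34 := (isometryGroup F Q).mul_mem hζ₃.iso hζ₄.iso
    have hB34 : Bw D (ζ₃ * ζ₄) := Bw.mul hζ₃.pres hζ₄.pres
    have hE34 := Ev.mul hζ₃.iso hζ₄.iso hζ₃.ev hζ₄.ev
    obtain ⟨x₀, hP, -, -⟩ := S.exists_PX i₅
    rcases hE12 x₀ hP with h12 | h12
    · exact S.two_comp T he (S.mem_bw h12 hB12) hB12 hjm hrj hrm hx hz hxQ hxz hA (hns r hr)
    · rcases hE34 x₀ hP with h34 | h34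
      · exact S.two_comp T he (S.mem_bw h34 hB34) hB34 (Ne.symm h43) (Ne.symm hrj) (Ne.symm h41) hx' hz' hx'Q hxz' hB
          (hns j hj)
      · have hO := odd_mul_mem hP.iso hP.sq hI34 h12 h34
        have hBB : Bw D (ζ₁ * ζ₂ * (ζ₃ * ζ₄)) := hB12.mul hB34
        have hMM := S.mem_bw hO hBB
        have he' := S.phi_bw he hMM hBB
        have hIq := (mem_isometryGroup_iff Q _).mp (S.miso hMM)
        have hL := S.phi_lk he he' (hIq e).symm
        obtain ⟨δ, hδd⟩ : ∃ δ, δ = (x + z) + (x' + z') := ⟨_, rfl⟩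
        have hcp1 : ∀ i, i ≠ r → i ≠ i₄ → cp D i (x' + z') = 0 := fun i h1 h2 => cp_two hQ B hx' hz' h1 h2
        have hcp2 : ∀ i, i ≠ j → i ≠ m → cp D i (x + z) = 0 := fun i h1 h2 => cp_two hQ B hx hz h1 h2
        have hfix : ((ζ₁ * ζ₂ : GL ι F) : Matrix ι ι F) *ᵥ (x' + z') = x' + z' := by
          rw [Units.val_mul, ← Matrix.mulVec_mulVec, hζ₂.fix _ (hcp1 m (Ne.symm hrm) h42.symm),
            hζ₁.fix _ (hcp1 j (Ne.symm hrj) h41.symm)]
        have hhe : ((ζ₁ * ζ₂ * (ζ₃ * ζ₄) : GL ι F) : Matrix ι ι F) *ᵥ e = e - δ := by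
          rw [Units.val_mul, ← Matrix.mulVec_mulVec, hB, Matrix.mulVec_sub, hfix, hA, hδd]
          abel
        have hδ1 : Q (x + z) = 0 := by rw [Q_two hQ B hjm hx hz, hxz]
        have hδ2 : Q (x' + z') = 0 := by rw [Q_two hQ B (Ne.symm h43) hx' hz', hxz']
        have hδQ : Q δ = 0 := by
          rw [hδd, Q_add hQ, hδ1, hδ2, pol_add_left hQ, pol_add_right hQ, pol_add_right hQ,
            B.orth j r (Ne.symm hrj) x hx x' hx', B.orth j i₄ (Ne.symm h41) x hx z' hz',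
            B.orth m r (Ne.symm hrm) z hz x' hx', B.orth m i₄ (Ne.symm h42) z hz z' hz']
          ring
        have hd : e - ((ζ₁ * ζ₂ * (ζ₃ * ζ₄) : GL ι F) : Matrix ι ι F) *ᵥ e = δ := by
          rw [hhe]
          abel
        have hPP := hL.par (by rw [hd]; exact hδQ)
        rw [hd] at hPP
        have hcp5 : cp D i₅ δ = 0 := by
          rw [hδd, cp_add hQ B, hcp2 i₅ h51 h52, hcp1 i₅ h53 h54, add_zero]
        have hc : (Q (((ζ₁ * ζ₂ * (ζ₃ * ζ₄) : GL ι F) : Matrix ι ι F) *ᵥ e))⁻¹ ≠ 0 := by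
          rw [hIq]
          exact inv_ne_zero hL.2.1
        obtain ⟨y, hy, hyQ, hPy⟩ := S.step_rot T (r := i₅) hδQ hcp5 (by
          rw [hhe, cp_sub hQ B, hcp5, sub_zero]
          exact hns i₅ (hf i₅)) hc hPP
        have hcj : cp D j δ = x := by
          rw [hδd, cp_add hQ B, hcp1 j (Ne.symm hrj) h41.symm, add_zero, cp_add hQ B, cp_self hQ B hx,
            cp_other hQ B hjm hz, add_zero]
        have hcm : cp D m δ = z := by
          rw [hδd, cp_add hQ B, hcp1 m (Ne.symm hrm) h42.symm, add_zero, cp_add hQ B, cp_self hQ B hz,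
            cp_other hQ B (Ne.symm hjm) hx, zero_add]
        have hcr : cp D r δ = x' := by
          rw [hδd, cp_add hQ B, hcp2 r hrj hrm, zero_add, cp_add hQ B, cp_self hQ B hx',
            cp_other hQ B (Ne.symm h43) hz', add_zero]
        refine S.reduce T (r := i₅) (j := j) (m := m) (o := r) hjm hrj hrm h51 h52 hδQ hcp5 hy hyQ hPy ?_ ?_ ?_
        · rw [hcj]
          exact hxQ
        · rw [hcm]
          intro h0
          rw [h0, add_zero] at hxz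
          exact hxQ hxz
        · rw [hcr]
          exact hx'Q

/-- Vectors linked to a member with exactly two non-zero components give one with three. -/
theorem Ctx2.growth {e : ι → F} {j m : Fin t} (he : Phi S.hQ D M e) (hjm : j ≠ m) (hj : Q (cp D j e) ≠ 0)
    (hm : cp D m e ≠ 0) (hrest : ∀ l, l ≠ j → l ≠ m → cp D l e = 0) :
    ∃ (e' : ι → F) (r : Fin t), Phi S.hQ D M e' ∧ r ≠ j ∧ r ≠ m ∧ cp D j e' ≠ 0 ∧ cp D m e' ≠ 0 ∧ cp D r e' ≠ 0 := by
  have hQ := S.hQ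
  have B := S.blk
  have he0 : e = cp D j e + cp D m e := by
    apply ext_cp hQ B
    intro i
    by_cases hij : i = j
    · subst hij
      rw [cp_add hQ B, cp_cp hQ B, cp_other hQ B hjm (cp_mem B m e), add_zero]
    · by_cases him : i = m
      · subst him
        rw [cp_add hQ B, cp_cp hQ B, cp_other hQ B hij (cp_mem B j e), zero_add]
      · rw [hrest i hij him, cp_two hQ B (cp_mem B j e) (cp_mem B m e) hij him]
  obtain ⟨a, ha⟩ : ∃ a, a = cp D j e := ⟨_, rfl⟩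
  obtain ⟨b, hb⟩ : ∃ b, b = cp D m e := ⟨_, rfl⟩
  rw [← ha, ← hb] at he0
  rw [← ha] at hj
  rw [← hb] at hm
  have haD : a ∈ D j := by
    rw [ha]
    exact cp_mem B j e
  have hbD : b ∈ D m := by
    rw [hb]
    exact cp_mem B m e
  obtain ⟨r, hr1, hr2, -⟩ := S.exists_ne3 j m j
  obtain ⟨f, hf1, hf2, hf3⟩ := S.exists_ne3 j m r
  obtain ⟨f', hf'1, hf'2, hf'3, hf'4⟩ := S.exists_ne4 j m r f
  obtain ⟨g, hg, hg1, hg2, hg3, hg4⟩ := S.base.exists_cycle (a := m) (b := f) (c := r) (Ne.symm hf2) hr2 (Ne.symm hf3)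
  have hgj : (g : Matrix ι ι F) *ᵥ a = a := hg4 j hjm (Ne.symm hf1) (Ne.symm hr1) a haD
  obtain ⟨u, hu⟩ : ∃ u, u = (g : Matrix ι ι F) *ᵥ b := ⟨_, rfl⟩
  have huD : u ∈ D r := by
    rw [hu]
    exact hg1 b hbD
  have hgI := S.miso hg
  have hgq := (mem_isometryGroup_iff Q g).mp hgI
  have hge : (g : Matrix ι ι F) *ᵥ e = a + u := by
    rw [he0, Matrix.mulVec_add, hgj, hu]
  have hP1 : Phi hQ D M (a + u) := by
    rw [← hge]
    refine S.phi_map he hg fun i => ?_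
    by_cases h1 : i = m
    · subst h1
      exact ⟨r, hg1⟩
    · by_cases h2 : i = f
      · subst h2
        exact ⟨m, hg2⟩
      · by_cases h3 : i = r
        · subst h3
          exact ⟨f, hg3⟩
        · exact ⟨i, fun x hx => by rw [hg4 i h1 h2 h3 x hx]; exact hx⟩
  obtain ⟨w, hw, hwQ, haw, hwc⟩ := T.v3 haD hj
  obtain ⟨ζ, hζ, e₁⟩ := exists_rot (hQ := hQ) B S.fin haD hw hj hwQ
  obtain ⟨h, hM, -, hB', hv⟩ := S.exists_lift f' hζ.iso hζ.pres hζ.ev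
  have hjr : j ≠ r := Ne.symm hr1
  have hhe : (h : Matrix ι ι F) *ᵥ (a + u) = w + u := by
    rw [hv _ (cp_two hQ B haD huD hf'1 hf'3), Matrix.mulVec_add, e₁, hζ.fix u (cp_other hQ B hjr huD)]
  have hP2 : Phi hQ D M (w + u) := by
    rw [← hhe]
    exact S.phi_bw hP1 hM hB'
  have hQe : Q e = Q a + Q b := by
    rw [he0, Q_two hQ B hjm haD hbD]
  have hQ2 : Q (w + u) = Q a + Q b := by
    rw [Q_two hQ B hjr hw huD, hwQ, hu, hgq]
  have hQe0 : Q e ≠ 0 := by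
    obtain ⟨i, p, -, hL⟩ := he
    exact hL.2.1
  have hP3 := S.phi_rf he hP2 (by rw [hQe, hQ2])
  rw [rf_mulVec] at hP3
  obtain ⟨κ, hκ⟩ : ∃ κ, κ = (Q e)⁻¹ * pol Q (w + u) e := ⟨_, rfl⟩
  rw [← hκ] at hP3
  have hpol : pol Q (w + u) e = s * Q a := by
    rw [he0, pol_add_left hQ, pol_add_right hQ, pol_add_right hQ, pol_symm hQ w a, haw,
      B.orth j m hjm w hw b hbD, B.orth r j hr1 u huD a haD, B.orth r m hr2 u huD b hbD]
    ring
  have hκ0 : κ ≠ 0 := by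
    rw [hκ, hpol]
    exact mul_ne_zero (inv_ne_zero hQe0) (mul_ne_zero T.s0 hj)
  have hc : ∀ i, cp D i (w + u - κ • e) = cp D i w + cp D i u - κ • (cp D i a + cp D i b) := fun i => by
    rw [cp_sub hQ B, cp_add hQ B, cp_smul hQ B, he0, cp_add hQ B]
  refine ⟨_, r, hP3, hr1, hr2, ?_, ?_, ?_⟩
  · rw [hc, cp_self hQ B hw, cp_other hQ B hjr huD, cp_self hQ B haD, cp_other hQ B hjm hbD]
    intro h0
    apply hwc κ
    have : w - κ • a = 0 := by
      rw [← h0]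
      module
    exact sub_eq_zero.mp this
  · rw [hc, cp_other hQ B (Ne.symm hjm) hw, cp_other hQ B (Ne.symm hr2) huD, cp_other hQ B (Ne.symm hjm) haD,
      cp_self hQ B hbD]
    intro h0
    apply hm
    have h2 : κ • b = 0 := by
      rw [← neg_eq_zero, ← h0]
      module
    exact (smul_eq_zero.mp h2).resolve_left hκ0
  · rw [hc, cp_other hQ B hr1 hw, cp_self hQ B huD, cp_other hQ B hr1 haD, cp_other hQ B hr2 hbD]
    intro h0
    apply hm
    have h2 : u = 0 := by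
      rw [← h0]
      module
    have h3 : (g : Matrix ι ι F) *ᵥ b = 0 := by rw [← hu, h2]
    have := inv_mulVec_mulVec g b
    rw [h3] at this
    simpa using this.symm

/-- The final step for anisotropic members. -/
theorem Ctx2.main_anis (hanis : ∀ i, ∀ x ∈ D i, x ≠ 0 → Q x ≠ 0) {e : ι → F} (he : Phi S.hQ D M e) (hnp : ∀ c, e ∉ D c) :
    omegaGL Q ≤ M := by
  have hQ := S.hQ
  have B := S.blk
  have hns : ∀ (v : ι → F) (i : Fin t), cp D i v ≠ 0 → Q (cp D i v) ≠ 0 := fun v i h => hanis i _ (cp_mem B i v) h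
  have h7 := S.t7
  have he0 : e ≠ 0 := by
    rintro rfl
    exact hnp ⟨0, by omega⟩ (Submodule.zero_mem _)
  obtain ⟨j, hj⟩ : ∃ j, cp D j e ≠ 0 := by
    by_contra hcon
    push Not at hcon
    apply he0
    rw [← sum_cp B e]
    exact Finset.sum_eq_zero fun i _ => hcon i
  obtain ⟨m, hmj, hm⟩ := exists_cp_ne hQ B (hnp j)
  by_cases hr : ∃ r, r ≠ j ∧ r ≠ m ∧ cp D r e ≠ 0
  · obtain ⟨r, h1, h2, h3⟩ := hr
    exact S.main_three T he (Ne.symm hmj) h1 h2 (hns e) hj hm h3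
  · push Not at hr
    obtain ⟨e', r, he', h1, h2, h3, h4, h5⟩ := S.growth T he (Ne.symm hmj) (hns e j hj) hm hr
    exact S.main_three T he' (Ne.symm hmj) h1 h2 (hns e') h3 h4 h5

end EG

end Cfsg.Agent.Lib.Geo.Om2
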