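/-
Stabilisers of orthogonal decompositions in `Ω`, members of dimension two: elements outside the stabiliser give vectors
linked to a vector of a member and lying in no member.
-/
import Cfsg.Agent.Lib.Geo.Om2B
set_option autoImplicit false

namespace Cfsg.Agent.Lib.Geo.Om2

open Cfsg Cfsg.Geo Cfsg.Agent.Lib.Geo.Basic Cfsg.Agent.Lib.Geo.Parabolic Cfsg.Agent.Lib.Geo.Centres
open Cfsg.Agent.Lib.Geo.Polar Cfsg.Agent.Lib.Geo.QForm
open Cfsg.Agent.Lib.GeoOmega.Basic Cfsg.Agent.Lib.GeoOmega.Eichler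
open Cfsg.Agent.Lib.GeoOmega.Levi (rf rf_mulVec rf_mem rf_mul_mem_omega rf_inv rf_conj)
open Cfsg.Agent.Lib.Geo.OmSub (Par Par.add Par.zero Par.neg Par.sub Par.conj Par.swap pol_sum_left eich_zero)
open Cfsg.Agent.Lib.Geo.SpDecomp (exists_comps mem_decompositionStabilizer_of_forall)
open Cfsg.Agent.Lib.Geo.OmDec
open Cfsg.Agent.Lib.Geo.OmB
open scoped MatrixGroups Matrix

variable {ι : Type} [Fintype ι] [DecidableEq ι] {F : Type*} [Field F]
variable {Q : (ι → F) → F} {t : ℕ} {D : Fin t → Submodule F (ι → F)}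

section Basic2

variable {M : Subgroup (GL ι F)} (S : Ctx2 Q D M)
include S

theorem Ctx2.exists_ne_zero (i : Fin t) : ∃ x ∈ D i, x ≠ 0 := by
  obtain ⟨y, hy, hy0⟩ := Submodule.exists_mem_ne_zero_of_ne_bot (p := D i) (by
    intro h0
    have := S.fin i
    rw [h0] at this
    simp at this)
  exact ⟨y, hy, hy0⟩

theorem Ctx2.exists_cut_ne (i : Fin t) (c : ι → F) : ∃ b ∈ D i, b ≠ 0 ∧ pol Q b c = 0 := by
  have hf := finrank_cut (Q := Q) (D i) c
  rw [S.fin] at hf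
  obtain ⟨b, hb, hb0⟩ := Submodule.exists_mem_ne_zero_of_ne_bot (p := cut Q (D i) c) (by
    intro h0
    rw [h0] at hf
    simp at hf)
  obtain ⟨h1, h2⟩ := (mem_cut S.hQ).mp hb
  exact ⟨b, h1, hb0, h2⟩

theorem Ctx2.exists_indep {i : Fin t} (y : ι → F) : ∃ y' ∈ D i, ∀ c : F, y' ≠ c • y := by
  by_contra hcon
  push Not at hcon
  have h1 : D i ≤ Submodule.span F {y} := fun x hx => by
    obtain ⟨c, hc⟩ := hcon x hx
    rw [hc]
    exact Submodule.smul_mem _ _ (Submodule.mem_span_singleton_self y)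
  have h2 := Submodule.finrank_mono h1
  have h3 := finrank_span_le_card (R := F) ({y} : Set (ι → F))
  rw [S.fin] at h2
  simp at h3
  omega

/-- A plane isometry with a non-zero fixed vector is an involution on the plane. -/
theorem Ctx2.plane_inv {a : Fin t} {ρ : GL ι F} (hρI : ρ ∈ isometryGroup F Q)
    (hρB : ∀ x ∈ D a, (ρ : Matrix ι ι F) *ᵥ x ∈ D a) {v y : ι → F} (hv : v ∈ D a) (hv0 : v ≠ 0)
    (hfix : (ρ : Matrix ι ι F) *ᵥ v = v) (hy : y ∈ D a) :
    (ρ : Matrix ι ι F) *ᵥ ((ρ : Matrix ι ι F) *ᵥ y) = y := by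
  have hQ := S.hQ
  have B := S.blk
  by_cases hy0 : (ρ : Matrix ι ι F) *ᵥ y = y
  · rw [hy0, hy0]
  obtain ⟨u, hu⟩ : ∃ u, u = (ρ : Matrix ι ι F) *ᵥ y - y := ⟨_, rfl⟩
  have huD : u ∈ D a := by
    rw [hu]
    exact (D a).sub_mem (hρB y hy) hy
  have hu0 : u ≠ 0 := by
    rw [hu]
    exact sub_ne_zero.mpr hy0
  have hρy : (ρ : Matrix ι ι F) *ᵥ y = y + u := by
    rw [hu]
    abel
  have hpv : ∀ x, pol Q ((ρ : Matrix ι ι F) *ᵥ x) v = pol Q x v := fun x => by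
    conv_lhs => rw [← hfix]
    exact pol_isometry ρ hρI x v
  have huv : pol Q u v = 0 := by
    rw [hu, pol_sub_left hQ, hpv, sub_self]
  obtain ⟨c, hc⟩ := perp_line hQ B S.fin hv hv0 huD ((D a).sub_mem (hρB u huD) huD) hu0 huv (by
    rw [pol_sub_left hQ, hpv, sub_self])
  obtain ⟨μ, hμ⟩ : ∃ μ, μ = 1 + c := ⟨_, rfl⟩
  have hρu : (ρ : Matrix ι ι F) *ᵥ u = μ • u := by
    have : (ρ : Matrix ι ι F) *ᵥ u = ((ρ : Matrix ι ι F) *ᵥ u - u) + u := by abel
    rw [this, hc, hμ]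
    module
  have hI := (mem_isometryGroup_iff Q ρ).mp hρI
  have h1 : Q u + pol Q y u = 0 := by
    have := hI y
    rw [hρy, Q_add hQ] at this
    linear_combination this
  have h2 : μ * (pol Q u y + 2 * Q u) = pol Q u y := by
    have := pol_isometry ρ hρI u y
    rw [hρu, hρy, pol_smul_left hQ, pol_add_right hQ, pol_self hQ] at this
    exact this
  have h3 : (μ + 1) * Q u = 0 := by
    rw [pol_symm hQ] at h2
    have h4 : pol Q y u = - Q u := by linear_combination h1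
    rw [h4] at h2
    linear_combination h2
  by_cases hQu : Q u = 0
  · exfalso
    have h4 : pol Q u y = 0 := by
      rw [pol_symm hQ]
      rw [hQu] at h1
      linear_combination h1
    obtain ⟨c₁, hc₁⟩ := eq_smul_of_sing hQ B S.fin huD hu0 hQu hy h4
    obtain ⟨c₂, hc₂⟩ := eq_smul_of_sing hQ B S.fin huD hu0 hQu hv huv
    have hc₂0 : c₂ ≠ 0 := by
      rintro rfl
      exact hv0 (by rw [hc₂, zero_smul])
    have h5 : (ρ : Matrix ι ι F) *ᵥ u = u := by
      have h6 := hfix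
      rw [hc₂, Matrix.mulVec_smul] at h6
      have h7 : c₂ • ((ρ : Matrix ι ι F) *ᵥ u - u) = 0 := by
        rw [smul_sub, h6, sub_self]
      have h8 := (smul_eq_zero.mp h7).resolve_left hc₂0
      exact sub_eq_zero.mp h8
    apply hy0
    rw [hc₁, Matrix.mulVec_smul, h5]
  · have hμ1 : μ = -1 := by
      have := (mul_eq_zero.mp h3).resolve_right hQu
      linear_combination this
    rw [hρy, Matrix.mulVec_add, hρy, hρu, hμ1]
    module

/-- Elements permuting the members: no non-trivial rotation in a plane which is not a member. -/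
theorem Ctx2.rank_lemma {ρ : GL ι F} {W : Submodule F (ι → F)} (hρI : ρ ∈ isometryGroup F Q) (σ : Equiv.Perm (Fin t))
    (hσ : ∀ a, ∀ x ∈ D a, (ρ : Matrix ι ι F) *ᵥ x ∈ D (σ a)) (hW : ∀ x, (ρ : Matrix ι ι F) *ᵥ x - x ∈ W)
    (hWfin : Module.finrank F W = 2) (hWne : ∀ a, W ≠ D a) {y : ι → F} (hy : y ∈ W) :
    (ρ : Matrix ι ι F) *ᵥ ((ρ : Matrix ι ι F) *ᵥ y) = y := by
  have hQ := S.hQ
  have B := S.blk
  have hinj : ∀ x, (ρ : Matrix ι ι F) *ᵥ x = 0 → x = 0 := fun x hx => by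
    have := inv_mulVec_mulVec ρ x
    rw [hx] at this
    simpa using this.symm
  by_cases hid : ∃ a, σ a ≠ a
  · obtain ⟨a, ha⟩ := hid
    let L₀ : (ι → F) →ₗ[F] (ι → F) := Matrix.toLin' (ρ : Matrix ι ι F) - LinearMap.id
    have hL₀ : ∀ x, L₀ x = (ρ : Matrix ι ι F) *ᵥ x - x := fun x => by
      simp [L₀, Matrix.toLin'_apply]
    let L : D a →ₗ[F] W := LinearMap.codRestrict W (L₀.domRestrict (D a)) (fun x => by
      rw [LinearMap.domRestrict_apply, hL₀]
      exact hW _)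
    have hLa : ∀ x : D a, ((L x : W) : ι → F) = (ρ : Matrix ι ι F) *ᵥ (x : ι → F) - x := fun x => by
      change L₀ (x : ι → F) = _
      exact hL₀ _
    have hLi : Function.Injective L := by
      rw [injective_iff_map_eq_zero]
      intro x hx
      have h1 := congrArg (fun w : W => (w : ι → F)) hx
      simp only [hLa, Submodule.coe_zero] at h1
      have h2 : (ρ : Matrix ι ι F) *ᵥ (x : ι → F) = x := sub_eq_zero.mp h1
      have h3 := hσ a x x.2
      rw [h2] at h3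
      have h4 := cp_other hQ B ha x.2
      rw [cp_self hQ B h3] at h4
      exact Subtype.ext h4
    have hLs : Function.Surjective L := by
      have h5 : Module.finrank F (D a) = Module.finrank F W := by rw [S.fin, hWfin]
      exact (LinearMap.injective_iff_surjective_of_finrank_eq_finrank h5).mp hLi
    have hsurj : ∀ w ∈ W, ∃ x ∈ D a, (ρ : Matrix ι ι F) *ᵥ x - x = w := fun w hw => by
      obtain ⟨x, hx⟩ := hLs ⟨w, hw⟩
      refine ⟨x, x.2, ?_⟩
      rw [← hLa, hx]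
    have hsq : ∀ x ∈ D a, (ρ : Matrix ι ι F) *ᵥ ((ρ : Matrix ι ι F) *ᵥ x) = x := fun x hx => by
      have h1 : (ρ : Matrix ι ι F) *ᵥ ((ρ : Matrix ι ι F) *ᵥ x) - x ∈ W := by
        have : (ρ : Matrix ι ι F) *ᵥ ((ρ : Matrix ι ι F) *ᵥ x) - x =
            ((ρ : Matrix ι ι F) *ᵥ ((ρ : Matrix ι ι F) *ᵥ x) - (ρ : Matrix ι ι F) *ᵥ x) +
              ((ρ : Matrix ι ι F) *ᵥ x - x) := by abel
        rw [this]
        exact W.add_mem (hW _) (hW _)
      obtain ⟨x', hx', e⟩ := hsurj _ h1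
      have h2 := congrArg (cp D (σ a)) e
      rw [cp_sub hQ B, cp_sub hQ B, cp_self hQ B (hσ a x' hx'), cp_other hQ B ha hx', cp_other hQ B ha hx,
        cp_other hQ B (by
          intro h
          exact ha (σ.injective h).symm) (hσ (σ a) _ (hσ a x hx)), sub_zero, sub_zero] at h2
      have h3 := hinj _ h2
      rw [h3, Matrix.mulVec_zero, sub_zero] at e
      exact sub_eq_zero.mp e.symm
    obtain ⟨x', hx', e⟩ := hsurj y hy
    rw [← e, Matrix.mulVec_sub, Matrix.mulVec_sub, hsq x' hx']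
  · push Not at hid
    have hblock : ∀ a, ∀ x ∈ D a, (ρ : Matrix ι ι F) *ᵥ ((ρ : Matrix ι ι F) *ᵥ x) = x := by
      intro a x hx
      have hB : ∀ z ∈ D a, (ρ : Matrix ι ι F) *ᵥ z ∈ D a := fun z hz => by
        have := hσ a z hz
        rwa [hid a] at this
      by_cases hall : ∀ z ∈ D a, (ρ : Matrix ι ι F) *ᵥ z = z
      · rw [hall x hx, hall x hx]
      · push Not at hall
        obtain ⟨y₀, hy₀, hne⟩ := hall
        obtain ⟨u₀, hu₀⟩ : ∃ u₀, u₀ = (ρ : Matrix ι ι F) *ᵥ y₀ - y₀ := ⟨_, rfl⟩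
        have hu₀0 : u₀ ≠ 0 := by
          rw [hu₀]
          exact sub_ne_zero.mpr hne
        have hu₀D : u₀ ∈ D a := by
          rw [hu₀]
          exact (D a).sub_mem (hB _ hy₀) hy₀
        have hu₀W : u₀ ∈ W := by
          rw [hu₀]
          exact hW _
        obtain ⟨d, hd, hdW⟩ : ∃ d ∈ D a, d ∉ W := by
          by_contra hcon
          push Not at hcon
          exact hWne a (Submodule.eq_of_le_of_finrank_eq hcon (by rw [S.fin, hWfin])).symm
        obtain ⟨y', hy', hy'c⟩ := S.exists_indep (i := a) y₀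
        obtain ⟨u', hu'⟩ : ∃ u', u' = (ρ : Matrix ι ι F) *ᵥ y' - y' := ⟨_, rfl⟩
        have hu'D : u' ∈ D a := by
          rw [hu']
          exact (D a).sub_mem (hB _ hy') hy'
        have hu'W : u' ∈ W := by
          rw [hu']
          exact hW _
        have hlam : ∃ c : F, u' = c • u₀ := by
          by_contra hcon
          push Not at hcon
          obtain ⟨α, β, e⟩ := span2 S.fin hu₀D hu'D hu₀0 hcon hd
          apply hdW
          rw [e]
          exact W.add_mem (W.smul_mem _ hu₀W) (W.smul_mem _ hu'W)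
        obtain ⟨c, hc⟩ := hlam
        have hv0 : y' - c • y₀ ≠ 0 := fun h => hy'c c (sub_eq_zero.mp h)
        have hfix : (ρ : Matrix ι ι F) *ᵥ (y' - c • y₀) = y' - c • y₀ := by
          have h1 : (ρ : Matrix ι ι F) *ᵥ y' = y' + u' := by
            rw [hu']
            abel
          have h2 : (ρ : Matrix ι ι F) *ᵥ y₀ = y₀ + u₀ := by
            rw [hu₀]
            abel
          rw [Matrix.mulVec_sub, Matrix.mulVec_smul, h1, h2, hc]
          module
        exact S.plane_inv hρI hB ((D a).sub_mem hy' ((D a).smul_mem _ hy₀)) hv0 hfix hx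
    have hlin : ∀ z, (ρ : Matrix ι ι F) *ᵥ ((ρ : Matrix ι ι F) *ᵥ z) = z := by
      intro z
      have h1 : ∀ (s : Finset (Fin t)), (ρ : Matrix ι ι F) *ᵥ ((ρ : Matrix ι ι F) *ᵥ (∑ i ∈ s, cp D i z)) =
          ∑ i ∈ s, cp D i z := by
        intro s
        induction s using Finset.induction_on with
        | empty => simp
        | insert a s ha ih =>
          rw [Finset.sum_insert ha, Matrix.mulVec_add, Matrix.mulVec_add, ih, hblock a _ (cp_mem B a z)]
      have := h1 Finset.univ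
      rwa [sum_cp B] at this
    exact hlin y

/-- An element outside the stabiliser moves a member to a subspace which is no member. -/
theorem Ctx2.exists_not_block {g : GL ι F} (hgs : g ∉ decompositionStabilizer D) :
    ∃ k, ∀ a, (D k).map (Matrix.toLin' (g : Matrix ι ι F)) ≠ D a := by
  have hQ := S.hQ
  have B := S.blk
  have hinj : ∀ x, (g : Matrix ι ι F) *ᵥ x = 0 → x = 0 := fun x hx => by
    have := inv_mulVec_mulVec g x
    rw [hx] at this
    simpa using this.symm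
  by_contra hcon
  push Not at hcon
  choose σ hσ using hcon
  have hσi : Function.Injective σ := by
    intro i i' hii
    by_contra hne
    obtain ⟨x, hx, hx0⟩ := S.exists_ne_zero i
    have h2 : (g : Matrix ι ι F) *ᵥ x ∈ D (σ i) := by
      rw [← hσ i]
      exact ⟨x, hx, Matrix.toLin'_apply _ _⟩
    rw [hii, ← hσ i'] at h2
    obtain ⟨y, hy, hyx⟩ := h2
    rw [Matrix.toLin'_apply] at hyx
    have h3 : y - x = 0 := by
      apply hinj
      rw [Matrix.mulVec_sub, hyx, sub_self]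
    have h4 : y = x := sub_eq_zero.mp h3
    rw [h4] at hy
    have h5 := cp_other hQ B hne hy
    rw [cp_self hQ B hx] at h5
    exact hx0 h5
  exact hgs ⟨Equiv.ofBijective σ (Finite.injective_iff_bijective.mp hσi), hσ⟩

/-- Elements mapping members into members permute them. -/
theorem Ctx2.perm_of_maps {ρ : GL ι F} (hb : ∀ a, ∃ b, ∀ x ∈ D a, (ρ : Matrix ι ι F) *ᵥ x ∈ D b) :
    ∃ σ : Equiv.Perm (Fin t), ∀ a, ∀ x ∈ D a, (ρ : Matrix ι ι F) *ᵥ x ∈ D (σ a) := by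
  have hQ := S.hQ
  have B := S.blk
  have hinj : ∀ x, (ρ : Matrix ι ι F) *ᵥ x = 0 → x = 0 := fun x hx => by
    have := inv_mulVec_mulVec ρ x
    rw [hx] at this
    simpa using this.symm
  choose σ hσ using hb
  have hσi : Function.Injective σ := by
    intro i i' hii
    by_contra hne
    obtain ⟨x, hx, hx0⟩ := S.exists_ne_zero i
    have h1 : (D i').map (Matrix.toLin' (ρ : Matrix ι ι F)) = D (σ i') := by
      refine Submodule.eq_of_le_of_finrank_eq ?_ ?_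
      · rintro _ ⟨z, hz, rfl⟩
        rw [Matrix.toLin'_apply]
        exact hσ i' z hz
      · rw [finrank_map_toLin', S.fin, S.fin]
    have h2 := hσ i x hx
    rw [hii, ← h1] at h2
    obtain ⟨y, hy, hyx⟩ := h2
    rw [Matrix.toLin'_apply] at hyx
    have h3 : y - x = 0 := by
      apply hinj
      rw [Matrix.mulVec_sub, hyx, sub_self]
    have h4 : y = x := sub_eq_zero.mp h3
    rw [h4] at hy
    have h5 := cp_other hQ B hne hy
    rw [cp_self hQ B hx] at h5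
    exact hx0 h5
  exact ⟨Equiv.ofBijective σ (Finite.injective_iff_bijective.mp hσi), hσ⟩

end Basic2

section F1

variable [Fintype F] {M : Subgroup (GL ι F)} (S : Ctx2 Q D M) {s : F} (T : TD S.hQ D s)
include S T

/-- An element of `M` with a fixed non-singular vector in a member, outside the stabiliser. -/
theorem Ctx2.case1_step {ρ : GL ι F} {W : Submodule F (ι → F)} (hρM : ρ ∈ M) (hW : ∀ x, (ρ : Matrix ι ι F) *ᵥ x - x ∈ W)
    (hWfin : Module.finrank F W = 2) (hWne : ∀ a, W ≠ D a) {y : ι → F} (hy : y ∈ W)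
    (hne : (ρ : Matrix ι ι F) *ᵥ ((ρ : Matrix ι ι F) *ᵥ y) ≠ y) {o : Fin t} {p' : ι → F} (hp' : p' ∈ D o)
    (hp'Q : Q p' ≠ 0) (hfix : (ρ : Matrix ι ι F) *ᵥ p' = p') : ∃ e, Phi S.hQ D M e ∧ ∀ c, e ∉ D c := by
  have hQ := S.hQ
  have B := S.blk
  have hρI := S.miso hρM
  have hall : ∀ a, ∀ p ∈ D a, Q p = Q p' → Phi hQ D M ((ρ : Matrix ι ι F) *ᵥ p) := fun a p hp hpq => by
    have h1 := (S.lk_pure hp hp' hpq (by rw [hpq]; exact hp'Q)).conj hρM hρI
    rw [hfix] at h1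
    exact ⟨o, p', hp', h1⟩
  by_cases hex : ∃ a, ∃ p ∈ D a, Q p = Q p' ∧ ∀ c, (ρ : Matrix ι ι F) *ᵥ p ∉ D c
  · obtain ⟨a, p, hp, hpq, hc⟩ := hex
    exact ⟨_, hall a p hp hpq, hc⟩
  · exfalso
    push Not at hex
    apply hne
    have hb : ∀ a, ∃ b, ∀ x ∈ D a, (ρ : Matrix ι ι F) *ᵥ x ∈ D b := by
      intro a
      obtain ⟨i, hi⟩ := S.iso o a
      obtain ⟨p₁, hp₁⟩ : ∃ p₁ : ι → F, p₁ = ((i ⟨p', hp'⟩ : D a) : ι → F) := ⟨_, rfl⟩
      have hp₁D : p₁ ∈ D a := by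
        rw [hp₁]
        exact (i ⟨p', hp'⟩).2
      have hp₁Q : Q p₁ = Q p' := by
        rw [hp₁]
        exact hi ⟨p', hp'⟩
      have hp₁0 : Q p₁ ≠ 0 := by
        rw [hp₁Q]
        exact hp'Q
      have hp₁n : p₁ ≠ 0 := fun h => hp₁0 (by rw [h, Q_zero hQ])
      obtain ⟨p₂, hp₂, hp₂Q, hp₁₂, hp₂c⟩ := T.v3 hp₁D hp₁0
      obtain ⟨b, hb⟩ := hex a p₁ hp₁D hp₁Q
      obtain ⟨b', hb'⟩ := hex a p₂ hp₂ (hp₂Q.trans hp₁Q)
      have hbb : b = b' := by
        by_contra hbb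
        have h1 := B.orth b b' hbb _ hb _ hb'
        rw [pol_isometry ρ hρI, hp₁₂] at h1
        exact (mul_ne_zero T.s0 hp₁0) h1
      subst hbb
      refine ⟨b, fun x hx => ?_⟩
      obtain ⟨α, β, e⟩ := span2 S.fin hp₁D hp₂ hp₁n hp₂c hx
      rw [e, Matrix.mulVec_add, Matrix.mulVec_smul, Matrix.mulVec_smul]
      exact (D b).add_mem ((D b).smul_mem _ hb) ((D b).smul_mem _ hb')
    obtain ⟨σ, hσ⟩ := S.perm_of_maps hb
    exact S.rank_lemma hρI σ hσ hW hWfin hWne hy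

/-- The first elements of the proof in the anisotropic case. -/
theorem Ctx2.exists_phi_anis (hanis : ∀ i, ∀ x ∈ D i, x ≠ 0 → Q x ≠ 0) {g : GL ι F} (hg : g ∈ M)
    (hgs : g ∉ decompositionStabilizer D) : ∃ e, Phi S.hQ D M e ∧ ∀ c, e ∉ D c := by
  have hQ := S.hQ
  have B := S.blk
  obtain ⟨k, hk⟩ := S.exists_not_block hgs
  obtain ⟨z₁, hz₁, hz₁0⟩ := S.exists_ne_zero k
  have hz₁Q := hanis k z₁ hz₁ hz₁0
  obtain ⟨z₂, hz₂, hz₂Q, hz₁₂, hz₂c⟩ := T.v3 hz₁ hz₁Q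
  have hgI := S.miso hg
  have hgq := (mem_isometryGroup_iff Q g).mp hgI
  have hginj : ∀ x, (g : Matrix ι ι F) *ᵥ x = 0 → x = 0 := fun x hx => by
    have := inv_mulVec_mulVec g x
    rw [hx] at this
    simpa using this.symm
  obtain ⟨u, hu⟩ : ∃ u, u = (g : Matrix ι ι F) *ᵥ z₁ := ⟨_, rfl⟩
  obtain ⟨v, hv⟩ : ∃ v, v = (g : Matrix ι ι F) *ᵥ z₂ := ⟨_, rfl⟩
  obtain ⟨c, hcd⟩ : ∃ c, c = Q z₁ := ⟨_, rfl⟩
  rw [← hcd] at hz₂Q hz₁₂
  rw [← hcd] at hz₁Q
  have huQ : Q u = c := by rw [hu, hgq, hcd]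
  have hvQ : Q v = c := by rw [hv, hgq, hz₂Q]
  have huv : pol Q u v = s * c := by rw [hu, hv, pol_isometry g hgI, hz₁₂]
  have hvu : pol Q v u = s * c := by rw [pol_symm hQ, huv]
  have hL : Lk hQ M u v := by
    have := (S.lk_pure hz₁ hz₂ (by rw [hz₂Q, hcd]) (by rw [← hcd]; exact hz₁Q)).conj hg hgI
    rwa [← hu, ← hv] at this
  obtain ⟨W, hWd⟩ : ∃ W, W = (D k).map (Matrix.toLin' (g : Matrix ι ι F)) := ⟨_, rfl⟩
  have huW : u ∈ W := by
    rw [hWd, hu]
    exact ⟨z₁, hz₁, Matrix.toLin'_apply _ _⟩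
  have hvW : v ∈ W := by
    rw [hWd, hv]
    exact ⟨z₂, hz₂, Matrix.toLin'_apply _ _⟩
  have hWfin : Module.finrank F W = 2 := by
    rw [hWd, finrank_map_toLin', S.fin]
  have hWne : ∀ a, W ≠ D a := fun a => by
    rw [hWd]
    exact hk a
  obtain ⟨ρ, hρd⟩ : ∃ ρ, ρ = rf hQ u * rf hQ v := ⟨_, rfl⟩
  have hρM : ρ ∈ M := by
    rw [hρd]
    exact hL.2.2
  have hρa : ∀ x, (ρ : Matrix ι ι F) *ᵥ x = x - ((Q v)⁻¹ * pol Q x v) • v -
      ((Q u)⁻¹ * pol Q (x - ((Q v)⁻¹ * pol Q x v) • v) u) • u := fun x => by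
    rw [hρd, Units.val_mul, ← Matrix.mulVec_mulVec, rf_mulVec, rf_mulVec]
  have hW : ∀ x, (ρ : Matrix ι ι F) *ᵥ x - x ∈ W := fun x => by
    rw [hρa]
    have : x - ((Q v)⁻¹ * pol Q x v) • v - ((Q u)⁻¹ * pol Q (x - ((Q v)⁻¹ * pol Q x v) • v) u) • u - x =
        -(((Q v)⁻¹ * pol Q x v) • v) - ((Q u)⁻¹ * pol Q (x - ((Q v)⁻¹ * pol Q x v) • v) u) • u := by abel
    rw [this]
    exact W.sub_mem (W.neg_mem (W.smul_mem _ hvW)) (W.smul_mem _ huW)
  have hc0 : c ≠ 0 := hz₁Q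
  have hs0 := T.s0
  have hρu : (ρ : Matrix ι ι F) *ᵥ u = (s ^ 2 - 1) • u - s • v := by
    rw [hρa, pol_sub_left hQ, pol_smul_left hQ, huv, hvu, hvQ, huQ, pol_self hQ, huQ]
    have e1 : c⁻¹ * (s * c) = s := by field_simp
    rw [e1, show c⁻¹ * (2 * c - s * (s * c)) = 2 - s ^ 2 by
      field_simp]
    module
  have hρv : (ρ : Matrix ι ι F) *ᵥ v = s • u - v := by
    rw [hρa, pol_sub_left hQ, pol_smul_left hQ, pol_self hQ, hvu, hvQ, huQ]
    have e1 : c⁻¹ * (2 * c) = 2 := by field_simp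
    have e2 : c⁻¹ * (s * c - 2 * (s * c)) = -s := by
      field_simp
      ring
    rw [e1, e2]
    module
  have hne : (ρ : Matrix ι ι F) *ᵥ ((ρ : Matrix ι ι F) *ᵥ u) ≠ u := by
    intro h
    rw [hρu, Matrix.mulVec_sub, Matrix.mulVec_smul, Matrix.mulVec_smul, hρu, hρv] at h
    have h1 : ((s ^ 2 - 1) ^ 2 - s ^ 2 - 1) • u + (s * (2 - s ^ 2)) • v = 0 := by
      rw [← sub_eq_zero] at h
      rw [← h]
      module
    have hind : ∀ a b : F, a • u + b • v = 0 → b = 0 := by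
      intro a b hab
      by_contra hb
      apply hz₂c (-a / b)
      apply sub_eq_zero.mp
      apply hginj
      rw [Matrix.mulVec_sub, Matrix.mulVec_smul, ← hu, ← hv]
      have h3 : b • v = (-a) • u := by
        have := eq_neg_of_add_eq_zero_right hab
        rw [this, neg_smul]
      calc v - (-a / b) • u = b⁻¹ • (b • v - (-a) • u) := by
            rw [smul_sub, smul_smul, inv_mul_cancel₀ hb, one_smul, smul_smul]
            congr 2
            field_simp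
        _ = 0 := by rw [h3, sub_self, smul_zero]
    have h2 := hind _ _ h1
    have h3 : s ^ 2 = 2 := by
      have := (mul_eq_zero.mp h2).resolve_left hs0
      linear_combination -this
    rw [h2, zero_smul, add_zero, h3] at h1
    have h4 : (-2 : F) • u = 0 := by
      rw [← h1]
      congr 1
      ring
    have hu0 : u ≠ 0 := fun h0 => hc0 (by rw [← huQ, h0, Q_zero hQ])
    have h5 := (smul_eq_zero.mp h4).resolve_right hu0
    have h6 : (2 : F) = 0 := by linear_combination -h5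
    rw [h6] at h3
    exact hs0 (by simpa using h3)
  by_cases hC1 : ∃ o, ∃ p' ∈ D o, p' ≠ 0 ∧ pol Q p' u = 0 ∧ pol Q p' v = 0
  · obtain ⟨o, p', hp', hp'0, h1, h2⟩ := hC1
    refine S.case1_step T hρM hW hWfin hWne huW hne hp' (hanis o p' hp' hp'0) ?_
    rw [hρa, h2, mul_zero, zero_smul, sub_zero, h1, mul_zero, zero_smul, sub_zero]
  · push Not at hC1
    have h7 := S.t7
    have hv_cp : ∀ l, cp D l v ≠ 0 := fun l h0 => by
      obtain ⟨b, hb, hb0, hbu⟩ := S.exists_cut_ne l u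
      apply hC1 l b hb hb0 hbu
      rw [pol_symm hQ, pol_cp hQ B l v hb, h0, pol_zero_left hQ]
    have hpick : ∃ (i m : Fin t) (b b' : ι → F), i ≠ m ∧ b ∈ D i ∧ b' ∈ D m ∧ b ≠ 0 ∧ b' ≠ 0 ∧ pol Q b u = 0 ∧
        pol Q b' u = 0 ∧ IsSquare (Q b * Q b') := by
      obtain ⟨i₀, -⟩ : ∃ i₀ : Fin t, True := ⟨⟨0, by omega⟩, trivial⟩
      obtain ⟨i₁, h1, -, -⟩ := S.exists_ne3 i₀ i₀ i₀
      obtain ⟨i₂, h2, h3, -⟩ := S.exists_ne3 i₀ i₁ i₁
      obtain ⟨b₀, hb₀, hb₀0, hb₀u⟩ := S.exists_cut_ne i₀ u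
      obtain ⟨b₁, hb₁, hb₁0, hb₁u⟩ := S.exists_cut_ne i₁ u
      obtain ⟨b₂, hb₂, hb₂0, hb₂u⟩ := S.exists_cut_ne i₂ u
      by_cases s01 : IsSquare (Q b₀ * Q b₁)
      · exact ⟨i₀, i₁, b₀, b₁, Ne.symm h1, hb₀, hb₁, hb₀0, hb₁0, hb₀u, hb₁u, s01⟩
      · by_cases s02 : IsSquare (Q b₀ * Q b₂)
        · exact ⟨i₀, i₂, b₀, b₂, Ne.symm h2, hb₀, hb₂, hb₀0, hb₂0, hb₀u, hb₂u, s02⟩
        · have hodd : Fintype.card F % 2 = 1 := by
            by_contra hcon
            apply s01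
            have h4 : Fintype.card F % 2 = 0 := by omega
            have h5 : ringChar F = 2 := FiniteField.even_card_iff_char_two.mpr h4
            exact FiniteField.isSquare_of_char_two h5 _
          have h4 := isSquare_mul_of_not hodd s01 s02
          have h5 : IsSquare (Q b₁ * Q b₂) := by
            apply isSquare_of_mul_sq (hanis i₀ b₀ hb₀ hb₀0)
            convert h4 using 1
            ring
          exact ⟨i₁, i₂, b₁, b₂, Ne.symm h3, hb₁, hb₂, hb₁0, hb₂0, hb₁u, hb₂u, h5⟩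
    obtain ⟨i, m, b, b', him, hb, hb', hb0, hb'0, hbu, hb'u, hsq⟩ := hpick
    have hbQ := hanis i b hb hb0
    have hb'Q := hanis m b' hb' hb'0
    have hbv := hC1 i b hb hb0 hbu
    have hb'v := hC1 m b' hb' hb'0 hb'u
    have hτO := rf_mul_mem_omega_sq hQ S.card7 hbQ hb'Q hsq
    have hτB : Bw D (rf hQ b * rf hQ b') := (S.bw_rf hb).mul (S.bw_rf hb')
    have hτM := S.mem_bw hτO hτB
    have hτu : ((rf hQ b * rf hQ b' : GL ι F) : Matrix ι ι F) *ᵥ u = u := by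
      rw [Units.val_mul, ← Matrix.mulVec_mulVec, rf_mulVec, rf_mulVec, pol_symm hQ u b', hb'u, mul_zero, zero_smul,
        sub_zero, pol_symm hQ u b, hbu, mul_zero, zero_smul, sub_zero]
    have hL' := hL.move hτM (S.miso hτM) hτu
    obtain ⟨κ₁, hκ₁⟩ : ∃ κ₁, κ₁ = (Q b)⁻¹ * pol Q v b := ⟨_, rfl⟩
    obtain ⟨κ₂, hκ₂⟩ : ∃ κ₂, κ₂ = (Q b')⁻¹ * pol Q v b' := ⟨_, rfl⟩
    have hκ₁0 : κ₁ ≠ 0 := by
      rw [hκ₁, pol_symm hQ]
      exact mul_ne_zero (inv_ne_zero hbQ) hbv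
    have hκ₂0 : κ₂ ≠ 0 := by
      rw [hκ₂, pol_symm hQ]
      exact mul_ne_zero (inv_ne_zero hb'Q) hb'v
    obtain ⟨d, hd⟩ : ∃ d, d = κ₁ • b + κ₂ • b' := ⟨_, rfl⟩
    have hτv : ((rf hQ b * rf hQ b' : GL ι F) : Matrix ι ι F) *ᵥ v = v - d := by
      rw [Units.val_mul, ← Matrix.mulVec_mulVec, rf_mulVec, rf_mulVec, pol_sub_left hQ, pol_smul_left hQ,
        B.orth m i (Ne.symm him) b' hb' b hb, mul_zero, sub_zero, ← hκ₁, ← hκ₂, hd]
      abel
    rw [hτv] at hL'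
    obtain ⟨o, ho1, ho2, -⟩ := S.exists_ne3 i m m
    obtain ⟨l₁, hl₁1, hl₁2, hl₁3⟩ := S.exists_ne3 i m o
    obtain ⟨l₂, hl₂1, hl₂2, hl₂3, hl₂4⟩ := S.exists_ne4 i m o l₁
    have hdcp : ∀ l, l ≠ i → l ≠ m → cp D l d = 0 := fun l h1 h2 => by
      rw [hd]
      exact cp_two hQ B ((D i).smul_mem _ hb) ((D m).smul_mem _ hb') h1 h2
    obtain ⟨p', hp', hp'0, hp'v⟩ := S.exists_cut_ne o v
    have hp'Q := hanis o p' hp' hp'0
    obtain ⟨p, hp, hpQ, hp'p, hpc⟩ := T.v3 hp' hp'Q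
    have hpd : ∀ x ∈ D o, pol Q x d = 0 := fun x hx => by
      rw [pol_symm hQ]
      exact pol_eq_zero_of_cp hQ B (hdcp o ho1 ho2) hx
    obtain ⟨π, hπd⟩ : ∃ π, π = pol Q p v := ⟨_, rfl⟩
    have hπ0 : π ≠ 0 := by
      rw [hπd]
      intro h0
      apply hv_cp o
      apply eq_zero_of_mem hQ B (cp_mem B o v)
      intro y hy
      obtain ⟨α, β, e⟩ := span2 S.fin hp' hp hp'0 hpc hy
      rw [pol_symm hQ, ← pol_cp hQ B o v hy, pol_symm hQ, e, pol_add_left hQ, pol_smul_left hQ, pol_smul_left hQ,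
        hp'v, h0]
      ring
    obtain ⟨v', hv'⟩ : ∃ v', v' = v - d := ⟨_, rfl⟩
    rw [← hv'] at hL'
    have hv'Q : Q v' = c := by
      rw [← hL'.1, hvQ]
    have hdv : pol Q v d = Q d := by
      have h1 : Q (v - d) = Q v + Q d - pol Q v d := Q_sub hQ v d
      rw [← hv', hv'Q, hvQ] at h1
      linear_combination h1
    have hv'v : pol Q v' v = 2 * c - Q d := by
      rw [hv', pol_sub_left hQ, pol_self hQ, hvQ, pol_symm hQ d v, hdv]
    obtain ⟨ρ', hρ'd⟩ : ∃ ρ', ρ' = rf hQ v * rf hQ v' := ⟨_, rfl⟩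
    have hρ'M : ρ' ∈ M := by
      rw [hρ'd]
      exact hL'.2.2
    have hρ'a : ∀ x, (ρ' : Matrix ι ι F) *ᵥ x = x - (c⁻¹ * pol Q x v') • v' -
        (c⁻¹ * pol Q (x - (c⁻¹ * pol Q x v') • v') v) • v := fun x => by
      rw [hρ'd, Units.val_mul, ← Matrix.mulVec_mulVec, rf_mulVec, rf_mulVec, hvQ, hv'Q]
    have hρ'p' : (ρ' : Matrix ι ι F) *ᵥ p' = p' := by
      have h1 : pol Q p' v' = 0 := by
        rw [hv', pol_sub_right hQ, hp'v, hpd p' hp', sub_zero]
      rw [hρ'a, h1, mul_zero, zero_smul, sub_zero, hp'v, mul_zero, zero_smul, sub_zero]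
    have hphi : Phi hQ D M ((ρ' : Matrix ι ι F) *ᵥ p) := by
      have h1 := (S.lk_pure hp hp' hpQ (by rw [hpQ]; exact hp'Q)).conj hρ'M (S.miso hρ'M)
      rw [hρ'p'] at h1
      exact ⟨o, p', hp', h1⟩
    obtain ⟨κ, hκ⟩ : ∃ κ, κ = c⁻¹ * π := ⟨_, rfl⟩
    have hκ0 : κ ≠ 0 := by
      rw [hκ]
      exact mul_ne_zero (inv_ne_zero hc0) hπ0
    obtain ⟨η, hη⟩ : ∃ η, η = κ * (c⁻¹ * Q d) := ⟨_, rfl⟩
    have hpv' : pol Q p v' = π := by
      rw [hv', pol_sub_right hQ, hpd p hp, sub_zero, hπd]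
    have he : (ρ' : Matrix ι ι F) *ᵥ p = p + κ • d - η • v := by
      rw [hρ'a, hpv', ← hκ, pol_sub_left hQ, pol_smul_left hQ, hv'v, ← hπd, hv']
      have e1 : c⁻¹ * (π - κ * (2 * c - Q d)) = -κ + η := by
        rw [hη, hκ]
        field_simp
        ring
      rw [e1]
      module
    refine ⟨_, hphi, ?_⟩
    rw [he]
    have hcpe : ∀ l, cp D l (p + κ • d - η • v) = cp D l p + κ • cp D l d - η • cp D l v := fun l => by
      rw [cp_sub hQ B, cp_add hQ B, cp_smul hQ B, cp_smul hQ B]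
    by_cases hQd : Q d = 0
    · have hη0 : η = 0 := by
        rw [hη, hQd]
        ring
      have h1 : cp D o (p + κ • d - η • v) ≠ 0 := by
        rw [hcpe, hη0, zero_smul, sub_zero, hdcp o ho1 ho2, smul_zero, add_zero, cp_self hQ B hp]
        intro h0
        apply hp'Q
        rw [← hpQ, h0, Q_zero hQ]
      have h2 : cp D i (p + κ • d - η • v) ≠ 0 := by
        rw [hcpe, hη0, zero_smul, sub_zero, cp_other hQ B (Ne.symm ho1) hp, zero_add, hd, cp_add hQ B, cp_smul hQ B,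
          cp_smul hQ B, cp_self hQ B hb, cp_other hQ B him hb', smul_zero, add_zero, smul_smul]
        exact smul_ne_zero (mul_ne_zero hκ0 hκ₁0) hb0
      exact not_mem_of_two hQ B ho1 h1 h2
    · have hη0 : η ≠ 0 := by
        rw [hη]
        exact mul_ne_zero hκ0 (mul_ne_zero (inv_ne_zero hc0) hQd)
      have hl : ∀ l, l ≠ i → l ≠ m → l ≠ o → cp D l (p + κ • d - η • v) ≠ 0 := fun l h1 h2 h3 => by
        rw [hcpe, cp_other hQ B h3 hp, hdcp l h1 h2, smul_zero, add_zero, zero_sub]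
        exact neg_ne_zero.mpr (smul_ne_zero hη0 (hv_cp l))
      exact not_mem_of_two hQ B (Ne.symm hl₂4) (hl l₁ hl₁1 hl₁2 hl₁3) (hl l₂ hl₂1 hl₂2 hl₂3)

end F1

end Cfsg.Agent.Lib.Geo.Om2
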