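/-
Stabilisers of orthogonal decompositions in `Ω`, members of dimension two: the anisotropic case.
-/
import Cfsg.Agent.Lib.Geo.Om2C
set_option autoImplicit false

namespace Cfsg.Agent.Lib.Geo.Om2

open Cfsg Cfsg.Geo Cfsg.Agent.Lib.Geo.Basic Cfsg.Agent.Lib.Geo.Parabolic Cfsg.Agent.Lib.Geo.Centres
open Cfsg.Agent.Lib.Geo.Polar Cfsg.Agent.Lib.Geo.QForm
open Cfsg.Agent.Lib.GeoOmega.Basic Cfsg.Agent.Lib.GeoOmega.Eichler
open Cfsg.Agent.Lib.GeoOmega.Levi (rf rf_mulVec rf_mem rf_mul_mem_omega rf_inv rf_conj)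
open Cfsg.Agent.Lib.Geo.OmSub (Par Par.add Par.zero Par.neg Par.sub Par.conj Par.swap pol_sum_left eich_zero)
open Cfsg.Agent.Lib.Geo.SpDecomp (exists_comps mem_decompositionStabilizer_of_forall)
open Cfsg.Agent.Lib.Geo.OmDec
open Cfsg.Agent.Lib.Geo.OmB
open scoped MatrixGroups Matrix

section Wp

variable {F : Type*} [Field F] [Fintype F]

/-- Values of `γ ^ 2 + γ` in characteristic two. -/
theorem wp_add (h2 : (2 : F) = 0) {u v : F} (hu : ∀ γ : F, γ ^ 2 + γ ≠ u) (hv : ∀ γ : F, γ ^ 2 + γ ≠ v) :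
    ∃ γ : F, γ ^ 2 + γ = u + v := by
  classical
  have hneg : ∀ a : F, -a = a := fun a => by
    have : a + a = 0 := by
      have : a + a = 2 * a := by ring
      rw [this, h2, zero_mul]
    exact neg_eq_of_add_eq_zero_right this
  obtain ⟨P, hP⟩ : ∃ P, P = (Finset.univ : Finset F).image (fun γ : F => γ ^ 2 + γ) := ⟨_, rfl⟩
  have hmem : ∀ a, a ∈ P ↔ ∃ γ : F, γ ^ 2 + γ = a := fun a => by
    rw [hP]
    simp
  have hcard : Fintype.card F ≤ 2 * P.card := by
    rw [← Finset.card_univ, hP]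
    refine Finset.card_le_mul_card_image _ 2 fun a ha => ?_
    obtain ⟨γ₀, -, h0⟩ := Finset.mem_image.mp ha
    have hsub : (Finset.univ.filter fun x : F => x ^ 2 + x = a) ⊆ {γ₀, γ₀ + 1} := by
      intro x hx
      have hx' : x ^ 2 + x = a := (Finset.mem_filter.mp hx).2
      have h3 : (x - γ₀) * (x - (γ₀ + 1)) = 0 := by
        have e1 : x * γ₀ + x * γ₀ = 0 := by
          have : x * γ₀ + x * γ₀ = 2 * (x * γ₀) := by ring
          rw [this, h2, zero_mul]
        have e2 : γ₀ ^ 2 + γ₀ ^ 2 = 0 := by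
          have : γ₀ ^ 2 + γ₀ ^ 2 = 2 * γ₀ ^ 2 := by ring
          rw [this, h2, zero_mul]
        have e3 : γ₀ + γ₀ = 0 := by
          have : γ₀ + γ₀ = 2 * γ₀ := by ring
          rw [this, h2, zero_mul]
        linear_combination hx' - h0 - e1 + e2 + e3 - x * h2
      rcases mul_eq_zero.mp h3 with h4 | h4
      · simp [sub_eq_zero.mp h4]
      · simp [sub_eq_zero.mp h4]
    calc _ ≤ ({γ₀, γ₀ + 1} : Finset F).card := Finset.card_le_card hsub
      _ ≤ 2 := Finset.card_le_two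
  have hadd : ∀ a ∈ P, ∀ b ∈ P, a + b ∈ P := fun a ha b hb => by
    obtain ⟨x, hx⟩ := (hmem a).mp ha
    obtain ⟨y, hy⟩ := (hmem b).mp hb
    refine (hmem _).mpr ⟨x + y, ?_⟩
    rw [← hx, ← hy]
    linear_combination (x * y) * h2
  obtain ⟨P', hP'⟩ : ∃ P', P' = P.image (fun a => u + a) := ⟨_, rfl⟩
  have hcardP' : P'.card = P.card := by
    rw [hP']
    exact Finset.card_image_of_injective _ (add_right_injective u)
  have hdisj : Disjoint P P' := by
    rw [Finset.disjoint_left]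
    intro a ha ha'
    rw [hP'] at ha'
    obtain ⟨b, hb, e⟩ := Finset.mem_image.mp ha'
    have h3 : u = a + b := by
      rw [← e, add_assoc]
      have : b + b = 0 := by
        have : b + b = 2 * b := by ring
        rw [this, h2, zero_mul]
      rw [this, add_zero]
    obtain ⟨γ, hγ⟩ := (hmem _).mp (hadd a ha b hb)
    exact hu γ (by rw [hγ, h3])
  by_cases hvP' : v ∈ P'
  · rw [hP'] at hvP'
    obtain ⟨a, ha, e⟩ := Finset.mem_image.mp hvP'
    obtain ⟨γ, hγ⟩ := (hmem a).mp ha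
    refine ⟨γ, ?_⟩
    rw [hγ, ← e]
    linear_combination (-u) * h2
  · exfalso
    have hvP : v ∉ P := fun h => by
      obtain ⟨γ, hγ⟩ := (hmem v).mp h
      exact hv γ hγ
    have h3 : (P ∪ P').card ≤ Fintype.card F - 1 := by
      have h4 : P ∪ P' ⊆ Finset.univ.erase v := fun a ha => by
        refine Finset.mem_erase.mpr ⟨?_, Finset.mem_univ a⟩
        rintro rfl
        rcases Finset.mem_union.mp ha with h5 | h5
        · exact hvP h5
        · exact hvP' h5
      have h5 := Finset.card_le_card h4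
      rwa [Finset.card_erase_of_mem (Finset.mem_univ v), Finset.card_univ] at h5
    rw [Finset.card_union_of_disjoint hdisj, hcardP'] at h3
    have h6 : 0 < Fintype.card F := Fintype.card_pos
    omega

variable (F) in
/-- The traces of the elements of norm one of the quadratic extension. -/
noncomputable def NN : Finset F := by
  classical exact Finset.univ.filter (fun s : F => s ^ 2 = 4 ∨ ¬ ∃ ξ : F, ξ ^ 2 - s * ξ + 1 = 0)

theorem mem_NN {s : F} : s ∈ NN F ↔ s ^ 2 = 4 ∨ ¬ ∃ ξ : F, ξ ^ 2 - s * ξ + 1 = 0 := by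
  classical
  simp only [NN, Finset.mem_filter, Finset.mem_univ, true_and]

theorem two_mem_NN : (2 : F) ∈ NN F := mem_NN.mpr (Or.inl (by norm_num))

theorem card_NN : Fintype.card F + 2 ≤ 2 * (NN F).card := by
  classical
  obtain ⟨R, hR⟩ : ∃ R, R = (Finset.univ : Finset F).filter (fun s => s ∉ NN F) := ⟨_, rfl⟩
  have hsum : (NN F).card + R.card = Fintype.card F := by
    have h1 : (Finset.univ : Finset F).filter (fun s => s ∈ NN F) = NN F := by
      ext s
      simp
    have h2 := Finset.card_filter_add_card_filter_not (s := (Finset.univ : Finset F)) (fun s => s ∈ NN F)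
    rw [h1, ← hR, Finset.card_univ] at h2
    exact h2
  obtain ⟨T, hT⟩ : ∃ T, T = (Finset.univ : Finset F).filter (fun ξ => ξ ≠ 0 ∧ ξ ^ 2 ≠ 1) := ⟨_, rfl⟩
  have hTcard : T.card + 2 ≤ Fintype.card F := by
    have h1 : T ⊆ (Finset.univ.erase (0 : F)).erase 1 := fun ξ hξ => by
      rw [hT] at hξ
      obtain ⟨-, h3, h4⟩ := Finset.mem_filter.mp hξ
      refine Finset.mem_erase.mpr ⟨?_, Finset.mem_erase.mpr ⟨h3, Finset.mem_univ _⟩⟩
      rintro rfl
      exact h4 (by norm_num)
    have h2 := Finset.card_le_card h1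
    rw [Finset.card_erase_of_mem (Finset.mem_erase.mpr ⟨one_ne_zero, Finset.mem_univ _⟩),
      Finset.card_erase_of_mem (Finset.mem_univ _), Finset.card_univ] at h2
    have h3 : 2 ≤ Fintype.card F := Fintype.one_lt_card
    omega
  obtain ⟨T', hT'⟩ : ∃ T', T' = T.filter (fun ξ => ξ + ξ⁻¹ ∈ R) := ⟨_, rfl⟩
  have hT'T : T'.card ≤ T.card := by
    rw [hT']
    exact Finset.card_filter_le _ _
  have hmaps : Set.MapsTo (fun ξ : F => ξ + ξ⁻¹) (T' : Set F) (R : Set F) := fun ξ hξ => by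
    have h1 : ξ ∈ T' := hξ
    rw [hT'] at h1
    exact (Finset.mem_filter.mp h1).2
  have hfib := Finset.card_eq_sum_card_fiberwise hmaps
  have hle : R.card • 2 ≤ ∑ b ∈ R, (T'.filter (fun ξ => ξ + ξ⁻¹ = b)).card := by
    refine Finset.card_nsmul_le_sum _ _ 2 fun s hs => ?_
    rw [hR] at hs
    have hs' := (Finset.mem_filter.mp hs).2
    rw [mem_NN] at hs'
    push Not at hs'
    obtain ⟨h4, ξ, hξ⟩ := hs'
    have hξ0 : ξ ≠ 0 := by
      rintro rfl
      norm_num at hξ
    have hξ2 : ξ ^ 2 ≠ 1 := by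
      intro h5
      apply h4
      have h6 : s * ξ = 2 := by linear_combination -hξ + h5
      calc s ^ 2 = (s * ξ) ^ 2 * (ξ ^ 2)⁻¹ := by
            field_simp
        _ = 4 := by
            rw [h6, h5]
            norm_num
    have hφ : ξ + ξ⁻¹ = s := by
      field_simp
      linear_combination hξ
    have hT1 : ξ ∈ T := by
      rw [hT]
      exact Finset.mem_filter.mpr ⟨Finset.mem_univ _, hξ0, hξ2⟩
    have hT2 : ξ⁻¹ ∈ T := by
      rw [hT]
      refine Finset.mem_filter.mpr ⟨Finset.mem_univ _, inv_ne_zero hξ0, fun h5 => hξ2 ?_⟩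
      rw [inv_pow] at h5
      exact inv_eq_one.mp h5
    have hsR : s ∈ R := by
      rw [hR]
      exact hs
    have h1 : ξ ∈ T'.filter (fun ξ => ξ + ξ⁻¹ = s) := by
      rw [hT']
      exact Finset.mem_filter.mpr ⟨Finset.mem_filter.mpr ⟨hT1, by rw [hφ]; exact hsR⟩, hφ⟩
    have hφ' : ξ⁻¹ + ξ⁻¹⁻¹ = s := by
      rw [inv_inv, add_comm]
      exact hφ
    have h2 : ξ⁻¹ ∈ T'.filter (fun ξ => ξ + ξ⁻¹ = s) := by
      rw [hT']
      exact Finset.mem_filter.mpr ⟨Finset.mem_filter.mpr ⟨hT2, by rw [hφ']; exact hsR⟩, hφ'⟩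
    have hne : ξ ≠ ξ⁻¹ := by
      intro h5
      apply hξ2
      rw [sq]
      nth_rewrite 2 [h5]
      exact mul_inv_cancel₀ hξ0
    have h3 : ({ξ, ξ⁻¹} : Finset F) ⊆ T'.filter (fun ξ => ξ + ξ⁻¹ = s) := by
      intro x hx
      rcases Finset.mem_insert.mp hx with rfl | hx
      · exact h1
      · rw [Finset.mem_singleton.mp hx]
        exact h2
    calc 2 = ({ξ, ξ⁻¹} : Finset F).card := (Finset.card_pair hne).symm
      _ ≤ _ := Finset.card_le_card h3
  rw [← hfib, smul_eq_mul] at hle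
  omega

/-- The traces of norm one: existence of a useful one. -/
theorem exists_mem_NN (hq : Fintype.card F ≠ 3) : ∃ s ∈ NN F, s ≠ 0 ∧ s ^ 2 ≠ 4 := by
  classical
  by_contra hcon
  push Not at hcon
  have hsub : NN F ⊆ {0, 2, -2} := fun s hs => by
    by_cases h0 : s = 0
    · simp [h0]
    · have h1 := hcon s hs h0
      have h2 : (s - 2) * (s + 2) = 0 := by linear_combination h1
      rcases mul_eq_zero.mp h2 with h3 | h3
      · simp [sub_eq_zero.mp h3]
      · have : s = -2 := by linear_combination h3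
        simp [this]
  have hc := card_NN (F := F)
  have hle := Finset.card_le_card hsub
  have h3 : ({0, 2, -2} : Finset F).card ≤ 3 := Finset.card_le_three
  have h4 : 2 ≤ Fintype.card F := Fintype.one_lt_card
  by_cases h2 : (2 : F) = 0
  · have : ({0, 2, -2} : Finset F) = {0} := by
      rw [h2]
      simp
    rw [this, Finset.card_singleton] at hle
    omega
  · have hchar : ringChar F ≠ 2 := by
      intro h
      haveI : CharP F 2 := ringChar.of_eq h
      exact h2 (by exact_mod_cast CharP.cast_eq_zero F 2)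
    have hodd : Fintype.card F % 2 = 1 := FiniteField.odd_card_of_char_ne_two hchar
    omega

end Wp

variable {ι : Type} [Fintype ι] [DecidableEq ι] {F : Type*} [Field F]
variable {Q : (ι → F) → F} {t : ℕ} {D : Fin t → Submodule F (ι → F)}

section Anis

variable [Fintype F] (hQ : IsNondegenerateQuadraticForm Q) (B : Blk Q D) (hfin : ∀ i, Module.finrank F (D i) = 2)
  (hanis : ∀ i, ∀ x ∈ D i, x ≠ 0 → Q x ≠ 0)
include hQ B hfin hanis

/-- Vectors of given norm and given product. -/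
theorem circ_anis {j : Fin t} {z : ι → F} (hz : z ∈ D j) (hzQ : Q z ≠ 0) {s : F} (hs : s ∈ NN F) :
    ∃ w ∈ D j, Q w = Q z ∧ pol Q z w = s * Q z := by
  rw [mem_NN] at hs
  have hz0 : z ≠ 0 := fun h => hzQ (by rw [h, Q_zero hQ])
  by_cases h2 : (2 : F) = 0
  · by_cases hs0 : s = 0
    · refine ⟨z, hz, rfl, ?_⟩
      rw [pol_self hQ, h2, hs0]
    · have hn : ¬ ∃ ξ : F, ξ ^ 2 - s * ξ + 1 = 0 := by
        rcases hs with h3 | h3
        · exfalso
          apply hs0
          have h4 : s ^ 2 = 0 := by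
            rw [h3]
            linear_combination 2 * h2
          exact pow_eq_zero_iff (by norm_num) |>.mp h4
        · exact h3
      obtain ⟨y₀, hy₀, hne⟩ := (B.nd j z hz hz0).2
      change pol Q z y₀ ≠ 0 at hne
      obtain ⟨y, hyd⟩ : ∃ y, y = (pol Q z y₀)⁻¹ • y₀ := ⟨_, rfl⟩
      have hy : y ∈ D j := by
        rw [hyd]
        exact (D j).smul_mem _ hy₀
      have hzy : pol Q z y = 1 := by
        rw [hyd, pol_smul_right hQ]
        exact inv_mul_cancel₀ hne
      obtain ⟨c, hc⟩ : ∃ c, c = Q z := ⟨_, rfl⟩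
      rw [← hc] at hzQ ⊢
      have hzz : pol Q z z = 0 := by
        rw [pol_self hQ, h2, zero_mul]
      have hu : ∀ γ : F, γ ^ 2 + γ ≠ (s ^ 2)⁻¹ := by
        intro γ hγ
        apply hn
        refine ⟨s * γ, ?_⟩
        have h3 : s ^ 2 * (γ ^ 2 + γ) = 1 := by
          rw [hγ]
          field_simp
        linear_combination h3 + (1 - s ^ 2 * γ) * h2
      have hv : ∀ γ : F, γ ^ 2 + γ ≠ c * Q y := by
        intro γ hγ
        have hmem : γ • z + c • y ∈ D j := (D j).add_mem ((D j).smul_mem _ hz) ((D j).smul_mem _ hy)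
        have h3 : γ • z + c • y ≠ 0 := by
          intro h0
          have h4 : pol Q z (γ • z + c • y) = c := by
            rw [pol_add_right hQ, pol_smul_right hQ, pol_smul_right hQ, hzz, hzy]
            ring
          rw [h0, pol_zero_right hQ] at h4
          exact hzQ h4.symm
        apply hanis j _ hmem h3
        rw [Q_smul_add hQ, hzy, ← hc]
        linear_combination c * hγ + (c ^ 2 * Q y) * h2
      obtain ⟨γ, hγ⟩ := wp_add h2 hu hv
      refine ⟨(s * γ) • z + (s * c) • y, (D j).add_mem ((D j).smul_mem _ hz) ((D j).smul_mem _ hy), ?_, ?_⟩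
      · rw [Q_smul_add hQ, hzy, ← hc]
        have h3 : s ^ 2 * (s ^ 2)⁻¹ = 1 := by
          field_simp
        linear_combination (s ^ 2 * c) * hγ + c * h3 + (s ^ 2 * c ^ 2 * Q y) * h2
      · rw [pol_add_right hQ, pol_smul_right hQ, pol_smul_right hQ, hzz, hzy]
        ring
  · have hchar : ringChar F ≠ 2 := by
      intro h
      haveI : CharP F 2 := ringChar.of_eq h
      exact h2 (by exact_mod_cast CharP.cast_eq_zero F 2)
    have hodd : Fintype.card F % 2 = 1 := FiniteField.odd_card_of_char_ne_two hchar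
    obtain ⟨b, hb, hb0, hbQ, hzb⟩ := exists_perp hQ B hfin hz hzQ
    obtain ⟨c, hc⟩ : ∃ c, c = Q z := ⟨_, rfl⟩
    rw [← hc] at hzQ ⊢
    have hzz : pol Q z z = 2 * c := by
      rw [pol_self hQ, hc]
    by_cases hs4 : s ^ 2 = 4
    · refine ⟨(s / 2) • z, (D j).smul_mem _ hz, ?_, ?_⟩
      · rw [hQ.smul, ← hc]
        field_simp
        linear_combination hs4
      · rw [pol_smul_right hQ, hzz]
        field_simp
    · have hn : ¬ ∃ ξ : F, ξ ^ 2 - s * ξ + 1 = 0 := by
        rcases hs with h3 | h3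
        · exact absurd h3 hs4
        · exact h3
      have hd0 : ¬ IsSquare (s ^ 2 - 4) := by
        rintro ⟨r, hr⟩
        apply hn
        refine ⟨(s + r) / 2, ?_⟩
        field_simp
        linear_combination -hr
      obtain ⟨d, hdd⟩ : ∃ d, d = - Q b / c := ⟨_, rfl⟩
      have hbd : Q b = - d * c := by
        rw [hdd]
        field_simp
      have hd1 : ¬ IsSquare d := by
        rintro ⟨e, he⟩
        have hmem : e • z + b ∈ D j := (D j).add_mem ((D j).smul_mem _ hz) hb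
        have h3 : e • z + b ≠ 0 := by
          intro h0
          have h4 : pol Q z (e • z + b) = e * (2 * c) := by
            rw [pol_add_right hQ, pol_smul_right hQ, hzz, hzb]
            ring
          rw [h0, pol_zero_right hQ] at h4
          have h5 : e = 0 := by
            have : e * (2 * c) = 0 := h4.symm
            rcases mul_eq_zero.mp this with h6 | h6
            · exact h6
            · exact absurd h6 (mul_ne_zero h2 hzQ)
          rw [h5, zero_smul, zero_add] at h0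
          exact hb0 h0
        apply hanis j _ hmem h3
        rw [Q_add hQ, hQ.smul, pol_smul_left hQ, hzb, hbd, ← hc, he]
        ring
      have hd00 : d ≠ 0 := fun h => hd1 (by rw [h]; exact IsSquare.zero)
      obtain ⟨r, hr⟩ := isSquare_mul_of_not hodd hd0 hd1
      refine ⟨(s / 2) • z + (r / (2 * d)) • b, (D j).add_mem ((D j).smul_mem _ hz) ((D j).smul_mem _ hb), ?_, ?_⟩
      · rw [Q_smul_add hQ, hzb, hbd, ← hc]
        field_simp
        linear_combination c * hr
      · rw [pol_add_right hQ, pol_smul_right hQ, pol_smul_right hQ, hzz, hzb]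
        field_simp
        ring

/-- Additive properties of vectors transitive under elements acting on a member. -/
theorem span_anis (hq : Fintype.card F ≠ 3) (r : Fin t) (P : (ι → F) → Prop) (hadd : ∀ a b, P a → P b → P (a + b))
    (hrot : ∀ a ∈ D r, P a → ∀ ζ, Rot hQ D r ζ → P ((ζ : Matrix ι ι F) *ᵥ a)) {y : ι → F} (hy : y ∈ D r) (hyQ : Q y ≠ 0)
    (hP : P y) {a : ι → F} (ha : a ∈ D r) : P a := by
  classical
  have hc : ∀ w ∈ D r, Q w = Q y → P w := fun w hw hwQ => by
    obtain ⟨ζ, hζ, e⟩ := exists_rot (hQ := hQ) B hfin hy hw hyQ hwQ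
    rw [← e]
    exact hrot y hy hP ζ hζ
  have hN : ∀ s ∈ NN F, P (s • y) := fun s hs => by
    obtain ⟨w, hw, hwQ, hyw⟩ := circ_anis hQ B hfin hanis hy hyQ hs
    have h1 : Q (s • y - w) = Q y := by
      rw [Q_sub hQ, hQ.smul, hwQ, pol_smul_left hQ, hyw]
      ring
    have h2 := hadd _ _ (hc w hw hwQ) (hc _ ((D r).sub_mem ((D r).smul_mem _ hy) hw) h1)
    rwa [add_sub_cancel] at h2
  have hall : ∀ f : F, P (f • y) := fun f => by
    have hcard : (Finset.univ : Finset F).card < (NN F).card + ((NN F).image (fun s => f - s)).card := by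
      rw [Finset.card_image_of_injective _ (sub_right_injective), Finset.card_univ]
      have := card_NN (F := F)
      omega
    obtain ⟨s, hs⟩ := Finset.inter_nonempty_of_card_lt_card_add_card (Finset.subset_univ _) (Finset.subset_univ _) hcard
    obtain ⟨hs1, hs2⟩ := Finset.mem_inter.mp hs
    obtain ⟨s', hs', e⟩ := Finset.mem_image.mp hs2
    have h1 := hadd _ _ (hN s hs1) (hN s' hs')
    rwa [← add_smul, ← e, sub_add_cancel] at h1
  obtain ⟨s, hs, hs0, hs4⟩ := exists_mem_NN hq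
  obtain ⟨w, hw, hwQ, hyw⟩ := circ_anis hQ B hfin hanis hy hyQ hs
  have hwc : ∀ c : F, w ≠ c • y := by
    rintro c rfl
    rw [hQ.smul] at hwQ
    rw [pol_smul_right hQ, pol_self hQ] at hyw
    have h1 : c ^ 2 = 1 := by
      apply mul_right_cancel₀ hyQ
      linear_combination hwQ
    have h2 : c * 2 = s := by
      apply mul_right_cancel₀ hyQ
      linear_combination hyw
    apply hs4
    rw [← h2]
    linear_combination 4 * h1
  have hy0 : y ≠ 0 := fun h => hyQ (by rw [h, Q_zero hQ])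
  obtain ⟨α, β, e⟩ := span2 hfin hy hw hy0 hwc ha
  obtain ⟨ζ, hζ, e'⟩ := exists_rot (hQ := hQ) B hfin hy hw hyQ hwQ
  have h1 := hrot _ ((D r).smul_mem β hy) (hall β) ζ hζ
  rw [Matrix.mulVec_smul, e'] at h1
  rw [e]
  exact hadd _ _ (hall α) h1

/-- Pairs of vectors with opposite norms of differences. -/
theorem ii_anis {j m : Fin t} {z z' : ι → F} (hz : z ∈ D j) (hz' : z' ∈ D m) (hzQ : Q z ≠ 0) (hz'Q : Q z' ≠ 0) :
    ∃ w ∈ D j, ∃ w' ∈ D m, Q w = Q z ∧ Q w' = Q z' ∧ w ≠ z ∧ w' ≠ z' ∧ Q (z - w) + Q (z' - w') = 0 := by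
  classical
  obtain ⟨N₂, hN₂⟩ : ∃ N₂, N₂ = (NN F).erase 2 := ⟨_, rfl⟩
  have hcN : (NN F).card = N₂.card + 1 := by
    rw [hN₂, Finset.card_erase_of_mem two_mem_NN]
    have : 0 < (NN F).card := Finset.card_pos.mpr ⟨2, two_mem_NN⟩
    omega
  have hc := card_NN (F := F)
  have hinj : ∀ {c : F}, c ≠ 0 → Function.Injective (fun s : F => (2 - s) * c) := fun {c} hc s s' h => by
    have h1 : (2 - s) * c = (2 - s') * c := h
    have h2 := mul_right_cancel₀ hc h1
    linear_combination -h2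
  have hinj' : ∀ {c : F}, c ≠ 0 → Function.Injective (fun s : F => -((2 - s) * c)) := fun {c} hc s s' h => by
    have h1 : -((2 - s) * c) = -((2 - s') * c) := h
    exact hinj hc (neg_injective h1)
  obtain ⟨X, hX⟩ : ∃ X, X = N₂.image (fun s => (2 - s) * Q z) := ⟨_, rfl⟩
  obtain ⟨Y, hY⟩ : ∃ Y, Y = N₂.image (fun s => -((2 - s) * Q z')) := ⟨_, rfl⟩
  have hs2 : ∀ s ∈ N₂, 2 - s ≠ 0 := fun s hs h => by
    rw [hN₂] at hs
    apply (Finset.mem_erase.mp hs).1
    linear_combination -h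
  have hXs : X ⊆ Finset.univ.erase 0 := fun x hx => by
    rw [hX] at hx
    obtain ⟨s, hs, rfl⟩ := Finset.mem_image.mp hx
    exact Finset.mem_erase.mpr ⟨mul_ne_zero (hs2 s hs) hzQ, Finset.mem_univ _⟩
  have hYs : Y ⊆ Finset.univ.erase 0 := fun x hx => by
    rw [hY] at hx
    obtain ⟨s, hs, rfl⟩ := Finset.mem_image.mp hx
    exact Finset.mem_erase.mpr ⟨neg_ne_zero.mpr (mul_ne_zero (hs2 s hs) hz'Q), Finset.mem_univ _⟩
  have hcard : (Finset.univ.erase (0 : F)).card < X.card + Y.card := by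
    rw [hX, hY, Finset.card_image_of_injective _ (hinj hzQ), Finset.card_image_of_injective _ (hinj' hz'Q),
      Finset.card_erase_of_mem (Finset.mem_univ _), Finset.card_univ]
    have : 0 < Fintype.card F := Fintype.card_pos
    omega
  obtain ⟨x, hx⟩ := Finset.inter_nonempty_of_card_lt_card_add_card hXs hYs hcard
  obtain ⟨hx1, hx2⟩ := Finset.mem_inter.mp hx
  rw [hX] at hx1
  rw [hY] at hx2
  obtain ⟨s, hs, e1⟩ := Finset.mem_image.mp hx1
  obtain ⟨s', hs', e2⟩ := Finset.mem_image.mp hx2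
  have hsN : s ∈ NN F := by
    rw [hN₂] at hs
    exact (Finset.mem_erase.mp hs).2
  have hs'N : s' ∈ NN F := by
    rw [hN₂] at hs'
    exact (Finset.mem_erase.mp hs').2
  obtain ⟨w, hw, hwQ, hzw⟩ := circ_anis hQ B hfin hanis hz hzQ hsN
  obtain ⟨w', hw', hw'Q, hzw'⟩ := circ_anis hQ B hfin hanis hz' hz'Q hs'N
  have hne : ∀ {u v : ι → F} {σ : F}, Q u ≠ 0 → pol Q u v = σ * Q u → 2 - σ ≠ 0 → v ≠ u := by
    rintro u v σ hu h1 h2 rfl
    rw [pol_self hQ] at h1
    apply h2
    apply mul_right_cancel₀ hu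
    linear_combination h1
  refine ⟨w, hw, w', hw', hwQ, hw'Q, hne hzQ hzw (hs2 s hs), hne hz'Q hzw' (hs2 s' hs'), ?_⟩
  rw [Q_sub hQ, Q_sub hQ, hwQ, hw'Q, hzw, hzw']
  have e3 : (2 - s) * Q z = -((2 - s') * Q z') := by
    rw [← e2] at e1
    exact e1
  linear_combination e3

/-- The properties of the members, anisotropic case. -/
theorem td_anis (hq : Fintype.card F ≠ 3) : ∃ s, TD hQ D s := by
  obtain ⟨s, hs, hs0, hs4⟩ := exists_mem_NN hq
  exact ⟨s, hs0, hs4, fun j z hz hzQ => circ_anis hQ B hfin hanis hz hzQ hs,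
    fun j m z z' hz hz' hzQ hz'Q => ii_anis hQ B hfin hanis hz hz' hzQ hz'Q,
    fun r P hadd _ hrot y hy hyQ hP a ha => span_anis hQ B hfin hanis hq r P hadd hrot hy hyQ hP ha⟩

end Anis

section Final

variable [Fintype F]

/-- Not every element of `Ω` permutes the members. -/
theorem Ctx2.exists_not_stab {M : Subgroup (GL ι F)} (S : Ctx2 Q D M) : ∃ g ∈ omegaGL Q, g ∉ decompositionStabilizer D := by
  have hQ := S.hQ
  have B := S.blk
  have h7 := S.t7
  obtain ⟨a, -⟩ : ∃ a : Fin t, True := ⟨⟨0, by omega⟩, trivial⟩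
  obtain ⟨b, hb1, -, -⟩ := S.exists_ne3 a a a
  obtain ⟨c, hc1, hc2, -⟩ := S.exists_ne3 a b b
  obtain ⟨x₀, hx₀, hx₀0⟩ := S.exists_ne_zero a
  obtain ⟨z₀, hz₀, hz₀0⟩ := S.exists_ne_zero b
  have hd : 3 ≤ Module.finrank F (D a ⊔ D b : Submodule F (ι → F)) := by
    by_contra hcon
    have h1 : D a = D a ⊔ D b := Submodule.eq_of_le_of_finrank_le le_sup_left (by rw [S.fin]; omega)
    have h2 : z₀ ∈ D a := by
      rw [h1]
      exact Submodule.mem_sup_right hz₀
    have h3 := cp_other hQ B hb1 h2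
    rw [cp_self hQ B hz₀] at h3
    exact hz₀0 h3
  obtain ⟨p, hp, hp0, hpQ⟩ := exists_singular hQ _ hd
  obtain ⟨x, hx, z, hz, e⟩ := Submodule.mem_sup.mp hp
  have hcpc : cp D c p = 0 := by
    rw [← e]
    exact cp_two hQ B hx hz hc1 hc2
  obtain ⟨i, hi, hi0⟩ : ∃ i, i ≠ c ∧ cp D i p ≠ 0 := by
    by_contra hcon
    push Not at hcon
    apply hp0
    rw [← sum_cp B p]
    refine Finset.sum_eq_zero fun i _ => ?_
    by_cases h : i = c
    · rw [h, hcpc]
    · exact hcon i h
  obtain ⟨y, hy, hy0⟩ := S.exists_ne_zero c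
  obtain ⟨v, hv, hne⟩ := (B.nd c y hy hy0).1
  change pol Q v y ≠ 0 at hne
  have hpy : pol Q p y = 0 := pol_eq_zero_of_cp hQ B hcpc hy
  obtain ⟨g, hg⟩ := exists_eich hQ hpQ hpy
  refine ⟨g, hg.mem_omega hQ S.card7 hpQ hpy, ?_⟩
  rintro ⟨σ, hσ⟩
  have hvp : pol Q v p = 0 := by
    rw [pol_symm hQ]
    exact pol_eq_zero_of_cp hQ B hcpc hv
  have hgv : (g : Matrix ι ι F) *ᵥ v = v + pol Q v y • p := by
    rw [hg v, hvp]
    simp
  have hmem : (g : Matrix ι ι F) *ᵥ v ∈ D (σ c) := by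
    rw [← hσ c]
    exact ⟨v, hv, by rw [Matrix.toLin'_apply]⟩
  have hv0 : v ≠ 0 := by
    rintro rfl
    exact hne (pol_zero_left hQ y)
  refine not_mem_of_two hQ B (Ne.symm hi) ?_ ?_ _ hmem
  · rw [hgv, cp_add hQ B, cp_self hQ B hv, cp_smul hQ B, hcpc, smul_zero, add_zero]
    exact hv0
  · rw [hgv, cp_add hQ B, cp_other hQ B hi hv, zero_add, cp_smul hQ B]
    exact smul_ne_zero hne hi0

/-- Maximality from a generation statement. -/
theorem isMaximalIn_of2 (hQ : IsNondegenerateQuadraticForm Q) (hD : IsOrthogonalMDecomposition Q 2 D)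
    (h7 : 7 ≤ Fintype.card ι) (ht : 7 ≤ t)
    (hgood : ∀ M : Subgroup (GL ι F), Ctx2 Q D M → ∀ g ∈ M, g ∉ decompositionStabilizer D → omegaGL Q ≤ M) :
    IsMaximalIn (omegaGL Q) (decompositionStabilizer D ⊓ omegaGL Q) := by
  have B : Blk Q D := ⟨hD.decomp.nondegenerate, fun i j hij u hu v hv => hD.decomp.orthogonal i j hij u hu v hv,
    hD.decomp.decomp.iSup_eq_top⟩
  have mk : ∀ M : Subgroup (GL ι F), decompositionStabilizer D ⊓ omegaGL Q ≤ M → M ≤ omegaGL Q → Ctx2 Q D M :=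
    fun M h1 h3 => ⟨hQ, B, hD.decomp.decomp.finrank_eq, hD.isometric, h7, ht, h1, h3⟩
  refine ⟨?_, fun M h1 h3 => ?_⟩
  · obtain ⟨g, hg, hgs⟩ := (mk (omegaGL Q) inf_le_right le_rfl).exists_not_stab
    exact SetLike.lt_iff_le_and_exists.mpr ⟨inf_le_right, g, hg, fun h => hgs h.1⟩
  · by_cases hle : M ≤ decompositionStabilizer D ⊓ omegaGL Q
    · exact Or.inl (le_antisymm hle h1)
    · obtain ⟨g, hg, hgn⟩ := SetLike.not_le_iff_exists.mp hle
      have hgs : g ∉ decompositionStabilizer D := fun h => hgn ⟨h, h3 hg⟩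
      exact Or.inr (le_antisymm h3 (hgood M (mk M h1 h3) g hg hgs))

/-- The anisotropic case. -/
theorem isMaximalIn_anis (hQ : IsNondegenerateQuadraticForm Q) (hD : IsOrthogonalMDecomposition Q 2 D)
    (h7 : 7 ≤ Fintype.card ι) (ht : 7 ≤ t) (hanis : ∀ i, ∀ x ∈ D i, x ≠ 0 → Q x ≠ 0) (hq : Fintype.card F ≠ 3) :
    IsMaximalIn (omegaGL Q) (decompositionStabilizer D ⊓ omegaGL Q) := by
  refine isMaximalIn_of2 hQ hD h7 ht fun M S g hg hgs => ?_
  obtain ⟨s, T⟩ := td_anis S.hQ S.blk S.fin hanis hq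
  obtain ⟨e, he, hnp⟩ := S.exists_phi_anis T hanis hg hgs
  exact S.main_anis T hanis he hnp

end Final

end Cfsg.Agent.Lib.Geo.Om2
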