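/-
Stabilisers of orthogonal decompositions in `Ω`: assembling the cases of the dimension of the members.
-/
import Cfsg.Agent.Lib.Geo.Om2D
import Cfsg.Agent.Lib.Elusive.Atoms
set_option autoImplicit false

namespace Cfsg.Agent.Lib.Geo.Om2

open Cfsg Cfsg.Geo Cfsg.Agent.Lib.Geo.QForm
open Cfsg.Agent.Lib.Geo.OmDec
open scoped MatrixGroups Matrix

variable {ι : Type} [Fintype ι] [DecidableEq ι] {F : Type*} [Field F]
variable {Q : (ι → F) → F} {t : ℕ} {D : Fin t → Submodule F (ι → F)}

/-- A singular vector of a plane. -/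
theorem plus_of_sing (hQ : IsNondegenerateQuadraticForm Q) {W : Submodule F (ι → F)} (hW : Module.finrank F W = 2)
    {x : ι → F} (hx : x ∈ W) (hx0 : x ≠ 0) (hxQ : Q x = 0) : IsPlusTypeOn Q W := by
  refine ⟨Submodule.span F {x}, (Submodule.span_singleton_le_iff_mem x W).mpr hx, fun w hw => ?_, ?_⟩
  · obtain ⟨c, rfl⟩ := Submodule.mem_span_singleton.mp hw
    rw [hQ.smul, hxQ, mul_zero]
  · rw [finrank_span_singleton hx0, hW]

/-- A totally singular plane in a subspace of dimension four. -/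
theorem plus_of_plane (hQ : IsNondegenerateQuadraticForm Q) {W : Submodule F (ι → F)} (hW : Module.finrank F W = 4)
    {p b : ι → F} (hp : p ∈ W) (hb : b ∈ W) (hp0 : p ≠ 0) (hpQ : Q p = 0) (hbQ : Q b = 0) (hpb : pol Q p b = 0)
    (hbc : ∀ c : F, b ≠ c • p) : IsPlusTypeOn Q W := by
  have hli : LinearIndependent F ![p, b] := by
    rw [LinearIndependent.pair_iff]
    intro α β h
    have hβ : β = 0 := by
      by_contra hβ
      apply hbc (-α / β)
      have h1 : β • b = (-α) • p := by
        have : β • b = -(α • p) := eq_neg_of_add_eq_zero_right h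
        rw [this, neg_smul]
      calc b = β⁻¹ • (β • b) := by rw [smul_smul, inv_mul_cancel₀ hβ, one_smul]
        _ = (-α / β) • p := by
          rw [h1, smul_smul]
          congr 1
          field_simp
    subst hβ
    simp only [zero_smul, add_zero] at h
    exact ⟨(smul_eq_zero.mp h).resolve_right hp0, rfl⟩
  have h1 := finrank_span_eq_card hli
  have h2 : Set.range ![p, b] = {p, b} := by
    ext z
    constructor
    · rintro ⟨i, rfl⟩
      fin_cases i <;> simp
    · rintro (rfl | rfl)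
      · exact ⟨0, rfl⟩
      · exact ⟨1, rfl⟩
  rw [h2] at h1
  refine ⟨Submodule.span F {p, b}, ?_, fun w hw => ?_, ?_⟩
  · rw [Submodule.span_le]
    rintro z (rfl | rfl)
    · exact hp
    · exact hb
  · obtain ⟨α, β, rfl⟩ := Submodule.mem_span_pair.mp hw
    rw [Q_smul_add hQ, hpQ, hbQ, hpb]
    ring
  · rw [h1, hW]
    simp

/-- Plus type is preserved by isometries. -/
theorem plus_iso {W W' : Submodule F (ι → F)} (h : AreIsometricFor Q W W') (hP : IsPlusTypeOn Q W) :
    IsPlusTypeOn Q W' := by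
  obtain ⟨e, he⟩ := h
  obtain ⟨U, hU, hts, hd⟩ := hP
  obtain ⟨U₀, hU₀⟩ : ∃ U₀, U₀ = U.comap W.subtype := ⟨_, rfl⟩
  have hf0 : Module.finrank F U₀ = Module.finrank F U := by
    rw [hU₀]
    exact LinearEquiv.finrank_eq (Submodule.comapSubtypeEquivOfLe hU)
  refine ⟨(U₀.map (e : W →ₗ[F] W')).map W'.subtype, ?_, ?_, ?_⟩
  · rintro _ ⟨y, ⟨x, hx, rfl⟩, rfl⟩
    exact (e x).2
  · rintro _ ⟨y, ⟨x, hx, rfl⟩, rfl⟩
    have hxU : (x : ι → F) ∈ U := by
      rw [hU₀] at hx
      exact hx
    change Q ((e x : W') : ι → F) = 0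
    rw [he]
    exact hts _ hxU
  · have h1 : Module.finrank F ((U₀.map (e : W →ₗ[F] W')).map W'.subtype) =
        Module.finrank F (U₀.map (e : W →ₗ[F] W')) :=
      LinearEquiv.finrank_eq (Submodule.equivMapOfInjective _ W'.injective_subtype _).symm
    have h2 : Module.finrank F (U₀.map (e : W →ₗ[F] W')) = Module.finrank F U₀ :=
      LinearEquiv.finrank_map_eq e U₀
    rw [h1, h2, hf0, hd]
    exact (LinearEquiv.finrank_eq e)

/-- The dimension of the space. -/
theorem card_of_dec {k : ℕ} (hD : IsOrthogonalMDecomposition Q k D) : Fintype.card ι = t * k := by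
  have h1 := Cfsg.Agent.Lib.Elusive.Atoms.finrank_iSup_fintype D hD.decomp.decomp.indep
  rw [hD.decomp.decomp.iSup_eq_top, finrank_top, Module.finrank_fintype_fun_eq_card] at h1
  simp only [hD.decomp.decomp.finrank_eq, Finset.sum_const, Finset.card_univ, Fintype.card_fin, smul_eq_mul] at h1
  exact h1

theorem two_eq_zero_of_even [Fintype F] (h : ¬ Fintype.card F % 2 = 1) : (2 : F) = 0 := by
  have h4 : Fintype.card F % 2 = 0 := by omega
  have h5 : ringChar F = 2 := FiniteField.even_card_iff_char_two.mpr h4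
  haveI : CharP F 2 := ringChar.of_eq h5
  exact_mod_cast CharP.cast_eq_zero F 2

/-- Members of dimension at least three. -/
theorem isMaximalIn_ge3 [Fintype F] {k : ℕ} (hQ : IsNondegenerateQuadraticForm Q) (hD : IsOrthogonalMDecomposition Q k D)
    (h7 : 7 ≤ Fintype.card ι) (hk : 3 ≤ k) (hko : Odd k → Fintype.card F % 2 = 1) (hk3 : k = 3 → Fintype.card F ≠ 3)
    (hnts : Fintype.card F = 2 → k = 4 → ∀ i, ¬ IsPlusTypeOn Q (D i)) :
    IsMaximalIn (omegaGL Q) (decompositionStabilizer D ⊓ omegaGL Q) := by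
  by_cases hodd : Fintype.card F % 2 = 1
  · refine isMaximalIn_dec_odd hQ hodd h7 hk (fun h => ?_) hD
    have h1 := hk3 h
    have h2 : 1 < Fintype.card F := Fintype.one_lt_card
    omega
  · have h2 := two_eq_zero_of_even hodd
    have hk4 : 4 ≤ k := by
      by_contra hcon
      have : k = 3 := by omega
      rw [this] at hko
      exact hodd (hko (by decide))
    refine Cfsg.Agent.Lib.Geo.OmDecE.isMaximalIn_decE hQ h2 h7 hk4 hD fun hq hk4' i p hp b hb hpQ hbQ hpb hp0 => ?_
    by_contra hcon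
    push Not at hcon
    refine hnts hq hk4' i (plus_of_plane hQ (by rw [hD.decomp.decomp.finrank_eq, hk4']) hp hb hp0 hpQ hbQ hpb hcon)

end Cfsg.Agent.Lib.Geo.Om2
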