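/-
In characteristic two, the orthogonal group of a non-degenerate quadratic form is maximal in the symplectic group of
its polar form.
-/
import Cfsg.Agent.Lib.Geo.SpBase
set_option autoImplicit false

namespace Cfsg.Agent.Lib.Geo.SpOrth

open Cfsg Cfsg.Geo Cfsg.Agent.Lib.Geo.Basic Cfsg.Agent.Lib.Geo.Parabolic Cfsg.Agent.Lib.Geo.Centres
open Cfsg.Agent.Lib.Geo.Polar Cfsg.Agent.Lib.Geo.QForm Cfsg.Agent.Lib.Geo.SympInSL
open Cfsg.Agent.Lib.Geo.SpBase
open scoped MatrixGroups Matrix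

variable {ι : Type} [Fintype ι] [DecidableEq ι] {F : Type*} [Field F]
variable {Q : (ι → F) → F} {I : Subgroup (GL ι F)}

/-- The effect of a transvection on `Q`. -/
theorem Q_sympT (hQ : IsNondegenerateQuadraticForm Q) (hf : IsSymplecticForm (pol Q)) (v : ι → F) (c : F)
    (x : ι → F) :
    Q (((sympT hf v c : GL ι F) : Matrix ι ι F) *ᵥ x) = Q x + (pol Q x v) ^ 2 * (c ^ 2 * Q v + c) := by
  rw [sympT_mulVec, smul_smul, Q_add hQ, hQ.smul, pol_smul_right hQ]
  ring

theorem transvection_inf_lt [Finite F] (hQ : IsNondegenerateQuadraticForm Q) (hf : IsSymplecticForm (pol Q))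
    (S : IsSpGroup hf I) (hι : 7 ≤ Fintype.card ι) : quadSimilarityGroup Q ⊓ I < I := by
  have P := isPolar hQ
  refine lt_of_le_of_ne inf_le_right ?_
  intro he
  obtain ⟨u, v, -, -, huB, hvB, huv⟩ := P.exists_hyperbolic (Fin.elim0 : Fin 0 → ι → F) (by simp; omega)
  have hQu : Q u = 0 := huB
  have hQv : Q v = 0 := hvB
  have hT : sympT hf v 1 ∈ quadSimilarityGroup Q ⊓ I := by
    rw [he]
    exact (S.mem_iff _).mpr (sympT_preserves hf v 1)
  obtain ⟨c, hc⟩ := hT.1
  have h1 := hc u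
  rw [Q_sympT hQ hf, huv, hQu, hQv] at h1
  simp at h1

/-- **In characteristic two the orthogonal group is maximal in the symplectic group.** -/
theorem quad_isMaximalIn [Finite F] (h2 : ringChar F = 2) (hQ : IsNondegenerateQuadraticForm Q)
    (hf : IsSymplecticForm (pol Q)) (S : IsSpGroup hf I) (hι : 13 ≤ Fintype.card ι) :
    IsMaximalIn I (quadSimilarityGroup Q ⊓ I) := by
  have P := isPolar hQ
  have := Fintype.ofFinite F
  have : CharP F 2 := ringChar.of_eq h2
  have h2' : ∀ a : F, a + a = 0 := fun a => CharTwo.add_self_eq_zero a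
  have hsqrt : ∀ a : F, ∃ b : F, b * b = a := fun a => by
    obtain ⟨b, hb⟩ := FiniteField.isSquare_of_char_two h2 a
    exact ⟨b, hb.symm⟩
  refine isMaximalIn_of_forall (transvection_inf_lt hQ hf S (by omega)) ?_
  intro M hHM hMI g hgM hgH
  have hpres : ∀ h ∈ M, ∀ u v, pol Q ((h : Matrix ι ι F) *ᵥ u) ((h : Matrix ι ι F) *ᵥ v) = pol Q u v :=
    fun h hh => (S.mem_iff h).mp (hMI hh)
  have hg : g ∉ quadSimilarityGroup Q := fun hs => hgH ⟨hs, hMI hgM⟩
  have hgQ : ¬ ∀ x, Q ((g : Matrix ι ι F) *ᵥ x) = Q x := by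
    intro h
    exact hg ⟨1, fun v => by rw [h, Units.val_one, one_mul]⟩
  -- transvections in `O(Q)`
  have hT : ∀ v c, c * Q v = 1 → sympT hf v c ∈ M := by
    intro v c hc
    apply hHM
    refine ⟨⟨1, fun x => ?_⟩, (S.mem_iff _).mpr (sympT_preserves hf v c)⟩
    rw [Q_sympT hQ hf, Units.val_one, one_mul]
    have : c ^ 2 * Q v + c = 0 := by
      have h3 : c ^ 2 * Q v + c = c * (c * Q v) + c := by ring
      rw [h3, hc, mul_one, h2']
    rw [this, mul_zero, add_zero]
  have hT1 : ∀ v, Q v = 1 → sympT hf v 1 ∈ M := fun v hv => hT v 1 (by rw [hv, one_mul])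
  -- a norm one vector moved to a vector of norm different from one
  have hsing : ∀ x : ι → F, ∃ e, Q e = 1 ∧ pol Q x e = 0 ∧ Q (x + e) = Q x + 1 := by
    intro x
    obtain ⟨p, q, hp, hq, hpB, hqB, hpq⟩ := P.exists_hyperbolic ![x] (by simp; omega)
    rw [P.mem_perp, Fin.forall_fin_one] at hp hq
    simp only [Matrix.cons_val_zero] at hp hq
    have hQp : Q p = 0 := hpB
    have hQq : Q q = 0 := hqB
    have hQe : Q (p + q) = 1 := by rw [Q_add hQ, hQp, hQq, hpq]; ring
    have hxe : pol Q x (p + q) = 0 := by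
      rw [pol_add_right hQ, pol_symm hQ x p, pol_symm hQ x q, hp, hq, add_zero]
    refine ⟨p + q, hQe, hxe, ?_⟩
    rw [Q_add hQ, hQe, hxe, add_zero]
  have hspan : ∀ x, x ∈ Submodule.span F {v : ι → F | Q v = 1} := by
    intro x
    by_cases hx : Q x = 0
    · obtain ⟨e, he, -, hxe⟩ := hsing x
      have h3 : x = (x + e) - e := by abel
      rw [h3]
      refine Submodule.sub_mem _ (Submodule.subset_span ?_) (Submodule.subset_span he)
      show Q (x + e) = 1
      rw [hxe, hx, zero_add]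
    · obtain ⟨b, hb⟩ := hsqrt (Q x)
      have hb0 : b ≠ 0 := by
        rintro rfl
        apply hx
        rw [← hb, mul_zero]
      have h3 : x = b • (b⁻¹ • x) := by rw [smul_smul, mul_inv_cancel₀ hb0, one_smul]
      rw [h3]
      refine Submodule.smul_mem _ _ (Submodule.subset_span ?_)
      show Q (b⁻¹ • x) = 1
      rw [hQ.smul, ← hb]
      field_simp
  obtain ⟨v₁, hv₁, hgv₁⟩ : ∃ v₁, Q v₁ = 1 ∧ Q ((g : Matrix ι ι F) *ᵥ v₁) ≠ 1 := by
    by_contra hcon
    push Not at hcon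
    apply hgQ
    intro x
    have hx := hspan x
    induction hx using Submodule.span_induction with
    | mem v hv =>
      have hv' : Q v = 1 := hv
      rw [hcon v hv', hv']
    | zero => rw [Matrix.mulVec_zero]
    | add a b _ _ ha hb =>
      rw [Matrix.mulVec_add, Q_add hQ, Q_add hQ, ha, hb, hpres g hgM]
    | smul c a _ ha =>
      rw [Matrix.mulVec_smul, hQ.smul, hQ.smul, ha]
  set v' := (g : Matrix ι ι F) *ᵥ v₁ with hv'
  have hv'M : sympT hf v' 1 ∈ M := by
    rw [hv', ← conj_sympT hf g (hpres g hgM)]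
    exact M.mul_mem (M.mul_mem hgM (hT1 v₁ hv₁)) (M.inv_mem hgM)
  have hv'0 : v' ≠ 0 := by
    intro h0
    have h3 := inv_mulVec_mulVec g v₁
    rw [← hv', h0, Matrix.mulVec_zero] at h3
    rw [← h3, Q_zero hQ] at hv₁
    exact zero_ne_one hv₁
  -- the basic step
  have hstep : ∀ w v, sympT hf w 1 ∈ M → sympT hf v 1 ∈ M → sympT hf (w + pol Q w v • v) 1 ∈ M := by
    intro w v hw hv
    have h3 := conj_sympT hf (sympT hf v 1) (sympT_preserves hf v 1) w 1
    rw [sympT_mulVec, one_smul] at h3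
    rw [← h3]
    exact M.mul_mem (M.mul_mem hv hw) (M.inv_mem hv)
  -- all norms occur
  have hnorm : ∀ s : F, s ≠ 1 → ∃ u, u ≠ 0 ∧ Q u = s ∧ sympT hf u 1 ∈ M := by
    intro s hs
    have ht : Q v' + 1 ≠ 0 := by
      intro h3
      apply hgv₁
      have h4 := h2' (1 : F)
      linear_combination h3 - h4
    have hs1 : s + 1 ≠ 0 := by
      intro h3
      apply hs
      have h4 := h2' (1 : F)
      linear_combination h3 - h4
    obtain ⟨d, hd⟩ := hsqrt ((s + 1) / (Q v' + 1))
    have hd0 : d ≠ 0 := by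
      rintro rfl
      rw [mul_zero] at hd
      exact div_ne_zero hs1 ht hd.symm
    obtain ⟨⟨x₀, hx₀⟩, -⟩ := hf.nondegenerate v' hv'0
    obtain ⟨y₁, hy₁v⟩ : ∃ y₁, pol Q y₁ v' = d := by
      refine ⟨(d / pol Q x₀ v') • x₀, ?_⟩
      rw [pol_smul_left hQ]
      field_simp
    obtain ⟨p, q, hp, hq, hpB, hqB, hpq⟩ := P.exists_hyperbolic ![v', y₁] (by simp; omega)
    rw [P.mem_perp, Fin.forall_fin_two] at hp hq
    simp only [Matrix.cons_val_zero, Matrix.cons_val_one, Matrix.cons_val_fin_one] at hp hq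
    have hQp : Q p = 0 := hpB
    have hQq : Q q = 0 := hqB
    obtain ⟨w, hQw, hwv⟩ : ∃ w, Q w = 1 ∧ pol Q w v' = d := by
      refine ⟨y₁ + (p + (1 + Q y₁) • q), ?_, ?_⟩
      · rw [Q_add hQ, pol_add_right hQ, pol_smul_right hQ, pol_symm hQ y₁ p, pol_symm hQ y₁ q,
          hp.2, hq.2, Q_add hQ, hQ.smul, pol_smul_right hQ, hQp, hQq, hpq]
        linear_combination h2' (Q y₁)
      · rw [pol_add_left hQ, pol_add_left hQ, pol_smul_left hQ, hy₁v, hp.1, hq.1]
        ring
    refine ⟨w + pol Q w v' • v', ?_, ?_, hstep w v' (hT1 w hQw) hv'M⟩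
    · intro h0
      have h3 : pol Q (w + pol Q w v' • v') v' = d := by
        rw [pol_add_left hQ, pol_smul_left hQ, pol_self hQ, hwv]
        have : (2 : F) = 0 := by
          have := h2' (1 : F)
          linear_combination this
        rw [this]
        ring
      rw [h0, pol_zero_left hQ] at h3
      exact hd0 h3.symm
    · rw [Q_add hQ, hQ.smul, pol_smul_right hQ, hQw, hwv]
      have h3 : d * d * (Q v' + 1) = s + 1 := by
        rw [hd]
        field_simp
      have h5 := h2' (1 : F)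
      linear_combination h3 + h5
  -- transitivity
  have hmove1 : ∀ x y, sympT hf x 1 ∈ M → Q x = Q y → pol Q x y ≠ 0 → sympT hf y 1 ∈ M := by
    intro x y hx hxy hne
    have hQv : Q (x + y) = pol Q x y := by
      rw [Q_add hQ, hxy, h2', zero_add]
    have hTv := hT (x + y) (pol Q x y)⁻¹ (by rw [hQv, inv_mul_cancel₀ hne])
    have h3 := conj_sympT hf _ (sympT_preserves hf (x + y) (pol Q x y)⁻¹) x 1
    rw [sympT_mulVec] at h3
    have h4 : pol Q x (x + y) = pol Q x y := by
      rw [pol_add_right hQ, hf.alternating, zero_add]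
    have h5 : x + pol Q x (x + y) • (pol Q x y)⁻¹ • (x + y) = y := by
      rw [h4, smul_smul, mul_inv_cancel₀ hne, one_smul, ← add_assoc]
      have : x + x = 0 := by
        ext i
        exact h2' _
      rw [this, zero_add]
    rw [h5] at h3
    rw [← h3]
    exact M.mul_mem (M.mul_mem hTv hx) (M.inv_mem hTv)
  have hmove : ∀ x y, sympT hf x 1 ∈ M → x ≠ 0 → y ≠ 0 → Q x = Q y → sympT hf y 1 ∈ M := by
    intro x y hx hx0 hy0 hxy
    obtain ⟨z₀, -, h3, h4⟩ := exists_common hf ⊤ x y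
      (by
        obtain ⟨-, ⟨a, ha⟩⟩ := hf.nondegenerate x hx0
        exact ⟨a, trivial, ha⟩)
      (by
        obtain ⟨-, ⟨a, ha⟩⟩ := hf.nondegenerate y hy0
        exact ⟨a, trivial, ha⟩)
    obtain ⟨p, q, hp, hq, hpB, hqB, hpq⟩ := P.exists_hyperbolic ![x, y] (by simp; omega)
    rw [P.mem_perp, Fin.forall_fin_two] at hp hq
    simp only [Matrix.cons_val_zero, Matrix.cons_val_one, Matrix.cons_val_fin_one] at hp hq
    have hQp : Q p = 0 := hpB
    have hQq : Q q = 0 := hqB
    obtain ⟨z, hQz, hxz, hyz⟩ : ∃ z, Q z = Q x ∧ pol Q x z ≠ 0 ∧ pol Q z y ≠ 0 := by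
      obtain ⟨α, hα⟩ : ∃ α, α + pol Q z₀ q = 1 := ⟨1 - pol Q z₀ q, by ring⟩
      refine ⟨z₀ + (α • p + (Q x + Q z₀ + α * pol Q z₀ p) • q), ?_, ?_, ?_⟩
      · rw [Q_add hQ, Q_smul_add hQ, hQp, hQq, hpq, pol_add_right hQ, pol_smul_right hQ,
          pol_smul_right hQ]
        have h6 := h2' (Q z₀)
        have h7 := h2' (α * pol Q z₀ p)
        linear_combination (Q x + Q z₀ + α * pol Q z₀ p) * hα + h6 + h7
      · rw [pol_add_right hQ, pol_add_right hQ, pol_smul_right hQ, pol_smul_right hQ,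
          pol_symm hQ x p, pol_symm hQ x q, hp.1, hq.1]
        simpa using h3
      · rw [pol_symm hQ, pol_add_right hQ, pol_add_right hQ, pol_smul_right hQ, pol_smul_right hQ,
          pol_symm hQ y p, pol_symm hQ y q, hp.2, hq.2]
        simpa using h4
    exact hmove1 z y (hmove1 x z hx hQz.symm hxz) (by rw [hQz, hxy]) hyz
  -- conclusion
  have hall : ∀ v, sympT hf v 1 ∈ M := by
    intro v
    by_cases hv0 : v = 0
    · rw [hv0]
      exact centres_zero hf M 1
    by_cases hv1 : Q v = 1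
    · exact hT1 v hv1
    · obtain ⟨u, hu0, huQ, huM⟩ := hnorm (Q v) hv1
      exact hmove u v huM hu0 hv0 huQ
  refine S.gen M (fun v a => ?_)
  obtain ⟨b, hb⟩ := hsqrt a
  have h3 := hall (b • v)
  rw [sympT_smul, mul_one, hb] at h3
  exact h3

theorem isSpGroup_congr {f g : (ι → F) → (ι → F) → F} (h : f = g) (hf : IsSymplecticForm f)
    (hg : IsSymplecticForm g) (S : IsSpGroup hg I) : IsSpGroup hf I := by
  subst h
  exact S

end Cfsg.Agent.Lib.Geo.SpOrth
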