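/-
Stabilisers of totally singular subspaces are maximal in `SU`.
-/
import Cfsg.Agent.Lib.Geo.SUBase
set_option autoImplicit false

namespace Cfsg.Agent.Lib.Geo.SUSingular

open Cfsg Cfsg.Geo Cfsg.Agent.Lib.Geo.Basic Cfsg.Agent.Lib.Geo.Parabolic Cfsg.Agent.Lib.Geo.Centres
open Cfsg.Agent.Lib.Geo.Polar Cfsg.Agent.Lib.Geo.UnitaryInSL Cfsg.Agent.Lib.Geo.QForm
open Cfsg.Agent.Lib.Geo.SUGen Cfsg.Agent.Lib.Geo.SUBase
open scoped MatrixGroups Matrix

variable {ι : Type} [Fintype ι] [DecidableEq ι] {F : Type*} [Field F]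
variable {σ : F ≃+* F} {f : (ι → F) → (ι → F) → F} {hf : IsUnitaryForm σ f} {I : Subgroup (GL ι F)}

/-- The transvections with centre in `W^⊥` stabilise `W`. -/
theorem uT_mem_of_orth (S : IsSUGroup hf I) (W : Submodule F (ι → F)) {z : ι → F} (hz : z ∈ orth hf W)
    (hzz : f z z = 0) (a : F) (ha : a + σ a = 0) : uT hf z a hzz ∈ subspaceStabilizer W ⊓ I := by
  refine ⟨(mem_subspaceStabilizer_iff_forall_mem W _).mpr ?_, (S.mem_iff _).mpr ⟨uT_isIso hf z a hzz ha, ?_⟩⟩
  · intro v hv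
    rw [uT_mulVec, hz v hv, zero_smul, add_zero]
    exact hv
  · exact (mem_specialLinear_iff _).mp (uT_mem hf z a hzz ha).2

theorem singular_inf_lt [Finite F] (S : IsSUGroup hf I) (hι : 7 ≤ Fintype.card ι) (W : Submodule F (ι → F))
    (hW0 : W ≠ ⊥) (hW : IsTotallySingularFor f W) : subspaceStabilizer W ⊓ I < I := by
  refine lt_of_le_of_ne inf_le_right ?_
  intro he
  have P := UForm.isPolar hf
  obtain ⟨w, hw, hw0⟩ := Submodule.exists_mem_ne_zero_of_ne_bot hW0
  obtain ⟨y, hyB, -, hyw⟩ := P.exists_singular_perp (Fin.elim0 : Fin 0 → ι → F) w (by simpa using hw0)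
    (by omega)
  have hyy : f y y = 0 := hyB
  obtain ⟨κ, hκ0, hκ⟩ := exists_trace_zero σ hf.ne_refl hf.involutive
  have hT : uT hf y κ hyy ∈ subspaceStabilizer W ⊓ I := by
    rw [he]
    exact (S.mem_iff _).mpr ⟨uT_isIso hf y κ hyy hκ, (mem_specialLinear_iff _).mp (uT_mem hf y κ hyy hκ).2⟩
  have h1 := (mem_subspaceStabilizer_iff_forall_mem W _).mp hT.1 w hw
  rw [uT_mulVec] at h1
  have h2 : f w y • κ • y ∈ W := by
    have := W.sub_mem h1 hw
    rwa [add_sub_cancel_left] at this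
  have hwy : f w y ≠ 0 := form_comm_ne hf hyw
  have h4 : (f w y * κ)⁻¹ * (f w y * κ) = 1 := inv_mul_cancel₀ (mul_ne_zero hwy hκ0)
  have h5 : y ∈ W := by
    have h6 : (f w y * κ)⁻¹ • f w y • κ • y = y := by
      rw [smul_smul, smul_smul, mul_assoc, h4, one_smul]
    have h7 := W.smul_mem (f w y * κ)⁻¹ h2
    rwa [h6] at h7
  exact hwy (hW w hw y h5)

/-- **The stabiliser of a totally singular subspace is maximal in `SU`.** -/
theorem singular_isMaximalIn [Finite F] (S : IsSUGroup hf I) (hι : 7 ≤ Fintype.card ι) (W : Submodule F (ι → F))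
    (hW0 : W ≠ ⊥) (hW : IsTotallySingularFor f W) : IsMaximalIn I (subspaceStabilizer W ⊓ I) := by
  refine isMaximalIn_of_forall (singular_inf_lt S hι W hW0 hW) ?_
  intro M hHM hMI g hgM hgH
  have P := UForm.isPolar hf
  have hpres : ∀ h ∈ M, IsIso f h := fun h hh => ((S.mem_iff h).mp (hMI hh)).1
  have hg : g ∉ subspaceStabilizer W := fun hs => hgH ⟨hs, hMI hgM⟩
  obtain ⟨x, hxW, hgx⟩ := exists_mem_not_mem_of_not_mem_subspaceStabilizer W g hg
  -- the isotropic vectors of the complement are centres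
  have hperp : ∀ z ∈ orth hf W, f z z = 0 → z ∈ cen hf M := by
    intro z hz hzz
    exact ⟨hzz, fun a ha => hHM (uT_mem_of_orth S W hz hzz a ha)⟩
  have hWo : ∀ w ∈ W, w ∈ orth hf W := fun w hw v hv => hW v hv w hw
  have hWc : ∀ w ∈ W, w ∈ cen hf M := fun w hw => hperp w (hWo w hw) (hW w hw w hw)
  have hgxc : (g : Matrix ι ι F) *ᵥ x ∈ cen hf M := cen_mulVec (hWc x hxW) hgM (hpres g hgM)
  -- an isotropic centre outside the complement
  obtain ⟨y₀, hy₀C, w₀, hw₀, hw₀y⟩ : ∃ y₀ ∈ cen hf M, ∃ w₀ ∈ W, f w₀ y₀ ≠ 0 := by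
    by_cases hgxo : (g : Matrix ι ι F) *ᵥ x ∈ orth hf W
    · obtain ⟨e₀, he₀, h1⟩ := exists_orth hf W _ hgx
      have hgg : f ((g : Matrix ι ι F) *ᵥ x) ((g : Matrix ι ι F) *ᵥ x) = 0 := cen_iso hgxc
      have h1' : f e₀ ((g : Matrix ι ι F) *ᵥ x) = 1 := by
        rw [hf.herm, h1, map_one]
      have hr : σ (-(f e₀ e₀)) = -(f e₀ e₀) := by rw [map_neg, UForm.sigma_self hf]
      obtain ⟨c, hc⟩ := exists_add_sigma_eq σ hf.ne_refl hf.involutive _ hr
      have hee : f (e₀ + c • (g : Matrix ι ι F) *ᵥ x) (e₀ + c • (g : Matrix ι ι F) *ᵥ x) = 0 := by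
        rw [hf.add_left, UForm.add_right hf, UForm.add_right hf, hf.smul_left, hf.smul_left, UForm.smul_right hf,
          UForm.smul_right hf, hgg, h1, h1']
        linear_combination hc
      have heo : e₀ + c • (g : Matrix ι ι F) *ᵥ x ∈ orth hf W :=
        (orth hf W).add_mem he₀ ((orth hf W).smul_mem _ hgxo)
      have hec := hperp _ heo hee
      refine ⟨_, cen_mulVec hec (M.inv_mem hgM) (hpres _ (M.inv_mem hgM)), x, hxW, ?_⟩
      have h2 := hpres g hgM x (((g⁻¹ : GL ι F) : Matrix ι ι F) *ᵥ (e₀ + c • (g : Matrix ι ι F) *ᵥ x))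
      rw [mulVec_inv_mulVec] at h2
      rw [← h2, UForm.add_right hf, UForm.smul_right hf, hgg, h1]
      simp
    · have : ∃ w ∈ W, f w ((g : Matrix ι ι F) *ᵥ x) ≠ 0 := by
        by_contra hcon
        push Not at hcon
        exact hgxo hcon
      obtain ⟨w, hw, hwy⟩ := this
      exact ⟨_, hgxc, w, hw, hwy⟩
  -- every isotropic vector outside the complement is a centre
  have hout : ∀ y, f y y = 0 → (∃ w ∈ W, f w y ≠ 0) → y ∈ cen hf M := by
    intro y' hy'y' hy'
    obtain ⟨w', hw', hw'y⟩ := hy'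
    obtain ⟨p, hp, hp₀, hp'⟩ := exists_common hf W y₀ y' ⟨w₀, hw₀, form_comm_ne hf hw₀y⟩
      ⟨w', hw', form_comm_ne hf hw'y⟩
    have hpp : f p p = 0 := hW p hp p hp
    obtain ⟨d, hd⟩ : ∃ d, d = f y₀ p := ⟨_, rfl⟩
    rw [← hd] at hp₀
    obtain ⟨l, hl⟩ : ∃ l, l = d / f y' p := ⟨_, rfl⟩
    have hl0 : l ≠ 0 := by
      rw [hl]
      exact div_ne_zero hp₀ hp'
    obtain ⟨y'', hy''⟩ : ∃ y'', y'' = l • y' := ⟨_, rfl⟩
    have hy''p : f y'' p = d := by
      rw [hy'', hf.smul_left, hl]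
      field_simp
    have hy''y'' : f y'' y'' = 0 := by
      rw [hy'', hf.smul_left, UForm.smul_right hf, hy'y']
      ring
    obtain ⟨q, hq⟩ : ∃ q, q = d⁻¹ • (y'' - y₀) := ⟨_, rfl⟩
    have hqp : f q p = 0 := by
      rw [hq, hf.smul_left, P.sub_left, hy''p, ← hd, sub_self, mul_zero]
    have hr : σ (-(f q q)) = -(f q q) := by rw [map_neg, UForm.sigma_self hf]
    obtain ⟨c, hc⟩ := exists_add_sigma_eq σ hf.ne_refl hf.involutive _ hr
    have hc' : c + σ c + f q q = 0 := by rw [hc]; ring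
    have hE : uE hf p q c hpp hqp ∈ M := by
      apply hHM
      refine ⟨(mem_subspaceStabilizer_iff_forall_mem W _).mpr ?_,
        (S.mem_iff _).mpr ⟨uE_isIso hf p q c hpp hqp hc', uE_det hf p q c hpp hqp⟩⟩
      intro v hv
      rw [uE_mulVec, hW v hv p hp]
      simp only [zero_smul, add_zero, mul_zero]
      exact W.sub_mem hv (W.smul_mem _ hp)
    have h1 := cen_mulVec hy₀C hE (uE_isIso hf p q c hpp hqp hc')
    rw [uE_mulVec, ← hd] at h1
    -- `E y₀ = y'' + μ p`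
    obtain ⟨μ, hμ⟩ : ∃ μ, μ = c * d - f y₀ q := ⟨_, rfl⟩
    have h2 : y₀ + d • q - f y₀ q • p + (c * d) • p = y'' + μ • p := by
      have h3 : d • q = y'' - y₀ := by
        rw [hq, smul_smul, mul_inv_cancel₀ hp₀, one_smul]
      rw [h3, hμ, sub_smul]
      abel
    rw [h2] at h1
    -- the isotropy of `y'' + μ p`
    have hisotr : μ * σ d + σ μ * d = 0 := by
      have h3 := cen_iso h1
      rw [hf.add_left, UForm.add_right hf, UForm.add_right hf, hf.smul_left, hf.smul_left, UForm.smul_right hf,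
        UForm.smul_right hf, hy''y'', hy''p, hpp, hf.herm p y'', hy''p] at h3
      linear_combination h3
    have hsd : σ d ≠ 0 := (map_ne_zero σ).mpr hp₀
    have ht : -(μ / d) + σ (-(μ / d)) = 0 := by
      rw [map_neg, map_div₀]
      field_simp
      linear_combination -hisotr
    have h4 := cen_plane (hWc p hp) h1 (-(μ / d)) ht
    have h5 : y'' + μ • p + f (y'' + μ • p) p • (-(μ / d)) • p = y'' := by
      rw [hf.add_left, hf.smul_left, hy''p, hpp, mul_zero, add_zero, smul_smul]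
      have : d * -(μ / d) = -μ := by
        field_simp
      rw [this, neg_smul]
      abel
    rw [h5] at h4
    have h6 := cen_smul h4 l⁻¹
    rwa [hy'', smul_smul, inv_mul_cancel₀ hl0, one_smul] at h6
  refine S.gen M (fun v a hv ha => ?_)
  by_cases hvo : v ∈ orth hf W
  · exact cen_mem (hperp v hvo hv) hv a ha
  · have : ∃ w ∈ W, f w v ≠ 0 := by
      by_contra hcon
      push Not at hcon
      exact hvo hcon
    exact cen_mem (hout v hv this) hv a ha

end Cfsg.Agent.Lib.Geo.SUSingular
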