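/-
Stabilisers of non-degenerate subspaces are maximal in `SU`.
-/
import Cfsg.Agent.Lib.Geo.SUSingular
set_option autoImplicit false

namespace Cfsg.Agent.Lib.Geo.SUNondeg

open Cfsg Cfsg.Geo Cfsg.Agent.Lib.Geo.Basic Cfsg.Agent.Lib.Geo.Parabolic Cfsg.Agent.Lib.Geo.Centres
open Cfsg.Agent.Lib.Geo.Polar Cfsg.Agent.Lib.Geo.UnitaryInSL Cfsg.Agent.Lib.Geo.QForm
open Cfsg.Agent.Lib.Geo.SUGen Cfsg.Agent.Lib.Geo.SUBase Cfsg.Agent.Lib.Geo.SUSingular
open scoped MatrixGroups Matrix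

variable {ι : Type} [Fintype ι] [DecidableEq ι] {F : Type*} [Field F]
variable {σ : F ≃+* F} {f : (ι → F) → (ι → F) → F} {hf : IsUnitaryForm σ f} {I : Subgroup (GL ι F)}

/-! ### Restricting to a non-degenerate subspace -/

/-- A non-degenerate subspace, with coordinates, is a unitary space. -/
theorem exists_restrict (hf : IsUnitaryForm σ f) {E : Submodule F (ι → F)} (hE : IsNondegenerateOn f E) :
    ∃ J : (Fin (Module.finrank F E) → F) →ₗ[F] (ι → F), (∀ x, J x ∈ E) ∧ (∀ y ∈ E, ∃ x, J x = y) ∧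
      IsUnitaryForm σ (fun x y => f (J x) (J y)) := by
  let b := Module.finBasis F E
  let J : (Fin (Module.finrank F E) → F) →ₗ[F] (ι → F) := E.subtype ∘ₗ b.equivFun.symm.toLinearMap
  have hJE : ∀ x, J x ∈ E := fun x => (b.equivFun.symm x).2
  have hJs : ∀ y ∈ E, ∃ x, J x = y := by
    intro y hy
    refine ⟨b.equivFun ⟨y, hy⟩, ?_⟩
    simp [J]
  have hJi : Function.Injective J := by
    intro x y hxy
    have h1 : b.equivFun.symm x = b.equivFun.symm y := Subtype.ext hxy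
    exact b.equivFun.symm.injective h1
  refine ⟨J, hJE, hJs, ?_⟩
  refine ⟨hf.ne_refl, hf.involutive, ?_, ?_, ?_, ?_⟩
  · intro x y v
    simp only [map_add, hf.add_left]
  · intro c x v
    simp only [map_smul, hf.smul_left]
  · intro v w
    exact hf.herm _ _
  · intro v hv
    have hJv : J v ≠ 0 := fun h => hv (hJi (by rw [h, map_zero]))
    obtain ⟨⟨x, hx, h1⟩, ⟨y, hy, h2⟩⟩ := hE (J v) (hJE v) hJv
    obtain ⟨x', rfl⟩ := hJs x hx
    obtain ⟨y', rfl⟩ := hJs y hy
    exact ⟨⟨x', h1⟩, ⟨y', h2⟩⟩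

/-- Hyperbolic pairs orthogonal to a given vector. -/
theorem exists_hyp_in [Finite F] (hf : IsUnitaryForm σ f) {E : Submodule F (ι → F)}
    (hE : IsNondegenerateOn f E) (hd : 5 ≤ Module.finrank F E) (b : ι → F) (hb : b ∈ E) :
    ∃ p ∈ E, ∃ q ∈ E, f p p = 0 ∧ f q q = 0 ∧ f p q = 1 ∧ f p b = 0 ∧ f q b = 0 := by
  obtain ⟨J, hJE, hJs, hf'⟩ := exists_restrict hf hE
  have P := UForm.isPolar hf'
  obtain ⟨b', rfl⟩ := hJs b hb
  obtain ⟨p, q, hp, hq, hpB, hqB, hpq⟩ := P.exists_hyperbolic (fun _ : Fin 1 => b') (by simpa using hd)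
  exact ⟨J p, hJE p, J q, hJE q, hpB, hqB, hpq, (P.mem_perp _ p).mp hp 0, (P.mem_perp _ q).mp hq 0⟩

/-- A non-degenerate subspace of dimension at least 7 is spanned by its isotropic vectors. -/
theorem le_span_isotropic [Finite F] (hf : IsUnitaryForm σ f) {E : Submodule F (ι → F)}
    (hE : IsNondegenerateOn f E) (hd : 7 ≤ Module.finrank F E) :
    E ≤ Submodule.span F {z | z ∈ E ∧ f z z = 0} := by
  obtain ⟨J, hJE, hJs, hf'⟩ := exists_restrict hf hE
  have P := UForm.isPolar hf'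
  have hne : (1 : Fin (Module.finrank F E) → F) ≠ 0 := by
    haveI : Nonempty (Fin (Module.finrank F E)) := ⟨⟨0, by omega⟩⟩
    exact one_ne_zero
  have h1 := P.top_le_span 1 hne (by simpa using hd)
  intro y hy
  obtain ⟨y', rfl⟩ := hJs y hy
  have h2 : y' ∈ Submodule.span F {c | c ∈ {x | f (J x) (J x) = 0} ∧ f (J c) (J 1) ≠ 0} := h1 trivial
  have h3 := Submodule.mem_map_of_mem (f := J) h2
  rw [Submodule.map_span] at h3
  refine Submodule.span_mono ?_ h3
  rintro _ ⟨c, hc, rfl⟩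
  exact ⟨hJE c, hc.1⟩

/-! ### Moves inside a non-degenerate subspace -/

/-- An isometry acting on `X`, trivially on `X^⊥`. -/
structure IsMove (f : (ι → F) → (ι → F) → F) (σ : F ≃+* F) (X : Submodule F (ι → F)) (h : GL ι F) : Prop where
  iso : IsIso f h
  fix : ∀ y, (∀ x ∈ X, f y x = 0) → (h : Matrix ι ι F) *ᵥ y = y
  pres : ∀ x ∈ X, (h : Matrix ι ι F) *ᵥ x ∈ X
  det : (h : Matrix ι ι F).det * σ (h : Matrix ι ι F).det = 1

theorem IsMove.mul {X : Submodule F (ι → F)} {g h : GL ι F} (hg : IsMove f σ X g) (hh : IsMove f σ X h) :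
    IsMove f σ X (g * h) where
  iso := hg.iso.mul hh.iso
  fix := by
    intro y hy
    rw [Units.val_mul, ← Matrix.mulVec_mulVec, hh.fix y hy, hg.fix y hy]
  pres := by
    intro x hx
    rw [Units.val_mul, ← Matrix.mulVec_mulVec]
    exact hg.pres _ (hh.pres x hx)
  det := by
    rw [Units.val_mul, Matrix.det_mul, map_mul]
    linear_combination (((h : Matrix ι ι F).det) * σ ((h : Matrix ι ι F).det)) * hg.det + hh.det

theorem isMove_uR (hf : IsUnitaryForm σ f) {X : Submodule F (ι → F)} {v : ι → F} (hvX : v ∈ X) (μ : F)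
    (hv : f v v ≠ 0) (hμ : μ * σ μ = 1) : IsMove f σ X (uR hf v μ hv hμ) where
  iso := uR_isIso hf v μ hv hμ
  fix := by
    intro y hy
    rw [uR_mulVec, hy v hvX, zero_mul, zero_smul, add_zero]
  pres := by
    intro x hx
    rw [uR_mulVec]
    exact X.add_mem hx (X.smul_mem _ hvX)
  det := by
    rw [uR_det]
    exact hμ

theorem isMove_uT (hf : IsUnitaryForm σ f) {X : Submodule F (ι → F)} {v : ι → F} (hvX : v ∈ X) (a : F)
    (hv : f v v = 0) (ha : a + σ a = 0) : IsMove f σ X (uT hf v a hv) where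
  iso := uT_isIso hf v a hv ha
  fix := by
    intro y hy
    rw [uT_mulVec, hy v hvX, zero_smul, add_zero]
  pres := by
    intro x hx
    rw [uT_mulVec]
    exact X.add_mem hx (X.smul_mem _ (X.smul_mem _ hvX))
  det := by
    have h1 : (uT hf v a hv : GL ι F) ∈ specialLinear ι F := (uT_mem hf v a hv ha).2
    rw [(mem_specialLinear_iff _).mp h1, map_one, one_mul]

/-- Two non-zero elements are simultaneously of non-zero trace after scaling. -/
theorem exists_trace_ne (hf : IsUnitaryForm σ f) (u w : F) (hu : u ≠ 0) (hw : w ≠ 0) :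
    ∃ s : F, s * u + σ (s * u) ≠ 0 ∧ s * w + σ (s * w) ≠ 0 := by
  obtain ⟨s₀, hs₀⟩ := exists_add_sigma_eq σ hf.ne_refl hf.involutive 1 (map_one σ)
  have h1 : (s₀ / u) * u + σ ((s₀ / u) * u) = 1 := by
    rw [div_mul_cancel₀ _ hu]
    exact hs₀
  have h2 : (s₀ / w) * w + σ ((s₀ / w) * w) = 1 := by
    rw [div_mul_cancel₀ _ hw]
    exact hs₀
  by_cases h3 : (s₀ / u) * w + σ ((s₀ / u) * w) = 0
  · by_cases h4 : (s₀ / w) * u + σ ((s₀ / w) * u) = 0
    · refine ⟨s₀ / u + s₀ / w, ?_, ?_⟩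
      · have : (s₀ / u + s₀ / w) * u + σ ((s₀ / u + s₀ / w) * u) =
            ((s₀ / u) * u + σ ((s₀ / u) * u)) + ((s₀ / w) * u + σ ((s₀ / w) * u)) := by
          rw [add_mul, map_add]
          ring
        rw [this, h1, h4, add_zero]
        exact one_ne_zero
      · have : (s₀ / u + s₀ / w) * w + σ ((s₀ / u + s₀ / w) * w) =
            ((s₀ / u) * w + σ ((s₀ / u) * w)) + ((s₀ / w) * w + σ ((s₀ / w) * w)) := by
          rw [add_mul, map_add]
          ring
        rw [this, h2, h3, zero_add]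
        exact one_ne_zero
    · exact ⟨s₀ / w, h4, by rw [h2]; exact one_ne_zero⟩
  · exact ⟨s₀ / u, by rw [h1]; exact one_ne_zero, h3⟩

section Moves

variable [Finite F]

/-- A reflection moving `a` to `a'` when the difference is anisotropic. -/
theorem move_case1 (hf : IsUnitaryForm σ f) {X : Submodule F (ι → F)} {a a' : ι → F} (ha : a ∈ X) (ha' : a' ∈ X)
    (hnorm : f a' a' = f a a) (hv : f (a - a') (a - a') ≠ 0) :
    ∃ h : GL ι F, IsMove f σ X h ∧ (h : Matrix ι ι F) *ᵥ a = a' := by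
  have P := UForm.isPolar hf
  obtain ⟨x, hx⟩ : ∃ x, x = f a (a - a') := ⟨_, rfl⟩
  have hvv : f (a - a') (a - a') = x + σ x := by
    rw [hx, UForm.sigma_form hf a (a - a')]
    simp only [P.sub_left, P.sub_right, hnorm]
    ring
  have hx0 : x ≠ 0 := by
    rintro rfl
    rw [map_zero, add_zero] at hvv
    exact hv hvv
  have hsx0 : σ x ≠ 0 := (map_ne_zero σ).mpr hx0
  obtain ⟨μ, hμd⟩ : ∃ μ, μ = - σ x / x := ⟨_, rfl⟩
  have hμ : μ * σ μ = 1 := by
    rw [hμd, map_div₀, map_neg, hf.involutive]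
    field_simp
  refine ⟨uR hf (a - a') μ hv hμ, isMove_uR hf (X.sub_mem ha ha') μ hv hμ, ?_⟩
  rw [uR_mulVec, ← hx, hvv]
  have h1 : x * ((μ - 1) / (x + σ x)) = -1 := by
    have h2 : x + σ x ≠ 0 := by rw [← hvv]; exact hv
    rw [hμd]
    field_simp
    ring
  rw [h1]
  ext i
  simp

/-- Moving between non-zero vectors of the same norm in a non-degenerate subspace. -/
theorem exists_move_in (hf : IsUnitaryForm σ f) {X : Submodule F (ι → F)} (hX : IsNondegenerateOn f X)
    {a a' : ι → F} (ha : a ∈ X) (ha' : a' ∈ X) (ha0 : a ≠ 0) (ha'0 : a' ≠ 0) (hnorm : f a' a' = f a a) :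
    ∃ h : GL ι F, IsMove f σ X h ∧ (h : Matrix ι ι F) *ᵥ a = a' := by
  have P := UForm.isPolar hf
  by_cases hv : f (a - a') (a - a') = 0
  swap
  · exact move_case1 hf ha ha' hnorm hv
  obtain ⟨x, hx⟩ : ∃ x, x = f a (a - a') := ⟨_, rfl⟩
  have hvv : x + σ x = 0 := by
    rw [← hv, hx, UForm.sigma_form hf a (a - a')]
    simp only [P.sub_left, P.sub_right, hnorm]
    ring
  by_cases hx0 : x = 0
  swap
  · have hsx0 : σ x ≠ 0 := (map_ne_zero σ).mpr hx0
    have hc : -x⁻¹ + σ (-x⁻¹) = 0 := by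
      rw [map_neg, map_inv₀]
      have hs : σ x = -x := eq_neg_of_add_eq_zero_right hvv
      rw [hs]
      field_simp
      ring
    refine ⟨uT hf (a - a') (-x⁻¹) hv, isMove_uT hf (X.sub_mem ha ha') _ hv hc, ?_⟩
    rw [uT_mulVec, ← hx, smul_smul]
    have : x * -x⁻¹ = -1 := by
      field_simp
    rw [this]
    ext i
    simp
  have hab : f a a' = f a a := by
    rw [hx, P.sub_right] at hx0
    linear_combination -hx0
  by_cases hr : f a a = 0
  · -- both isotropic and orthogonal: a detour through an isotropic vector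
    have haa' : f a a' = 0 := by rw [hab, hr]
    have ha'a : f a' a = 0 := UForm.refl hf _ _ haa'
    obtain ⟨-, ⟨e₁, he₁, h1⟩⟩ := hX a ha ha0
    obtain ⟨-, ⟨e₂, he₂, h2⟩⟩ := hX a' ha' ha'0
    obtain ⟨c₀, hc₀, h3, h4⟩ := exists_common hf X a a' ⟨e₁, he₁, h1⟩ ⟨e₂, he₂, h2⟩
    obtain ⟨l, hl⟩ := P.B_shift a c₀ hr h3
    have hcc : f (c₀ + l • a) (c₀ + l • a) = 0 := hl
    obtain ⟨c₁, hc₁⟩ : ∃ c₁, c₁ = c₀ + l • a := ⟨_, rfl⟩
    rw [← hc₁] at hcc
    have hc₁X : c₁ ∈ X := by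
      rw [hc₁]
      exact X.add_mem hc₀ (X.smul_mem _ ha)
    have h5 : f a c₁ ≠ 0 := by
      rw [hc₁, UForm.add_right hf, UForm.smul_right hf, hr, mul_zero, add_zero]
      exact h3
    have h6 : f a' c₁ ≠ 0 := by
      rw [hc₁, UForm.add_right hf, UForm.smul_right hf, ha'a, mul_zero, add_zero]
      exact h4
    obtain ⟨s, hs1, hs2⟩ := exists_trace_ne hf _ _ h5 h6
    -- the intermediate vector `σ s • c₁`
    obtain ⟨c, hc⟩ : ∃ c, c = σ s • c₁ := ⟨_, rfl⟩
    have hcX : c ∈ X := by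
      rw [hc]
      exact X.smul_mem _ hc₁X
    have hcn : f c c = 0 := by
      rw [hc, hf.smul_left, UForm.smul_right hf, hcc]
      ring
    have hac : f a c = s * f a c₁ := by
      rw [hc, UForm.smul_right hf, hf.involutive]
    have ha'c : f a' c = s * f a' c₁ := by
      rw [hc, UForm.smul_right hf, hf.involutive]
    have hca : f c a = σ (s * f a c₁) := by
      rw [hf.herm, hac]
    have hca' : f c a' = σ (s * f a' c₁) := by
      rw [hf.herm, ha'c]
    have hnorm' : f a' a' = 0 := by rw [hnorm, hr]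
    obtain ⟨h₁, hM₁, ha₁⟩ := move_case1 hf ha hcX (by rw [hcn, hr]) (by
      simp only [P.sub_left, P.sub_right, hr, hcn, hac, hca]
      intro h0
      apply hs1
      linear_combination -h0)
    obtain ⟨h₂, hM₂, ha₂⟩ := move_case1 hf hcX ha' (by rw [hnorm', hcn]) (by
      simp only [P.sub_left, P.sub_right, hnorm', hcn, ha'c, hca']
      intro h0
      apply hs2
      linear_combination -h0)
    refine ⟨h₂ * h₁, hM₂.mul hM₁, ?_⟩
    rw [Units.val_mul, ← Matrix.mulVec_mulVec, ha₁, ha₂]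
  · -- a detour through `κ a`
    have hκ : ∃ κ : F, κ * σ κ = 1 ∧ κ ≠ 1 := by
      have hy : ∃ y : F, σ y ≠ y := by
        by_contra hcon
        push Not at hcon
        apply hf.ne_refl
        ext z
        simpa using hcon z
      obtain ⟨y, hy⟩ := hy
      have hy0 : y ≠ 0 := by
        rintro rfl
        simp at hy
      have hsy0 : σ y ≠ 0 := (map_ne_zero σ).mpr hy0
      refine ⟨y / σ y, ?_, ?_⟩
      · rw [map_div₀, hf.involutive]
        field_simp
      · intro h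
        apply hy
        rw [div_eq_one_iff_eq hsy0] at h
        exact h.symm
    obtain ⟨κ, hκ1, hκ⟩ := hκ
    have hκa : f (κ • a) (κ • a) = f a a := by
      rw [hf.smul_left, UForm.smul_right hf, ← mul_assoc, hκ1, one_mul]
    have hκb : f (κ • a - a') (κ • a - a') ≠ 0 := by
      have hsub : κ • a - a' = (κ - 1) • a + (a - a') := by
        rw [sub_smul, one_smul]
        abel
      have haV : f a (a - a') = 0 := by rw [← hx]; exact hx0
      have hVa : f (a - a') a = 0 := UForm.refl hf _ _ haV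
      rw [hsub, hf.add_left, UForm.add_right hf, UForm.add_right hf, hf.smul_left, hf.smul_left,
        UForm.smul_right hf, UForm.smul_right hf, hVa, haV, hv]
      have hne : κ - 1 ≠ 0 := sub_ne_zero.mpr hκ
      have hne' : σ (κ - 1) ≠ 0 := (map_ne_zero σ).mpr hne
      simp only [mul_zero, add_zero, zero_add]
      exact mul_ne_zero hne (mul_ne_zero hne' hr)
    obtain ⟨h₂, hM₂, ha₂⟩ := move_case1 hf (X.smul_mem κ ha) ha' (by rw [hκa, hnorm]) hκb
    refine ⟨h₂ * uR hf a κ hr hκ1, hM₂.mul (isMove_uR hf ha κ hr hκ1), ?_⟩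
    rw [Units.val_mul, ← Matrix.mulVec_mulVec, uR_mulVec, div_eq_mul_inv]
    have : f a a * ((κ - 1) * (f a a)⁻¹) = κ - 1 := by field_simp
    rw [this, sub_smul, one_smul]
    have h3 : a + (κ • a - a) = κ • a := by abel
    rw [h3, ha₂]

end Moves

/-! ### Orthogonal decompositions -/

section Orth

variable [Finite F]

theorem mem_of_orth_orth (hf : IsUnitaryForm σ f) (W : Submodule F (ι → F)) (z : ι → F)
    (h : ∀ e ∈ orth hf W, f z e = 0) : z ∈ W := by
  by_contra hz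
  obtain ⟨e, he, h1⟩ := exists_orth hf W z hz
  rw [h e he] at h1
  exact zero_ne_one h1

theorem eq_zero_of_mem_of_mem_orth (hf : IsUnitaryForm σ f) {W : Submodule F (ι → F)}
    (hW : IsNondegenerateOn f W) {z : ι → F} (h1 : z ∈ W) (h2 : z ∈ orth hf W) : z = 0 := by
  by_contra h0
  obtain ⟨⟨x, hx, hxz⟩, -⟩ := hW z h1 h0
  exact hxz (h2 x hx)

theorem sup_orth (hf : IsUnitaryForm σ f) {W : Submodule F (ι → F)}
    (hW : IsNondegenerateOn f W) : W ⊔ orth hf W = ⊤ := by
  have P := UForm.isPolar hf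
  rw [eq_top_iff]
  intro x _
  by_contra hx
  obtain ⟨z, hz, h1⟩ := exists_orth hf _ x hx
  have h2 : z ∈ W := mem_of_orth_orth hf W z (fun e he =>
    UForm.refl hf _ _ (hz e (Submodule.mem_sup_right he)))
  have h3 : z ∈ orth hf W := fun w hw => hz w (Submodule.mem_sup_left hw)
  have h4 := eq_zero_of_mem_of_mem_orth hf hW h2 h3
  rw [h4, P.zero_right] at h1
  exact zero_ne_one h1

theorem exists_decomp (hf : IsUnitaryForm σ f) {W : Submodule F (ι → F)}
    (hW : IsNondegenerateOn f W) (x : ι → F) : ∃ a ∈ W, ∃ b ∈ orth hf W, a + b = x := by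
  have : x ∈ W ⊔ orth hf W := by
    rw [sup_orth hf hW]
    trivial
  exact Submodule.mem_sup.mp this

theorem finrank_add_orth (hf : IsUnitaryForm σ f) {W : Submodule F (ι → F)}
    (hW : IsNondegenerateOn f W) :
    Module.finrank F W + Module.finrank F (orth hf W) = Fintype.card ι := by
  have hc : IsCompl W (orth hf W) := by
    refine ⟨?_, codisjoint_iff.mpr (sup_orth hf hW)⟩
    rw [Submodule.disjoint_def]
    intro z h1 h2
    exact eq_zero_of_mem_of_mem_orth hf hW h1 h2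
  have := Submodule.finrank_add_eq_of_isCompl hc
  simpa using this

theorem isNondegenerateOn_orth (hf : IsUnitaryForm σ f) {W : Submodule F (ι → F)}
    (hW : IsNondegenerateOn f W) : IsNondegenerateOn f (orth hf W) := by
  intro y hy hy0
  have hyW : y ∉ W := fun h => hy0 (eq_zero_of_mem_of_mem_orth hf hW h hy)
  obtain ⟨z, hz, h1⟩ := exists_orth hf W y hyW
  have h2 : f y z ≠ 0 := by rw [h1]; exact one_ne_zero
  exact ⟨⟨z, hz, form_comm_ne hf h2⟩, ⟨z, hz, h2⟩⟩

/-- An isotropic partner inside a non-degenerate subspace. -/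
theorem exists_partner (hf : IsUnitaryForm σ f) {X : Submodule F (ι → F)} (hX : IsNondegenerateOn f X)
    {A : ι → F} (hA : A ∈ X) (hA0 : A ≠ 0) (hAA : f A A = 0) :
    ∃ A' ∈ X, f A' A' = 0 ∧ f A' A = 1 ∧ f A A' = 1 := by
  have P := UForm.isPolar hf
  obtain ⟨⟨x, hx, h1⟩, -⟩ := hX A hA hA0
  obtain ⟨x', hx'⟩ : ∃ x', x' = (f x A)⁻¹ • x := ⟨_, rfl⟩
  have hx'A : f x' A = 1 := by
    rw [hx', hf.smul_left, inv_mul_cancel₀ h1]
  have hAx' : f A x' = 1 := by
    rw [hf.herm, hx'A, map_one]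
  obtain ⟨l, hl⟩ := P.B_shift A x' hAA (by rw [hAx']; exact one_ne_zero)
  have h2 : f (x' + l • A) A = 1 := by
    rw [hf.add_left, hf.smul_left, hAA, hx'A]
    ring
  refine ⟨x' + l • A, X.add_mem (by rw [hx']; exact X.smul_mem _ hx) (X.smul_mem _ hA), hl, h2, ?_⟩
  rw [hf.herm, h2, map_one]

end Orth

section Main

variable [Finite F]

/-- A vector of given trace norm in a subspace with a hyperbolic pair orthogonal to `b`. -/
theorem exists_norm_orth (hf : IsUnitaryForm σ f) {E : Submodule F (ι → F)}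
    (hE : IsNondegenerateOn f E) (hd : 5 ≤ Module.finrank F E) (b : ι → F) (hb : b ∈ E) (r : F) (hr : σ r = r) :
    ∃ e ∈ E, e ≠ 0 ∧ f e e = r ∧ f b e = 0 := by
  obtain ⟨p, hp, q, hq, hpp, hqq, hpq, hpb, hqb⟩ := exists_hyp_in hf hE hd b hb
  obtain ⟨s, hs⟩ := exists_add_sigma_eq σ hf.ne_refl hf.involutive r hr
  have hqp : f q p = 1 := by rw [hf.herm, hpq, map_one]
  refine ⟨p + s • q, E.add_mem hp (E.smul_mem _ hq), ?_, ?_, ?_⟩
  · intro h0
    have h1 : f (p + s • q) q = 0 := by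
      rw [h0]
      exact UForm.zero_left hf _
    rw [hf.add_left, hf.smul_left, hpq, hqq] at h1
    simp at h1
  · rw [hf.add_left, UForm.add_right hf, UForm.add_right hf, hf.smul_left, hf.smul_left, UForm.smul_right hf,
      UForm.smul_right hf, hpp, hqq, hpq, hqp, ← hs]
    ring
  · rw [UForm.add_right hf, UForm.smul_right hf, UForm.refl hf _ _ hpb, UForm.refl hf _ _ hqb]
    ring

theorem nondeg_inf_lt (S : IsSUGroup hf I) (W : Submodule F (ι → F)) (hW0 : W ≠ ⊥)
    (hW : IsNondegenerateOn f W) (hd : 5 ≤ Module.finrank F (orth hf W)) :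
    subspaceStabilizer W ⊓ I < I := by
  refine lt_of_le_of_ne inf_le_right ?_
  intro he
  have hO := isNondegenerateOn_orth hf hW
  obtain ⟨a, ha, ha0⟩ := Submodule.exists_mem_ne_zero_of_ne_bot hW0
  obtain ⟨⟨x, hx, hxa⟩, -⟩ := hW a ha ha0
  obtain ⟨b, hb, hb0, hbb, -⟩ := exists_norm_orth hf hO hd 0 (Submodule.zero_mem _) (-(f a a))
    (by rw [map_neg, UForm.sigma_self hf])
  have hab : f a b = 0 := hb a ha
  have hba : f b a = 0 := UForm.refl hf _ _ hab
  have hv : f (a + b) (a + b) = 0 := by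
    rw [hf.add_left, UForm.add_right hf, UForm.add_right hf, hab, hba, hbb]
    ring
  obtain ⟨κ, hκ0, hκ⟩ := exists_trace_zero σ hf.ne_refl hf.involutive
  have hT : uT hf (a + b) κ hv ∈ subspaceStabilizer W ⊓ I := by
    rw [he]
    exact (S.mem_iff _).mpr ⟨uT_isIso hf _ κ hv hκ, (mem_specialLinear_iff _).mp (uT_mem hf _ κ hv hκ).2⟩
  have h1 := (mem_subspaceStabilizer_iff_forall_mem W _).mp hT.1 x hx
  rw [uT_mulVec, UForm.add_right hf, hb x hx, add_zero] at h1
  have h2 : f x a • κ • (a + b) ∈ W := by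
    have := W.sub_mem h1 hx
    rwa [add_sub_cancel_left] at this
  have h3 := W.smul_mem (f x a * κ)⁻¹ h2
  rw [smul_smul, smul_smul, mul_assoc, inv_mul_cancel₀ (mul_ne_zero hxa hκ0), one_smul] at h3
  have h4 : b ∈ W := by
    have := W.sub_mem h3 ha
    rwa [add_sub_cancel_left] at this
  exact hb0 (eq_zero_of_mem_of_mem_orth hf hW h4 hb)

/-- **The stabiliser of a non-degenerate subspace of dimension less than half the dimension is maximal in `SU`.** -/
theorem nondeg_isMaximalIn (S : IsSUGroup hf I) (W : Submodule F (ι → F)) (hW0 : W ≠ ⊥)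
    (hW : IsNondegenerateOn f W) (hdim : 2 * Module.finrank F W < Fintype.card ι)
    (hd : 7 ≤ Module.finrank F (orth hf W)) :
    IsMaximalIn I (subspaceStabilizer W ⊓ I) := by
  refine isMaximalIn_of_forall (nondeg_inf_lt S W hW0 hW (by omega)) ?_
  intro M hHM hMI g hgM hgH
  have P := UForm.isPolar hf
  have hpres : ∀ h ∈ M, IsIso f h := fun h hh => ((S.mem_iff h).mp (hMI hh)).1
  have hg : g ∉ subspaceStabilizer W := fun hs => hgH ⟨hs, hMI hgM⟩
  have h0 := finrank_add_orth hf hW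
  have hO := isNondegenerateOn_orth hf hW
  obtain ⟨E, hEd⟩ : ∃ E, E = orth hf W := ⟨_, rfl⟩
  rw [← hEd] at h0 hO hd
  have hEW : ∀ e ∈ E, ∀ w ∈ W, f w e = 0 := by
    intro e he w hw
    rw [hEd] at he
    exact he w hw
  have hWE : ∀ e ∈ E, ∀ w ∈ W, f e w = 0 := fun e he w hw => UForm.refl hf _ _ (hEW e he w hw)
  -- isotropic vectors in `W` or `E` are centres
  have hcO : ∀ z ∈ E, f z z = 0 → z ∈ cen hf M := by
    intro z hz hzz
    exact ⟨hzz, fun a ha => hHM (uT_mem_of_orth S W (by rw [← hEd]; exact hz) hzz a ha)⟩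
  have hcW : ∀ z ∈ W, f z z = 0 → z ∈ cen hf M := by
    intro z hz hzz
    refine ⟨hzz, fun a ha => hHM ⟨(mem_subspaceStabilizer_iff_forall_mem W _).mpr ?_,
      (S.mem_iff _).mpr ⟨uT_isIso hf z a hzz ha, (mem_specialLinear_iff _).mp (uT_mem hf z a hzz ha).2⟩⟩⟩
    intro v hv
    rw [uT_mulVec]
    exact W.add_mem hv (W.smul_mem _ (W.smul_mem _ hz))
  -- moves of the components
  have hinv : ∀ d : F, d * σ d = 1 → d⁻¹ * σ d⁻¹ = 1 := by
    intro d hd
    have hd0 : d ≠ 0 := left_ne_zero_of_mul_eq_one hd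
    have hsd0 : σ d ≠ 0 := (map_ne_zero σ).mpr hd0
    rw [map_inv₀, ← mul_inv, hd, inv_one]
  have hdet : ∀ (h : GL ι F) (e : ι → F) (he : f e e ≠ 0) (hd : (h : Matrix ι ι F).det * σ (h : Matrix ι ι F).det = 1),
      ((uR hf e ((h : Matrix ι ι F).det)⁻¹ he (hinv _ hd) * h : GL ι F) : Matrix ι ι F).det = 1 := by
    intro h e he hd
    rw [Units.val_mul, Matrix.det_mul, uR_det]
    exact inv_mul_cancel₀ (left_ne_zero_of_mul_eq_one hd)
  have hmoveW : ∀ a ∈ W, ∀ a' ∈ W, ∀ b ∈ E, a ≠ 0 → a' ≠ 0 → f a' a' = f a a → a + b ∈ cen hf M →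
      a' + b ∈ cen hf M := by
    intro a ha a' ha' b hb ha0 ha'0 hn hc
    obtain ⟨h, hm, hh⟩ := exists_move_in hf hW ha ha' ha0 ha'0 hn
    obtain ⟨e, he, -, hee, hbe⟩ := exists_norm_orth hf hO (by omega) b hb 1 (map_one σ)
    have hee0 : f e e ≠ 0 := by rw [hee]; exact one_ne_zero
    have hG : uR hf e ((h : Matrix ι ι F).det)⁻¹ hee0 (hinv _ hm.det) * h ∈ M := by
      apply hHM
      refine ⟨(mem_subspaceStabilizer_iff_forall_mem W _).mpr ?_, (S.mem_iff _).mpr
        ⟨(uR_isIso hf _ _ _ _).mul hm.iso, hdet h e hee0 hm.det⟩⟩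
      intro v hv
      rw [Units.val_mul, ← Matrix.mulVec_mulVec, uR_mulVec]
      have h1 := hm.pres v hv
      rw [hEW e he _ h1, zero_mul, zero_smul, add_zero]
      exact h1
    have h1 := cen_mulVec hc hG ((uR_isIso hf _ _ _ _).mul hm.iso)
    have hfixb : (h : Matrix ι ι F) *ᵥ b = b := hm.fix b (fun x hx => hWE b hb x hx)
    rw [Units.val_mul, ← Matrix.mulVec_mulVec, Matrix.mulVec_add, hh, hfixb, uR_mulVec, hf.add_left, hbe,
      hEW e he a' ha', add_zero, zero_mul, zero_smul, add_zero] at h1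
    exact h1
  have hmoveE : ∀ a ∈ W, ∀ b ∈ E, ∀ b' ∈ E, b ≠ 0 → b' ≠ 0 → f b' b' = f b b → a + b ∈ cen hf M →
      a + b' ∈ cen hf M := by
    intro a ha b hb b' hb' hb0 hb'0 hn hc
    obtain ⟨h, hm, hh⟩ := exists_move_in hf hO hb hb' hb0 hb'0 hn
    obtain ⟨e, he, -, hee, hbe⟩ := exists_norm_orth hf hO (by omega) b' hb' 1 (map_one σ)
    have hee0 : f e e ≠ 0 := by rw [hee]; exact one_ne_zero
    have hG : uR hf e ((h : Matrix ι ι F).det)⁻¹ hee0 (hinv _ hm.det) * h ∈ M := by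
      apply hHM
      refine ⟨(mem_subspaceStabilizer_iff_forall_mem W _).mpr ?_, (S.mem_iff _).mpr
        ⟨(uR_isIso hf _ _ _ _).mul hm.iso, hdet h e hee0 hm.det⟩⟩
      intro v hv
      have hfix : (h : Matrix ι ι F) *ᵥ v = v := hm.fix v (fun x hx => hEW x hx v hv)
      rw [Units.val_mul, ← Matrix.mulVec_mulVec, hfix, uR_mulVec, hEW e he v hv, zero_mul, zero_smul, add_zero]
      exact hv
    have h1 := cen_mulVec hc hG ((uR_isIso hf _ _ _ _).mul hm.iso)
    have hfixa : (h : Matrix ι ι F) *ᵥ a = a := hm.fix a (fun x hx => hEW x hx a ha)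
    rw [Units.val_mul, ← Matrix.mulVec_mulVec, Matrix.mulVec_add, hh, hfixa, uR_mulVec, hf.add_left, hbe,
      hEW e he a ha, add_zero, zero_mul, zero_smul, add_zero] at h1
    exact h1
  have htype : ∀ a₁ ∈ W, ∀ b₁ ∈ E, a₁ ≠ 0 → b₁ ≠ 0 → a₁ + b₁ ∈ cen hf M → ∀ a ∈ W, ∀ b ∈ E, a ≠ 0 → b ≠ 0 →
      f a a = f a₁ a₁ → f b b = f b₁ b₁ → a + b ∈ cen hf M := by
    intro a₁ ha₁ b₁ hb₁ ha₁0 hb₁0 hc a ha b hb ha0 hb0 h1 h2
    exact hmoveE a ha b₁ hb₁ b hb hb₁0 hb0 h2 (hmoveW a₁ ha₁ a ha b₁ hb₁ ha₁0 ha0 h1 hc)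
  have hnormsum : ∀ a ∈ W, ∀ b ∈ E, f (a + b) (a + b) = f a a + f b b := by
    intro a ha b hb
    rw [hf.add_left, UForm.add_right hf, UForm.add_right hf, hEW b hb a ha, hWE b hb a ha]
    ring
  -- a vector of the complement moved outside both
  obtain ⟨z, hz, hzz, hz1, hz2⟩ : ∃ z ∈ E, f z z = 0 ∧ (g : Matrix ι ι F) *ᵥ z ∉ W ∧
      (g : Matrix ι ι F) *ᵥ z ∉ E := by
    by_contra hcon
    push Not at hcon
    have hcase : (∀ z ∈ E, f z z = 0 → (g : Matrix ι ι F) *ᵥ z ∈ W) ∨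
        (∀ z ∈ E, f z z = 0 → (g : Matrix ι ι F) *ᵥ z ∈ E) := by
      by_contra hc
      push Not at hc
      obtain ⟨⟨z₁, hz₁, hzz₁, h1⟩, ⟨z₂, hz₂, hzz₂, h2⟩⟩ := hc
      have h1' := hcon z₁ hz₁ hzz₁ h1
      have h2' : (g : Matrix ι ι F) *ᵥ z₂ ∈ W := by
        by_contra h3
        exact h2 (hcon z₂ hz₂ hzz₂ h3)
      have hz₁₂ : f z₁ z₂ = 0 := by
        rw [← hpres g hgM]
        exact hWE _ h1' _ h2'
      have hz₂₁ : f z₂ z₁ = 0 := UForm.refl hf _ _ hz₁₂
      have hzz₁₂ : f (z₁ + z₂) (z₁ + z₂) = 0 := by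
        rw [hf.add_left, UForm.add_right hf, UForm.add_right hf, hzz₁, hzz₂, hz₁₂, hz₂₁]
        ring
      by_cases h3 : (g : Matrix ι ι F) *ᵥ (z₁ + z₂) ∈ W
      · apply h1
        rw [Matrix.mulVec_add] at h3
        have := W.sub_mem h3 h2'
        rwa [add_sub_cancel_right] at this
      · have h4 := hcon _ (E.add_mem hz₁ hz₂) hzz₁₂ h3
        apply h2
        rw [Matrix.mulVec_add] at h4
        have := E.sub_mem h4 h1'
        rwa [add_sub_cancel_left] at this
    have hspan := le_span_isotropic hf hO hd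
    rcases hcase with h | h
    · have hk : ∀ x ∈ Submodule.span F {z | z ∈ E ∧ f z z = 0}, (g : Matrix ι ι F) *ᵥ x ∈ W := by
        intro x hx
        induction hx using Submodule.span_induction with
        | mem x hx => exact h x hx.1 hx.2
        | zero => simp
        | add x y _ _ hx hy =>
          rw [Matrix.mulVec_add]
          exact W.add_mem hx hy
        | smul c x _ hx =>
          rw [Matrix.mulVec_smul]
          exact W.smul_mem _ hx
      have h1 : E.map (Matrix.toLin' (g : Matrix ι ι F)) ≤ W := by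
        rintro _ ⟨z, hz, rfl⟩
        exact hk z (hspan hz)
      have h2 := Submodule.finrank_mono h1
      rw [finrank_map_toLin'] at h2
      omega
    · have hk : ∀ x ∈ Submodule.span F {z | z ∈ E ∧ f z z = 0}, (g : Matrix ι ι F) *ᵥ x ∈ E := by
        intro x hx
        induction hx using Submodule.span_induction with
        | mem x hx => exact h x hx.1 hx.2
        | zero => simp
        | add x y _ _ hx hy =>
          rw [Matrix.mulVec_add]
          exact E.add_mem hx hy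
        | smul c x _ hx =>
          rw [Matrix.mulVec_smul]
          exact E.smul_mem _ hx
      have h1 : g ∈ subspaceStabilizer E :=
        (mem_subspaceStabilizer_iff_forall_mem _ _).mpr (fun z hz => hk z (hspan hz))
      apply hg
      refine (mem_subspaceStabilizer_iff_forall_mem _ _).mpr ?_
      intro w hw
      apply mem_of_orth_orth hf W
      intro e he
      rw [← hEd] at he
      have h3 : ((g⁻¹ : GL ι F) : Matrix ι ι F) *ᵥ e ∈ E :=
        ((mem_subspaceStabilizer_iff E g).mp h1 _).mpr (by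
          rw [mulVec_inv_mulVec]
          exact he)
      have h4 := hEW _ h3 w hw
      rwa [← hpres g hgM, mulVec_inv_mulVec] at h4
  have hyC : (g : Matrix ι ι F) *ᵥ z ∈ cen hf M := cen_mulVec (hcO z hz hzz) hgM (hpres g hgM)
  obtain ⟨a₀, ha₀, b₀, hb₀, hab₀⟩ := exists_decomp hf hW ((g : Matrix ι ι F) *ᵥ z)
  rw [← hEd] at hb₀
  have ha₀0 : a₀ ≠ 0 := by
    rintro rfl
    rw [zero_add] at hab₀
    exact hz2 (hab₀ ▸ hb₀)
  have hb₀0 : b₀ ≠ 0 := by
    rintro rfl
    rw [add_zero] at hab₀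
    exact hz1 (hab₀ ▸ ha₀)
  rw [← hab₀] at hyC
  have hn₀ : f a₀ a₀ + f b₀ b₀ = 0 := by
    rw [← hnormsum a₀ ha₀ b₀ hb₀]
    exact cen_iso hyC
  -- a centre with anisotropic components
  have hexA : ∃ a₁ ∈ W, ∃ b₁ ∈ E, a₁ + b₁ ∈ cen hf M ∧ f a₁ a₁ ≠ 0 := by
    by_cases hr : f a₀ a₀ = 0
    swap
    · exact ⟨a₀, ha₀, b₀, hb₀, hyC, hr⟩
    have hrb : f b₀ b₀ = 0 := by
      rw [hr, zero_add] at hn₀
      exact hn₀
    obtain ⟨a₁, ha₁, ha₁a₁, ha₁a₀, ha₀a₁⟩ := exists_partner hf hW ha₀ ha₀0 hr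
    obtain ⟨b₁, hb₁, hb₁b₁, hb₁b₀, hb₀b₁⟩ := exists_partner hf hO hb₀ hb₀0 hrb
    obtain ⟨ω, hω⟩ : ∃ ω : F, σ ω ≠ ω := by
      by_contra hcon
      push Not at hcon
      apply hf.ne_refl
      ext z
      simpa using hcon z
    have hω0 : ω ≠ 0 := by
      rintro rfl
      simp at hω
    have hωb : ω • b₁ ≠ 0 := by
      intro h
      have h2 : f (ω • b₁) b₀ = 0 := by
        rw [h]
        exact UForm.zero_left hf _
      rw [hf.smul_left, hb₁b₀, mul_one] at h2
      exact hω0 h2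
    have ha₁0 : a₁ ≠ 0 := by
      rintro rfl
      rw [UForm.zero_left hf] at ha₁a₀
      exact zero_ne_one ha₁a₀
    have hw : a₁ + ω • b₁ ∈ cen hf M := htype a₀ ha₀ b₀ hb₀ ha₀0 hb₀0 hyC a₁ ha₁ (ω • b₁) (E.smul_mem _ hb₁) ha₁0 hωb
      (by rw [ha₁a₁, hr]) (by rw [hf.smul_left, UForm.smul_right hf, hb₁b₁, hrb]; ring)
    obtain ⟨κ, hκ0, hκ⟩ := exists_trace_zero σ hf.ne_refl hf.involutive
    have h1 := cen_plane hyC hw κ hκ
    have hval : f (a₁ + ω • b₁) (a₀ + b₀) = 1 + ω := by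
      have h2 : f a₁ b₀ = 0 := hEW _ hb₀ _ ha₁
      have h3 : f b₁ a₀ = 0 := hWE _ hb₁ _ ha₀
      simp only [hf.add_left, UForm.add_right hf, hf.smul_left, ha₁a₀, hb₁b₀, h2, h3]
      ring
    rw [hval] at h1
    obtain ⟨c, hc⟩ : ∃ c, c = (1 + ω) * κ := ⟨_, rfl⟩
    have h2 : a₁ + ω • b₁ + (1 + ω) • κ • (a₀ + b₀) = (a₁ + c • a₀) + (ω • b₁ + c • b₀) := by
      rw [hc, smul_smul, smul_add]
      abel
    rw [h2] at h1
    refine ⟨_, W.add_mem ha₁ (W.smul_mem _ ha₀), _, E.add_mem (E.smul_mem _ hb₁) (E.smul_mem _ hb₀), h1, ?_⟩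
    rw [hf.add_left, UForm.add_right hf, UForm.add_right hf, hf.smul_left, hf.smul_left, UForm.smul_right hf,
      UForm.smul_right hf, ha₁a₁, ha₁a₀, ha₀a₁, hr]
    have hsκ : σ κ = -κ := eq_neg_of_add_eq_zero_right hκ
    have h3 : σ c = (1 + σ ω) * (-κ) := by
      rw [hc, map_mul, map_add, map_one, hsκ]
    have h4 : c + σ c = κ * (ω - σ ω) := by
      rw [h3, hc]
      ring
    have h5 : κ * (ω - σ ω) ≠ 0 := mul_ne_zero hκ0 (sub_ne_zero.mpr (Ne.symm hω))
    intro h6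
    apply h5
    rw [← h4]
    linear_combination h6
  obtain ⟨a₁, ha₁, b₁, hb₁, hc₁, hr₁⟩ := hexA
  have hn₁ : f b₁ b₁ = - f a₁ a₁ := by
    have := cen_iso hc₁
    rw [hnormsum a₁ ha₁ b₁ hb₁] at this
    linear_combination this
  have ha₁0 : a₁ ≠ 0 := by
    rintro rfl
    exact hr₁ (UForm.zero_left hf _)
  have hb₁0 : b₁ ≠ 0 := by
    rintro rfl
    apply hr₁
    rw [UForm.zero_left hf] at hn₁
    linear_combination hn₁
  -- all vectors with anisotropic components
  have hA : ∀ a ∈ W, ∀ b ∈ E, f (a + b) (a + b) = 0 → f a a ≠ 0 → a + b ∈ cen hf M := by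
    intro a ha b hb hab hr
    rw [hnormsum a ha b hb] at hab
    have hbb : f b b = - f a a := by linear_combination hab
    have hq : σ (f a₁ a₁ / f a a) = f a₁ a₁ / f a a := by
      rw [map_div₀, UForm.sigma_self hf, UForm.sigma_self hf]
    obtain ⟨l, hl⟩ := exists_mul_sigma_eq σ hf.ne_refl hf.involutive _ hq (div_ne_zero hr₁ hr)
    have hl0 : l ≠ 0 := by
      rintro rfl
      rw [zero_mul] at hl
      exact (div_ne_zero hr₁ hr) hl.symm
    have hb0 : b ≠ 0 := by
      rintro rfl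
      apply hr
      rw [UForm.zero_left hf] at hbb
      linear_combination hbb
    have ha0 : a ≠ 0 := by
      rintro rfl
      exact hr (UForm.zero_left hf _)
    have h1 := htype a₁ ha₁ b₁ hb₁ ha₁0 hb₁0 hc₁ (l • a) (W.smul_mem _ ha) (l • b) (E.smul_mem _ hb)
      (smul_ne_zero hl0 ha0) (smul_ne_zero hl0 hb0)
      (by
        rw [hf.smul_left, UForm.smul_right hf, ← mul_assoc, hl]
        field_simp)
      (by
        rw [hf.smul_left, UForm.smul_right hf, ← mul_assoc, hl, hbb, hn₁]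
        field_simp)
    have h2 := cen_smul h1 l⁻¹
    rwa [← smul_add, smul_smul, inv_mul_cancel₀ hl0, one_smul] at h2
  -- isotropic components
  have hB : ∀ A ∈ W, ∀ B ∈ E, A ≠ 0 → B ≠ 0 → f A A = 0 → f B B = 0 → A + B ∈ cen hf M := by
    intro A hAW B hBE hA0 hB0 hAA hBB
    obtain ⟨A', hA', hA'A', hA'A, hAA'⟩ := exists_partner hf hW hAW hA0 hAA
    obtain ⟨s, hs⟩ := exists_add_sigma_eq σ hf.ne_refl hf.involutive 1 (map_one σ)
    obtain ⟨a, had⟩ : ∃ a, a = A' + s • A := ⟨_, rfl⟩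
    have haW : a ∈ W := by
      rw [had]
      exact W.add_mem hA' (W.smul_mem _ hAW)
    have haa : f a a = 1 := by
      rw [had, hf.add_left, UForm.add_right hf, UForm.add_right hf, hf.smul_left, hf.smul_left,
        UForm.smul_right hf, UForm.smul_right hf, hA'A', hA'A, hAA', hAA]
      linear_combination hs
    have hAa : f A a = 1 := by
      rw [had, UForm.add_right hf, UForm.smul_right hf, hAA', hAA]
      ring
    have haA : f a A = 1 := by
      rw [hf.herm, hAa, map_one]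
    obtain ⟨b, hb, -, hbb, hBb⟩ := exists_norm_orth hf hO (by omega) B hBE (-1) (by rw [map_neg, map_one])
    have hbB : f b B = 0 := UForm.refl hf _ _ hBb
    have hv : a + b ∈ cen hf M := hA a haW b hb (by
      rw [hnormsum a haW b hb, haa, hbb]
      ring) (by rw [haa]; exact one_ne_zero)
    obtain ⟨κ, hκ0, hκ⟩ := exists_trace_zero σ hf.ne_refl hf.involutive
    have hsκ : σ κ ≠ 0 := (map_ne_zero σ).mpr hκ0
    have hval : f (A + B) (a + b) = 1 := by
      rw [hf.add_left, UForm.add_right hf, UForm.add_right hf, hAa, hBb, hEW _ hb _ hAW, hWE _ hBE _ haW]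
      ring
    apply cen_plane_rev hv κ hκ
    rw [hval, one_smul]
    have h1 : A + B + κ • (a + b) = (A + κ • a) + (B + κ • b) := by
      rw [smul_add]
      abel
    rw [h1]
    have hAW' : A + κ • a ∈ W := W.add_mem hAW (W.smul_mem _ haW)
    have hBE' : B + κ • b ∈ E := E.add_mem hBE (E.smul_mem _ hb)
    have hn1 : f (A + κ • a) (A + κ • a) = κ * σ κ := by
      rw [hf.add_left, UForm.add_right hf, UForm.add_right hf, hf.smul_left, hf.smul_left, UForm.smul_right hf,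
        UForm.smul_right hf, hAA, hAa, haA, haa]
      linear_combination hκ
    have hn2 : f (B + κ • b) (B + κ • b) = -(κ * σ κ) := by
      rw [hf.add_left, UForm.add_right hf, UForm.add_right hf, hf.smul_left, hf.smul_left, UForm.smul_right hf,
        UForm.smul_right hf, hBB, hBb, hbB, hbb]
      ring
    refine hA _ hAW' _ hBE' ?_ ?_
    · rw [hnormsum _ hAW' _ hBE', hn1, hn2]
      ring
    · rw [hn1]
      exact mul_ne_zero hκ0 hsκ
  refine S.gen M (fun v c hv hc => ?_)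
  obtain ⟨a, ha, b, hb, hab⟩ := exists_decomp hf hW v
  rw [← hEd] at hb
  subst hab
  apply cen_mem _ hv c hc
  by_cases ha0 : a = 0
  · subst ha0
    rw [zero_add] at hv ⊢
    exact hcO b hb hv
  by_cases hb0 : b = 0
  · subst hb0
    rw [add_zero] at hv ⊢
    exact hcW a ha hv
  by_cases hr : f a a = 0
  · have hbb : f b b = 0 := by
      rw [hnormsum a ha b hb, hr, zero_add] at hv
      exact hv
    exact hB a ha b hb ha0 hb0 hr hbb
  · exact hA a ha b hb hv hr

end Main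

end Cfsg.Agent.Lib.Geo.SUNondeg
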