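/-
Unitary forms: Witt's theorem on `F^ι`, the determinant of an isometry has norm one, Levi elements.
-/
import Cfsg.Agent.Lib.Geo.SUNondeg
import Cfsg.Agent.Lib.Witt.Hermitian
import Cfsg.Agent.Lib.Classical.MatrixBridge
set_option autoImplicit false

namespace Cfsg.Agent.Lib.Geo.SUWitt

open Cfsg Cfsg.Geo Cfsg.Agent.Lib.Geo.Basic Cfsg.Agent.Lib.Geo.Parabolic Cfsg.Agent.Lib.Geo.Centres
open Cfsg.Agent.Lib.Geo.Polar Cfsg.Agent.Lib.Geo.UnitaryInSL Cfsg.Agent.Lib.Geo.QForm
open Cfsg.Agent.Lib.Geo.SUGen Cfsg.Agent.Lib.Geo.SUBase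
open scoped MatrixGroups Matrix

variable {ι : Type} [Fintype ι] [DecidableEq ι] {F : Type*} [Field F]
variable {σ : F ≃+* F} {f : (ι → F) → (ι → F) → F}

/-- The sesquilinear form attached to a unitary form, in the convention of `Lib.Witt.Hermitian`. -/
noncomputable def sesqOf (hf : IsUnitaryForm σ f) : (ι → F) →ₛₗ[(σ : F →+* F)] (ι → F) →ₗ[F] F :=
  LinearMap.mk₂'ₛₗ (σ : F →+* F) (RingHom.id F) (fun x y => f y x)
    (fun x x' y => UForm.add_right hf y x x')
    (fun c x y => by simpa using UForm.smul_right hf c y x)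
    (fun x y y' => hf.add_left y y' x)
    (fun c x y => by simpa using hf.smul_left c y x)

@[simp] theorem sesqOf_apply (hf : IsUnitaryForm σ f) (x y : ι → F) : sesqOf hf x y = f y x := rfl

theorem sesqOf_isSymm (hf : IsUnitaryForm σ f) : (sesqOf hf).IsSymm := by
  refine ⟨fun x y => ?_⟩
  simp only [sesqOf_apply]
  exact (hf.herm x y).symm

theorem sesqOf_nondegenerate (hf : IsUnitaryForm σ f) : (sesqOf hf).Nondegenerate := by
  constructor
  · intro x hx
    by_contra h0
    obtain ⟨⟨y, hy⟩, -⟩ := hf.nondegenerate x h0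
    exact hy (hx y)
  · intro x hx
    by_contra h0
    obtain ⟨-, ⟨y, hy⟩⟩ := hf.nondegenerate x h0
    exact hy (hx y)

/-- **Witt's theorem** for families on `F^ι`. -/
theorem exists_isometry_family [Finite F] (hf : IsUnitaryForm σ f) {κ : Type*} [Finite κ] (u u' : κ → ι → F)
    (hu : LinearIndependent F u) (hu' : LinearIndependent F u')
    (hgram : ∀ i j, f (u i) (u j) = f (u' i) (u' j)) :
    ∃ g : GL ι F, IsIso f g ∧ ∀ i, (g : Matrix ι ι F) *ᵥ u i = u' i := by
  have hσ : (σ : F →+* F) ≠ RingHom.id F := by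
    intro h
    apply hf.ne_refl
    ext a
    have := congrArg (fun s : F →+* F => s a) h
    simpa using this
  obtain ⟨g, hg, hgu⟩ := Cfsg.Agent.Lib.Witt.Hermitian.witt_family hσ (fun a => hf.involutive a)
    (sesqOf_isSymm hf) (sesqOf_nondegenerate hf) u u' hu hu' (fun i j => hgram j i)
  refine ⟨Cfsg.Agent.Lib.Classical.MatrixBridge.glToLin.symm g, ?_, ?_⟩
  · intro x y
    rw [Cfsg.Agent.Lib.Classical.MatrixBridge.glToLin_symm_mulVec,
      Cfsg.Agent.Lib.Classical.MatrixBridge.glToLin_symm_mulVec]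
    exact hg y x
  · intro i
    rw [Cfsg.Agent.Lib.Classical.MatrixBridge.glToLin_symm_mulVec]
    exact hgu i

/-- Sums on the left of the form. -/
theorem form_sum_left (hf : IsUnitaryForm σ f) {κ : Type*} (s : Finset κ) (c : κ → ι → F) (v : ι → F) :
    f (∑ i ∈ s, c i) v = ∑ i ∈ s, f (c i) v := by
  classical
  induction s using Finset.induction_on with
  | empty =>
    simpa using UForm.zero_left hf v
  | insert a s ha ih => rw [Finset.sum_insert ha, Finset.sum_insert ha, hf.add_left, ih]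

theorem zero_right (hf : IsUnitaryForm σ f) (v : ι → F) : f v 0 = 0 := by
  have := UForm.smul_right hf 0 v 0
  simpa using this

/-- Sums on the right of the form. -/
theorem form_sum_right (hf : IsUnitaryForm σ f) {κ : Type*} (s : Finset κ) (c : κ → ι → F) (v : ι → F) :
    f v (∑ i ∈ s, c i) = ∑ i ∈ s, f v (c i) := by
  classical
  induction s using Finset.induction_on with
  | empty =>
    simpa using zero_right hf v
  | insert a s ha ih => rw [Finset.sum_insert ha, Finset.sum_insert ha, UForm.add_right hf, ih]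

/-- The Gram matrix. -/
def gram (f : (ι → F) → (ι → F) → F) : Matrix ι ι F :=
  Matrix.of fun i j => f (Pi.single i 1) (Pi.single j 1)

theorem form_eq_gram (hf : IsUnitaryForm σ f) (x y : ι → F) :
    f x y = x ⬝ᵥ (gram f *ᵥ (fun j => σ (y j))) := by
  have hx : x = ∑ i, x i • (Pi.single i 1 : ι → F) := by
    ext k
    simp [Finset.sum_apply, Pi.single_apply]
  have hy : y = ∑ j, y j • (Pi.single j 1 : ι → F) := by
    ext k
    simp [Finset.sum_apply, Pi.single_apply]
  conv_lhs => rw [hx, hy]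
  simp only [form_sum_left hf, form_sum_right hf, hf.smul_left, UForm.smul_right hf]
  simp only [dotProduct, Matrix.mulVec, gram, Matrix.of_apply, Finset.mul_sum]
  refine Finset.sum_congr rfl fun i _ => Finset.sum_congr rfl fun j _ => ?_
  ring

theorem det_gram_ne_zero [Finite F] (hf : IsUnitaryForm σ f) : (gram f).det ≠ 0 := by
  intro h0
  obtain ⟨v, hv0, hv⟩ := Matrix.exists_mulVec_eq_zero_iff.mpr h0
  have hy : (fun j => σ.symm (v j)) ≠ 0 := by
    intro h
    apply hv0
    ext j
    have := congrFun h j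
    simpa using this
  obtain ⟨⟨x, hx⟩, -⟩ := hf.nondegenerate _ hy
  apply hx
  rw [form_eq_gram hf]
  simp only [RingEquiv.apply_symm_apply]
  have : (gram f *ᵥ fun j => v j) = 0 := hv
  rw [this, dotProduct_zero]

/-- The determinant of an isometry has norm one. -/
theorem isIso_norm_det [Finite F] (hf : IsUnitaryForm σ f) {g : GL ι F} (hg : IsIso f g) :
    (g : Matrix ι ι F).det * σ (g : Matrix ι ι F).det = 1 := by
  have hmap : ∀ y : ι → F, (fun j => σ (((g : Matrix ι ι F) *ᵥ y) j)) =
      ((g : Matrix ι ι F).map σ) *ᵥ (fun j => σ (y j)) := by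
    intro y
    ext j
    simp [Matrix.mulVec, dotProduct, map_sum]
  have hmat : (g : Matrix ι ι F)ᵀ * (gram f * (g : Matrix ι ι F).map σ) = gram f := by
    apply Cfsg.Agent.Lib.Classical.MatrixBridge.matrix_ext_dotProduct
    intro u v
    -- write `v` as `σ w`
    obtain ⟨w, rfl⟩ : ∃ w : ι → F, v = fun j => σ (w j) :=
      ⟨fun j => σ.symm (v j), by ext j; simp⟩
    have h1 := hg u w
    rw [form_eq_gram hf, form_eq_gram hf u w, hmap] at h1
    have h5 : ((g : Matrix ι ι F)ᵀ * (gram f * (g : Matrix ι ι F).map σ)) *ᵥ (fun j => σ (w j)) =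
        (g : Matrix ι ι F)ᵀ *ᵥ (gram f *ᵥ (((g : Matrix ι ι F).map σ) *ᵥ (fun j => σ (w j)))) := by
      rw [Matrix.mulVec_mulVec, Matrix.mulVec_mulVec, Matrix.mul_assoc]
    rw [← h1, h5, Matrix.dotProduct_mulVec, Matrix.vecMul_transpose]
  have h2 := congrArg Matrix.det hmat
  rw [Matrix.det_mul, Matrix.det_mul, Matrix.det_transpose] at h2
  have h3 : ((g : Matrix ι ι F).map σ).det = σ (g : Matrix ι ι F).det := by
    have := RingHom.map_det (σ : F →+* F) (g : Matrix ι ι F)
    simpa using this.symm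
  rw [h3] at h2
  have h4 := det_gram_ne_zero hf
  apply mul_right_cancel₀ h4
  linear_combination h2

/-- A rank one perturbation of the identity, as an element of `GL`. -/
noncomputable def rk1 (hf : IsUnitaryForm σ f) (u v : ι → F) (c : F) (h : 1 + c * f u v ≠ 0) : GL ι F :=
  Matrix.GeneralLinearGroup.mkOfDetNeZero (transvMat (c • u) (formVec f v)) (by
    have := Matrix.det_one_add_replicateCol_mul_replicateRow (ι := Unit) (c • u) (formVec f v)
    rw [formVec_dotProduct hf.add_left hf.smul_left, hf.smul_left] at this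
    have h2 : (transvMat (c • u) (formVec f v)).det = 1 + c * f u v := by
      rw [← this, transvMat]
      congr 2
      ext i j
      simp [Matrix.vecMulVec_apply, Matrix.mul_apply]
    rw [h2]
    exact h)

theorem rk1_mulVec (hf : IsUnitaryForm σ f) (u v : ι → F) (c : F) (h : 1 + c * f u v ≠ 0) (x : ι → F) :
    ((rk1 hf u v c h : GL ι F) : Matrix ι ι F) *ᵥ x = x + (f x v * c) • u := by
  change transvMat (c • u) (formVec f v) *ᵥ x = _
  rw [transvMat_mulVec, formVec_dotProduct hf.add_left hf.smul_left, smul_smul]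

theorem rk1_det (hf : IsUnitaryForm σ f) (u v : ι → F) (c : F) (h : 1 + c * f u v ≠ 0) :
    ((rk1 hf u v c h : GL ι F) : Matrix ι ι F).det = 1 + c * f u v := by
  change (transvMat (c • u) (formVec f v)).det = _
  have := Matrix.det_one_add_replicateCol_mul_replicateRow (ι := Unit) (c • u) (formVec f v)
  rw [formVec_dotProduct hf.add_left hf.smul_left, hf.smul_left] at this
  rw [← this, transvMat]
  congr 2
  ext i j
  simp [Matrix.vecMulVec_apply, Matrix.mul_apply]

/-- The Levi element of a hyperbolic pair: `e ↦ λ e`, `e' ↦ σ(λ)⁻¹ e'`. -/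
theorem exists_levi (hf : IsUnitaryForm σ f) (e e' : ι → F) (hee : f e e = 0) (he'e' : f e' e' = 0)
    (hee' : f e e' = 1) (l : F) (hl : l ≠ 0) :
    ∃ L : GL ι F, IsIso f L ∧ (L : Matrix ι ι F).det = l * (σ l)⁻¹ ∧
      ∀ x, (L : Matrix ι ι F) *ᵥ x = x + (f x e' * (l - 1)) • e + (f x e * ((σ l)⁻¹ - 1)) • e' := by
  have hsl : σ l ≠ 0 := (map_ne_zero σ).mpr hl
  have he'e : f e' e = 1 := by rw [hf.herm, hee', map_one]
  have h1 : 1 + (l - 1) * f e e' ≠ 0 := by
    rw [hee']
    intro h
    apply hl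
    linear_combination h
  have h2 : 1 + ((σ l)⁻¹ - 1) * f e' e ≠ 0 := by
    rw [he'e]
    intro h
    apply inv_ne_zero hsl
    linear_combination h
  have hact : ∀ x, ((rk1 hf e e' (l - 1) h1 * rk1 hf e' e ((σ l)⁻¹ - 1) h2 : GL ι F) : Matrix ι ι F) *ᵥ x =
      x + (f x e' * (l - 1)) • e + (f x e * ((σ l)⁻¹ - 1)) • e' := by
    intro x
    rw [Units.val_mul, ← Matrix.mulVec_mulVec, rk1_mulVec, rk1_mulVec, hf.add_left, hf.smul_left, he'e']
    simp only [mul_zero, add_zero]
    abel
  refine ⟨rk1 hf e e' (l - 1) h1 * rk1 hf e' e ((σ l)⁻¹ - 1) h2, ?_, ?_, hact⟩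
  · intro x y
    rw [hact, hact]
    simp only [hf.add_left, UForm.add_right hf, hf.smul_left, UForm.smul_right hf, hee, he'e', hee', he'e, map_mul,
      map_sub, map_one, map_inv₀, hf.involutive, UForm.sigma_form hf y e, UForm.sigma_form hf y e']
    field_simp
    ring
  · rw [Units.val_mul, Matrix.det_mul, rk1_det, rk1_det, hee', he'e]
    ring

end Cfsg.Agent.Lib.Geo.SUWitt
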