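/-
One-parameter groups `1 + x R` with `R * R = 0` inside a group of matrices, over a subfield given by an
embedding `ι : L →+* K`; their pairs: the three cases of abstract root subgroups.
-/
import Cfsg.Prelude.Def_RootSubgroups
import Cfsg.Agent.Lib.RootSubgroups.Abstract
import Cfsg.Agent.Lib.Classical.TransvRoot

set_option autoImplicit false

open scoped MatrixGroups commutatorElement
open Matrix Cfsg

namespace Cfsg.Agent.Lib.Geo.SqZero

open Cfsg.Agent.Lib.Classical.StSL2 (Xm Ym Sys)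
open Cfsg.Agent.Lib.Classical.TransvRoot (sl2_induction upper_eq lower_eq)

variable {G : Type*} [Group G] {n : Type*} [Fintype n] [DecidableEq n] {K L : Type*} [Field K] [Field L]

lemma one_add_mul_same {R : Matrix n n K} (h : R * R = 0) (t s : K) :
    (1 + t • R) * (1 + s • R) = 1 + (t + s) • R := by
  rw [mul_add, add_mul, add_mul, one_mul, one_mul, mul_one, add_smul, smul_mul_smul_comm, h, smul_zero,
    add_zero, add_assoc]

/-- The group of elements acting as `1 + ι x • R`. -/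
def TR (ι : L →+* K) (ρ : G →* Matrix n n K) (R : Matrix n n K) (h : R * R = 0) : Subgroup G where
  carrier := {g | ∃ x : L, ρ g = 1 + ι x • R}
  mul_mem' := by
    rintro a b ⟨t, ht⟩ ⟨s, hs⟩
    exact ⟨t + s, by rw [map_mul, ht, hs, one_add_mul_same h, map_add]⟩
  one_mem' := ⟨0, by simp⟩
  inv_mem' := by
    rintro a ⟨t, ht⟩
    refine ⟨-t, ?_⟩
    have h1 : ρ a⁻¹ * ρ a = 1 := by rw [← map_mul, inv_mul_cancel, map_one]
    have h2 : (1 + ι t • R) * (1 + ι (-t) • R) = 1 := by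
      rw [one_add_mul_same h, map_neg, add_neg_cancel, zero_smul, add_zero]
    calc ρ a⁻¹ = ρ a⁻¹ * ((1 + ι t • R) * (1 + ι (-t) • R)) := by rw [h2, mul_one]
      _ = (ρ a⁻¹ * ρ a) * (1 + ι (-t) • R) := by rw [ht, mul_assoc]
      _ = _ := by rw [h1, one_mul]

variable {ι : L →+* K} {ρ : G →* Matrix n n K}

lemma mem_TR {R : Matrix n n K} {h : R * R = 0} {g : G} :
    g ∈ TR ι ρ R h ↔ ∃ x : L, ρ g = 1 + ι x • R := Iff.rfl

/-- The group contains all the elements `1 + ι x • R`. -/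
def FullR (ι : L →+* K) (ρ : G →* Matrix n n K) (R : Matrix n n K) : Prop :=
  ∀ x : L, ∃ g : G, ρ g = 1 + ι x • R

lemma ρ_unit (g : G) : ρ g * ρ g⁻¹ = 1 := by rw [← map_mul, mul_inv_cancel, map_one]

lemma ρ_unit' (g : G) : ρ g⁻¹ * ρ g = 1 := by rw [← map_mul, inv_mul_cancel, map_one]

section Basic

variable (hρ : Function.Injective ρ)
include hρ

lemma TR_comm {R : Matrix n n K} {h : R * R = 0} {a b : G} (ha : a ∈ TR ι ρ R h) (hb : b ∈ TR ι ρ R h) :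
    a * b = b * a := by
  obtain ⟨t, ht⟩ := ha
  obtain ⟨s, hs⟩ := hb
  apply hρ
  rw [map_mul, map_mul, ht, hs, one_add_mul_same h, one_add_mul_same h, add_comm (ι t) (ι s)]

lemma TR_isMulComm {R : Matrix n n K} {h : R * R = 0} : IsMulCommutative (TR ι ρ R h) :=
  ⟨⟨fun a b => Subtype.ext (TR_comm hρ a.2 b.2)⟩⟩

lemma TR_nilpotent {R : Matrix n n K} {h : R * R = 0} : Group.IsNilpotent (TR ι ρ R h) := by
  letI : CommGroup (TR ι ρ R h) :=
    { (inferInstance : Group (TR ι ρ R h)) with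
      mul_comm := fun a b => Subtype.ext (TR_comm hρ a.2 b.2) }
  exact CommGroup.isNilpotent

lemma TR_ne_bot {R : Matrix n n K} {h : R * R = 0} (hf : FullR ι ρ R) (hR : R ≠ 0) : TR ι ρ R h ≠ ⊥ := by
  intro e
  obtain ⟨g, hg⟩ := hf 1
  have h1 : g ∈ TR ι ρ R h := ⟨1, hg⟩
  rw [e, Subgroup.mem_bot] at h1
  rw [h1, map_one, map_one, one_smul] at hg
  apply hR
  simpa using hg.symm

/-- Commuting matrices give commuting groups. -/
lemma comm_bot {R₁ R₂ : Matrix n n K} {h₁ : R₁ * R₁ = 0} {h₂ : R₂ * R₂ = 0} (hc : R₁ * R₂ = R₂ * R₁) :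
    ⁅TR ι ρ R₁ h₁, TR ι ρ R₂ h₂⁆ = ⊥ := by
  refine Cfsg.Agent.Lib.RootSubgroups.Abstract.bot_of_commute fun a ha b hb => ?_
  obtain ⟨t, ht⟩ := ha
  obtain ⟨s, hs⟩ := hb
  apply hρ
  rw [map_mul, map_mul, ht, hs]
  simp only [mul_add, add_mul, mul_one, one_mul, smul_mul_smul_comm, hc, mul_comm (ι t) (ι s)]
  abel

end Basic

lemma TR_congr {R R' : Matrix n n K} (e : R = R') (h : R * R = 0) (h' : R' * R' = 0) :
    TR ι ρ R h = TR ι ρ R' h' := by
  subst e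
  rfl

/-- The effect of conjugating. -/
lemma conjBy_TR {R : Matrix n n K} {h : R * R = 0} (g : G) (h' : (ρ g * R * ρ g⁻¹) * (ρ g * R * ρ g⁻¹) = 0) :
    conjBy (TR ι ρ R h) g = TR ι ρ (ρ g * R * ρ g⁻¹) h' := by
  ext x
  constructor
  · rintro ⟨y, ⟨t, ht⟩, rfl⟩
    refine ⟨t, ?_⟩
    change ρ (g * y * g⁻¹) = _
    rw [map_mul, map_mul, ht, mul_add, add_mul, mul_one, ρ_unit, mul_smul_comm, smul_mul_assoc]
  · rintro ⟨t, ht⟩
    refine ⟨g⁻¹ * x * g, ⟨t, ?_⟩, by change g * (g⁻¹ * x * g) * g⁻¹ = x; group⟩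
    rw [map_mul, map_mul, ht, mul_add, add_mul, mul_one, ρ_unit', mul_smul_comm, smul_mul_assoc]
    congr 2
    calc ρ g⁻¹ * (ρ g * R * ρ g⁻¹) * ρ g = (ρ g⁻¹ * ρ g) * R * (ρ g⁻¹ * ρ g) := by
          simp only [Matrix.mul_assoc]
      _ = R := by rw [ρ_unit', Matrix.one_mul, Matrix.mul_one]

/-- Scaling does not change the group. -/
lemma TR_smul {R : Matrix n n K} {h : R * R = 0} {c : L} (hc : c ≠ 0) (h' : (ι c • R) * (ι c • R) = 0) :
    TR ι ρ (ι c • R) h' = TR ι ρ R h := by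
  ext g
  constructor
  · rintro ⟨t, ht⟩
    refine ⟨t * c, ?_⟩
    rw [ht, smul_smul, map_mul]
  · rintro ⟨t, ht⟩
    refine ⟨t * c⁻¹, ?_⟩
    rw [ht, smul_smul, ← map_mul, mul_assoc, inv_mul_cancel₀ hc, mul_one]

/-! ### The commutator case -/

section Commutator

variable {R₁ R₂ : Matrix n n K}

lemma comm_val (h₁ : R₁ * R₁ = 0) (h₂ : R₂ * R₂ = 0) (h121 : R₁ * R₂ * R₁ = 0) (h212 : R₂ * R₁ * R₂ = 0)
    {a b : G} {s t : K} (hs : ρ a = 1 + s • R₁) (ht : ρ b = 1 + t • R₂) :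
    ρ (a * b * a⁻¹ * b⁻¹) = 1 + (s * t) • (R₁ * R₂ - R₂ * R₁) := by
  have e1 : ρ (a * b) = 1 + s • R₁ + t • R₂ + (s * t) • (R₁ * R₂) := by
    rw [map_mul, hs, ht]
    simp only [mul_add, add_mul, mul_one, one_mul, smul_mul_smul_comm]
    abel
  have e2 : ρ (b * a) = 1 + s • R₁ + t • R₂ + (s * t) • (R₂ * R₁) := by
    rw [map_mul, hs, ht]
    simp only [mul_add, add_mul, mul_one, one_mul, smul_mul_smul_comm, mul_comm t s]
    abel
  have h31 : (R₁ * R₂ - R₂ * R₁) * R₁ = 0 := by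
    rw [sub_mul, h121, Matrix.mul_assoc, h₁, Matrix.mul_zero, sub_zero]
  have h32 : (R₁ * R₂ - R₂ * R₁) * R₂ = 0 := by
    rw [sub_mul, h212, Matrix.mul_assoc, h₂, Matrix.mul_zero, sub_zero]
  have h321 : (R₁ * R₂ - R₂ * R₁) * (R₂ * R₁) = 0 := by
    rw [← Matrix.mul_assoc, h32, Matrix.zero_mul]
  have e3 : (1 + (s * t) • (R₁ * R₂ - R₂ * R₁)) * ρ (b * a) = ρ (a * b) := by
    rw [e1, e2]
    obtain ⟨D, hD⟩ : ∃ D, D = R₁ * R₂ - R₂ * R₁ := ⟨_, rfl⟩
    rw [← hD] at h31 h32 h321 ⊢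
    simp only [mul_add, add_mul, mul_one, one_mul, smul_mul_smul_comm, h31, h32, h321, smul_zero, add_zero]
    rw [hD, smul_sub]
    abel
  have e4 : a * b * a⁻¹ * b⁻¹ = (a * b) * (b * a)⁻¹ := by group
  rw [e4, map_mul, ← e3, mul_assoc, ρ_unit, mul_one]

variable (hρ : Function.Injective ρ)
include hρ

/-- The commutator case. -/
lemma commutator_case {S : Set (Subgroup G)} (h₁ : R₁ * R₁ = 0) (h₂ : R₂ * R₂ = 0) (h121 : R₁ * R₂ * R₁ = 0)
    (h212 : R₂ * R₁ * R₂ = 0) (h₃ : (R₁ * R₂ - R₂ * R₁) * (R₁ * R₂ - R₂ * R₁) = 0)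
    (hc : FullR ι ρ R₁) (hc' : FullR ι ρ R₂) (hD : FullR ι ρ (R₁ * R₂ - R₂ * R₁))
    (hS : TR ι ρ (R₁ * R₂ - R₂ * R₁) h₃ ∈ S) :
    RootCommutatorCase S (TR ι ρ R₁ h₁) (TR ι ρ R₂ h₂) := by
  have hval : ∀ {a b : G} {s t : L}, ρ a = 1 + ι s • R₁ → ρ b = 1 + ι t • R₂ →
      ρ (a * b * a⁻¹ * b⁻¹) = 1 + ι (s * t) • (R₁ * R₂ - R₂ * R₁) := by
    intro a b s t ha hb
    rw [comm_val h₁ h₂ h121 h212 ha hb, map_mul]
  have hle : ⁅TR ι ρ R₁ h₁, TR ι ρ R₂ h₂⁆ ≤ TR ι ρ (R₁ * R₂ - R₂ * R₁) h₃ := by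
    rw [Subgroup.commutator_le]
    rintro a ⟨s, hs⟩ b ⟨t, ht⟩
    rw [commutatorElement_def]
    exact ⟨_, hval hs ht⟩
  have hval1 : ∀ {s : L}, s ≠ 0 → ∀ {a : G}, ρ a = 1 + ι s • R₁ → ∀ {d : G},
      d ∈ TR ι ρ (R₁ * R₂ - R₂ * R₁) h₃ → ∃ b ∈ TR ι ρ R₂ h₂, a * b * a⁻¹ * b⁻¹ = d := by
    rintro s hs0 a ha d ⟨κ, hd⟩
    obtain ⟨b, hb⟩ := hc' (s⁻¹ * κ)
    refine ⟨b, ⟨_, hb⟩, hρ ?_⟩
    rw [hval ha hb, hd, mul_inv_cancel_left₀ hs0]
  have hval2 : ∀ {t : L}, t ≠ 0 → ∀ {b : G}, ρ b = 1 + ι t • R₂ → ∀ {d : G},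
      d ∈ TR ι ρ (R₁ * R₂ - R₂ * R₁) h₃ → ∃ a ∈ TR ι ρ R₁ h₁, a * b * a⁻¹ * b⁻¹ = d := by
    rintro t ht0 b hb d ⟨κ, hd⟩
    obtain ⟨a, ha⟩ := hc (κ * t⁻¹)
    refine ⟨a, ⟨_, ha⟩, hρ ?_⟩
    rw [hval ha hb, hd, inv_mul_cancel_right₀ ht0]
  have hge : TR ι ρ (R₁ * R₂ - R₂ * R₁) h₃ ≤ ⁅TR ι ρ R₁ h₁, TR ι ρ R₂ h₂⁆ := by
    intro d hd
    obtain ⟨a, ha⟩ := hc 1
    obtain ⟨b, hb, rfl⟩ := hval1 one_ne_zero ha hd
    exact Cfsg.Agent.Lib.RootSubgroups.Abstract.comm_mem ⟨_, ha⟩ hb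
  have heq := le_antisymm hle hge
  have ne0a : ∀ {a : G} {s : L}, a ≠ 1 → ρ a = 1 + ι s • R₁ → s ≠ 0 := by
    rintro a s ha1 hs rfl
    apply ha1
    apply hρ
    rw [hs, map_one]
    simp
  have ne0b : ∀ {b : G} {t : L}, b ≠ 1 → ρ b = 1 + ι t • R₂ → t ≠ 0 := by
    rintro b t hb1 ht rfl
    apply hb1
    apply hρ
    rw [ht, map_one]
    simp
  refine ⟨by rw [heq]; exact hS, ?_, ?_, ?_⟩
  · intro d hd y hy
    rw [heq] at hd
    obtain ⟨κ, hκ⟩ := hd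
    have h13 : (R₁ * R₂ - R₂ * R₁) * R₁ = 0 := by
      rw [sub_mul, h121, Matrix.mul_assoc, h₁, Matrix.mul_zero, sub_zero]
    have h31 : R₁ * (R₁ * R₂ - R₂ * R₁) = 0 := by
      rw [mul_sub, ← Matrix.mul_assoc, h₁, Matrix.zero_mul, ← Matrix.mul_assoc, h121, sub_zero]
    have h23 : (R₁ * R₂ - R₂ * R₁) * R₂ = 0 := by
      rw [sub_mul, h212, Matrix.mul_assoc, h₂, Matrix.mul_zero, sub_zero]
    have h32 : R₂ * (R₁ * R₂ - R₂ * R₁) = 0 := by
      rw [mul_sub, ← Matrix.mul_assoc, h212, ← Matrix.mul_assoc, h₂, Matrix.zero_mul, sub_zero]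
    have hle2 : TR ι ρ R₁ h₁ ⊔ TR ι ρ R₂ h₂ ≤ Subgroup.centralizer {d} := by
      rw [sup_le_iff]
      constructor
      · rintro a ⟨t, ht⟩
        rw [Subgroup.mem_centralizer_singleton_iff]
        apply hρ
        rw [map_mul, map_mul, ht, hκ]
        simp only [mul_add, add_mul, mul_one, one_mul, smul_mul_smul_comm, h13, h31, smul_zero, add_zero]
        abel
      · rintro b ⟨s, hs⟩
        rw [Subgroup.mem_centralizer_singleton_iff]
        apply hρ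
        rw [map_mul, map_mul, hs, hκ]
        simp only [mul_add, add_mul, mul_one, one_mul, smul_mul_smul_comm, h23, h32, smul_zero, add_zero]
        abel
    have h5 := hle2 hy
    rw [Subgroup.mem_centralizer_singleton_iff] at h5
    exact h5.symm
  · intro a ha ha1
    rw [heq]
    apply le_antisymm
    · rw [Subgroup.closure_le]
      rintro _ ⟨b, hb, rfl⟩
      obtain ⟨s, hs⟩ := ha
      obtain ⟨t, ht⟩ := hb
      exact ⟨_, hval hs ht⟩
    · intro d hd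
      obtain ⟨s, hs⟩ := ha
      obtain ⟨b, hb, rfl⟩ := hval1 (ne0a ha1 hs) hs hd
      exact Subgroup.subset_closure ⟨b, hb, rfl⟩
  · intro b hb hb1
    rw [heq]
    apply le_antisymm
    · rw [Subgroup.closure_le]
      rintro _ ⟨a, ha, rfl⟩
      obtain ⟨s, hs⟩ := ha
      obtain ⟨t, ht⟩ := hb
      exact ⟨_, hval hs ht⟩
    · intro d hd
      obtain ⟨t, ht⟩ := hb
      obtain ⟨a, ha, rfl⟩ := hval2 (ne0b hb1 ht) ht hd
      exact Subgroup.subset_closure ⟨a, ha, rfl⟩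

end Commutator

/-! ### Rank one pairs from `SL₂` -/

section Sl2

/-- The rank one condition from the Steinberg relations. -/
lemma rankOneCond_of_sys {x y : L → G} (S : Sys x y) {A B : Subgroup G} (hA : ∀ g, g ∈ A ↔ ∃ t, g = x t)
    (hB : ∀ g, g ∈ B ↔ ∃ t, g = y t) (hy : ∀ t, y t = 1 → t = 0) (hx : ∀ t, x t = 1 → t = 0) :
    RankOneCondition A B := by
  have hcx : ∀ t u, x t * x u = x u * x t := fun t u => by rw [← S.add_x, ← S.add_x, add_comm]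
  rintro a ha ha1
  obtain ⟨t, rfl⟩ := (hA a).1 ha
  have ht0 : t ≠ 0 := by
    rintro rfl
    exact ha1 S.x_zero
  have hb1 : y t⁻¹ ≠ 1 := fun h => inv_ne_zero ht0 (hy _ h)
  refine ⟨y t⁻¹, (hB _).2 ⟨_, rfl⟩, hb1, ?_⟩
  have hinv : (y t⁻¹)⁻¹ = y (-t⁻¹) := (S.y_neg _).symm
  have key : ∀ u, y (-t⁻¹) * x u * (y (-t⁻¹))⁻¹ = (x t)⁻¹ * y (-(t⁻¹ ^ 2 * u)) * ((x t)⁻¹)⁻¹ := by
    intro u
    have h1 := S.w_x t u ht0
    rw [← h1]
    have h2 : x t * y (-t⁻¹) * x t * x u = x t * y (-t⁻¹) * x u * x t := by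
      rw [mul_assoc (x t * y (-t⁻¹)), mul_assoc (x t * y (-t⁻¹)), hcx]
    rw [h2]
    group
  rw [hinv]
  ext g
  constructor
  · rintro ⟨z, hz, rfl⟩
    obtain ⟨u, rfl⟩ := (hA z).1 hz
    refine ⟨y (-(t⁻¹ ^ 2 * u)), (hB _).2 ⟨_, rfl⟩, ?_⟩
    exact (key u).symm
  · rintro ⟨z, hz, rfl⟩
    obtain ⟨v, rfl⟩ := (hB z).1 hz
    refine ⟨x (-(t ^ 2 * v)), (hA _).2 ⟨_, rfl⟩, ?_⟩
    have h3 : -(t⁻¹ ^ 2 * (-(t ^ 2 * v))) = v := by
      field_simp
    have := key (-(t ^ 2 * v))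
    rw [h3] at this
    exact this

/-- The swap of the Steinberg relations. -/
lemma sys_swap {x y : L → G} (S : Sys x y) : Sys y x where
  add_x := S.add_y
  add_y := S.add_x
  w_x := S.w_y
  w_y := S.w_x

/-- A homomorphism with the elementary matrices going to the two groups. -/
theorem pair_of_sl2 (ψ : SL(2, L) →* G) (hψ : Function.Injective ψ) {A B : Subgroup G}
    (hA : ∀ g, g ∈ A ↔ ∃ t, g = ψ (Xm t)) (hB : ∀ g, g ∈ B ↔ ∃ t, g = ψ (Ym t)) :
    IsRankOnePair A B ∧ IsPSL2PairOver L A B := by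
  have hS : Sys (fun t => ψ (Xm t)) (fun t => ψ (Ym t)) := by
    have S := Cfsg.Agent.Lib.Classical.StSL2.sys_matrices (K := L)
    refine ⟨fun t u => ?_, fun t u => ?_, fun t u ht => ?_, fun t u ht => ?_⟩
    · rw [S.add_x, map_mul]
    · rw [S.add_y, map_mul]
    · have := congrArg ψ (S.w_x t u ht)
      simpa only [map_mul, map_inv] using this
    · have := congrArg ψ (S.w_y t u ht)
      simpa only [map_mul, map_inv] using this
  have hx1 : ∀ t : L, ψ (Xm t) = 1 → t = 0 := by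
    intro t ht
    have h1 : Xm t = 1 := hψ (by rw [ht, map_one])
    have h2 := congrArg (fun M : SL(2, L) => M.1 0 1) h1
    simpa [Xm] using h2
  have hy1 : ∀ t : L, ψ (Ym t) = 1 → t = 0 := by
    intro t ht
    have h1 : Ym t = 1 := hψ (by rw [ht, map_one])
    have h2 := congrArg (fun M : SL(2, L) => M.1 1 0) h1
    simpa [Ym] using h2
  have hcommA : ∀ a ∈ A, ∀ b ∈ A, a * b = b * a := by
    intro a ha b hb
    obtain ⟨t, rfl⟩ := (hA a).1 ha
    obtain ⟨u, rfl⟩ := (hA b).1 hb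
    rw [← map_mul, ← map_mul, ← Cfsg.Agent.Lib.Classical.StSL2.sys_matrices.add_x,
      ← Cfsg.Agent.Lib.Classical.StSL2.sys_matrices.add_x, add_comm]
  have hcommB : ∀ a ∈ B, ∀ b ∈ B, a * b = b * a := by
    intro a ha b hb
    obtain ⟨t, rfl⟩ := (hB a).1 ha
    obtain ⟨u, rfl⟩ := (hB b).1 hb
    rw [← map_mul, ← map_mul, ← Cfsg.Agent.Lib.Classical.StSL2.sys_matrices.add_y,
      ← Cfsg.Agent.Lib.Classical.StSL2.sys_matrices.add_y, add_comm]
  have hnA : Group.IsNilpotent A := by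
    letI : CommGroup A :=
      { (inferInstance : Group A) with mul_comm := fun a b => Subtype.ext (hcommA _ a.2 _ b.2) }
    exact CommGroup.isNilpotent
  have hnB : Group.IsNilpotent B := by
    letI : CommGroup B :=
      { (inferInstance : Group B) with mul_comm := fun a b => Subtype.ext (hcommB _ a.2 _ b.2) }
    exact CommGroup.isNilpotent
  have hne : A ≠ B := by
    intro e
    have h1 : ψ (Xm 1) ∈ A := (hA _).2 ⟨1, rfl⟩
    rw [e] at h1
    obtain ⟨t, ht⟩ := (hB _).1 h1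
    have h2 := hψ ht
    have h3 := congrArg (fun M : SL(2, L) => M.1 0 1) h2
    simp [Xm, Ym] at h3
  refine ⟨⟨hne, hnA, hnB, rankOneCond_of_sys hS hA hB hy1 hx1,
    rankOneCond_of_sys (sys_swap hS) hB hA hx1 hy1⟩, ψ, ?_, ?_, ?_, ?_⟩
  · apply le_antisymm
    · rintro _ ⟨M, rfl⟩
      refine sl2_induction (fun M => ψ M ∈ A ⊔ B) M ?_ ?_ ?_
      · intro t
        exact Subgroup.mem_sup_left ((hA _).2 ⟨t, rfl⟩)
      · intro t
        exact Subgroup.mem_sup_right ((hB _).2 ⟨t, rfl⟩)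
      · intro M N hM hN
        rw [map_mul]
        exact mul_mem hM hN
    · rw [sup_le_iff]
      constructor
      · intro g hg
        obtain ⟨t, rfl⟩ := (hA g).1 hg
        exact ⟨_, rfl⟩
      · intro g hg
        obtain ⟨t, rfl⟩ := (hB g).1 hg
        exact ⟨_, rfl⟩
  · intro M hM
    have h1 : M = 1 := hψ (by rw [MonoidHom.mem_ker.1 hM, map_one])
    rw [h1]
    exact one_mem _
  · rw [upper_eq, MonoidHom.map_closure, ← Set.range_comp]
    have : Set.range (ψ ∘ Xm (K := L)) = (A : Set G) := by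
      ext g
      constructor
      · rintro ⟨t, rfl⟩
        exact (hA _).2 ⟨t, rfl⟩
      · intro hg
        obtain ⟨t, rfl⟩ := (hA g).1 hg
        exact ⟨t, rfl⟩
    rw [this, Subgroup.closure_eq]
  · rw [lower_eq, MonoidHom.map_closure, ← Set.range_comp]
    have : Set.range (ψ ∘ Ym (K := L)) = (B : Set G) := by
      ext g
      constructor
      · rintro ⟨t, rfl⟩
        exact (hB _).2 ⟨t, rfl⟩
      · intro hg
        obtain ⟨t, rfl⟩ := (hB g).1 hg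
        exact ⟨t, rfl⟩
    rw [this, Subgroup.closure_eq]

/-- A homomorphism of `SL₂(L)` to matrices whose elementary matrices go to the two families of a faithful
matrix group gives a rank one pair. -/
theorem pair_of_rep (hρ : Function.Injective ρ) (π : SL(2, L) →* Matrix n n K) (hπ : Function.Injective π)
    {R₁ R₂ : Matrix n n K} {h₁ : R₁ * R₁ = 0} {h₂ : R₂ * R₂ = 0} {c : L} (hc : c ≠ 0)
    (hX : ∀ x, π (Xm x) = 1 + ι x • R₁) (hY : ∀ x, π (Ym x) = 1 + ι (x * c) • R₂)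
    (hf₁ : FullR ι ρ R₁) (hf₂ : FullR ι ρ R₂) :
    IsRankOnePair (TR ι ρ R₁ h₁) (TR ι ρ R₂ h₂) ∧ IsPSL2PairOver L (TR ι ρ R₁ h₁) (TR ι ρ R₂ h₂) := by
  have hlift : ∀ M : SL(2, L), ∃ g : G, ρ g = π M := by
    intro M
    refine sl2_induction (fun M => ∃ g : G, ρ g = π M) M ?_ ?_ ?_
    · intro t
      obtain ⟨g, hg⟩ := hf₁ t
      exact ⟨g, by rw [hg, hX]⟩
    · intro t
      obtain ⟨g, hg⟩ := hf₂ (t * c)
      exact ⟨g, by rw [hg, hY]⟩
    · rintro M N ⟨g, hg⟩ ⟨g', hg'⟩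
      exact ⟨g * g', by rw [map_mul, hg, hg', map_mul]⟩
  choose f hf using hlift
  have hfmul : ∀ M N : SL(2, L), f (M * N) = f M * f N := by
    intro M N
    apply hρ
    rw [map_mul, hf, hf, hf, map_mul]
  let ψ : SL(2, L) →* G := MonoidHom.mk' f hfmul
  have hψ : ∀ M, ρ (ψ M) = π M := hf
  have hinj : Function.Injective ψ := by
    intro M N e
    apply hπ
    rw [← hψ, ← hψ, e]
  refine pair_of_sl2 ψ hinj ?_ ?_
  · intro g
    constructor
    · rintro ⟨t, ht⟩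
      exact ⟨t, hρ (by rw [hψ, hX, ht])⟩
    · rintro ⟨t, rfl⟩
      exact ⟨t, by rw [hψ, hX]⟩
  · intro g
    constructor
    · rintro ⟨t, ht⟩
      exact ⟨t * c⁻¹, hρ (by rw [hψ, hY, ht, mul_assoc, inv_mul_cancel₀ hc, mul_one])⟩
    · rintro ⟨t, rfl⟩
      exact ⟨t * c, by rw [hψ, hY]⟩

end Sl2

/-! ### Representations from multiplicative linear maps -/

section Block

variable (ι) in
/-- The homomorphism `M ↦ 1 + A (M - 1)` of a multiplicative linear map `A`. -/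
def repOf (A : Matrix (Fin 2) (Fin 2) K →ₗ[K] Matrix n n K) (hA : ∀ X Y, A (X * Y) = A X * A Y) :
    SL(2, L) →* Matrix n n K where
  toFun M := 1 + A (M.1.map ι - 1)
  map_one' := by
    have : ((1 : SL(2, L)) : Matrix (Fin 2) (Fin 2) L).map ι = 1 := by
      rw [Matrix.SpecialLinearGroup.coe_one]
      exact Matrix.map_one _ (map_zero ι) (map_one ι)
    rw [this, sub_self, map_zero, add_zero]
  map_mul' M N := by
    have h1 : ((M * N : SL(2, L)) : Matrix (Fin 2) (Fin 2) L).map ι = M.1.map ι * N.1.map ι := by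
      rw [Matrix.SpecialLinearGroup.coe_mul]
      exact Matrix.map_mul
    have h2 : M.1.map ι * N.1.map ι - 1 = (M.1.map ι - 1) * (N.1.map ι - 1) + (M.1.map ι - 1) +
        (N.1.map ι - 1) := by noncomm_ring
    rw [h1, h2, map_add, map_add, hA, mul_add, add_mul, add_mul, one_mul, one_mul, mul_one]
    abel

lemma repOf_Xm (A : Matrix (Fin 2) (Fin 2) K →ₗ[K] Matrix n n K) (hA : ∀ X Y, A (X * Y) = A X * A Y)
    (x : L) : repOf ι A hA (Xm x) = 1 + ι x • A !![0, 1; 0, 0] := by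
  change 1 + A ((Xm x).1.map ι - 1) = _
  have : (Xm x).1.map ι - 1 = ι x • !![(0 : K), 1; 0, 0] := by
    ext i j
    fin_cases i <;> fin_cases j <;> simp [Xm]
  rw [this, map_smul]

lemma repOf_Ym (A : Matrix (Fin 2) (Fin 2) K →ₗ[K] Matrix n n K) (hA : ∀ X Y, A (X * Y) = A X * A Y)
    (x : L) : repOf ι A hA (Ym x) = 1 + ι x • A !![0, 0; 1, 0] := by
  change 1 + A ((Ym x).1.map ι - 1) = _
  have : (Ym x).1.map ι - 1 = ι x • !![(0 : K), 0; 1, 0] := by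
    ext i j
    fin_cases i <;> fin_cases j <;> simp [Ym]
  rw [this, map_smul]

lemma repOf_inj (A : Matrix (Fin 2) (Fin 2) K →ₗ[K] Matrix n n K) (hA : ∀ X Y, A (X * Y) = A X * A Y)
    (hinj : Function.Injective A) : Function.Injective (repOf ι A hA) := by
  intro M N e
  have e1 : A (M.1.map ι - 1) = A (N.1.map ι - 1) := add_left_cancel e
  have e2 := sub_left_injective (hinj e1)
  apply Subtype.ext
  exact Matrix.map_injective ι.injective e2

/-- A multiplicative linear map with the right values gives a rank one pair. -/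
theorem pair_of_block (hρ : Function.Injective ρ) (A : Matrix (Fin 2) (Fin 2) K →ₗ[K] Matrix n n K)
    (hA : ∀ X Y, A (X * Y) = A X * A Y) (hinj : Function.Injective A)
    {R₁ R₂ : Matrix n n K} {h₁ : R₁ * R₁ = 0} {h₂ : R₂ * R₂ = 0} {c : L} (hc : c ≠ 0)
    (hX : A !![0, 1; 0, 0] = R₁) (hY : A !![0, 0; 1, 0] = ι c • R₂)
    (hf₁ : FullR ι ρ R₁) (hf₂ : FullR ι ρ R₂) :
    IsRankOnePair (TR ι ρ R₁ h₁) (TR ι ρ R₂ h₂) ∧ IsPSL2PairOver L (TR ι ρ R₁ h₁) (TR ι ρ R₂ h₂) := by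
  refine pair_of_rep hρ (repOf ι A hA) (repOf_inj A hA hinj) hc ?_ ?_ hf₁ hf₂
  · intro x
    rw [repOf_Xm, hX]
  · intro x
    rw [repOf_Ym, hY, smul_smul, map_mul]

end Block

end Cfsg.Agent.Lib.Geo.SqZero
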