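/-
The Siegel transvection groups of the hyperbolic quadratic space: forms, singular pairs, the matrices `R p r`.
-/
import Cfsg.Agent.Lib.Geo.SqZero
import Cfsg.Agent.Lib.Classical.TransvSp

set_option autoImplicit false

open scoped MatrixGroups commutatorElement
open Matrix Cfsg

namespace Cfsg.Agent.Lib.Geo.Siegel

open Cfsg.Agent.Lib.Geo.SqZero
open Cfsg.Agent.Lib.Classical.TransvRoot (colsM rowsM rows_cols)

variable {F : Type*} [Field F] {N : ℕ}

/-- The swap of the two halves of the coordinates. -/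
def sw (v : Fin N ⊕ Fin N → F) : Fin N ⊕ Fin N → F := fun i => v i.swap

/-- The polar form of the hyperbolic quadratic form. -/
def bil (u v : Fin N ⊕ Fin N → F) : F := sw u ⬝ᵥ v

local notation "Q" => quadFormPlus N F

lemma bil_eq (u v : Fin N ⊕ Fin N → F) :
    bil u v = ∑ i, u (.inr i) * v (.inl i) + ∑ i, u (.inl i) * v (.inr i) := by
  simp [bil, sw, dotProduct, Fintype.sum_sum_type]

lemma q_add (u v : Fin N ⊕ Fin N → F) : Q (u + v) = Q u + Q v + bil u v := by
  rw [bil_eq]
  simp only [quadFormPlus, Pi.add_apply]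
  rw [← Finset.sum_add_distrib, ← Finset.sum_add_distrib, ← Finset.sum_add_distrib]
  refine Finset.sum_congr rfl fun i _ => by ring

lemma q_smul (c : F) (u : Fin N ⊕ Fin N → F) : Q (c • u) = c ^ 2 * Q u := by
  simp only [quadFormPlus, Pi.smul_apply, smul_eq_mul, Finset.mul_sum]
  refine Finset.sum_congr rfl fun i _ => by ring

lemma bil_comm (u v : Fin N ⊕ Fin N → F) : bil u v = bil v u := by
  rw [bil_eq, bil_eq, add_comm]
  congr 1 <;> exact Finset.sum_congr rfl fun i _ => by ring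

lemma bil_add_right (u v w : Fin N ⊕ Fin N → F) : bil u (v + w) = bil u v + bil u w :=
  dotProduct_add _ _ _

lemma bil_smul_right (c : F) (u v : Fin N ⊕ Fin N → F) : bil u (c • v) = c * bil u v := by
  rw [bil, dotProduct_smul, smul_eq_mul, bil]

lemma bil_add_left (u v w : Fin N ⊕ Fin N → F) : bil (u + v) w = bil u w + bil v w := by
  rw [bil_comm, bil_add_right, bil_comm w u, bil_comm w v]

lemma bil_smul_left (c : F) (u v : Fin N ⊕ Fin N → F) : bil (c • u) v = c * bil u v := by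
  rw [bil_comm, bil_smul_right, bil_comm]

lemma bil_neg_right (u v : Fin N ⊕ Fin N → F) : bil u (-v) = -bil u v := by
  rw [← neg_one_smul F v, bil_smul_right]
  ring

lemma bil_neg_left (u v : Fin N ⊕ Fin N → F) : bil (-u) v = -bil u v := by
  rw [bil_comm, bil_neg_right, bil_comm]

lemma bil_sub_right (u v w : Fin N ⊕ Fin N → F) : bil u (v - w) = bil u v - bil u w := by
  rw [sub_eq_add_neg, bil_add_right, bil_neg_right, sub_eq_add_neg]

lemma bil_sub_left (u v w : Fin N ⊕ Fin N → F) : bil (u - v) w = bil u w - bil v w := by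
  rw [sub_eq_add_neg, bil_add_left, bil_neg_left, sub_eq_add_neg]

lemma q_sub (u v : Fin N ⊕ Fin N → F) : Q (u - v) = Q u + Q v - bil u v := by
  have h1 : Q (-v) = Q v := by
    rw [← neg_one_smul F v, q_smul]
    ring
  rw [sub_eq_add_neg, q_add, bil_neg_right, h1]
  ring

lemma bil_self (u : Fin N ⊕ Fin N → F) : bil u u = 2 * Q u := by
  rw [bil_eq, two_mul, quadFormPlus]
  congr 1
  exact Finset.sum_congr rfl fun i _ => by ring

lemma sw_sw (u : Fin N ⊕ Fin N → F) : sw (sw u) = u := by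
  ext i
  simp [sw]

lemma sw_inj {u v : Fin N ⊕ Fin N → F} (h : sw u = sw v) : u = v := by
  rw [← sw_sw u, h, sw_sw]

lemma sw_eq_zero {u : Fin N ⊕ Fin N → F} (h : sw u = 0) : u = 0 := by
  rw [← sw_sw u, h]
  ext i
  rfl

lemma sw_ne_zero {u : Fin N ⊕ Fin N → F} (h : u ≠ 0) : sw u ≠ 0 := fun h' => h (sw_eq_zero h')

lemma eq_zero_of_bil {u : Fin N ⊕ Fin N → F} (h : ∀ v, bil u v = 0) : u = 0 := by
  apply sw_eq_zero
  ext i
  have := h (Pi.single i 1)
  simpa [bil, dotProduct_single] using this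

/-- Vectors with linearly independent polars can be given any polar values. -/
lemma exists_bil {k : ℕ} {f : Fin k → Fin N ⊕ Fin N → F} (hf : LinearIndependent F f) (y : Fin k → F) :
    ∃ v : Fin N ⊕ Fin N → F, ∀ i, bil (f i) v = y i := by
  let M : Matrix (Fin k) (Fin N ⊕ Fin N) F := Matrix.of fun i => sw (f i)
  have hM : LinearIndependent F M.row := by
    have hsw : Function.Injective (LinearMap.funLeft F F (Sum.swap : Fin N ⊕ Fin N → Fin N ⊕ Fin N)) := by
      apply LinearMap.funLeft_injective_of_surjective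
      exact fun x => ⟨x.swap, Sum.swap_swap x⟩
    have := hf.map' (LinearMap.funLeft F F (Sum.swap : Fin N ⊕ Fin N → Fin N ⊕ Fin N))
      (LinearMap.ker_eq_bot.2 hsw)
    exact this
  have hrank := hM.rank_matrix
  have hsurj : Function.Surjective M.mulVecLin := by
    rw [← LinearMap.range_eq_top]
    apply Submodule.eq_top_of_finrank_eq
    rw [Module.finrank_fintype_fun_eq_card]
    exact hrank
  obtain ⟨v, hv⟩ := hsurj y
  refine ⟨v, fun i => ?_⟩
  have := congrFun hv i
  exact this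

/-- A singular line with a basis. -/
structure SP (p r : Fin N ⊕ Fin N → F) : Prop where
  ind : ∀ a b : F, a • p + b • r = 0 → a = 0 ∧ b = 0
  qp : Q p = 0
  qr : Q r = 0
  br : bil p r = 0

lemma SP.of {p r : Fin N ⊕ Fin N → F} (h1 : LinearIndependent F ![p, r]) (h2 : Q p = 0) (h3 : Q r = 0)
    (h4 : Q (p + r) = 0) : SP p r := by
  refine ⟨fun a b h => LinearIndependent.pair_iff.1 h1 a b h, h2, h3, ?_⟩
  rw [q_add, h2, h3] at h4
  simpa using h4

lemma SP.li {p r : Fin N ⊕ Fin N → F} (h : SP p r) : LinearIndependent F ![p, r] :=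
  LinearIndependent.pair_iff.2 h.ind

lemma SP.q_add {p r : Fin N ⊕ Fin N → F} (h : SP p r) : Q (p + r) = 0 := by
  rw [Siegel.q_add, h.qp, h.qr, h.br]
  ring

lemma SP.pp {p r : Fin N ⊕ Fin N → F} (h : SP p r) : bil p p = 0 := by
  rw [bil_self, h.qp, mul_zero]

lemma SP.rr {p r : Fin N ⊕ Fin N → F} (h : SP p r) : bil r r = 0 := by
  rw [bil_self, h.qr, mul_zero]

lemma SP.rp {p r : Fin N ⊕ Fin N → F} (h : SP p r) : bil r p = 0 := by
  rw [bil_comm, h.br]

lemma SP.p_ne {p r : Fin N ⊕ Fin N → F} (h : SP p r) : p ≠ 0 := by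
  rintro rfl
  have := (h.ind 1 0 (by simp)).1
  exact one_ne_zero this

lemma SP.r_ne {p r : Fin N ⊕ Fin N → F} (h : SP p r) : r ≠ 0 := by
  rintro rfl
  have := (h.ind 0 1 (by simp)).2
  exact one_ne_zero this

lemma SP.swap {p r : Fin N ⊕ Fin N → F} (h : SP p r) : SP r p :=
  ⟨fun a b e => (h.ind b a (by rw [add_comm]; exact e)).symm, h.qr, h.qp, h.rp⟩

lemma SP.comb {p r : Fin N ⊕ Fin N → F} (h : SP p r) {a b c d : F} (hd : a * d - b * c ≠ 0) :
    SP (a • p + b • r) (c • p + d • r) := by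
  refine ⟨fun x y e => ?_, ?_, ?_, ?_⟩
  · have e1 : (x * a + y * c) • p + (x * b + y * d) • r = 0 := by
      rw [← e]
      module
    obtain ⟨h1, h2⟩ := h.ind _ _ e1
    have hx : x * (a * d - b * c) = 0 := by linear_combination d * h1 - c * h2
    have hy : y * (a * d - b * c) = 0 := by linear_combination a * h2 - b * h1
    exact ⟨(mul_eq_zero.1 hx).resolve_right hd, (mul_eq_zero.1 hy).resolve_right hd⟩
  · rw [Siegel.q_add, q_smul, q_smul, h.qp, h.qr, bil_smul_left, bil_smul_right, h.br]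
    ring
  · rw [Siegel.q_add, q_smul, q_smul, h.qp, h.qr, bil_smul_left, bil_smul_right, h.br]
    ring
  · simp only [bil_add_left, bil_add_right, bil_smul_left, bil_smul_right, h.pp, h.rr, h.br, h.rp]
    ring

/-- The Siegel matrix of a pair. -/
def R (p r : Fin N ⊕ Fin N → F) : Matrix (Fin N ⊕ Fin N) (Fin N ⊕ Fin N) F :=
  vecMulVec r (sw p) - vecMulVec p (sw r)

lemma vecMulVec_mulVec' (c φ v : Fin N ⊕ Fin N → F) : vecMulVec c φ *ᵥ v = (φ ⬝ᵥ v) • c := by
  ext i
  simp only [mulVec, dotProduct, vecMulVec_apply, Pi.smul_apply, smul_eq_mul, Finset.sum_mul,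
    Finset.mul_sum]
  refine Finset.sum_congr rfl fun x _ => ?_
  ring

lemma R_mulVec (p r v : Fin N ⊕ Fin N → F) : R p r *ᵥ v = bil p v • r - bil r v • p := by
  rw [R, sub_mulVec, vecMulVec_mulVec', vecMulVec_mulVec']
  rfl

lemma E_mul (c φ c' φ' : Fin N ⊕ Fin N → F) :
    vecMulVec c φ * vecMulVec c' φ' = (φ ⬝ᵥ c') • vecMulVec c φ' :=
  Cfsg.Agent.Lib.Classical.TransvRoot.E_mul_E c φ c' φ'

lemma R_mul (p r s t : Fin N ⊕ Fin N → F) : R p r * R s t =
    bil p t • vecMulVec r (sw s) - bil p s • vecMulVec r (sw t) - bil r t • vecMulVec p (sw s) +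
      bil r s • vecMulVec p (sw t) := by
  simp only [R, sub_mul, mul_sub, E_mul]
  simp only [bil]
  abel

lemma R_sq {p r : Fin N ⊕ Fin N → F} (h : SP p r) : R p r * R p r = 0 := by
  rw [R_mul, h.pp, h.rr, h.br, h.rp]
  simp

lemma R_comb (p r : Fin N ⊕ Fin N → F) (a b c d : F) :
    R (a • p + b • r) (c • p + d • r) = (a * d - b * c) • R p r := by
  ext i j
  simp only [R, Matrix.sub_apply, vecMulVec_apply, sw, Pi.add_apply, Pi.smul_apply, smul_eq_mul,
    Matrix.smul_apply]
  ring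

lemma R_swap (p r : Fin N ⊕ Fin N → F) : R r p = (-1 : F) • R p r := by
  ext i j
  simp only [R, Matrix.sub_apply, vecMulVec_apply, Matrix.smul_apply, smul_eq_mul]
  ring

lemma R_ne {p r : Fin N ⊕ Fin N → F} (h : SP p r) : R p r ≠ 0 := by
  intro e
  have hli : LinearIndependent F ![p, r] := h.li
  obtain ⟨v, hv⟩ := exists_bil (N := N) hli ![1, 0]
  have h0 := hv 0
  have h1 := hv 1
  simp only [Matrix.cons_val_zero, Matrix.cons_val_one] at h0 h1
  have h2 : R p r *ᵥ v = 0 := by rw [e, zero_mulVec]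
  rw [R_mulVec, h0, h1] at h2
  apply h.r_ne
  simpa using h2

end Cfsg.Agent.Lib.Geo.Siegel
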