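/-
The Siegel transvection groups: vectors for connectivity, the three cases for pairs.
-/
import Cfsg.Agent.Lib.Geo.Siegel

set_option autoImplicit false

open scoped MatrixGroups commutatorElement
open Matrix Cfsg

namespace Cfsg.Agent.Lib.Geo.Siegel

open Cfsg.Agent.Lib.Geo.SqZero
open Cfsg.Agent.Lib.Classical.TransvRoot (colsM rowsM rows_cols)

variable {F : Type*} [Field F] {N : ℕ}

local notation "Q" => quadFormPlus N F

/-! ### Extending a singular line -/

/-- A singular line lies in a totally singular plane. -/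
theorem exists_ts_ext (hN : 3 ≤ N) {p r : Fin N ⊕ Fin N → F} (h : SP p r) :
    ∃ u : Fin N ⊕ Fin N → F, Q u = 0 ∧ bil p u = 0 ∧ bil r u = 0 ∧ ∀ a b : F, u ≠ a • p + b • r := by
  classical
  let M : Matrix (Fin 2) (Fin N) F := Matrix.of ![fun i => p (.inr i), fun i => r (.inr i)]
  let θ : (Fin 2 → F) →ₗ[F] (Fin N → F) :=
    { toFun := fun x i => x 0 * p (.inl i) + x 1 * r (.inl i)
      map_add' := by
        intro x y
        ext i
        simp only [Pi.add_apply]
        ring
      map_smul' := by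
        intro c x
        ext i
        simp only [Pi.smul_apply, smul_eq_mul, RingHom.id_apply]
        ring }
  let W := LinearMap.ker M.mulVecLin
  let K' := LinearMap.ker Mᵀ.mulVecLin
  have hr1 := LinearMap.finrank_range_add_finrank_ker M.mulVecLin
  have hr2 := LinearMap.finrank_range_add_finrank_ker Mᵀ.mulVecLin
  have hrk : Module.finrank F (LinearMap.range Mᵀ.mulVecLin) = Module.finrank F (LinearMap.range M.mulVecLin) :=
    Matrix.rank_transpose M
  rw [Module.finrank_fintype_fun_eq_card, Fintype.card_fin] at hr1 hr2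
  have hnot : ¬ W ≤ K'.map θ := by
    intro hle
    have h1 : Module.finrank F W ≤ Module.finrank F (K'.map θ) := Submodule.finrank_mono hle
    have h2 : Module.finrank F (K'.map θ) ≤ Module.finrank F K' := Submodule.finrank_map_le θ K'
    have h3 : Module.finrank F W + Module.finrank F (LinearMap.range M.mulVecLin) = N := by
      rw [add_comm]; exact hr1
    have h4 : Module.finrank F K' + Module.finrank F (LinearMap.range M.mulVecLin) = 2 := by
      rw [add_comm, ← hrk]; exact hr2
    omega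
  obtain ⟨u₀, hu₀, hu₀'⟩ := SetLike.not_le_iff_exists.1 hnot
  have hu0 : M *ᵥ u₀ = 0 := hu₀
  have hu1 : ∑ i, p (.inr i) * u₀ i = 0 := by
    have := congrFun hu0 0
    simpa [M, mulVec, dotProduct] using this
  have hu2 : ∑ i, r (.inr i) * u₀ i = 0 := by
    have := congrFun hu0 1
    simpa [M, mulVec, dotProduct] using this
  refine ⟨Sum.elim u₀ 0, ?_, ?_, ?_, ?_⟩
  · simp [quadFormPlus]
  · rw [bil_eq]
    simpa using hu1
  · rw [bil_eq]
    simpa using hu2
  · intro a b e
    apply hu₀'
    refine ⟨![a, b], ?_, ?_⟩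
    · change Mᵀ *ᵥ ![a, b] = 0
      ext i
      have h5 := congrFun e (.inr i)
      simp only [Sum.elim_inr, Pi.zero_apply, Pi.add_apply, Pi.smul_apply, smul_eq_mul] at h5
      simp only [mulVec, dotProduct, Fin.sum_univ_two, Matrix.transpose_apply, M, Matrix.of_apply,
        Matrix.cons_val_zero, Matrix.cons_val_one, Pi.zero_apply]
      linear_combination -h5
    · ext i
      have h5 := congrFun e (.inl i)
      simp only [Sum.elim_inl, Pi.add_apply, Pi.smul_apply, smul_eq_mul] at h5
      change ![a, b] 0 * p (.inl i) + ![a, b] 1 * r (.inl i) = u₀ i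
      simp only [Matrix.cons_val_zero, Matrix.cons_val_one]
      exact h5.symm

lemma li4 {a b c d : Fin N ⊕ Fin N → F}
    (h : ∀ x y z w : F, x • a + y • b + z • c + w • d = 0 → x = 0 ∧ y = 0 ∧ z = 0 ∧ w = 0) :
    LinearIndependent F ![a, b, c, d] := by
  rw [Fintype.linearIndependent_iff]
  intro g hg i
  rw [Fin.sum_univ_four] at hg
  simp only [Matrix.cons_val_zero, Matrix.cons_val_one, Matrix.cons_val] at hg
  obtain ⟨h0, h1, h2, h3⟩ := h _ _ _ _ hg
  fin_cases i
  · exact h0
  · exact h1
  · exact h2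
  · exact h3

/-- The common opposite line of two lines in the normal form of the rank one case. -/
theorem exists_common_opp (hN : 3 ≤ N) {p r s t : Fin N ⊕ Fin N → F} (h₁ : SP p r) (h₂ : SP s t)
    (e22 : bil r t = 1) (e12 : bil p t = 0) (e21 : bil r s = 0) (e11 : bil p s = 0) :
    ∃ a b : Fin N ⊕ Fin N → F, SP a b ∧ bil p a * bil r b - bil p b * bil r a ≠ 0 ∧
      bil s a * bil t b - bil s b * bil t a ≠ 0 := by
  have e22' : bil t r = 1 := by rw [bil_comm]; exact e22
  have e12' : bil t p = 0 := by rw [bil_comm]; exact e12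
  have e21' : bil s r = 0 := by rw [bil_comm]; exact e21
  have e11' : bil s p = 0 := by rw [bil_comm]; exact e11
  -- step 1
  obtain ⟨v₀, hv1, hv2⟩ := Cfsg.Agent.Lib.Classical.TransvSp.exists_off_two (sw_ne_zero h₁.p_ne)
    (sw_ne_zero h₂.p_ne)
  change bil p v₀ ≠ 0 at hv1
  change bil s v₀ ≠ 0 at hv2
  -- step 2
  obtain ⟨v, hv⟩ : ∃ v, v = v₀ - bil v₀ t • r - bil v₀ r • t := ⟨_, rfl⟩
  have vr : bil r v = 0 := by
    rw [hv, bil_sub_right, bil_sub_right, bil_smul_right, bil_smul_right, h₁.rr, e22, bil_comm r v₀]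
    ring
  have vt : bil t v = 0 := by
    rw [hv, bil_sub_right, bil_sub_right, bil_smul_right, bil_smul_right, e22', h₂.rr, bil_comm t v₀]
    ring
  have vp : bil p v = bil p v₀ := by
    rw [hv, bil_sub_right, bil_sub_right, bil_smul_right, bil_smul_right, h₁.br, e12]
    ring
  have vs : bil s v = bil s v₀ := by
    rw [hv, bil_sub_right, bil_sub_right, bil_smul_right, bil_smul_right, h₂.br, e21']
    ring
  -- step 3
  obtain ⟨x, hx⟩ : ∃ x, x = bil p v := ⟨_, rfl⟩
  have hx0 : x ≠ 0 := by rw [hx, vp]; exact hv1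
  obtain ⟨y, hy⟩ : ∃ y, y = bil s v := ⟨_, rfl⟩
  have hy0 : y ≠ 0 := by rw [hy, vs]; exact hv2
  obtain ⟨a, ha⟩ : ∃ a, a = v - (Q v / x) • p := ⟨_, rfl⟩
  have qa : Q a = 0 := by
    rw [ha, q_sub, q_smul, h₁.qp, bil_smul_right, bil_comm v p, ← hx]
    field_simp
    ring
  have ar : bil r a = 0 := by
    rw [ha, bil_sub_right, bil_smul_right, h₁.rp, vr]
    ring
  have at' : bil t a = 0 := by
    rw [ha, bil_sub_right, bil_smul_right, e12', vt]
    ring
  have ap : bil p a = x := by
    rw [ha, bil_sub_right, bil_smul_right, h₁.pp, ← hx]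
    ring
  have as : bil s a = y := by
    rw [ha, bil_sub_right, bil_smul_right, e11', ← hy]
    ring
  -- step 4
  obtain ⟨u, qu, up, ur, hu⟩ := exists_ts_ext hN h₁
  obtain ⟨u', hu'⟩ : ∃ u', u' = u - bil u t • r := ⟨_, rfl⟩
  have qu' : Q u' = 0 := by
    rw [hu', q_sub, q_smul, qu, h₁.qr, bil_smul_right, bil_comm u r, ur]
    ring
  have u'r : bil r u' = 0 := by
    rw [hu', bil_sub_right, bil_smul_right, h₁.rr, ur]
    ring
  have u't : bil t u' = 0 := by
    rw [hu', bil_sub_right, bil_smul_right, e22', bil_comm t u]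
    ring
  have u'p : bil p u' = 0 := by
    rw [hu', bil_sub_right, bil_smul_right, h₁.br, up]
    ring
  -- step 5
  obtain ⟨e, he⟩ : ∃ e, e = u' - (bil u' a / x) • p := ⟨_, rfl⟩
  have qe : Q e = 0 := by
    rw [he, q_sub, q_smul, qu', h₁.qp, bil_smul_right, bil_comm u' p, u'p]
    ring
  have ae : bil a e = 0 := by
    rw [he, bil_sub_right, bil_smul_right, bil_comm a p, ap, bil_comm a u']
    field_simp
    ring
  have er : bil r e = 0 := by
    rw [he, bil_sub_right, bil_smul_right, u'r, h₁.rp]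
    ring
  have et : bil t e = 0 := by
    rw [he, bil_sub_right, bil_smul_right, u't, e12']
    ring
  have ep : bil p e = 0 := by
    rw [he, bil_sub_right, bil_smul_right, u'p, h₁.pp]
    ring
  have ee : bil e e = 0 := by rw [bil_self, qe, mul_zero]
  have hene : e ≠ 0 := by
    intro e0
    obtain ⟨κ, hκ⟩ : ∃ κ, κ = bil u' a / x := ⟨_, rfl⟩
    rw [← hκ] at he
    rw [he, hu', sub_sub, sub_eq_zero] at e0
    exact hu κ (bil u t) (e0.trans (add_comm _ _))
  -- step 6
  have hli : LinearIndependent F ![r, t, a, e] := by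
    refine li4 fun α β γ δ h0 => ?_
    have h1 : bil t (α • r + β • t + γ • a + δ • e) = 0 := by rw [h0]; simp [bil]
    have h2 : bil r (α • r + β • t + γ • a + δ • e) = 0 := by rw [h0]; simp [bil]
    have h3 : bil p (α • r + β • t + γ • a + δ • e) = 0 := by rw [h0]; simp [bil]
    simp only [bil_add_right, bil_smul_right, e22', h₂.rr, at', et, mul_zero, add_zero, mul_one] at h1
    simp only [bil_add_right, bil_smul_right, e22, h₁.rr, ar, er, mul_zero, add_zero, zero_add, mul_one] at h2
    simp only [bil_add_right, bil_smul_right, h₁.br, e12, ap, ep, mul_zero, add_zero, zero_add] at h3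
    have h4 : γ = 0 := (mul_eq_zero.1 h3).resolve_right hx0
    rw [h1, h2, h4] at h0
    simp only [zero_smul, zero_add] at h0
    exact ⟨h1, h2, h4, (smul_eq_zero.1 h0).resolve_right hene⟩
  obtain ⟨f₀, hf⟩ := exists_bil hli ![0, 0, 0, 1]
  have f0r : bil r f₀ = 0 := hf 0
  have f0t : bil t f₀ = 0 := hf 1
  have f0a : bil a f₀ = 0 := hf 2
  have f0e : bil e f₀ = 1 := hf 3
  obtain ⟨f, hff⟩ : ∃ f, f = f₀ - Q f₀ • e := ⟨_, rfl⟩
  have qf : Q f = 0 := by
    rw [hff, q_sub, q_smul, qe, bil_smul_right, bil_comm f₀ e, f0e]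
    ring
  have fr : bil r f = 0 := by
    rw [hff, bil_sub_right, bil_smul_right, er, f0r]
    ring
  have ft : bil t f = 0 := by
    rw [hff, bil_sub_right, bil_smul_right, et, f0t]
    ring
  have fa : bil a f = 0 := by
    rw [hff, bil_sub_right, bil_smul_right, ae, f0a]
    ring
  have ef : bil e f = 1 := by
    rw [hff, bil_sub_right, bil_smul_right, ee, f0e]
    ring
  -- step 7
  obtain ⟨z, hz⟩ : ∃ z, z = e - f := ⟨_, rfl⟩
  have qz : Q z = -1 := by
    rw [hz, q_sub, qe, qf, ef]
    ring
  have zr : bil r z = 0 := by rw [hz, bil_sub_right, er, fr, sub_zero]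
  have zt : bil t z = 0 := by rw [hz, bil_sub_right, et, ft, sub_zero]
  have za : bil a z = 0 := by rw [hz, bil_sub_right, ae, fa, sub_zero]
  -- step 8
  refine ⟨a, r + t + z, ⟨?_, qa, ?_, ?_⟩, ?_, ?_⟩
  · intro α β h0
    have h1 : bil t (α • a + β • (r + t + z)) = 0 := by rw [h0]; simp [bil]
    have h2 : bil p (α • a + β • (r + t + z)) = 0 := by rw [h0]; simp [bil]
    simp only [bil_add_right, bil_smul_right, e22', h₂.rr, at', zt, mul_zero, add_zero, zero_add, mul_one] at h1
    simp only [bil_add_right, bil_smul_right, h₁.br, e12, ap, h1, zero_mul, add_zero] at h2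
    exact ⟨(mul_eq_zero.1 h2).resolve_right hx0, h1⟩
  · rw [q_add, q_add, h₁.qr, h₂.qr, qz, bil_add_left, e22, zr, zt]
    ring
  · rw [bil_add_right, bil_add_right, za, bil_comm a r, ar, bil_comm a t, at']
    ring
  · have hpb : bil r (r + t + z) = 1 := by
      rw [bil_add_right, bil_add_right, zr, h₁.rr, e22]
      ring
    rw [hpb, ar, ap]
    simpa using hx0
  · have hpb : bil t (r + t + z) = 1 := by
      rw [bil_add_right, bil_add_right, zt, e22', h₂.rr]
      ring
    rw [hpb, at', as]
    simpa using hy0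

end Cfsg.Agent.Lib.Geo.Siegel
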