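/-
The Siegel transvection groups in a faithful matrix group containing them: the three cases for pairs and connectivity.
-/
import Cfsg.Agent.Lib.Geo.Siegel2

set_option autoImplicit false

open scoped MatrixGroups commutatorElement
open Matrix Cfsg

namespace Cfsg.Agent.Lib.Geo.Siegel

open Cfsg.Agent.Lib.Geo.SqZero
open Cfsg.Agent.Lib.Classical.TransvRoot (colsM rowsM rows_cols)

variable {F : Type*} [Field F] {N : ℕ} {G : Type*} [Group G]

local notation "Q" => quadFormPlus N F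

/-- The group of a singular pair. -/
def TT (ρ : G →* Matrix (Fin N ⊕ Fin N) (Fin N ⊕ Fin N) F) {p r : Fin N ⊕ Fin N → F} (h : SP p r) : Subgroup G :=
  TR (RingHom.id F) ρ (R p r) (R_sq h)

/-- The set of the groups of singular pairs. -/
def rootS (ρ : G →* Matrix (Fin N ⊕ Fin N) (Fin N ⊕ Fin N) F) : Set (Subgroup G) :=
  {A | ∃ p r : Fin N ⊕ Fin N → F, ∃ h : SP p r, A = TT ρ h}

variable (ρ : G →* Matrix (Fin N ⊕ Fin N) (Fin N ⊕ Fin N) F)

lemma TT_eq {p r p' r' : Fin N ⊕ Fin N → F} (h : SP p r) (h' : SP p' r') {c : F} (hc : c ≠ 0)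
    (e : R p' r' = c • R p r) : TT ρ h' = TT ρ h := by
  unfold TT
  have h3 : (RingHom.id F c • R p r) * (RingHom.id F c • R p r) = 0 := by
    rw [smul_mul_smul_comm, R_sq h, smul_zero]
  rw [TR_congr e (R_sq h') h3]
  exact TR_smul (ι := RingHom.id F) (ρ := ρ) hc h3

lemma TT_swap {p r : Fin N ⊕ Fin N → F} (h : SP p r) : TT ρ h.swap = TT ρ h :=
  TT_eq ρ h h.swap (neg_ne_zero.2 one_ne_zero) (R_swap p r)

variable {ρ} (hρ : Function.Injective ρ) (hf : ∀ {p r : Fin N ⊕ Fin N → F}, SP p r → FullR (RingHom.id F) ρ (R p r))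

include hρ hf

/-- Rank one pairs in the dual position. -/
theorem rank_one_I {p r s t : Fin N ⊕ Fin N → F} (h₁ : SP p r) (h₂ : SP s t) (e11 : bil p s = 1)
    (e12 : bil p t = 0) (e21 : bil r s = 0) (e22 : bil r t = 1) :
    IsRankOnePair (TT ρ h₁) (TT ρ h₂) ∧ IsPSL2PairOver F (TT ρ h₁) (TT ρ h₂) := by
  have e11' : bil s p = 1 := by rw [bil_comm]; exact e11
  have e12' : bil t p = 0 := by rw [bil_comm]; exact e12
  have e21' : bil s r = 0 := by rw [bil_comm]; exact e21
  have e22' : bil t r = 1 := by rw [bil_comm]; exact e22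
  obtain ⟨U₁, hU₁⟩ : ∃ U₁, U₁ = colsM r s := ⟨_, rfl⟩
  obtain ⟨W₁, hW₁⟩ : ∃ W₁, W₁ = rowsM (sw t) (sw p) := ⟨_, rfl⟩
  obtain ⟨U₂, hU₂⟩ : ∃ U₂, U₂ = colsM (-p) t := ⟨_, rfl⟩
  obtain ⟨W₂, hW₂⟩ : ∃ W₂, W₂ = rowsM (-sw s) (sw r) := ⟨_, rfl⟩
  have d1 : ∀ a b : Fin N ⊕ Fin N → F, sw a ⬝ᵥ b = bil a b := fun _ _ => rfl
  have h11 : W₁ * U₁ = 1 := by
    rw [hW₁, hU₁, rows_cols, d1, d1, d1, d1, e22', h₂.rp, h₁.br, e11]
    exact Matrix.one_fin_two.symm
  have h12 : W₁ * U₂ = 0 := by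
    rw [hW₁, hU₂, rows_cols, d1, d1, d1, d1, bil_neg_right, bil_neg_right, e12', h₂.rr, h₁.pp, e12]
    ext i j
    fin_cases i <;> fin_cases j <;> simp
  have h21 : W₂ * U₁ = 0 := by
    have d2 : ∀ a b : Fin N ⊕ Fin N → F, (-sw a) ⬝ᵥ b = -bil a b := fun a b => by
      rw [neg_dotProduct]; rfl
    rw [hW₂, hU₁, rows_cols, d2, d2, d1, d1, e21', h₂.pp, h₁.rr, e21]
    ext i j
    fin_cases i <;> fin_cases j <;> simp
  have h22 : W₂ * U₂ = 1 := by
    have d2 : ∀ a b : Fin N ⊕ Fin N → F, (-sw a) ⬝ᵥ b = -bil a b := fun a b => by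
      rw [neg_dotProduct]; rfl
    rw [hW₂, hU₂, rows_cols, d2, d2, d1, d1, bil_neg_right, bil_neg_right, e11', h₂.br, h₁.rp, e22]
    simp only [neg_neg, neg_zero]
    exact Matrix.one_fin_two.symm
  let A : Matrix (Fin 2) (Fin 2) F →ₗ[F] Matrix (Fin N ⊕ Fin N) (Fin N ⊕ Fin N) F :=
    { toFun := fun X => U₁ * X * W₁ + U₂ * X * W₂
      map_add' := by
        intro X Y
        simp only [Matrix.mul_add, Matrix.add_mul]
        abel
      map_smul' := by
        intro c X
        simp only [Matrix.mul_smul, Matrix.smul_mul, RingHom.id_apply, smul_add] }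
  have hAv : ∀ X, A X = U₁ * X * W₁ + U₂ * X * W₂ := fun _ => rfl
  have hA : ∀ X Y, A (X * Y) = A X * A Y := by
    intro X Y
    rw [hAv, hAv, hAv]
    have t : ∀ (U U' : Matrix (Fin N ⊕ Fin N) (Fin 2) F) (W W' : Matrix (Fin 2) (Fin N ⊕ Fin N) F)
        (X Y : Matrix (Fin 2) (Fin 2) F), U * X * W * (U' * Y * W') = U * X * (W * U') * Y * W' := by
      intros
      simp only [Matrix.mul_assoc]
    rw [Matrix.add_mul, Matrix.mul_add, Matrix.mul_add, t, t, t, t, h11, h12, h21, h22]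
    simp [Matrix.mul_assoc]
  have key : ∀ X, W₁ * (A X) * U₁ = X := by
    intro X
    rw [hAv]
    have t : ∀ (U : Matrix (Fin N ⊕ Fin N) (Fin 2) F) (W : Matrix (Fin 2) (Fin N ⊕ Fin N) F)
        (X : Matrix (Fin 2) (Fin 2) F), W₁ * (U * X * W) * U₁ = (W₁ * U) * X * (W * U₁) := by
      intros
      simp only [Matrix.mul_assoc]
    rw [Matrix.mul_add, Matrix.add_mul, t, t, h11, h12, h21]
    simp
  have hinj : Function.Injective A := by
    intro X Y e
    rw [← key X, e, key]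
  have hX : A !![0, 1; 0, 0] = R p r := by
    rw [hAv, hU₁, hW₁, hU₂, hW₂]
    ext i j
    simp [R, Matrix.mul_apply, Fin.sum_univ_two, colsM, rowsM, vecMulVec_apply]
    ring
  have hY : A !![0, 0; 1, 0] = (RingHom.id F) (-1) • R s t := by
    rw [hAv, hU₁, hW₁, hU₂, hW₂]
    ext i j
    simp [R, Matrix.mul_apply, Fin.sum_univ_two, colsM, rowsM, vecMulVec_apply]
    ring
  exact pair_of_block hρ A hA hinj (c := -1) (neg_ne_zero.2 one_ne_zero) hX hY (hf h₁) (hf h₂)

/-- Rank one pairs: invertible pairing. -/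
theorem rank_one_det {p r s t : Fin N ⊕ Fin N → F} (h₁ : SP p r) (h₂ : SP s t)
    (hΔ : bil p s * bil r t - bil p t * bil r s ≠ 0) :
    IsRankOnePair (TT ρ h₁) (TT ρ h₂) ∧ IsPSL2PairOver F (TT ρ h₁) (TT ρ h₂) := by
  obtain ⟨Δ, hD⟩ : ∃ Δ, Δ = bil p s * bil r t - bil p t * bil r s := ⟨_, rfl⟩
  rw [← hD] at hΔ
  have hdet : (bil r t / Δ) * (bil p s / Δ) - (-bil r s / Δ) * (-bil p t / Δ) ≠ 0 := by
    have : (bil r t / Δ) * (bil p s / Δ) - (-bil r s / Δ) * (-bil p t / Δ) = Δ⁻¹ := by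
      field_simp
      rw [hD]
      ring
    rw [this]
    exact inv_ne_zero hΔ
  have h₂' := h₂.comb hdet
  have e : TT ρ h₂' = TT ρ h₂ := TT_eq ρ h₂ h₂' hdet (R_comb s t _ _ _ _)
  rw [← e]
  refine rank_one_I hρ hf h₁ h₂' ?_ ?_ ?_ ?_
  · simp only [bil_add_right, bil_smul_right]
    field_simp
    rw [hD]
    ring
  · simp only [bil_add_right, bil_smul_right]
    field_simp
    ring
  · simp only [bil_add_right, bil_smul_right]
    field_simp
    ring
  · simp only [bil_add_right, bil_smul_right]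
    field_simp
    rw [hD]
    ring

/-- The normal form of the rank one case. -/
theorem case_normal {p r s t : Fin N ⊕ Fin N → F} (h₁ : SP p r) (h₂ : SP s t)
    (e22 : bil r t = 1) (e12 : bil p t = 0) (e21 : bil r s = 0) (e11 : bil p s = 0) :
    ⁅TT ρ h₁, TT ρ h₂⁆ = ⊥ ∨ RootCommutatorCase (rootS ρ) (TT ρ h₁) (TT ρ h₂) := by
  have e22' : bil t r = 1 := by rw [bil_comm]; exact e22
  have e12' : bil t p = 0 := by rw [bil_comm]; exact e12
  have e21' : bil s r = 0 := by rw [bil_comm]; exact e21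
  have e11' : bil s p = 0 := by rw [bil_comm]; exact e11
  have m12 : R p r * R s t = -vecMulVec p (sw s) := by
    rw [R_mul, e12, e11, e22, e21]
    simp
  have m21 : R s t * R p r = -vecMulVec s (sw p) := by
    rw [R_mul, e21', e11', e22', e12']
    simp
  have hd : R p r * R s t - R s t * R p r = R p s := by
    rw [m12, m21, R]
    abel
  by_cases hind : ∀ a b : F, a • p + b • s = 0 → a = 0 ∧ b = 0
  · right
    have hsp : SP p s := ⟨hind, h₁.qp, h₂.qp, e11⟩
    have h121 : R p r * R s t * R p r = 0 := by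
      rw [m12, neg_mul, R, mul_sub, E_mul, E_mul]
      change -(bil s r • vecMulVec p (sw p) - bil s p • vecMulVec p (sw r)) = 0
      rw [e21', e11']
      simp
    have h212 : R s t * R p r * R s t = 0 := by
      rw [m21, neg_mul, R, mul_sub, E_mul, E_mul]
      change -(bil p t • vecMulVec s (sw s) - bil p s • vecMulVec s (sw t)) = 0
      rw [e12, e11]
      simp
    have h3 : (R p r * R s t - R s t * R p r) * (R p r * R s t - R s t * R p r) = 0 := by
      rw [hd]
      exact R_sq hsp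
    refine commutator_case hρ (R_sq h₁) (R_sq h₂) h121 h212 h3 (hf h₁) (hf h₂) ?_ ?_
    · rw [hd]
      exact hf hsp
    · refine ⟨p, s, hsp, ?_⟩
      unfold TT
      exact TR_congr hd _ _
  · left
    push Not at hind
    obtain ⟨a, b, e, hne⟩ := hind
    have hb : b ≠ 0 := by
      rintro rfl
      have h5 : a • p = 0 := by simpa using e
      have h6 : a = 0 := (smul_eq_zero.1 h5).resolve_right h₁.p_ne
      exact hne h6 rfl
    have hs : s = (-(a / b)) • p := by
      have h5 : b • s = (-a) • p := by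
        rw [neg_smul]
        exact eq_neg_of_add_eq_zero_right e
      calc s = b⁻¹ • (b • s) := by rw [smul_smul, inv_mul_cancel₀ hb, one_smul]
        _ = _ := by
          rw [h5, smul_smul]
          congr 1
          field_simp
    have hz : R p s = 0 := by
      rw [hs]
      ext i j
      simp only [R, Matrix.sub_apply, vecMulVec_apply, sw, Pi.smul_apply, smul_eq_mul, Matrix.zero_apply]
      ring
    refine comm_bot hρ (sub_eq_zero.1 ?_)
    rw [hd, hz]

/-- The rank one case with an invertible corner. -/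
theorem rank1_case {p r s t : Fin N ⊕ Fin N → F} (h₁ : SP p r) (h₂ : SP s t) (hm : bil r t ≠ 0)
    (hΔ : bil p s * bil r t - bil p t * bil r s = 0) :
    ⁅TT ρ h₁, TT ρ h₂⁆ = ⊥ ∨ RootCommutatorCase (rootS ρ) (TT ρ h₁) (TT ρ h₂) := by
  have hd₁ : (1 : F) * 1 - (-(bil p t / bil r t)) * 0 ≠ 0 := by simp
  have hd₂ : (1 : F) * (1 / bil r t) - (-(bil r s / bil r t)) * 0 ≠ 0 := by
    simp only [mul_zero, sub_zero, one_mul]
    exact one_div_ne_zero hm
  have h₁' := h₁.comb hd₁
  have h₂' := h₂.comb hd₂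
  have E₁ : TT ρ h₁' = TT ρ h₁ := TT_eq ρ h₁ h₁' hd₁ (R_comb p r _ _ _ _)
  have E₂ : TT ρ h₂' = TT ρ h₂ := TT_eq ρ h₂ h₂' hd₂ (R_comb s t _ _ _ _)
  rw [← E₁, ← E₂]
  refine case_normal hρ hf h₁' h₂' ?_ ?_ ?_ ?_
  · simp only [bil_add_right, bil_add_left, bil_smul_right, bil_smul_left]
    field_simp
    ring
  · simp only [bil_add_right, bil_add_left, bil_smul_right, bil_smul_left]
    field_simp
    ring
  · simp only [bil_add_right, bil_add_left, bil_smul_right, bil_smul_left]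
    field_simp
    ring
  · simp only [bil_add_right, bil_add_left, bil_smul_right, bil_smul_left]
    field_simp
    linear_combination hΔ

end Cfsg.Agent.Lib.Geo.Siegel
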