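/-
The Siegel transvection groups: trichotomy, connectivity, the root set in a faithful matrix group.
-/
import Cfsg.Agent.Lib.Geo.Siegel3

set_option autoImplicit false

open scoped MatrixGroups commutatorElement
open Matrix Cfsg

namespace Cfsg.Agent.Lib.Geo.Siegel

open Cfsg.Agent.Lib.Geo.SqZero
open Cfsg.Agent.Lib.RootSubgroups.Abstract (not_commute_matched exists_match)

variable {F : Type*} [Field F] {N : ℕ} {G : Type*} [Group G]

local notation "Q" => quadFormPlus N F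

/-- Two lines with orthogonal first vectors have a common line not orthogonal to them. -/
theorem exists_nonperp {p r s t : Fin N ⊕ Fin N → F} (h₁ : SP p r) (h₂ : SP s t) (e11 : bil p s = 0) :
    ∃ a b : Fin N ⊕ Fin N → F, SP a b ∧ bil p a ≠ 0 ∧ bil s a ≠ 0 := by
  obtain ⟨v, hv1, hv2⟩ := Cfsg.Agent.Lib.Classical.TransvSp.exists_off_two (sw_ne_zero h₁.p_ne)
    (sw_ne_zero h₂.p_ne)
  change bil p v ≠ 0 at hv1
  change bil s v ≠ 0 at hv2
  obtain ⟨x, hx⟩ : ∃ x, x = bil p v := ⟨_, rfl⟩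
  rw [← hx] at hv1
  obtain ⟨a, ha⟩ : ∃ a, a = v - (Q v / x) • p := ⟨_, rfl⟩
  have qa : Q a = 0 := by
    rw [ha, q_sub, q_smul, h₁.qp, bil_smul_right, bil_comm v p, ← hx]
    field_simp
    ring
  have ap : bil p a = x := by
    rw [ha, bil_sub_right, bil_smul_right, h₁.pp, ← hx]
    ring
  have as : bil s a = bil s v := by
    rw [ha, bil_sub_right, bil_smul_right, bil_comm s p, e11]
    ring
  obtain ⟨κ, hκ⟩ : ∃ κ, κ = bil r a / x := ⟨_, rfl⟩
  obtain ⟨b, hb⟩ : ∃ b, b = r - κ • p := ⟨_, rfl⟩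
  have hbne : b ≠ 0 := by
    intro e
    have h5 : (-κ) • p + (1 : F) • r = 0 := by
      rw [hb] at e
      rw [one_smul, neg_smul, add_comm, ← sub_eq_add_neg]
      exact e
    exact one_ne_zero (h₁.ind _ _ h5).2
  have bp : bil p b = 0 := by
    rw [hb, bil_sub_right, bil_smul_right, h₁.pp, h₁.br]
    ring
  refine ⟨a, b, ⟨?_, qa, ?_, ?_⟩, ?_, ?_⟩
  · intro α β e
    have h1 : bil p (α • a + β • b) = 0 := by rw [e]; simp [bil]
    rw [bil_add_right, bil_smul_right, bil_smul_right, ap, bp, mul_zero, add_zero] at h1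
    have hα : α = 0 := (mul_eq_zero.1 h1).resolve_right hv1
    rw [hα, zero_smul, zero_add] at e
    exact ⟨hα, (smul_eq_zero.1 e).resolve_right hbne⟩
  · rw [hb, q_sub, q_smul, h₁.qr, h₁.qp, bil_smul_right, h₁.rp]
    ring
  · rw [hb, bil_sub_right, bil_smul_right, bil_comm a r, bil_comm a p, ap, hκ]
    field_simp
    ring
  · rw [ap]
    exact hv1
  · rw [as]
    exact hv2

variable {ρ : G →* Matrix (Fin N ⊕ Fin N) (Fin N ⊕ Fin N) F} (hρ : Function.Injective ρ)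
  (hf : ∀ {p r : Fin N ⊕ Fin N → F}, SP p r → FullR (RingHom.id F) ρ (R p r))

include hρ hf

/-- The case of a degenerate pairing. -/
theorem det_zero {p r s t : Fin N ⊕ Fin N → F} (h₁ : SP p r) (h₂ : SP s t)
    (hΔ : bil p s * bil r t - bil p t * bil r s = 0) :
    ⁅TT ρ h₁, TT ρ h₂⁆ = ⊥ ∨ RootCommutatorCase (rootS ρ) (TT ρ h₁) (TT ρ h₂) := by
  by_cases m22 : bil r t = 0
  · by_cases m21 : bil r s = 0
    · by_cases m12 : bil p t = 0
      · by_cases m11 : bil p s = 0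
        · left
          refine comm_bot hρ ?_
          rw [R_mul, R_mul, m22, m21, m12, m11, bil_comm s r, bil_comm s p, bil_comm t r, bil_comm t p, m22,
            m21, m12, m11]
          simp
        · have h3 : bil r t * bil p s - bil r s * bil p t = 0 := by linear_combination hΔ
          have := rank1_case hρ hf h₁.swap h₂.swap m11 h3
          rwa [TT_swap ρ h₁, TT_swap ρ h₂] at this
      · have h3 : bil r s * bil p t - bil r t * bil p s = 0 := by linear_combination -hΔ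
        have := rank1_case hρ hf h₁.swap h₂ m12 h3
        rwa [TT_swap ρ h₁] at this
    · have h3 : bil p t * bil r s - bil p s * bil r t = 0 := by linear_combination -hΔ
      have := rank1_case hρ hf h₁ h₂.swap m21 h3
      rwa [TT_swap ρ h₂] at this
  · exact rank1_case hρ hf h₁ h₂ m22 hΔ

/-- The three cases. -/
theorem pair_tri {p r s t : Fin N ⊕ Fin N → F} (h₁ : SP p r) (h₂ : SP s t) :
    ⁅TT ρ h₁, TT ρ h₂⁆ = ⊥ ∨ IsRankOnePair (TT ρ h₁) (TT ρ h₂) ∨
      RootCommutatorCase (rootS ρ) (TT ρ h₁) (TT ρ h₂) := by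
  by_cases hΔ : bil p s * bil r t - bil p t * bil r s = 0
  · rcases det_zero hρ hf h₁ h₂ hΔ with h | h
    · exact Or.inl h
    · exact Or.inr (Or.inr h)
  · exact Or.inr (Or.inl (rank_one_det hρ hf h₁ h₂ hΔ).1)

/-- A rank one pair has an invertible pairing. -/
theorem det_ne_of_rankOne {p r s t : Fin N ⊕ Fin N → F} (h₁ : SP p r) (h₂ : SP s t)
    (hr : IsRankOnePair (TT ρ h₁) (TT ρ h₂)) : bil p s * bil r t - bil p t * bil r s ≠ 0 := by
  intro hΔ
  obtain ⟨a, ha⟩ := hf h₁ 1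
  have ham : a ∈ TT ρ h₁ := ⟨1, ha⟩
  have ha1 : a ≠ 1 := by
    rintro rfl
    rw [map_one, map_one, one_smul] at ha
    exact R_ne h₁ (by simpa using ha.symm)
  rcases det_zero hρ hf h₁ h₂ hΔ with h | h
  · obtain ⟨d, hd, -, he⟩ := exists_match hr ham ha1
    refine not_commute_matched hr ham ha1 hd he ?_
    have h1 : d⁻¹ * a * d * a⁻¹ = 1 := by
      have h2 : a * d⁻¹ * a⁻¹ * d⁻¹⁻¹ ∈ ⁅TT ρ h₁, TT ρ h₂⁆ :=
        Cfsg.Agent.Lib.RootSubgroups.Abstract.comm_mem ham (Subgroup.inv_mem _ hd)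
      rw [h, Subgroup.mem_bot] at h2
      have h3 : d⁻¹ * a * d * a⁻¹ = (a * d⁻¹ * a⁻¹ * d⁻¹⁻¹)⁻¹ := by group
      rw [h3, h2, inv_one]
    rw [h1, one_mul, mul_one]
  · exact Cfsg.Agent.Lib.Classical.TransvSp.not_case_of_rankOne hr h ham ha1

/-- Any two groups of singular pairs are connected by rank one pairs, if their pairing does not vanish. -/
theorem conn_normal (hN : 3 ≤ N) {p r s t : Fin N ⊕ Fin N → F} (h₁ : SP p r) (h₂ : SP s t)
    (e22 : bil r t = 1) (e12 : bil p t = 0) (e21 : bil r s = 0) (e11 : bil p s = 0) :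
    Relation.ReflTransGen (FAdj (rootS ρ)) (TT ρ h₁) (TT ρ h₂) := by
  obtain ⟨a, b, hab, hd1, hd2⟩ := exists_common_opp hN h₁ h₂ e22 e12 e21 e11
  have hC : TT ρ hab ∈ rootS ρ := ⟨a, b, hab, rfl⟩
  have hA : TT ρ h₁ ∈ rootS ρ := ⟨p, r, h₁, rfl⟩
  have hB : TT ρ h₂ ∈ rootS ρ := ⟨s, t, h₂, rfl⟩
  refine Relation.ReflTransGen.tail (Relation.ReflTransGen.single (b := TT ρ hab)
    ⟨hA, hC, (rank_one_det hρ hf h₁ hab hd1).1⟩) ⟨hC, hB, (rank_one_det hρ hf hab h₂ ?_).1⟩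
  rw [bil_comm a s, bil_comm b t, bil_comm a t, bil_comm b s]
  intro e
  apply hd2
  linear_combination e

theorem conn_case (hN : 3 ≤ N) {p r s t : Fin N ⊕ Fin N → F} (h₁ : SP p r) (h₂ : SP s t) (hm : bil r t ≠ 0)
    (hΔ : bil p s * bil r t - bil p t * bil r s = 0) :
    Relation.ReflTransGen (FAdj (rootS ρ)) (TT ρ h₁) (TT ρ h₂) := by
  have hd₁ : (1 : F) * 1 - (-(bil p t / bil r t)) * 0 ≠ 0 := by simp
  have hd₂ : (1 : F) * (1 / bil r t) - (-(bil r s / bil r t)) * 0 ≠ 0 := by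
    simp only [mul_zero, sub_zero, one_mul]
    exact one_div_ne_zero hm
  have h₁' := h₁.comb hd₁
  have h₂' := h₂.comb hd₂
  have E₁ : TT ρ h₁' = TT ρ h₁ := TT_eq ρ h₁ h₁' hd₁ (R_comb p r _ _ _ _)
  have E₂ : TT ρ h₂' = TT ρ h₂ := TT_eq ρ h₂ h₂' hd₂ (R_comb s t _ _ _ _)
  rw [← E₁, ← E₂]
  refine conn_normal hρ hf hN h₁' h₂' ?_ ?_ ?_ ?_
  · simp only [bil_add_right, bil_add_left, bil_smul_right, bil_smul_left]
    field_simp
    ring
  · simp only [bil_add_right, bil_add_left, bil_smul_right, bil_smul_left]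
    field_simp
    ring
  · simp only [bil_add_right, bil_add_left, bil_smul_right, bil_smul_left]
    field_simp
    ring
  · simp only [bil_add_right, bil_add_left, bil_smul_right, bil_smul_left]
    field_simp
    linear_combination hΔ

theorem conn_ne (hN : 3 ≤ N) {p r s t : Fin N ⊕ Fin N → F} (h₁ : SP p r) (h₂ : SP s t)
    (hne : bil p s ≠ 0 ∨ bil p t ≠ 0 ∨ bil r s ≠ 0 ∨ bil r t ≠ 0) :
    Relation.ReflTransGen (FAdj (rootS ρ)) (TT ρ h₁) (TT ρ h₂) := by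
  by_cases hΔ : bil p s * bil r t - bil p t * bil r s = 0
  · rcases hne with m | m | m | m
    · have h3 : bil r t * bil p s - bil r s * bil p t = 0 := by linear_combination hΔ
      have := conn_case hρ hf hN h₁.swap h₂.swap m h3
      rwa [TT_swap ρ h₁, TT_swap ρ h₂] at this
    · have h3 : bil r s * bil p t - bil r t * bil p s = 0 := by linear_combination -hΔ
      have := conn_case hρ hf hN h₁.swap h₂ m h3
      rwa [TT_swap ρ h₁] at this
    · have h3 : bil p t * bil r s - bil p s * bil r t = 0 := by linear_combination -hΔ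
      have := conn_case hρ hf hN h₁ h₂.swap m h3
      rwa [TT_swap ρ h₂] at this
    · exact conn_case hρ hf hN h₁ h₂ m hΔ
  · exact Relation.ReflTransGen.single ⟨⟨p, r, h₁, rfl⟩, ⟨s, t, h₂, rfl⟩, (rank_one_det hρ hf h₁ h₂ hΔ).1⟩

/-- Connectivity. -/
theorem conn_all (hN : 3 ≤ N) {p r s t : Fin N ⊕ Fin N → F} (h₁ : SP p r) (h₂ : SP s t) :
    Relation.ReflTransGen (FAdj (rootS ρ)) (TT ρ h₁) (TT ρ h₂) := by
  by_cases e11 : bil p s = 0
  · obtain ⟨a, b, hab, ha1, ha2⟩ := exists_nonperp h₁ h₂ e11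
    refine (conn_ne hρ hf hN h₁ hab (Or.inl ha1)).trans (conn_ne hρ hf hN hab h₂ (Or.inl ?_))
    rw [bil_comm]
    exact ha2
  · exact conn_ne hρ hf hN h₁ h₂ (Or.inl e11)

omit hf in
/-- Conjugation. -/
theorem conj_TT (hiso : ∀ (g : G) (v : Fin N ⊕ Fin N → F), Q (ρ g *ᵥ v) = Q v) {p r : Fin N ⊕ Fin N → F}
    (h : SP p r) (g : G) : conjBy (TT ρ h) g ∈ rootS ρ := by
  have hbil : ∀ u v : Fin N ⊕ Fin N → F, bil (ρ g *ᵥ u) (ρ g *ᵥ v) = bil u v := by
    intro u v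
    have h1 := hiso g (u + v)
    rw [mulVec_add, q_add, q_add, hiso, hiso] at h1
    exact add_left_cancel h1
  have hinv : ∀ v : Fin N ⊕ Fin N → F, ρ g *ᵥ (ρ g⁻¹ *ᵥ v) = v := by
    intro v
    rw [mulVec_mulVec, ρ_unit, one_mulVec]
  have hinv' : ∀ v : Fin N ⊕ Fin N → F, ρ g⁻¹ *ᵥ (ρ g *ᵥ v) = v := by
    intro v
    rw [mulVec_mulVec, ρ_unit', one_mulVec]
  have h' : SP (ρ g *ᵥ p) (ρ g *ᵥ r) := by
    refine ⟨fun a b e => ?_, by rw [hiso]; exact h.qp, by rw [hiso]; exact h.qr, by rw [hbil]; exact h.br⟩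
    have e1 : ρ g *ᵥ (a • p + b • r) = 0 := by
      rw [mulVec_add, mulVec_smul, mulVec_smul]
      exact e
    have e2 : a • p + b • r = 0 := by
      rw [← hinv' (a • p + b • r), e1, mulVec_zero]
    exact h.ind a b e2
  have e : ρ g * R p r * ρ g⁻¹ = R (ρ g *ᵥ p) (ρ g *ᵥ r) := by
    apply Matrix.ext_iff_mulVec.2
    intro v
    rw [← mulVec_mulVec, ← mulVec_mulVec, R_mulVec, R_mulVec, mulVec_sub, mulVec_smul, mulVec_smul]
    have e1 : ∀ w : Fin N ⊕ Fin N → F, bil w (ρ g⁻¹ *ᵥ v) = bil (ρ g *ᵥ w) v := by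
      intro w
      rw [← hbil w, hinv]
    rw [e1, e1]
  refine ⟨_, _, h', ?_⟩
  unfold TT
  have h3 : (ρ g * R p r * ρ g⁻¹) * (ρ g * R p r * ρ g⁻¹) = 0 := by
    rw [e]
    exact R_sq h'
  rw [conjBy_TR (h := R_sq h) g h3]
  exact TR_congr e _ _

/-- The root set of a faithful matrix group of isometries containing the Siegel groups. -/
theorem isRootSet (hiso : ∀ (g : G) (v : Fin N ⊕ Fin N → F), Q (ρ g *ᵥ v) = Q v)
    (hgen : (⨆ A ∈ rootS ρ, A) = ⊤) : IsRootSubgroupSet (rootS ρ) where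
  commutative := by
    rintro A ⟨p, r, h, rfl⟩
    exact TR_isMulComm hρ
  ne_bot := by
    rintro A ⟨p, r, h, rfl⟩
    exact TR_ne_bot hρ (hf h) (R_ne h)
  generates := hgen
  conj_mem := by
    rintro A ⟨p, r, h, rfl⟩ g
    exact conj_TT hρ hiso h g
  pair := by
    rintro A ⟨p, r, h, rfl⟩ B ⟨s, t, h', rfl⟩
    exact pair_tri hρ hf h h'

theorem isKRootSet (hiso : ∀ (g : G) (v : Fin N ⊕ Fin N → F), Q (ρ g *ᵥ v) = Q v)
    (hgen : (⨆ A ∈ rootS ρ, A) = ⊤) : IsKRootSubgroupSet F (rootS ρ) := by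
  refine ⟨isRootSet hρ hf hiso hgen, ?_⟩
  rintro A ⟨p, r, h, rfl⟩ B ⟨s, t, h', rfl⟩ hr
  exact (rank_one_det hρ hf h h' (det_ne_of_rankOne hρ hf h h' hr)).2

end Cfsg.Agent.Lib.Geo.Siegel
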