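/-
The Siegel transvection groups of the statement: isometries fixing the perpendicular of a singular line.
-/
import Cfsg.Agent.Lib.Geo.Siegel4
import Cfsg.Agent.Lib.Geo.Basic

set_option autoImplicit false

open scoped MatrixGroups commutatorElement
open Matrix Cfsg

namespace Cfsg.Agent.Lib.Geo.Siegel

open Cfsg.Agent.Lib.Geo.SqZero
open Cfsg.Agent.Lib.Geo.Basic

variable {F : Type*} [Field F] {N : ℕ}

local notation "Q" => quadFormPlus N F

/-- A generic fact on the generated subgroup. -/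
theorem iSup_subgroupOf_iSup {H : Type*} [Group H] (Sg : Set (Subgroup H)) :
    (⨆ A ∈ (fun A : Subgroup H => A.subgroupOf (⨆ B ∈ Sg, B)) '' Sg, A) = ⊤ := by
  rw [eq_top_iff]
  intro x _
  have hK : (⨆ B ∈ Sg, B) ≤ (⨆ A ∈ (fun A : Subgroup H => A.subgroupOf (⨆ B ∈ Sg, B)) '' Sg, A).map
      (⨆ B ∈ Sg, B).subtype := by
    refine iSup₂_le fun B hB y hy => ?_
    refine ⟨⟨y, (le_iSup₂_of_le (f := fun (A : Subgroup H) (_ : A ∈ Sg) => A) B hB le_rfl) hy⟩, ?_, rfl⟩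
    refine (le_iSup₂_of_le (f := fun (A : Subgroup ↥(⨆ B ∈ Sg, B))
      (_ : A ∈ (fun A : Subgroup H => A.subgroupOf (⨆ B ∈ Sg, B)) '' Sg) => A) (B.subgroupOf (⨆ B ∈ Sg, B))
      ⟨B, hB, rfl⟩ le_rfl) ?_
    exact Subgroup.mem_subgroupOf.2 hy
  obtain ⟨x', hx', e⟩ := hK x.2
  have e' : x' = x := Subtype.ext e
  rwa [← e']

/-- The inclusion of the isometry group into the matrices. -/
def ρq : ↥(isometryGroup F (quadFormPlus N F)) →* Matrix (Fin N ⊕ Fin N) (Fin N ⊕ Fin N) F :=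
  (Units.coeHom _).comp (Subgroup.subtype _)

lemma ρq_apply (g : ↥(isometryGroup F (quadFormPlus N F))) :
    ρq g = ((g : GL (Fin N ⊕ Fin N) F) : Matrix (Fin N ⊕ Fin N) (Fin N ⊕ Fin N) F) := rfl

lemma ρq_inj : Function.Injective (ρq (F := F) (N := N)) := by
  intro a b e
  exact Subtype.ext (Units.ext e)

lemma ρq_iso (g : ↥(isometryGroup F (quadFormPlus N F))) (v : Fin N ⊕ Fin N → F) :
    Q (ρq g *ᵥ v) = Q v :=
  (mem_isometryGroup_iff _ _).1 g.2 v

lemma mulVec_elt (p r v : Fin N ⊕ Fin N → F) (t : F) :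
    (1 + t • R p r) *ᵥ v = v + t • (bil p v • r - bil r v • p) := by
  rw [add_mulVec, one_mulVec, smul_mulVec, R_mulVec]

lemma q_comb {p r : Fin N ⊕ Fin N → F} (h : SP p r) (a b : F) : Q (a • r - b • p) = 0 := by
  rw [q_sub, q_smul, q_smul, h.qp, h.qr, bil_smul_left, bil_smul_right, h.rp]
  ring

/-- The Siegel elements. -/
theorem exists_sieg {p r : Fin N ⊕ Fin N → F} (h : SP p r) (t : F) :
    ∃ g : ↥(isometryGroup F (quadFormPlus N F)), ρq g = 1 + t • R p r := by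
  let u : GL (Fin N ⊕ Fin N) F :=
    ⟨1 + t • R p r, 1 + (-t) • R p r, by rw [one_add_mul_same (R_sq h), add_neg_cancel, zero_smul, add_zero],
      by rw [one_add_mul_same (R_sq h), neg_add_cancel, zero_smul, add_zero]⟩
  have hu : u ∈ isometryGroup F (quadFormPlus N F) := by
    rw [mem_isometryGroup_iff]
    intro v
    change Q ((1 + t • R p r) *ᵥ v) = Q v
    rw [mulVec_elt, q_add, q_smul, q_comb h, bil_smul_right, bil_sub_right, bil_smul_right, bil_smul_right,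
      bil_comm v r, bil_comm v p]
    ring
  exact ⟨⟨u, hu⟩, rfl⟩

/-- An isometry fixing the perpendicular of a singular line is a Siegel element. -/
theorem fix_perp {p r : Fin N ⊕ Fin N → F} (h : SP p r) (g : ↥(isometryGroup F (quadFormPlus N F)))
    (hg : ∀ v, bil v p = 0 → bil v r = 0 → ρq g *ᵥ v = v) : ∃ c : F, ρq g = 1 + c • R p r := by
  obtain ⟨ph, hp⟩ := exists_bil (N := N) h.li ![1, 0]
  obtain ⟨rh, hr⟩ := exists_bil (N := N) h.li ![0, 1]
  have pp : bil p ph = 1 := hp 0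
  have rp : bil r ph = 0 := hp 1
  have pr : bil p rh = 0 := hr 0
  have rr : bil r rh = 1 := hr 1
  have hbil : ∀ u v : Fin N ⊕ Fin N → F, bil (ρq g *ᵥ u) (ρq g *ᵥ v) = bil u v := by
    intro u v
    have h1 := ρq_iso g (u + v)
    rw [mulVec_add, q_add, q_add, ρq_iso, ρq_iso] at h1
    exact add_left_cancel h1
  obtain ⟨w₁, hw₁⟩ : ∃ w₁, w₁ = ρq g *ᵥ ph - ph := ⟨_, rfl⟩
  obtain ⟨w₂, hw₂⟩ : ∃ w₂, w₂ = ρq g *ᵥ rh - rh := ⟨_, rfl⟩
  have hperp : ∀ v, bil v p = 0 → bil v r = 0 → ∀ w, bil (ρq g *ᵥ w - w) v = 0 := by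
    intro v hv1 hv2 w
    rw [bil_sub_left]
    have := hbil w v
    rw [hg v hv1 hv2] at this
    rw [this, sub_self]
  have hdec : ∀ v, bil (v - bil p v • ph - bil r v • rh) p = 0 ∧ bil (v - bil p v • ph - bil r v • rh) r = 0 := by
    intro v
    constructor
    · rw [bil_comm]
      simp only [bil_sub_right, bil_smul_right, pp, pr]
      ring
    · rw [bil_comm]
      simp only [bil_sub_right, bil_smul_right, rp, rr]
      ring
  have hgv : ∀ v, ρq g *ᵥ v = v + bil p v • w₁ + bil r v • w₂ := by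
    intro v
    have h1 := hg _ (hdec v).1 (hdec v).2
    rw [mulVec_sub, mulVec_sub, mulVec_smul, mulVec_smul] at h1
    rw [hw₁, hw₂]
    rw [sub_sub, sub_eq_iff_eq_add] at h1
    rw [h1]
    simp only [smul_sub]
    abel
  have hw : ∀ w, (ρq g *ᵥ w - w) = bil (ρq g *ᵥ w - w) ph • p + bil (ρq g *ᵥ w - w) rh • r := by
    intro w
    rw [← sub_eq_zero]
    apply eq_zero_of_bil
    intro v
    have h1 := hperp _ (hdec v).1 (hdec v).2 w
    simp only [bil_sub_right, bil_smul_right] at h1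
    simp only [bil_sub_left, bil_add_left, bil_smul_left]
    have e1 : bil (ρq g *ᵥ w) v - bil w v = bil (ρq g *ᵥ w - w) v := by rw [bil_sub_left]
    rw [e1]
    simp only [bil_sub_left] at h1 ⊢
    linear_combination h1
  obtain ⟨α, hα⟩ : ∃ α, α = bil w₁ ph := ⟨_, rfl⟩
  obtain ⟨β, hβ⟩ : ∃ β, β = bil w₁ rh := ⟨_, rfl⟩
  obtain ⟨γ, hγ⟩ : ∃ γ, γ = bil w₂ ph := ⟨_, rfl⟩
  obtain ⟨δ, hδ⟩ : ∃ δ, δ = bil w₂ rh := ⟨_, rfl⟩
  have hw₁' : w₁ = α • p + β • r := by
    rw [hα, hβ, hw₁]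
    exact hw ph
  have hw₂' : w₂ = γ • p + δ • r := by
    rw [hγ, hδ, hw₂]
    exact hw rh
  have hquad : ∀ v, α * bil p v ^ 2 + (β + γ) * (bil p v * bil r v) + δ * bil r v ^ 2 = 0 := by
    intro v
    have h1 := ρq_iso g v
    rw [hgv v, hw₁', hw₂'] at h1
    have e1 : v + bil p v • (α • p + β • r) + bil r v • (γ • p + δ • r) =
        v + ((bil p v * α + bil r v * γ) • p + (bil p v * β + bil r v * δ) • r) := by
      module
    rw [e1, q_add, q_add, q_smul, q_smul, h.qp, h.qr, bil_smul_left, bil_smul_right, h.br] at h1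
    simp only [bil_add_right, bil_smul_right, bil_comm v p, bil_comm v r] at h1
    linear_combination h1
  have h1 := hquad ph
  rw [pp, rp] at h1
  have h2 := hquad rh
  rw [pr, rr] at h2
  have h3 := hquad (ph + rh)
  rw [bil_add_right, bil_add_right, pp, pr, rp, rr] at h3
  have hα0 : α = 0 := by linear_combination h1
  have hδ0 : δ = 0 := by linear_combination h2
  have hγ' : γ = -β := by linear_combination h3 - h1 - h2
  refine ⟨β, ?_⟩
  apply Matrix.ext_iff_mulVec.2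
  intro v
  rw [mulVec_elt, hgv v, hw₁', hw₂', hα0, hδ0, hγ']
  module

/-- The set of the statement. -/
theorem closure_eq {p r : Fin N ⊕ Fin N → F} (h : SP p r) :
    Subgroup.closure {σ : ↥(isometryGroup F (quadFormPlus N F)) | ∀ v : Fin N ⊕ Fin N → F,
      Q (v + p) - Q v - Q p = 0 → Q (v + r) - Q v - Q r = 0 →
        ((σ : GL (Fin N ⊕ Fin N) F) : Matrix (Fin N ⊕ Fin N) (Fin N ⊕ Fin N) F) *ᵥ v = v} = TT ρq h := by
  have : {σ : ↥(isometryGroup F (quadFormPlus N F)) | ∀ v : Fin N ⊕ Fin N → F,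
      Q (v + p) - Q v - Q p = 0 → Q (v + r) - Q v - Q r = 0 →
        ((σ : GL (Fin N ⊕ Fin N) F) : Matrix (Fin N ⊕ Fin N) (Fin N ⊕ Fin N) F) *ᵥ v = v} =
      ((TT ρq h : Subgroup _) : Set (↥(isometryGroup F (quadFormPlus N F)))) := by
    ext σ
    have e1 : ∀ v w : Fin N ⊕ Fin N → F, Q (v + w) - Q v - Q w = bil v w := by
      intro v w
      rw [q_add]
      ring
    constructor
    · intro hσ
      refine fix_perp h σ fun v h1 h2 => hσ v ?_ ?_
      · rw [e1]; exact h1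
      · rw [e1]; exact h2
    · rintro ⟨t, ht⟩ v h1 h2
      rw [e1] at h1 h2
      change ρq σ *ᵥ v = v
      rw [ht, RingHom.id_apply, mulVec_elt, bil_comm p v, bil_comm r v, h1, h2]
      simp
  rw [this, Subgroup.closure_eq]

lemma full_q {p r : Fin N ⊕ Fin N → F} (h : SP p r) : FullR (RingHom.id F) ρq (R p r) :=
  fun x => exists_sieg h x

/-- The set of the statement. -/
def sigmaQ (N : ℕ) (F : Type*) [Field F] : Set (Subgroup ↥(isometryGroup F (quadFormPlus N F))) :=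
  {A | ∃ p r : Fin N ⊕ Fin N → F, LinearIndependent F ![p, r] ∧
    quadFormPlus N F p = 0 ∧ quadFormPlus N F r = 0 ∧ quadFormPlus N F (p + r) = 0 ∧
    A = Subgroup.closure {σ : ↥(isometryGroup F (quadFormPlus N F)) | ∀ v : Fin N ⊕ Fin N → F,
      quadFormPlus N F (v + p) - quadFormPlus N F v - quadFormPlus N F p = 0 →
      quadFormPlus N F (v + r) - quadFormPlus N F v - quadFormPlus N F r = 0 →
        ((σ : GL (Fin N ⊕ Fin N) F) : Matrix (Fin N ⊕ Fin N) (Fin N ⊕ Fin N) F) *ᵥ v = v}}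

lemma sigmaQ_eq : sigmaQ N F = rootS ρq := by
  ext A
  constructor
  · rintro ⟨p, r, h1, h2, h3, h4, rfl⟩
    have h := SP.of h1 h2 h3 h4
    exact ⟨p, r, h, closure_eq h⟩
  · rintro ⟨p, r, h, rfl⟩
    exact ⟨p, r, h.li, h.qp, h.qr, h.q_add, (closure_eq h).symm⟩

/-- The main theorem on Siegel groups. -/
theorem main (hN : 3 ≤ N) :
    IsKRootSubgroupSet F ((fun A : Subgroup ↥(isometryGroup F (quadFormPlus N F)) =>
        A.subgroupOf (⨆ B ∈ sigmaQ N F, B)) '' sigmaQ N F) ∧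
      IsConnectedFamily (FAdj (sigmaQ N F)) (sigmaQ N F) := by
  rw [sigmaQ_eq]
  constructor
  · let G₀ : Subgroup ↥(isometryGroup F (quadFormPlus N F)) := ⨆ B ∈ rootS (ρq (F := F) (N := N)), B
    let ρ₀ : ↥G₀ →* Matrix (Fin N ⊕ Fin N) (Fin N ⊕ Fin N) F := ρq.comp G₀.subtype
    have hρ₀ : Function.Injective ρ₀ := ρq_inj.comp Subtype.val_injective
    have hTT : ∀ {p r : Fin N ⊕ Fin N → F} (h : SP p r), (TT ρq h).subgroupOf G₀ = TT ρ₀ h := by
      intro p r h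
      ext g
      exact Iff.rfl
    have himg : (fun A : Subgroup ↥(isometryGroup F (quadFormPlus N F)) => A.subgroupOf G₀) '' rootS ρq =
        rootS ρ₀ := by
      ext A
      constructor
      · rintro ⟨_, ⟨p, r, h, rfl⟩, rfl⟩
        exact ⟨p, r, h, hTT h⟩
      · rintro ⟨p, r, h, rfl⟩
        exact ⟨_, ⟨p, r, h, rfl⟩, hTT h⟩
    have hf₀ : ∀ {p r : Fin N ⊕ Fin N → F}, SP p r → FullR (RingHom.id F) ρ₀ (R p r) := by
      intro p r h x
      obtain ⟨g, hg⟩ := exists_sieg h x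
      have hmem : g ∈ TT ρq h := ⟨x, hg⟩
      refine ⟨⟨g, ?_⟩, hg⟩
      exact (le_iSup₂_of_le (f := fun (A : Subgroup ↥(isometryGroup F (quadFormPlus N F)))
        (_ : A ∈ rootS (ρq (F := F) (N := N))) => A) (TT ρq h) ⟨p, r, h, rfl⟩ le_rfl) hmem
    have hiso₀ : ∀ (g : ↥G₀) (v : Fin N ⊕ Fin N → F), Q (ρ₀ g *ᵥ v) = Q v := fun g v => ρq_iso g.1 v
    have hgen : (⨆ A ∈ rootS ρ₀, A) = ⊤ := by
      rw [← himg]
      exact iSup_subgroupOf_iSup _
    change IsKRootSubgroupSet F ((fun A : Subgroup ↥(isometryGroup F (quadFormPlus N F)) => A.subgroupOf G₀) ''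
      rootS ρq)
    rw [himg]
    exact isKRootSet hρ₀ hf₀ hiso₀ hgen
  · rintro A ⟨p, r, h, rfl⟩ B ⟨s, t, h', rfl⟩
    exact conn_all ρq_inj full_q hN h h'

end Cfsg.Agent.Lib.Geo.Siegel
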