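/-
The groups of unitary transvections with a given isotropic centre in a faithful matrix group: the root set,
rank one pairs over the fixed field, connectivity, one conjugacy class.
-/
import Cfsg.Agent.Lib.Geo.SqZero
import Cfsg.Agent.Lib.Geo.SUGen
import Cfsg.Agent.Lib.Classical.TransvSp
import Cfsg.Agent.Lib.RootSubgroups.RankOne

set_option autoImplicit false

open scoped MatrixGroups commutatorElement
open Matrix Cfsg

namespace Cfsg.Agent.Lib.Geo.UTrans

open Cfsg.Agent.Lib.Geo.SqZero Cfsg.Agent.Lib.Geo.Centres Cfsg.Agent.Lib.Geo.UnitaryInSL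
open Cfsg.Agent.Lib.Classical.TransvRoot (colsM rowsM rows_cols E_mulVec E_mul_E)
open Cfsg.Geo

variable {ι : Type} [Fintype ι] [DecidableEq ι] {F : Type*} [Field F] {σ : F ≃+* F}
  {f : (ι → F) → (ι → F) → F} {L : Type*} [Field L]

/-- The rank one matrix of a vector. -/
def Ep (f : (ι → F) → (ι → F) → F) (p : ι → F) : Matrix ι ι F := vecMulVec p (formVec f p)

lemma Ep_mulVec (hf : IsUnitaryForm σ f) (p v : ι → F) : Ep f p *ᵥ v = f v p • p := by
  rw [Ep, E_mulVec, formVec_dotProduct hf.add_left hf.smul_left]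

lemma Ep_mul (hf : IsUnitaryForm σ f) (p p' : ι → F) :
    Ep f p * Ep f p' = f p' p • vecMulVec p (formVec f p') := by
  rw [Ep, Ep, E_mul_E, formVec_dotProduct hf.add_left hf.smul_left]

lemma R_sq (hf : IsUnitaryForm σ f) (ε : F) {p : ι → F} (hp : f p p = 0) :
    (ε • Ep f p) * (ε • Ep f p) = 0 := by
  rw [smul_mul_smul_comm, Ep_mul hf, hp, zero_smul, smul_zero]

lemma formVec_smul' (hf : IsUnitaryForm σ f) (c : F) (p : ι → F) : formVec f (c • p) = σ c • formVec f p := by
  ext i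
  simp only [formVec, Pi.smul_apply, smul_eq_mul]
  exact UForm.smul_right hf c _ p

lemma Ep_smul (hf : IsUnitaryForm σ f) (c : F) (p : ι → F) : Ep f (c • p) = (c * σ c) • Ep f p := by
  rw [Ep, Ep, formVec_smul' hf]
  ext i j
  simp only [vecMulVec_apply, Pi.smul_apply, smul_eq_mul, Matrix.smul_apply]
  ring

lemma f_smul_self (hf : IsUnitaryForm σ f) (c : F) {p : ι → F} (hp : f p p = 0) : f (c • p) (c • p) = 0 := by
  rw [hf.smul_left, UForm.smul_right hf, hp]
  ring

/-- The data of the fixed field and of a trace zero element. -/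
structure Ctx (σ : F ≃+* F) (il : L →+* F) (ε : F) : Prop where
  ne : ε ≠ 0
  tr : ε + σ ε = 0
  fix : ∀ x : L, σ (il x) = il x
  rng : ∀ y : F, σ y = y → ∃ x : L, il x = y

variable {G : Type*} [Group G]

/-- The group of a vector. -/
def TP (hf : IsUnitaryForm σ f) (il : L →+* F) (ε : F) (ρ : G →* Matrix ι ι F) {p : ι → F} (hp : f p p = 0) :
    Subgroup G :=
  TR il ρ (ε • Ep f p) (R_sq hf ε hp)

/-- The set of the groups. -/
def rootU (hf : IsUnitaryForm σ f) (il : L →+* F) (ε : F) (ρ : G →* Matrix ι ι F) : Set (Subgroup G) :=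
  {A | ∃ p : ι → F, p ≠ 0 ∧ ∃ hp : f p p = 0, A = TP hf il ε ρ hp}

variable (hf : IsUnitaryForm σ f) {il : L →+* F} {ε : F} (hc : Ctx σ il ε) {ρ : G →* Matrix ι ι F}
  (hρ : Function.Injective ρ) (hfull : ∀ {p : ι → F}, f p p = 0 → FullR il ρ (ε • Ep f p))

section

include hc

lemma TP_smul {p : ι → F} (hp : f p p = 0) {κ : F} (hκ : κ ≠ 0) :
    TP hf il ε ρ (f_smul_self hf κ hp) = TP hf il ε ρ hp := by
  have hn : σ (κ * σ κ) = κ * σ κ := by
    rw [map_mul, hf.involutive]
    ring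
  obtain ⟨n, hn'⟩ := hc.rng _ hn
  have hn0 : n ≠ 0 := by
    rintro rfl
    rw [map_zero] at hn'
    have : κ * σ κ ≠ 0 := mul_ne_zero hκ ((map_ne_zero σ).2 hκ)
    exact this hn'.symm
  have e : ε • Ep f (κ • p) = il n • (ε • Ep f p) := by
    rw [Ep_smul hf, hn', smul_comm]
  have h3 : (il n • (ε • Ep f p)) * (il n • (ε • Ep f p)) = 0 := by
    rw [smul_mul_smul_comm, R_sq hf ε hp, smul_zero]
  unfold TP
  rw [TR_congr e (R_sq hf ε (f_smul_self hf κ hp)) h3]
  exact TR_smul hn0 h3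

include hρ hfull

/-- Rank one pairs: the normalized position. -/
theorem rank_one_one {p p' : ι → F} (hp : f p p = 0) (hp' : f p' p' = 0) (h1 : f p' p = 1) :
    IsRankOnePair (TP hf il ε ρ hp) (TP hf il ε ρ hp') ∧ IsPSL2PairOver L (TP hf il ε ρ hp) (TP hf il ε ρ hp') := by
  have h1' : f p p' = 1 := by
    rw [hf.herm, h1, map_one]
  have hε := hc.ne
  obtain ⟨U, hU⟩ : ∃ U, U = colsM (ε • p) p' := ⟨_, rfl⟩
  obtain ⟨W, hW⟩ : ∃ W, W = rowsM (ε⁻¹ • formVec f p') (formVec f p) := ⟨_, rfl⟩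
  have d1 : ∀ a b : ι → F, formVec f a ⬝ᵥ b = f b a := fun a b =>
    formVec_dotProduct hf.add_left hf.smul_left b a
  have hWU : W * U = 1 := by
    rw [hW, hU, rows_cols, smul_dotProduct, smul_dotProduct, dotProduct_smul, dotProduct_smul, d1, d1, d1, d1,
      hp, hp', h1, h1']
    simp only [smul_eq_mul, mul_zero, mul_one]
    rw [inv_mul_cancel₀ hε]
    exact Matrix.one_fin_two.symm
  let A : Matrix (Fin 2) (Fin 2) F →ₗ[F] Matrix ι ι F :=
    { toFun := fun X => U * X * W
      map_add' := by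
        intro X Y
        simp only [Matrix.mul_add, Matrix.add_mul]
      map_smul' := by
        intro c X
        simp only [Matrix.mul_smul, Matrix.smul_mul, RingHom.id_apply] }
  have hAv : ∀ X, A X = U * X * W := fun _ => rfl
  have hA : ∀ X Y, A (X * Y) = A X * A Y := by
    intro X Y
    rw [hAv, hAv, hAv]
    have t : U * X * W * (U * Y * W) = U * X * (W * U) * Y * W := by
      simp only [Matrix.mul_assoc]
    rw [t, hWU]
    simp [Matrix.mul_assoc]
  have key : ∀ X, W * (A X) * U = X := by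
    intro X
    rw [hAv]
    have t : W * (U * X * W) * U = (W * U) * X * (W * U) := by
      simp only [Matrix.mul_assoc]
    rw [t, hWU]
    simp
  have hinj : Function.Injective A := by
    intro X Y e
    rw [← key X, e, key]
  have hX : A !![0, 1; 0, 0] = ε • Ep f p := by
    rw [hAv, hU, hW]
    ext i j
    simp [Ep, Matrix.mul_apply, Fin.sum_univ_two, colsM, rowsM, vecMulVec_apply]
    ring
  have hfixe : σ ((ε⁻¹) ^ 2) = (ε⁻¹) ^ 2 := by
    have h2 : σ ε = -ε := eq_neg_of_add_eq_zero_right hc.tr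
    rw [map_pow, map_inv₀, h2, inv_neg, neg_sq]
  obtain ⟨c, hcv⟩ := hc.rng _ hfixe
  have hc0 : c ≠ 0 := by
    rintro rfl
    rw [map_zero] at hcv
    exact pow_ne_zero 2 (inv_ne_zero hε) hcv.symm
  have hY : A !![0, 0; 1, 0] = il c • (ε • Ep f p') := by
    rw [hAv, hU, hW, hcv]
    ext i j
    simp [Ep, Matrix.mul_apply, Fin.sum_univ_two, colsM, rowsM, vecMulVec_apply]
    field_simp
  exact pair_of_block hρ A hA hinj hc0 hX hY (hfull hp) (hfull hp')

/-- Rank one pairs. -/
theorem rank_one {p p' : ι → F} (hp : f p p = 0) (hp' : f p' p' = 0) (h1 : f p' p ≠ 0) :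
    IsRankOnePair (TP hf il ε ρ hp) (TP hf il ε ρ hp') ∧ IsPSL2PairOver L (TP hf il ε ρ hp) (TP hf il ε ρ hp') := by
  have hκ : (f p' p)⁻¹ ≠ 0 := inv_ne_zero h1
  have e := TP_smul (ρ := ρ) hf hc hp' hκ
  rw [← e]
  refine rank_one_one hf hc hρ hfull hp (f_smul_self hf _ hp') ?_
  rw [hf.smul_left, inv_mul_cancel₀ h1]

end

include hf in
/-- Orthogonal vectors give commuting groups. -/
theorem comm_of_perp {p p' : ι → F} (hp : f p p = 0) (hp' : f p' p' = 0) (hρ : Function.Injective ρ) (h : f p' p = 0) :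
    ⁅TP hf il ε ρ hp, TP hf il ε ρ hp'⁆ = ⊥ := by
  refine comm_bot hρ ?_
  have h' : f p p' = 0 := UForm.refl hf _ _ h
  rw [smul_mul_smul_comm, smul_mul_smul_comm, Ep_mul hf, Ep_mul hf, h, h', zero_smul, zero_smul]

end Cfsg.Agent.Lib.Geo.UTrans
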