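/-
The groups of unitary transvections: the root set in a faithful matrix group of isometries.
-/
import Cfsg.Agent.Lib.Geo.UTrans

set_option autoImplicit false

open scoped MatrixGroups commutatorElement
open Matrix Cfsg

namespace Cfsg.Agent.Lib.Geo.UTrans

open Cfsg.Agent.Lib.Geo.SqZero Cfsg.Agent.Lib.Geo.Centres Cfsg.Agent.Lib.Geo.UnitaryInSL
open Cfsg.Agent.Lib.RootSubgroups.Abstract (not_commute_matched exists_match)
open Cfsg.Geo

variable {ι : Type} [Fintype ι] [DecidableEq ι] {F : Type*} [Field F] {σ : F ≃+* F}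
  {f : (ι → F) → (ι → F) → F} {L : Type*} [Field L] {G : Type*} [Group G]

/-- A common non-orthogonal isotropic vector. -/
theorem exists_common (hf : IsUnitaryForm σ f) {p p' : ι → F} (hp0 : p ≠ 0) (hp0' : p' ≠ 0) (hp : f p p = 0)
    (h : f p p' = 0) : ∃ v : ι → F, v ≠ 0 ∧ f v v = 0 ∧ f v p ≠ 0 ∧ f v p' ≠ 0 := by
  have d1 : ∀ a b : ι → F, formVec f a ⬝ᵥ b = f b a := fun a b =>
    formVec_dotProduct hf.add_left hf.smul_left b a
  have hne : ∀ {a : ι → F}, a ≠ 0 → formVec f a ≠ 0 := by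
    intro a ha e
    obtain ⟨x, hx⟩ := (hf.nondegenerate a ha).1
    apply hx
    rw [← d1, e, zero_dotProduct]
  obtain ⟨v₀, h1, h2⟩ := Cfsg.Agent.Lib.Classical.TransvSp.exists_off_two (hne hp0) (hne hp0')
  rw [d1] at h1 h2
  obtain ⟨y, hy⟩ : ∃ y, y = f v₀ p := ⟨_, rfl⟩
  rw [← hy] at h1
  have hsy : σ y ≠ 0 := (map_ne_zero σ).2 h1
  have hs1 : σ (-f v₀ v₀) = -f v₀ v₀ := by
    rw [map_neg, UForm.sigma_self hf]
  obtain ⟨μ, hμ⟩ := exists_add_sigma_eq σ hf.ne_refl hf.involutive _ hs1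
  obtain ⟨lam, hlam⟩ : ∃ lam, lam = μ / σ y := ⟨_, rfl⟩
  have hvp : f (v₀ + lam • p) p = y := by
    rw [hf.add_left, hf.smul_left, hp, ← hy]
    ring
  have hvp' : f (v₀ + lam • p) p' = f v₀ p' := by
    rw [hf.add_left, hf.smul_left, h]
    ring
  refine ⟨v₀ + lam • p, ?_, ?_, ?_, ?_⟩
  · intro e
    rw [e] at hvp
    apply h1
    rw [← hvp]
    exact UForm.zero_left hf p
  · rw [UForm.add_right hf, hf.add_left, hf.add_left, UForm.smul_right hf, UForm.smul_right hf, hf.smul_left,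
      hf.smul_left, hp, ← hy, hf.herm p v₀, ← hy]
    have e1 : σ lam * y = σ μ := by
      rw [hlam, map_div₀, hf.involutive]
      field_simp
    have e2 : lam * σ y = μ := by
      rw [hlam]
      field_simp
    linear_combination e1 + e2 + hμ
  · rw [hvp]
    exact h1
  · rw [hvp']
    exact h2

variable (hf : IsUnitaryForm σ f) {il : L →+* F} {ε : F} (hc : Ctx σ il ε) {ρ : G →* Matrix ι ι F}
  (hρ : Function.Injective ρ) (hfull : ∀ {p : ι → F}, f p p = 0 → FullR il ρ (ε • Ep f p))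
  (hiso : ∀ (g : G) (u v : ι → F), f (ρ g *ᵥ u) (ρ g *ᵥ v) = f u v)

include hf hc in
lemma R_ne {p : ι → F} (hp0 : p ≠ 0) : ε • Ep f p ≠ 0 := by
  intro e
  obtain ⟨x, hx⟩ := (hf.nondegenerate p hp0).1
  have h1 : (ε • Ep f p) *ᵥ x = 0 := by rw [e, zero_mulVec]
  rw [smul_mulVec, Ep_mulVec hf, smul_smul] at h1
  exact hp0 ((smul_eq_zero.1 h1).resolve_left (mul_ne_zero hc.ne hx))

include hf hρ hfull hc in
lemma exists_elt {p : ι → F} (hp0 : p ≠ 0) (hp : f p p = 0) : ∃ a ∈ TP hf il ε ρ hp, a ≠ 1 := by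
  obtain ⟨a, ha⟩ := hfull hp 1
  refine ⟨a, ⟨1, ha⟩, ?_⟩
  rintro rfl
  rw [map_one, map_one, one_smul] at ha
  exact R_ne hf hc hp0 (by simpa using ha.symm)

include hf hρ hfull hc in
/-- A rank one pair is not orthogonal. -/
lemma ne_of_rankOne {p p' : ι → F} (hp0 : p ≠ 0) (hp : f p p = 0) (hp' : f p' p' = 0)
    (hr : IsRankOnePair (TP hf il ε ρ hp) (TP hf il ε ρ hp')) : f p' p ≠ 0 := by
  intro h
  obtain ⟨a, ham, ha1⟩ := exists_elt hf hc hρ hfull hp0 hp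
  obtain ⟨d, hd, -, he⟩ := exists_match hr ham ha1
  refine not_commute_matched hr ham ha1 hd he ?_
  have h1 : d⁻¹ * a * d * a⁻¹ = 1 := by
    have h2 : a * d⁻¹ * a⁻¹ * d⁻¹⁻¹ ∈ ⁅TP hf il ε ρ hp, TP hf il ε ρ hp'⁆ :=
      Cfsg.Agent.Lib.RootSubgroups.Abstract.comm_mem ham (Subgroup.inv_mem _ hd)
    rw [comm_of_perp hf hp hp' hρ h, Subgroup.mem_bot] at h2
    have h3 : d⁻¹ * a * d * a⁻¹ = (a * d⁻¹ * a⁻¹ * d⁻¹⁻¹)⁻¹ := by group
    rw [h3, h2, inv_one]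
  rw [h1, one_mul, mul_one]

include hρ hiso in
/-- Conjugation. -/
theorem conj_TP {p : ι → F} (hp0 : p ≠ 0) (hp : f p p = 0) (g : G) :
    conjBy (TP hf il ε ρ hp) g ∈ rootU hf il ε ρ := by
  have hinv : ∀ v : ι → F, ρ g *ᵥ (ρ g⁻¹ *ᵥ v) = v := by
    intro v
    rw [mulVec_mulVec, ρ_unit, one_mulVec]
  have hinv' : ∀ v : ι → F, ρ g⁻¹ *ᵥ (ρ g *ᵥ v) = v := by
    intro v
    rw [mulVec_mulVec, ρ_unit', one_mulVec]
  have hp' : f (ρ g *ᵥ p) (ρ g *ᵥ p) = 0 := by rw [hiso, hp]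
  have hgp0 : ρ g *ᵥ p ≠ 0 := by
    intro e
    apply hp0
    rw [← hinv' p, e, mulVec_zero]
  have e : ρ g * (ε • Ep f p) * ρ g⁻¹ = ε • Ep f (ρ g *ᵥ p) := by
    apply Matrix.ext_iff_mulVec.2
    intro v
    rw [← mulVec_mulVec, ← mulVec_mulVec, smul_mulVec, smul_mulVec, Ep_mulVec hf, Ep_mulVec hf, mulVec_smul,
      mulVec_smul, ← hiso g (ρ g⁻¹ *ᵥ v) p, hinv]
  refine ⟨_, hgp0, hp', ?_⟩
  unfold TP
  have h3 : (ρ g * (ε • Ep f p) * ρ g⁻¹) * (ρ g * (ε • Ep f p) * ρ g⁻¹) = 0 := by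
    rw [e]
    exact R_sq hf ε hp'
  rw [conjBy_TR (h := R_sq hf ε hp) g h3]
  exact TR_congr e _ _

include hc hρ hfull hiso in
/-- The root set. -/
theorem isRootSet (hgen : (⨆ A ∈ rootU hf il ε ρ, A) = ⊤) : IsRootSubgroupSet (rootU hf il ε ρ) where
  commutative := by
    rintro A ⟨p, hp0, hp, rfl⟩
    exact TR_isMulComm hρ
  ne_bot := by
    rintro A ⟨p, hp0, hp, rfl⟩
    exact TR_ne_bot hρ (hfull hp) (R_ne hf hc hp0)
  generates := hgen
  conj_mem := by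
    rintro A ⟨p, hp0, hp, rfl⟩ g
    exact conj_TP hf hρ hiso hp0 hp g
  pair := by
    rintro A ⟨p, hp0, hp, rfl⟩ B ⟨p', hp0', hp', rfl⟩
    by_cases h : f p' p = 0
    · exact Or.inl (comm_of_perp hf hp hp' hρ h)
    · exact Or.inr (Or.inl (rank_one hf hc hρ hfull hp hp' h).1)

include hc hρ hfull hiso in
theorem degenerate (hgen : (⨆ A ∈ rootU hf il ε ρ, A) = ⊤) : IsDegenerateRootSet (rootU hf il ε ρ) := by
  rintro A ⟨p, hp0, hp, rfl⟩ B ⟨p', hp0', hp', rfl⟩ hcase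
  by_cases h : f p' p = 0
  · exact (isRootSet hf hc hρ hfull hiso hgen).ne_bot _ hcase.1 (comm_of_perp hf hp hp' hρ h)
  · obtain ⟨a, ham, ha1⟩ := exists_elt hf hc hρ hfull hp0 hp
    exact Cfsg.Agent.Lib.Classical.TransvSp.not_case_of_rankOne (rank_one hf hc hρ hfull hp hp' h).1 hcase ham ha1

include hc hρ hfull hiso in
theorem isKRoot (hgen : (⨆ A ∈ rootU hf il ε ρ, A) = ⊤) : IsKRootSubgroupSet L (rootU hf il ε ρ) := by
  refine ⟨isRootSet hf hc hρ hfull hiso hgen, ?_⟩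
  rintro A ⟨p, hp0, hp, rfl⟩ B ⟨p', hp0', hp', rfl⟩ hr
  exact (rank_one hf hc hρ hfull hp hp' (ne_of_rankOne hf hc hρ hfull hp0 hp hp' hr)).2

include hc hρ hfull in
theorem connected : IsConnectedFamily (FAdj (rootU hf il ε ρ)) (rootU hf il ε ρ) := by
  rintro A ⟨p, hp0, hp, rfl⟩ B ⟨p', hp0', hp', rfl⟩
  have hA : TP hf il ε ρ hp ∈ rootU hf il ε ρ := ⟨p, hp0, hp, rfl⟩
  have hB : TP hf il ε ρ hp' ∈ rootU hf il ε ρ := ⟨p', hp0', hp', rfl⟩
  by_cases h : f p' p = 0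
  · obtain ⟨v, hv0, hv, h1, h2⟩ := exists_common hf hp0 hp0' hp (UForm.refl hf _ _ h)
    have hC : TP hf il ε ρ hv ∈ rootU hf il ε ρ := ⟨v, hv0, hv, rfl⟩
    refine Relation.ReflTransGen.tail (Relation.ReflTransGen.single (b := TP hf il ε ρ hv)
      ⟨hA, hC, (rank_one hf hc hρ hfull hp hv h1).1⟩) ⟨hC, hB, (rank_one hf hc hρ hfull hv hp' ?_).1⟩
    intro e
    exact h2 (UForm.refl hf _ _ e)
  · exact Relation.ReflTransGen.single ⟨hA, hB, (rank_one hf hc hρ hfull hp hp' h).1⟩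

include hc hρ hfull hiso in
theorem isClass (hgen : (⨆ A ∈ rootU hf il ε ρ, A) = ⊤) (hne : ∃ p : ι → F, p ≠ 0 ∧ f p p = 0) :
    IsRootSubgroupClass (rootU hf il ε ρ) := by
  have hroot := isRootSet hf hc hρ hfull hiso hgen
  refine ⟨hroot, ?_, ?_⟩
  · obtain ⟨p, hp0, hp⟩ := hne
    exact ⟨_, p, hp0, hp, rfl⟩
  · intro A hA B hB
    have hc' := connected hf hc hρ hfull A hA B hB
    induction hc' with
    | refl => exact ⟨1, (Cfsg.Agent.Lib.RootSubgroups.RankOne.conjBy_one A).symm⟩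
    | @tail C D _ hadj ih =>
      obtain ⟨hCm, hDm, hr⟩ := hadj
      obtain ⟨g, rfl⟩ := ih hCm
      obtain ⟨p, hp0, hp, hE⟩ := hCm
      have hne' : conjBy A g ≠ ⊥ := hroot.ne_bot _ ⟨p, hp0, hp, hE⟩
      obtain ⟨a, ham, ha1⟩ : ∃ a ∈ conjBy A g, a ≠ 1 := by
        by_contra hcon
        push Not at hcon
        exact hne' ((Subgroup.eq_bot_iff_forall _).2 hcon)
      obtain ⟨d, hd, -, he⟩ := hr.cond_left a ham ha1
      refine ⟨a * d⁻¹ * g, ?_⟩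
      have e1 : D = conjBy (conjBy D a⁻¹) a := by
        rw [Cfsg.Agent.Lib.RootSubgroups.RankOne.conjBy_conjBy]
        simp
      rw [e1, ← he, Cfsg.Agent.Lib.RootSubgroups.RankOne.conjBy_conjBy,
        Cfsg.Agent.Lib.RootSubgroups.RankOne.conjBy_conjBy, mul_assoc]

end Cfsg.Agent.Lib.Geo.UTrans
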