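/-
The groups of unitary transvections in `SU`.
-/
import Cfsg.Agent.Lib.Geo.UTrans2
import Cfsg.Agent.Lib.Geo.Siegel5

set_option autoImplicit false

open scoped MatrixGroups commutatorElement
open Matrix Cfsg

namespace Cfsg.Agent.Lib.Geo.UTrans

open Cfsg.Agent.Lib.Geo.SqZero Cfsg.Agent.Lib.Geo.Centres Cfsg.Agent.Lib.Geo.UnitaryInSL
open Cfsg.Agent.Lib.Geo.SUGen Cfsg.Agent.Lib.HermCount.Field
open Cfsg.Geo

variable {F : Type*} [Field F] [Fintype F] {q N : ℕ}

/-- The fixed field and a trace zero element. -/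
theorem exists_ctx (hF : Fintype.card F = q ^ 2) :
    ∃ (L : Type) (_ : Field L) (_ : Fintype L) (il : L →+* F) (ε : F), Fintype.card L = q ∧
      Ctx (frobEquiv hF) il ε := by
  classical
  obtain ⟨ε, hε, hε'⟩ := exists_trace_zero (frobEquiv hF) (hermForm_isUnitary 0 hF).ne_refl
    (hermForm_isUnitary 0 hF).involutive
  obtain ⟨p, hp⟩ := CharP.exists F
  haveI : Fact p.Prime := ⟨CharP.char_is_prime F p⟩
  have hq2 := two_le hF
  letI : Algebra (ZMod p) F := ZMod.algebra F p
  have hcard := Module.card_eq_pow_finrank (K := ZMod p) (V := F)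
  rw [ZMod.card, hF] at hcard
  obtain ⟨k, -, rfl⟩ : ∃ k, k ≤ Module.finrank (ZMod p) F ∧ q = p ^ k :=
    (Nat.dvd_prime_pow (Fact.out : p.Prime)).1 (hcard ▸ Dvd.intro _ (pow_two q).symm)
  have hk : k ≠ 0 := by
    rintro rfl
    simp at hq2
  have hfr : Module.finrank (ZMod p) F = k * 2 := by
    have h1 : p ^ (k * 2) = p ^ Module.finrank (ZMod p) F := by rw [pow_mul]; exact hcard
    exact (Nat.pow_right_injective (Fact.out : p.Prime).two_le h1).symm
  letI : Fintype (GaloisField p k) := Fintype.ofFinite _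
  have hL : Fintype.card (GaloisField p k) = p ^ k := by
    rw [← Nat.card_eq_fintype_card]
    exact GaloisField.card p k hk
  have hdvd : Module.finrank (ZMod p) (GaloisField p k) ∣ Module.finrank (ZMod p) F := by
    rw [GaloisField.finrank p hk, hfr]
    exact Dvd.intro _ rfl
  obtain ⟨φ⟩ := FiniteField.nonempty_algHom_of_finrank_dvd hdvd
  refine ⟨GaloisField p k, inferInstance, inferInstance, φ.toRingHom, ε, hL, hε, hε', ?_, ?_⟩
  · intro x
    rw [frobEquiv_apply, ← map_pow]
    congr 1
    conv_lhs => rw [← hL]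
    exact FiniteField.pow_card x
  · intro y hy
    rw [frobEquiv_apply] at hy
    have hne : (Polynomial.X ^ (p ^ k) - Polynomial.X : Polynomial F) ≠ 0 :=
      FiniteField.X_pow_card_sub_X_ne_zero F (by omega)
    let I : Finset F := Finset.univ.image φ.toRingHom
    have hIc : I.card = p ^ k := by
      rw [Finset.card_image_of_injective _ φ.toRingHom.injective, Finset.card_univ, hL]
    have hsub : I ⊆ (Polynomial.X ^ (p ^ k) - Polynomial.X : Polynomial F).roots.toFinset := by
      intro z hz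
      obtain ⟨x, -, rfl⟩ := Finset.mem_image.1 hz
      rw [Multiset.mem_toFinset, Polynomial.mem_roots hne]
      simp only [Polynomial.IsRoot.def, Polynomial.eval_sub, Polynomial.eval_pow, Polynomial.eval_X]
      rw [← map_pow, sub_eq_zero]
      congr 1
      conv_lhs => rw [← hL]
      exact FiniteField.pow_card x
    have hle : (Polynomial.X ^ (p ^ k) - Polynomial.X : Polynomial F).roots.toFinset.card ≤ I.card := by
      rw [hIc]
      calc _ ≤ (Polynomial.X ^ (p ^ k) - Polynomial.X : Polynomial F).roots.card := Multiset.toFinset_card_le _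
        _ ≤ (Polynomial.X ^ (p ^ k) - Polynomial.X : Polynomial F).natDegree := Polynomial.card_roots' _
        _ = p ^ k := FiniteField.X_pow_card_sub_X_natDegree_eq F (by omega)
    have heq := Finset.eq_of_subset_of_card_le hsub hle
    have hy' : y ∈ (Polynomial.X ^ (p ^ k) - Polynomial.X : Polynomial F).roots.toFinset := by
      rw [Multiset.mem_toFinset, Polynomial.mem_roots hne]
      simp only [Polynomial.IsRoot.def, Polynomial.eval_sub, Polynomial.eval_pow, Polynomial.eval_X]
      rw [hy, sub_self]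
    rw [← heq] at hy'
    obtain ⟨x, -, hx⟩ := Finset.mem_image.1 hy'
    exact ⟨x, hx⟩

variable (hF : Fintype.card F = q ^ 2)

local notation "H" => hermForm N F q

/-- The inclusion of `SU` into the matrices. -/
def ρs : ↥(SU N F q) →* Matrix (Fin N) (Fin N) F := (slToMat N F).comp (SU N F q).subtype

lemma ρs_inj : Function.Injective (ρs (F := F) (q := q) (N := N)) := by
  intro a b e
  exact Subtype.ext (Subtype.ext e)

lemma ρs_iso (g : ↥(SU N F q)) (u v : Fin N → F) : H (ρs g *ᵥ u) (ρs g *ᵥ v) = H u v := g.2 u v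

lemma one_add_mulVec (hf : IsUnitaryForm (frobEquiv hF) (hermForm N F q)) (p v : Fin N → F) (τ : F) :
    (1 + τ • Ep H p) *ᵥ v = v + (τ * H v p) • p := by
  rw [add_mulVec, one_mulVec, smul_mulVec, Ep_mulVec hf, smul_smul]

/-- The unitary transvections. -/
theorem exists_elt_SU {p : Fin N → F} (hp : H p p = 0) {τ : F} (hτ : τ + frobEquiv hF τ = 0) :
    ∃ g : ↥(SU N F q), ρs g = 1 + τ • Ep H p := by
  have hf := hermForm_isUnitary (q := q) N hF
  have hdet : (1 + τ • Ep H p).det = 1 := by
    have h1 := Matrix.det_one_add_replicateCol_mul_replicateRow (ι := Unit) (τ • p) (formVec H p)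
    rw [dotProduct_smul, formVec_dotProduct hf.add_left hf.smul_left, hp, smul_zero, add_zero] at h1
    rw [← h1]
    congr 2
    ext i j
    simp [Ep, Matrix.vecMulVec_apply, Matrix.mul_apply]
    ring
  have hiso : ∀ u v : Fin N → F, H ((1 + τ • Ep H p) *ᵥ u) ((1 + τ • Ep H p) *ᵥ v) = H u v := by
    intro u v
    rw [one_add_mulVec hF hf, one_add_mulVec hF hf, UForm.add_right hf, hf.add_left, hf.add_left,
      UForm.smul_right hf, UForm.smul_right hf, hf.smul_left, hf.smul_left, hp, map_mul,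
      UForm.sigma_form hf v p]
    linear_combination (H u p * H p v) * hτ
  exact ⟨⟨⟨1 + τ • Ep H p, hdet⟩, hiso⟩, rfl⟩

/-- The set of the statement. -/
def sigmaU (N : ℕ) (F : Type*) [Field F] (q : ℕ) : Set (Subgroup ↥(SU N F q)) :=
  {A | ∃ p : Fin N → F, p ≠ 0 ∧ hermForm N F q p p = 0 ∧
    A = Subgroup.closure {g : ↥(SU N F q) |
      (∀ v : Fin N → F, ∃ c : F, ((g : SL(N, F)) : Matrix (Fin N) (Fin N) F) *ᵥ v = v + c • p) ∧
      ∀ v : Fin N → F, hermForm N F q v p = 0 → ((g : SL(N, F)) : Matrix (Fin N) (Fin N) F) *ᵥ v = v}}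

variable {L : Type*} [Field L] {il : L →+* F} {ε : F}

/-- The closure of the statement. -/
theorem closure_eq_TP (hc : Ctx (frobEquiv hF) il ε) {p : Fin N → F} (hp0 : p ≠ 0) (hp : H p p = 0) :
    Subgroup.closure {g : ↥(SU N F q) |
      (∀ v : Fin N → F, ∃ c : F, ((g : SL(N, F)) : Matrix (Fin N) (Fin N) F) *ᵥ v = v + c • p) ∧
      ∀ v : Fin N → F, H v p = 0 → ((g : SL(N, F)) : Matrix (Fin N) (Fin N) F) *ᵥ v = v} =
      TP (hermForm_isUnitary N hF) il ε (ρs (F := F) (q := q) (N := N)) hp := by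
  have hf := hermForm_isUnitary (q := q) N hF
  have : {g : ↥(SU N F q) |
      (∀ v : Fin N → F, ∃ c : F, ((g : SL(N, F)) : Matrix (Fin N) (Fin N) F) *ᵥ v = v + c • p) ∧
      ∀ v : Fin N → F, H v p = 0 → ((g : SL(N, F)) : Matrix (Fin N) (Fin N) F) *ᵥ v = v} =
      ((TP (hermForm_isUnitary N hF) il ε (ρs (F := F) (q := q) (N := N)) hp : Subgroup ↥(SU N F q)) : Set ↥(SU N F q)) := by
    ext g
    constructor
    · rintro ⟨h1, h2⟩
      obtain ⟨x, hx⟩ := (hf.nondegenerate p hp0).1
      obtain ⟨ph, hph⟩ : ∃ ph, ph = (H x p)⁻¹ • x := ⟨_, rfl⟩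
      have phn : H ph p = 1 := by
        rw [hph, hf.smul_left, inv_mul_cancel₀ hx]
      have phn' : H p ph = 1 := by
        rw [hf.herm, phn, map_one]
      obtain ⟨c₀, hc₀⟩ := h1 ph
      have hgv : ∀ v, ρs g *ᵥ v = v + (c₀ * H v p) • p := by
        intro v
        have e1 : H (v - H v p • ph) p = 0 := by
          rw [sub_eq_add_neg, hf.add_left, ← neg_one_smul F (H v p • ph), hf.smul_left, hf.smul_left, phn]
          ring
        have e2 := h2 _ e1
        have e3 : ((g : SL(N, F)) : Matrix (Fin N) (Fin N) F) *ᵥ v =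
            ((g : SL(N, F)) : Matrix (Fin N) (Fin N) F) *ᵥ (v - H v p • ph) +
              H v p • (((g : SL(N, F)) : Matrix (Fin N) (Fin N) F) *ᵥ ph) := by
          rw [mulVec_sub, mulVec_smul]
          abel
        change ((g : SL(N, F)) : Matrix (Fin N) (Fin N) F) *ᵥ v = _
        rw [e3, e2, hc₀]
        ext i
        simp only [Pi.add_apply, Pi.sub_apply, Pi.smul_apply, smul_eq_mul]
        ring
      have htr : c₀ + frobEquiv hF c₀ = 0 := by
        have e1 := ρs_iso g ph ph
        rw [hgv, UForm.add_right hf, hf.add_left, hf.add_left, UForm.smul_right hf, UForm.smul_right hf,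
          hf.smul_left, hf.smul_left, phn, phn', hp] at e1
        simp only [map_mul, map_one, mul_one, mul_zero, add_zero] at e1
        linear_combination e1
      have hfx : frobEquiv hF (c₀ / ε) = c₀ / ε := by
        have h3 : frobEquiv hF ε = -ε := eq_neg_of_add_eq_zero_right hc.tr
        have h4 : frobEquiv hF c₀ = -c₀ := eq_neg_of_add_eq_zero_right htr
        rw [map_div₀, h3, h4, neg_div_neg_eq]
      obtain ⟨y, hy⟩ := hc.rng _ hfx
      refine ⟨y, ?_⟩
      apply Matrix.ext_iff_mulVec.2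
      intro v
      rw [hgv, hy, smul_smul, div_mul_cancel₀ _ hc.ne, one_add_mulVec hF hf]
    · rintro ⟨y, hy⟩
      have hgv : ∀ v, ρs g *ᵥ v = v + ((il y * ε) * H v p) • p := by
        intro v
        rw [hy, smul_smul, one_add_mulVec hF hf]
      refine ⟨fun v => ⟨_, hgv v⟩, fun v hv => ?_⟩
      change ρs g *ᵥ v = v
      rw [hgv, hv]
      simp
  rw [this, Subgroup.closure_eq]

/-- An isotropic vector. -/
theorem exists_isotropic {n : ℕ} (hF : Fintype.card F = q ^ 2) :
    ∃ p : Fin (n + 2) → F, p ≠ 0 ∧ hermForm (n + 2) F q p p = 0 := by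
  have ht : (-1 : F) ^ q = -1 := by
    have := map_neg (frobHom hF) (1 : F)
    simpa using this
  have hcard := card_norm_fiber hF (-1 : F) ht (by simp)
  obtain ⟨⟨a, ha⟩⟩ : Nonempty {a : F // a ^ (q + 1) = -1} :=
    (Nat.card_pos_iff.1 (by rw [hcard]; omega)).1
  refine ⟨Fin.cons 1 (Fin.cons a 0), ?_, ?_⟩
  · intro h
    have := congrFun h 0
    simp at this
  · simp only [hermForm, Fin.sum_univ_succ, Fin.cons_zero, Fin.cons_succ, Pi.zero_apply]
    have h0 : (0 : F) ^ q = 0 := zero_pow (by have := two_le hF; omega)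
    simp only [h0, mul_zero, Finset.sum_const_zero, add_zero, one_pow, mul_one]
    rw [pow_succ] at ha
    linear_combination ha

end Cfsg.Agent.Lib.Geo.UTrans
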