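/-
Small toolkit for non-degenerate symmetric bilinear forms over a finite field of odd characteristic.
-/
import Cfsg.Agent.Lib.Geo.QForm
set_option autoImplicit false

namespace Cfsg.Agent.Lib.Geo.RatOrth

open Cfsg Cfsg.Geo Cfsg.Agent.Lib.Geo.QForm
open scoped MatrixGroups Matrix

variable {ι : Type} [Fintype ι] [DecidableEq ι] {K : Type*} [Field K]
variable {B : LinearMap.BilinForm K (ι → K)}

theorem isRefl_of_symm (hB : ∀ x y, B x y = B y x) : B.IsRefl := by
  intro x y h
  rw [hB, h]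

theorem exists_right_ne (hN : B.Nondegenerate) {v : ι → K} (hv : v ≠ 0) : ∃ x, B v x ≠ 0 := by
  by_contra hcon
  push Not at hcon
  apply hv
  have h1 : v ∈ LinearMap.ker B := by
    rw [LinearMap.mem_ker]
    exact LinearMap.ext fun x => hcon x
  rw [hN.ker_eq_bot] at h1
  exact h1

/-- The quadratic form of a symmetric form. -/
theorem quad_nondeg (hB : ∀ x y, B x y = B y x) (hN : B.Nondegenerate) (h2 : (2 : K) ≠ 0) :
    IsNondegenerateQuadraticForm (fun x => B x x) := by
  have hpol : QuadraticMap.polar (fun x => B x x) = fun x y => 2 * B x y := by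
    funext x y
    simp only [QuadraticMap.polar, map_add, LinearMap.add_apply]
    rw [hB y x]
    ring
  refine ⟨?_, ?_, ?_⟩
  · intro c v
    simp only [map_smul, LinearMap.smul_apply, smul_eq_mul]
    ring
  · rw [hpol]
    refine ⟨?_, ?_, ?_, ?_⟩
    · intro x y z
      simp only [map_add, LinearMap.add_apply]
      ring
    · intro a x y
      simp only [map_smul, LinearMap.smul_apply, smul_eq_mul]
      ring
    · intro x y z
      simp only [map_add]
      ring
    · intro a x y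
      simp only [map_smul, smul_eq_mul]
      ring
  · rw [hpol]
    intro v hv
    obtain ⟨x, hx⟩ := exists_right_ne hN hv
    refine ⟨⟨x, mul_ne_zero h2 (by rwa [hB])⟩, ⟨x, mul_ne_zero h2 hx⟩⟩

variable [Finite K]

section
include B

/-- A subspace of dimension at least three more than `X` contains a singular vector outside `X`. -/
theorem exists_singular_avoid (hB : ∀ x y, B x y = B y x) (hN : B.Nondegenerate) (h2 : (2 : K) ≠ 0)
    (D X : Submodule K (ι → K)) (h : Module.finrank K X + 3 ≤ Module.finrank K D) :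
    ∃ a ∈ D, a ∉ X ∧ B a a = 0 := by
  classical
  have : Fintype K := Fintype.ofFinite K
  obtain ⟨X', hX'⟩ := Submodule.exists_isCompl X
  have hfin : Module.finrank K X + Module.finrank K X' = Fintype.card ι := by
    have := Submodule.finrank_add_eq_of_isCompl hX'
    simpa using this
  have h1 := Submodule.finrank_sup_add_finrank_inf_eq D X'
  have h3 : Module.finrank K (D ⊔ X' : Submodule K (ι → K)) ≤ Fintype.card ι := by
    have := Submodule.finrank_le (D ⊔ X')
    simpa using this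
  have h4 : 3 ≤ Module.finrank K (D ⊓ X' : Submodule K (ι → K)) := by omega
  obtain ⟨a, ha, ha0, hQ⟩ := exists_singular (quad_nondeg hB hN h2) _ h4
  refine ⟨a, ha.1, fun haX => ha0 ?_, hQ⟩
  have : a ∈ X ⊓ X' := ⟨haX, ha.2⟩
  rw [hX'.inf_eq_bot] at this
  exact this

/-- A hyperbolic pair orthogonal to a small subspace. -/
theorem exists_hyp_perp (hB : ∀ x y, B x y = B y x) (hN : B.Nondegenerate) (h2 : (2 : K) ≠ 0)
    (X : Submodule K (ι → K)) (h : 2 * Module.finrank K X + 3 ≤ Fintype.card ι) :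
    ∃ y₁ ∈ B.orthogonal X, ∃ y₂ ∈ B.orthogonal X, B y₁ y₁ = 0 ∧ B y₂ y₂ = 0 ∧ B y₁ y₂ = 1 := by
  have hrefl := isRefl_of_symm hB
  have hfin := LinearMap.BilinForm.finrank_orthogonal hN X
  have hcard : Module.finrank K (ι → K) = Fintype.card ι := by simp
  obtain ⟨y₁, hy₁, hy₁X, hy₁Q⟩ := exists_singular_avoid hB hN h2 (B.orthogonal X) X (by omega)
  have hperp : y₁ ∉ B.orthogonal (B.orthogonal X) := by
    rwa [LinearMap.BilinForm.orthogonal_orthogonal hN hrefl]
  rw [LinearMap.BilinForm.mem_orthogonal_iff] at hperp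
  simp only [not_forall] at hperp
  obtain ⟨z, hz, hzy⟩ := hperp
  have hyz : B y₁ z ≠ 0 := by rwa [hB]
  obtain ⟨y₂, hy₂⟩ : ∃ y₂, y₂ = (B y₁ z)⁻¹ • z - ((B y₁ z)⁻¹ ^ 2 * B z z / 2) • y₁ := ⟨_, rfl⟩
  refine ⟨y₁, hy₁, y₂, ?_, hy₁Q, ?_, ?_⟩
  · rw [hy₂]
    exact Submodule.sub_mem _ (Submodule.smul_mem _ _ hz) (Submodule.smul_mem _ _ hy₁)
  · rw [hy₂]
    simp only [map_sub, map_smul, LinearMap.sub_apply, LinearMap.smul_apply, smul_eq_mul, hy₁Q, hB z y₁]
    field_simp
    ring
  · rw [hy₂]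
    simp only [map_sub, map_smul, hy₁Q, smul_eq_mul]
    field_simp
    ring

/-- Any vector can be made singular by adding a vector orthogonal to a small subspace. -/
theorem exists_singular_shift (hB : ∀ x y, B x y = B y x) (hN : B.Nondegenerate) (h2 : (2 : K) ≠ 0)
    (X : Submodule K (ι → K)) (h : 2 * Module.finrank K X + 3 ≤ Fintype.card ι) (b₀ : ι → K) :
    ∃ y ∈ B.orthogonal X, B (b₀ + y) (b₀ + y) = 0 := by
  obtain ⟨y₁, hy₁, y₂, hy₂, hQ₁, hQ₂, h12⟩ := exists_hyp_perp hB hN h2 X h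
  obtain ⟨A, hA⟩ : ∃ A, A = B b₀ y₁ := ⟨_, rfl⟩
  obtain ⟨C, hC⟩ : ∃ C, C = B b₀ y₂ := ⟨_, rfl⟩
  obtain ⟨s, hs⟩ : ∃ s : K, s = 1 - C := ⟨_, rfl⟩
  obtain ⟨t, ht⟩ : ∃ t : K, t = (2 * A * C - B b₀ b₀) / 2 - A := ⟨_, rfl⟩
  refine ⟨s • y₁ + t • y₂, Submodule.add_mem _ (Submodule.smul_mem _ _ hy₁) (Submodule.smul_mem _ _ hy₂), ?_⟩
  simp only [map_add, map_smul, LinearMap.add_apply, LinearMap.smul_apply, smul_eq_mul, hQ₁, hQ₂, h12,
    hB y₁ b₀, hB y₂ b₀, hB y₂ y₁, ← hA, ← hC]
  rw [hs, ht]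
  field_simp
  ring

/-- A vector outside a subspace is detected by the orthogonal complement. -/
theorem exists_dual (hB : ∀ x y, B x y = B y x) (hN : B.Nondegenerate) (X : Submodule K (ι → K)) {x : ι → K}
    (hx : x ∉ X) : ∃ b ∈ B.orthogonal X, B x b ≠ 0 := by
  have hrefl := isRefl_of_symm hB
  rw [← LinearMap.BilinForm.orthogonal_orthogonal hN hrefl X, LinearMap.BilinForm.mem_orthogonal_iff] at hx
  simp only [not_forall] at hx
  obtain ⟨z, hz, hzy⟩ := hx
  exact ⟨z, hz, by rwa [hB]⟩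

end

theorem finrank_orth_le_span {n : ℕ} (v : Fin n → ι → K) :
    Module.finrank K (Submodule.span K (Set.range v)) ≤ n := by
  have := finrank_range_le_card (R := K) v
  simpa [Set.finrank] using this

end Cfsg.Agent.Lib.Geo.RatOrth
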