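/-
The normaliser of a quadratic field with non-trivial involution (the group `GU_m(q).2`) is maximal in `Sp_2m(q)`, `q` odd.
-/
import Cfsg.Agent.Lib.Geo.SpBase
import Cfsg.Agent.Lib.Geo.RatOrth
set_option autoImplicit false

namespace Cfsg.Agent.Lib.Geo.SpGU

open Cfsg Cfsg.Geo Cfsg.Agent.Lib.Geo.Basic Cfsg.Agent.Lib.Geo.Parabolic Cfsg.Agent.Lib.Geo.Centres
open Cfsg.Agent.Lib.Geo.Polar Cfsg.Agent.Lib.Geo.QForm Cfsg.Agent.Lib.Geo.SympInSL
open Cfsg.Agent.Lib.Geo.SpBase Cfsg.Agent.Lib.Geo.RatOrth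
open scoped MatrixGroups Matrix

variable {ι : Type} [Fintype ι] [DecidableEq ι] {F : Type*} [Field F]
variable {f : (ι → F) → (ι → F) → F} {hf : IsSymplecticForm f} {I : Subgroup (GL ι F)}

/-- A skew-adjoint square root of a non-square. -/
structure KStr (hf : IsSymplecticForm f) (θ : Matrix ι ι F) (d : F) : Prop where
  sq : ∀ x, θ *ᵥ (θ *ᵥ x) = d • x
  adj : ∀ x y, f (θ *ᵥ x) y = - f x (θ *ᵥ y)
  nsq : ∀ a : F, a * a ≠ d
  two : (2 : F) ≠ 0

/-- The symmetric form `f(θ x, y)`. -/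
noncomputable def sF (hf : IsSymplecticForm f) (θ : Matrix ι ι F) : LinearMap.BilinForm F (ι → F) :=
  LinearMap.mk₂ F (fun x y => f (θ *ᵥ x) y)
    (fun x y z => by simp only [Matrix.mulVec_add, hf.bilinear.add_left])
    (fun c x y => by simp only [Matrix.mulVec_smul, hf.bilinear.smul_left, smul_eq_mul])
    (fun x y z => by simp only [hf.bilinear.add_right])
    (fun c x y => by simp only [hf.bilinear.smul_right, smul_eq_mul])

@[simp] theorem sF_apply (θ : Matrix ι ι F) (x y : ι → F) : sF hf θ x y = f (θ *ᵥ x) y := rfl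

/-- Commuting transvections. -/
theorem sympT_comm (hf : IsSymplecticForm f) {a b : ι → F} (h : f a b = 0) (x y : F) :
    sympT hf a x * sympT hf b y = sympT hf b y * sympT hf a x := by
  apply gl_ext_mulVec
  intro z
  simp only [Units.val_mul, ← Matrix.mulVec_mulVec]
  rw [sympT_mulVec, sympT_mulVec, sympT_mulVec, sympT_mulVec]
  have h' : f b a = 0 := form_comm_eq hf h
  simp only [hf.bilinear.add_left, hf.bilinear.smul_left, h, h', mul_zero, add_zero]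
  abel

/-- The symplectic transvection composition. -/
theorem sympT_mul (hf : IsSymplecticForm f) (a : ι → F) (x y : F) :
    sympT hf a x * sympT hf a y = sympT hf a (x + y) := by
  apply gl_ext_mulVec
  intro z
  simp only [Units.val_mul, ← Matrix.mulVec_mulVec]
  rw [sympT_mulVec, sympT_mulVec, sympT_mulVec]
  simp only [hf.bilinear.add_left, hf.bilinear.smul_left, hf.alternating, mul_zero, add_zero, smul_smul, add_smul,
    smul_add]
  abel

theorem sympT_zero (hf : IsSymplecticForm f) (a : ι → F) : sympT hf a 0 = 1 := by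
  apply gl_ext_mulVec
  intro z
  rw [sympT_mulVec]
  simp

theorem sympT_inv (hf : IsSymplecticForm f) (a : ι → F) (x : F) :
    (sympT hf a x)⁻¹ = sympT hf a (-x) := by
  rw [inv_eq_iff_mul_eq_one, sympT_mul, add_neg_cancel, sympT_zero]

/-- The Heisenberg type element `x ↦ x + κ f(x, r) ρ + κ f(x, ρ) r + κ f(x, ρ) ρ`. -/
noncomputable def Zel (hf : IsSymplecticForm f) (r ρ : ι → F) (κ : F) : GL ι F :=
  sympT hf (r + ρ) κ * sympT hf r (-κ)

theorem Zel_mulVec (hf : IsSymplecticForm f) {r ρ : ι → F} (κ : F) (h : f r ρ = 0) (x : ι → F) :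
    ((Zel hf r ρ κ : GL ι F) : Matrix ι ι F) *ᵥ x =
      x + (κ * f x r) • ρ + (κ * f x ρ) • r + (κ * f x ρ) • ρ := by
  rw [Zel, Units.val_mul, ← Matrix.mulVec_mulVec, sympT_mulVec, sympT_mulVec]
  have hb := hf.bilinear
  simp only [hb.add_left, hb.add_right, hb.smul_left, hb.smul_right, hf.alternating, h]
  ext i
  simp only [Pi.add_apply, Pi.smul_apply, smul_eq_mul]
  ring

theorem Zel_conj (hf : IsSymplecticForm f) (g : GL ι F)
    (hg : ∀ u v, f ((g : Matrix ι ι F) *ᵥ u) ((g : Matrix ι ι F) *ᵥ v) = f u v) (r ρ : ι → F) (κ : F) :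
    g * Zel hf r ρ κ * g⁻¹ = Zel hf ((g : Matrix ι ι F) *ᵥ r) ((g : Matrix ι ι F) *ᵥ ρ) κ := by
  have h1 : g * Zel hf r ρ κ * g⁻¹ = (g * sympT hf (r + ρ) κ * g⁻¹) * (g * sympT hf r (-κ) * g⁻¹) := by
    rw [Zel]
    group
  rw [h1, conj_sympT hf g hg, conj_sympT hf g hg, Matrix.mulVec_add, Zel]

/-- The Heisenberg commutator. -/
theorem Zel_comm (hf : IsSymplecticForm f) {r v ρ : ι → F} (κ : F) (h1 : f r ρ = 0) (h2 : f v ρ = 0) :
    Zel hf r ρ κ * Zel hf v ρ κ * (Zel hf r ρ κ)⁻¹ * (Zel hf v ρ κ)⁻¹ = sympT hf ρ (2 * κ * κ * f v r) := by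
  have h3 : Zel hf r ρ κ * Zel hf v ρ κ = sympT hf ρ (2 * κ * κ * f v r) * (Zel hf v ρ κ * Zel hf r ρ κ) := by
    apply gl_ext_mulVec
    intro x
    simp only [Units.val_mul, ← Matrix.mulVec_mulVec]
    rw [Zel_mulVec hf κ h2, Zel_mulVec hf κ h1, Zel_mulVec hf κ h1, Zel_mulVec hf κ h2, sympT_mulVec]
    have hb := hf.bilinear
    have h1' : f ρ r = 0 := form_comm_eq hf h1
    have h2' : f ρ v = 0 := form_comm_eq hf h2
    simp only [hb.add_left, hb.smul_left, hf.alternating, h1, h2, h1', h2', hf.skew r v]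
    ext i
    simp only [Pi.add_apply, Pi.smul_apply, smul_eq_mul]
    ring
  rw [h3]
  group

theorem P_sub_left (hf : IsSymplecticForm f) (x y z : ι → F) : f (x - y) z = f x z - f y z := by
  have h1 := hf.bilinear.add_left (x - y) y z
  rw [sub_add_cancel] at h1
  rw [h1]
  ring

theorem P_sub_right (hf : IsSymplecticForm f) (z x y : ι → F) : f z (x - y) = f z x - f z y := by
  have h1 := hf.bilinear.add_right z (x - y) y
  rw [sub_add_cancel] at h1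
  rw [h1]
  ring

namespace KStr

variable {θ : Matrix ι ι F} {d : F} (D : KStr hf θ d)
include D

theorem d_ne : d ≠ 0 := by
  have := D.nsq 0
  simpa using this.symm

theorem aniso {a b : F} (h : a * a - d * (b * b) = 0) : a = 0 ∧ b = 0 := by
  have hb : b = 0 := by
    by_contra hb
    apply D.nsq (a / b)
    field_simp
    linear_combination h
  refine ⟨?_, hb⟩
  rw [hb] at h
  have : a * a = 0 := by linear_combination h
  exact mul_self_eq_zero.mp this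

theorem f_θ_left (x y : ι → F) : f (θ *ᵥ x) y = - f x (θ *ᵥ y) := D.adj x y

theorem f_θθ (x y : ι → F) : f (θ *ᵥ x) (θ *ᵥ y) = - (d * f x y) := by
  rw [D.adj, D.sq, hf.bilinear.smul_right]

theorem s_symm (x y : ι → F) : sF hf θ x y = sF hf θ y x := by
  simp only [sF_apply]
  rw [D.adj, hf.skew, neg_neg]

theorem f_θ_self (x : ι → F) : f x (θ *ᵥ x) = - f (θ *ᵥ x) x := by
  rw [hf.skew]

/-- The symmetric form is non-degenerate. -/
theorem s_nd : (sF hf θ).Nondegenerate := by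
  have hrefl : (sF hf θ).IsRefl := isRefl_of_symm D.s_symm
  have hL : LinearMap.SeparatingLeft (sF hf θ) := by
    intro x hx
    by_contra h0
    have h1 : θ *ᵥ x ≠ 0 := by
      intro h2
      have h3 := D.sq x
      rw [h2, Matrix.mulVec_zero] at h3
      exact h0 ((smul_eq_zero.mp h3.symm).resolve_left D.d_ne)
    obtain ⟨⟨y, hy⟩, -⟩ := hf.nondegenerate _ h1
    exact form_comm_ne hf hy (hx y)
  exact (LinearMap.IsRefl.nondegenerate_iff_separatingLeft hrefl).2 hL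

theorem k_zero {a b : F} {y : ι → F} (h : a • y + b • θ *ᵥ y = 0) (hy : y ≠ 0) : a = 0 ∧ b = 0 := by
  have h1 := congrArg (fun v => a • v - b • θ *ᵥ v) h
  simp only [Matrix.mulVec_add, Matrix.mulVec_smul, D.sq, Matrix.mulVec_zero, smul_zero, sub_zero] at h1
  have h2 : (a * a - d * (b * b)) • y = 0 := by
    rw [← h1]
    ext i
    simp only [Pi.sub_apply, Pi.add_apply, Pi.smul_apply, smul_eq_mul]
    ring
  exact D.aniso ((smul_eq_zero.mp h2).resolve_right hy)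

/-- Independence of two `K`-independent vectors. -/
theorem indep4 {x y : ι → F} (hx : x ≠ 0) (hy : ¬ ∃ a b : F, y = a • x + b • θ *ᵥ x) {a b c e : F}
    (h : a • x + b • θ *ᵥ x + c • y + e • θ *ᵥ y = 0) : a = 0 ∧ b = 0 ∧ c = 0 ∧ e = 0 := by
  have hce : c = 0 ∧ e = 0 := by
    by_contra hne
    obtain ⟨N, hNdef⟩ : ∃ N, N = c * c - d * (e * e) := ⟨_, rfl⟩
    have hN : N ≠ 0 := fun h0 => hne (D.aniso (hNdef ▸ h0))
    apply hy
    refine ⟨-(a * c - b * e * d) / N, -(b * c - a * e) / N, ?_⟩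
    have h1 := congrArg (fun v => c • v - e • θ *ᵥ v) h
    simp only [Matrix.mulVec_add, Matrix.mulVec_smul, D.sq, Matrix.mulVec_zero, smul_zero, sub_zero] at h1
    ext i
    have h2 := congrFun h1 i
    simp only [Pi.sub_apply, Pi.add_apply, Pi.smul_apply, smul_eq_mul, Pi.zero_apply] at h2 ⊢
    field_simp
    rw [hNdef]
    linear_combination h2
  obtain ⟨hc, he⟩ := hce
  rw [hc, he, zero_smul, zero_smul, add_zero, add_zero] at h
  obtain ⟨ha, hb⟩ := D.k_zero h hx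
  exact ⟨ha, hb, hc, he⟩

/-- The `K`-span is symmetric for non-zero vectors. -/
theorem k_symm {x y : ι → F} (hx : x ≠ 0) (h : ∃ a b : F, x = a • y + b • θ *ᵥ y) :
    ∃ a b : F, y = a • x + b • θ *ᵥ x := by
  obtain ⟨a, b, hab⟩ := h
  have hy : y ≠ 0 := by
    rintro rfl
    apply hx
    rw [hab]
    simp
  obtain ⟨N, hNdef⟩ : ∃ N, N = a * a - d * (b * b) := ⟨_, rfl⟩
  have hN : N ≠ 0 := by
    intro h0
    obtain ⟨ha, hb⟩ := D.aniso (hNdef ▸ h0)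
    apply hx
    rw [hab, ha, hb]
    simp
  refine ⟨a / N, -b / N, ?_⟩
  rw [hab]
  simp only [Matrix.mulVec_add, Matrix.mulVec_smul, D.sq]
  ext i
  simp only [Pi.add_apply, Pi.smul_apply, smul_eq_mul]
  field_simp
  rw [hNdef]
  ring

/-- The unitary transvection. -/
noncomputable def kU (_D : KStr hf θ d) (p : ι → F) (c : F) : GL ι F :=
  sympT hf (θ *ᵥ p) (-c) * sympT hf p (c * d)

theorem kU_mulVec (p : ι → F) (c : F) (hp : f p (θ *ᵥ p) = 0) (x : ι → F) :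
    ((D.kU p c : GL ι F) : Matrix ι ι F) *ᵥ x = x + (c * d * f x p) • p - (c * f x (θ *ᵥ p)) • θ *ᵥ p := by
  rw [kU, Units.val_mul, ← Matrix.mulVec_mulVec, sympT_mulVec, sympT_mulVec]
  have hb := hf.bilinear
  simp only [hb.add_left, hb.smul_left, hp]
  ext i
  simp only [Pi.add_apply, Pi.sub_apply, Pi.smul_apply, smul_eq_mul]
  ring

theorem kU_preserves (p : ι → F) (c : F) (x y : ι → F) :
    f (((D.kU p c : GL ι F) : Matrix ι ι F) *ᵥ x) (((D.kU p c : GL ι F) : Matrix ι ι F) *ᵥ y) = f x y := by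
  rw [kU, Units.val_mul, ← Matrix.mulVec_mulVec, ← Matrix.mulVec_mulVec, sympT_similarity hf, sympT_similarity hf]

theorem kU_comm (p : ι → F) (c : F) (hp : f p (θ *ᵥ p) = 0) (x : ι → F) :
    ((D.kU p c : GL ι F) : Matrix ι ι F) *ᵥ (θ *ᵥ x) = θ *ᵥ (((D.kU p c : GL ι F) : Matrix ι ι F) *ᵥ x) := by
  rw [D.kU_mulVec p c hp, D.kU_mulVec p c hp]
  simp only [Matrix.mulVec_add, Matrix.mulVec_sub, Matrix.mulVec_smul, D.sq, D.f_θθ x p, D.adj x p]
  ext i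
  simp only [Pi.add_apply, Pi.sub_apply, Pi.smul_apply, smul_eq_mul]
  ring

/-- The table of values for the Eichler elements. -/
theorem tbl_p_w {p w : ι → F} (h : f w p = 0) : f p w = 0 := form_comm_eq hf h

theorem tbl_θp_w {p w : ι → F} (h : f w (θ *ᵥ p) = 0) : f (θ *ᵥ p) w = 0 := form_comm_eq hf h

theorem tbl_p_θw {p w : ι → F} (h : f w (θ *ᵥ p) = 0) : f p (θ *ᵥ w) = 0 := by
  have h1 := D.adj p w
  rw [form_comm_eq hf h] at h1
  exact neg_eq_zero.mp h1.symm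

theorem tbl_θw_p {p w : ι → F} (h : f w (θ *ᵥ p) = 0) : f (θ *ᵥ w) p = 0 := by
  rw [D.adj, h, neg_zero]

theorem tbl_θp_θw {p w : ι → F} (h : f w p = 0) : f (θ *ᵥ p) (θ *ᵥ w) = 0 := by
  rw [D.f_θθ, form_comm_eq hf h, mul_zero, neg_zero]

theorem tbl_θw_θp {p w : ι → F} (h : f w p = 0) : f (θ *ᵥ w) (θ *ᵥ p) = 0 := by
  rw [D.f_θθ, h, mul_zero, neg_zero]

/-- The `K`-unitary Eichler element. -/
noncomputable def kE (p w : ι → F) (c : F) (hp : f p (θ *ᵥ p) = 0) (hwp : f w p = 0) (hwp' : f w (θ *ᵥ p) = 0) :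
    GL ι F :=
  D.kU p c *
    sE hf p ((f w (θ *ᵥ w) / 2) • θ *ᵥ p) (by rw [hf.bilinear.smul_right, hp, mul_zero]) *
    sE hf p (θ *ᵥ w) (D.tbl_p_θw hwp') *
    sE hf (θ *ᵥ p) (-w) (by
      have := hf.bilinear.smul_right (-1) (θ *ᵥ p) w
      rw [neg_one_smul, D.tbl_θp_w hwp', mul_zero] at this
      exact this)

theorem kE_mulVec (p w : ι → F) (c : F) (hp : f p (θ *ᵥ p) = 0) (hwp : f w p = 0) (hwp' : f w (θ *ᵥ p) = 0)
    (x : ι → F) : ((D.kE p w c hp hwp hwp' : GL ι F) : Matrix ι ι F) *ᵥ x =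
      x - f x (θ *ᵥ p) • w + f x p • θ *ᵥ w +
        (f x (θ *ᵥ w) - (f w (θ *ᵥ w) / 2) * f x (θ *ᵥ p) + c * d * f x p) • p +
        (- f x w + (f w (θ *ᵥ w) / 2) * f x p - c * f x (θ *ᵥ p)) • θ *ᵥ p := by
  rw [kE]
  simp only [Units.val_mul, ← Matrix.mulVec_mulVec]
  rw [sE_mulVec, sE_mulVec, sE_mulVec, D.kU_mulVec p c hp]
  have hb := hf.bilinear
  have h1 := D.tbl_p_w hwp
  have h2 := D.tbl_θp_w hwp'
  have h3 := D.tbl_p_θw hwp'
  have h4 := D.tbl_θw_p hwp'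
  have h5 := D.tbl_θp_θw hwp
  have h6 := D.tbl_θw_θp hwp
  have h7 : f (θ *ᵥ p) p = 0 := form_comm_eq hf hp
  have hneg : ∀ y z : ι → F, f y (-z) = - f y z := by
    intro y z
    have := hb.smul_right (-1) y z
    rw [neg_one_smul] at this
    rw [this]
    ring
  have hneg' : ∀ y z : ι → F, f (-z) y = - f z y := by
    intro y z
    have := hb.smul_left (-1) z y
    rw [neg_one_smul] at this
    rw [this]
    ring
  simp only [hb.add_left, hb.smul_left, hb.smul_right, hneg, hneg', hf.alternating, hp, hwp, hwp', h1, h2, h3, h4, h5, h6,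
    h7]
  obtain ⟨ε, hε⟩ : ∃ ε, f w (θ *ᵥ w) = 2 * ε := ⟨f w (θ *ᵥ w) / 2, by have := D.two; field_simp⟩
  rw [hε, mul_div_cancel_left₀ _ D.two]
  ext i
  simp only [Pi.add_apply, Pi.sub_apply, Pi.neg_apply, Pi.smul_apply, smul_eq_mul]
  ring

theorem kE_preserves (p w : ι → F) (c : F) (hp : f p (θ *ᵥ p) = 0) (hwp : f w p = 0) (hwp' : f w (θ *ᵥ p) = 0)
    (x y : ι → F) : f (((D.kE p w c hp hwp hwp' : GL ι F) : Matrix ι ι F) *ᵥ x)
      (((D.kE p w c hp hwp hwp' : GL ι F) : Matrix ι ι F) *ᵥ y) = f x y := by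
  rw [kE]
  simp only [Units.val_mul, ← Matrix.mulVec_mulVec]
  rw [D.kU_preserves, sE_preserves hf, sE_preserves hf, sE_preserves hf]

theorem kE_comm (p w : ι → F) (c : F) (hp : f p (θ *ᵥ p) = 0) (hwp : f w p = 0) (hwp' : f w (θ *ᵥ p) = 0)
    (x : ι → F) : ((D.kE p w c hp hwp hwp' : GL ι F) : Matrix ι ι F) *ᵥ (θ *ᵥ x) =
      θ *ᵥ (((D.kE p w c hp hwp hwp' : GL ι F) : Matrix ι ι F) *ᵥ x) := by
  rw [D.kE_mulVec, D.kE_mulVec]
  simp only [Matrix.mulVec_add, Matrix.mulVec_sub, Matrix.mulVec_smul, D.sq, D.f_θθ x, D.adj x]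
  ext i
  simp only [Pi.add_apply, Pi.sub_apply, Pi.neg_apply, Pi.smul_apply, smul_eq_mul]
  ring

theorem f_of_s {x y : ι → F} (h : sF hf θ (θ *ᵥ x) y = 0) : f x y = 0 := by
  rw [sF_apply, D.sq, hf.bilinear.smul_left] at h
  exact (mul_eq_zero.mp h).resolve_left D.d_ne

theorem fθ_of_s {x y : ι → F} (h : sF hf θ x y = 0) : f x (θ *ᵥ y) = 0 := by
  rw [sF_apply, D.adj] at h
  exact neg_eq_zero.mp h

theorem iso_of_s {x : ι → F} (h : sF hf θ x x = 0) : f x (θ *ᵥ x) = 0 := D.fθ_of_s h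

theorem s_of_iso {x : ι → F} (h : f x (θ *ᵥ x) = 0) : sF hf θ x x = 0 := by
  rw [sF_apply, D.adj, h, neg_zero]

variable [Finite F]

/-- Every non-zero vector is a sum of two isotropic vectors, not orthogonal for `f`. -/
theorem exists_decomp (hι : 14 ≤ Fintype.card ι) {x : ι → F} (hx : x ≠ 0) :
    ∃ (w v : ι → F) (τ : F), f w (θ *ᵥ w) = 0 ∧ f v (θ *ᵥ v) = 0 ∧ f w v ≠ 0 ∧ x = w + τ • v := by
  have h1 : x ∉ Submodule.span F (Set.range ![θ *ᵥ x]) := by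
    intro h
    rw [Submodule.mem_span_range_iff_exists_fun] at h
    obtain ⟨c, hc⟩ := h
    simp only [Fin.sum_univ_one, Matrix.cons_val_zero] at hc
    have := D.k_zero (a := 1) (b := - c 0) (y := x) (by rw [one_smul, neg_smul, ← sub_eq_add_neg, hc, sub_self]) hx
    exact one_ne_zero this.1
  have h2 : θ *ᵥ x ∉ Submodule.span F (Set.range ![x]) := by
    intro h
    rw [Submodule.mem_span_range_iff_exists_fun] at h
    obtain ⟨c, hc⟩ := h
    simp only [Fin.sum_univ_one, Matrix.cons_val_zero] at hc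
    have := D.k_zero (a := - c 0) (b := 1) (y := x) (by rw [one_smul, neg_smul, hc]; abel) hx
    exact one_ne_zero this.2
  obtain ⟨b₁, hb₁, hb₁'⟩ := exists_dual D.s_symm D.s_nd _ h1
  obtain ⟨b₂, hb₂, hb₂'⟩ := exists_dual D.s_symm D.s_nd _ h2
  have e1 : sF hf θ (θ *ᵥ x) b₁ = 0 := hb₁ _ (Submodule.subset_span ⟨0, rfl⟩)
  have e2 : sF hf θ x b₂ = 0 := hb₂ _ (Submodule.subset_span ⟨0, rfl⟩)
  obtain ⟨X, hX⟩ : ∃ X : Submodule F (ι → F), X = Submodule.span F (Set.range ![x, θ *ᵥ x]) := ⟨_, rfl⟩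
  have hXfin : Module.finrank F X ≤ 2 := by
    rw [hX]
    exact finrank_orth_le_span _
  obtain ⟨v₀, hv₀⟩ : ∃ v₀, v₀ = (sF hf θ x b₁)⁻¹ • b₁ + (d * (sF hf θ (θ *ᵥ x) b₂)⁻¹) • b₂ := ⟨_, rfl⟩
  obtain ⟨y, hy, hyQ⟩ := exists_singular_shift D.s_symm D.s_nd D.two X (by omega) v₀
  have e3 : sF hf θ x y = 0 := hy _ (by rw [hX]; exact Submodule.subset_span ⟨0, rfl⟩)
  have e4 : sF hf θ (θ *ᵥ x) y = 0 := hy _ (by rw [hX]; exact Submodule.subset_span ⟨1, rfl⟩)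
  obtain ⟨v, hv⟩ : ∃ v, v = v₀ + y := ⟨_, rfl⟩
  rw [← hv] at hyQ
  have e5 : sF hf θ x v = 1 := by
    rw [hv, hv₀, map_add, map_add, map_smul, map_smul, e2, e3, smul_zero, add_zero, add_zero, smul_eq_mul]
    exact inv_mul_cancel₀ hb₁'
  have e6 : sF hf θ (θ *ᵥ x) v = d := by
    rw [hv, hv₀, map_add, map_add, map_smul, map_smul, e1, e4, smul_zero, add_zero, zero_add, smul_eq_mul, mul_assoc,
      inv_mul_cancel₀ hb₂', mul_one]
  have e7 : f x v = 1 := by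
    rw [sF_apply, D.sq, hf.bilinear.smul_left] at e6
    have : d * (f x v - 1) = 0 := by linear_combination e6
    have h3 := (mul_eq_zero.mp this).resolve_left D.d_ne
    linear_combination h3
  have h2' := D.two
  obtain ⟨τ, hτ⟩ : ∃ τ, τ = sF hf θ x x / 2 := ⟨_, rfl⟩
  refine ⟨x - τ • v, v, τ, ?_, D.iso_of_s hyQ, ?_, by abel⟩
  · apply D.iso_of_s
    simp only [map_sub, map_smul, LinearMap.sub_apply, LinearMap.smul_apply, smul_eq_mul, hyQ,
      D.s_symm v x, e5]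
    rw [hτ]
    field_simp
    ring
  · rw [P_sub_left hf, hf.bilinear.smul_left, hf.alternating, e7]
    simp

/-- A transvection in the overgroup, from a non-`K`-line. -/
theorem exists_centre (hι : 14 ≤ Fintype.card ι) {M : Subgroup (GL ι F)}
    (hU : ∀ h : GL ι F, (∀ u v, f ((h : Matrix ι ι F) *ᵥ u) ((h : Matrix ι ι F) *ᵥ v) = f u v) →
      (∀ x, (h : Matrix ι ι F) *ᵥ (θ *ᵥ x) = θ *ᵥ ((h : Matrix ι ι F) *ᵥ x)) → h ∈ M)
    {r r' : ι → F} (hrr' : f r r' = 0) (hT : sympT hf r' (-1) * sympT hf r d ∈ M)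
    (hind : ¬ ∃ a b : F, r = a • r' + b • θ *ᵥ r') :
    ∃ ρ : ι → F, ρ ≠ 0 ∧ f ρ (θ *ᵥ ρ) = 0 ∧ ρ ∈ centres hf M := by
  have hcard : Module.finrank F (ι → F) = Fintype.card ι := by simp
  have hb := hf.bilinear
  obtain ⟨X₀, hX₀⟩ : ∃ X₀ : Submodule F (ι → F), X₀ = Submodule.span F (Set.range ![r, θ *ᵥ r, r', θ *ᵥ r']) := ⟨_, rfl⟩
  have hX₀fin : Module.finrank F X₀ ≤ 4 := by
    rw [hX₀]
    exact finrank_orth_le_span _
  have hX₀o := LinearMap.BilinForm.finrank_orthogonal D.s_nd X₀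
  obtain ⟨ρ, hρX, hρn, hρQ⟩ := exists_singular_avoid D.s_symm D.s_nd D.two ((sF hf θ).orthogonal X₀) X₀ (by omega)
  have hr₁ : r ∈ X₀ := by rw [hX₀]; exact Submodule.subset_span ⟨0, rfl⟩
  have hr₂ : θ *ᵥ r ∈ X₀ := by rw [hX₀]; exact Submodule.subset_span ⟨1, rfl⟩
  have hr₃ : r' ∈ X₀ := by rw [hX₀]; exact Submodule.subset_span ⟨2, rfl⟩
  have hr₄ : θ *ᵥ r' ∈ X₀ := by rw [hX₀]; exact Submodule.subset_span ⟨3, rfl⟩
  have frρ : f r ρ = 0 := D.f_of_s (hρX _ hr₂)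
  have frθρ : f r (θ *ᵥ ρ) = 0 := D.fθ_of_s (hρX _ hr₁)
  have fr'ρ : f r' ρ = 0 := D.f_of_s (hρX _ hr₄)
  have fr'θρ : f r' (θ *ᵥ ρ) = 0 := D.fθ_of_s (hρX _ hr₃)
  have hρ0 : ρ ≠ 0 := fun h => hρn (by rw [h]; exact X₀.zero_mem)
  have hpp : f ρ (θ *ᵥ ρ) = 0 := D.iso_of_s hρQ
  have hθρρ : f (θ *ᵥ ρ) ρ = 0 := form_comm_eq hf hpp
  -- `r` is outside the second subspace
  obtain ⟨X₁, hX₁⟩ : ∃ X₁ : Submodule F (ι → F), X₁ = Submodule.span F (Set.range ![r', θ *ᵥ r', ρ, θ *ᵥ ρ]) := ⟨_, rfl⟩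
  have hrX₁ : r ∉ X₁ := by
    intro h
    rw [hX₁, Submodule.mem_span_range_iff_exists_fun] at h
    obtain ⟨c, hc⟩ := h
    rw [Fin.sum_univ_four] at hc
    simp only [Matrix.cons_val_zero, Matrix.cons_val_one, Matrix.cons_val] at hc
    by_cases h0 : c 2 = 0 ∧ c 3 = 0
    · apply hind
      refine ⟨c 0, c 1, ?_⟩
      rw [← hc, h0.1, h0.2]
      simp
    · have hN : c 2 * c 2 - d * (c 3 * c 3) ≠ 0 := fun h1 => h0 (D.aniso h1)
      apply hρn
      obtain ⟨y, hy⟩ : ∃ y, y = r - c 0 • r' - c 1 • θ *ᵥ r' := ⟨_, rfl⟩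
      have hyX : y ∈ X₀ := by
        rw [hy]
        exact X₀.sub_mem (X₀.sub_mem hr₁ (X₀.smul_mem _ hr₃)) (X₀.smul_mem _ hr₄)
      have hθyX : θ *ᵥ y ∈ X₀ := by
        rw [hy]
        simp only [Matrix.mulVec_sub, Matrix.mulVec_smul, D.sq]
        exact X₀.sub_mem (X₀.sub_mem hr₂ (X₀.smul_mem _ hr₄)) (X₀.smul_mem _ (X₀.smul_mem _ hr₃))
      have hy' : y = c 2 • ρ + c 3 • θ *ᵥ ρ := by
        rw [hy, ← hc]
        abel
      have h3 : ρ = (c 2 * c 2 - d * (c 3 * c 3))⁻¹ • (c 2 • y - c 3 • θ *ᵥ y) := by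
        have h4 : c 2 • y - c 3 • θ *ᵥ y = (c 2 * c 2 - d * (c 3 * c 3)) • ρ := by
          rw [hy']
          simp only [Matrix.mulVec_add, Matrix.mulVec_smul, D.sq]
          ext i
          simp only [Pi.add_apply, Pi.sub_apply, Pi.smul_apply, smul_eq_mul]
          ring
        rw [h4, smul_smul, inv_mul_cancel₀ hN, one_smul]
      rw [h3]
      exact X₀.smul_mem _ (X₀.sub_mem (X₀.smul_mem _ hyX) (X₀.smul_mem _ hθyX))
  obtain ⟨w, hwX, hw⟩ := exists_dual D.s_symm D.s_nd X₁ hrX₁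
  have hX₁1 : r' ∈ X₁ := by rw [hX₁]; exact Submodule.subset_span ⟨0, rfl⟩
  have hX₁2 : θ *ᵥ r' ∈ X₁ := by rw [hX₁]; exact Submodule.subset_span ⟨1, rfl⟩
  have hX₁3 : ρ ∈ X₁ := by rw [hX₁]; exact Submodule.subset_span ⟨2, rfl⟩
  have hX₁4 : θ *ᵥ ρ ∈ X₁ := by rw [hX₁]; exact Submodule.subset_span ⟨3, rfl⟩
  have fr'w : f r' w = 0 := D.f_of_s (hwX _ hX₁2)
  have fr'θw : f r' (θ *ᵥ w) = 0 := D.fθ_of_s (hwX _ hX₁1)
  have fρw : f ρ w = 0 := D.f_of_s (hwX _ hX₁4)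
  have fρθw : f ρ (θ *ᵥ w) = 0 := D.fθ_of_s (hwX _ hX₁3)
  have hwp : f w ρ = 0 := form_comm_eq hf fρw
  have hwp' : f w (θ *ᵥ ρ) = 0 := by
    have h1 := D.adj ρ w
    rw [fρθw, neg_zero] at h1
    exact form_comm_eq hf h1
  obtain ⟨α, hα⟩ : ∃ α, α = f r (θ *ᵥ w) := ⟨_, rfl⟩
  obtain ⟨β, hβ⟩ : ∃ β, β = - f r w := ⟨_, rfl⟩
  have hα0 : α ≠ 0 := by
    rw [hα]
    intro h0
    apply hw
    rw [sF_apply, D.adj, h0, neg_zero]
  obtain ⟨ρ', hρ'⟩ : ∃ ρ', ρ' = α • ρ + β • θ *ᵥ ρ := ⟨_, rfl⟩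
  have hρ'0 : ρ' ≠ 0 := by
    intro h0
    rw [hρ'] at h0
    exact hα0 (D.k_zero h0 hρ0).1
  have hE := hU _ (D.kE_preserves ρ w 0 hpp hwp hwp') (D.kE_comm ρ w 0 hpp hwp hwp')
  have hEr : ((D.kE ρ w 0 hpp hwp hwp' : GL ι F) : Matrix ι ι F) *ᵥ r = r + ρ' := by
    rw [D.kE_mulVec, frθρ, frρ, hρ', ← hα]
    ext i
    simp only [Pi.add_apply, Pi.sub_apply, Pi.smul_apply, smul_eq_mul]
    rw [hβ]
    ring
  have hEr' : ((D.kE ρ w 0 hpp hwp hwp' : GL ι F) : Matrix ι ι F) *ᵥ r' = r' := by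
    rw [D.kE_mulVec, fr'θρ, fr'ρ, fr'θw, fr'w]
    ext i
    simp only [Pi.add_apply, Pi.sub_apply, Pi.smul_apply, smul_eq_mul]
    ring
  have fr'ρ' : f r' ρ' = 0 := by
    rw [hρ', hb.add_right, hb.smul_right, hb.smul_right, fr'ρ, fr'θρ]
    ring
  have frρ' : f r ρ' = 0 := by
    rw [hρ', hb.add_right, hb.smul_right, hb.smul_right, frρ, frθρ]
    ring
  -- the Heisenberg element
  have hZ₁ : Zel hf r ρ' d ∈ M := by
    have h1 : D.kE ρ w 0 hpp hwp hwp' * (sympT hf r' (-1) * sympT hf r d) * (D.kE ρ w 0 hpp hwp hwp')⁻¹ =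
        sympT hf r' (-1) * sympT hf (r + ρ') d := by
      have h2 : D.kE ρ w 0 hpp hwp hwp' * (sympT hf r' (-1) * sympT hf r d) * (D.kE ρ w 0 hpp hwp hwp')⁻¹ =
          (D.kE ρ w 0 hpp hwp hwp' * sympT hf r' (-1) * (D.kE ρ w 0 hpp hwp hwp')⁻¹) *
            (D.kE ρ w 0 hpp hwp hwp' * sympT hf r d * (D.kE ρ w 0 hpp hwp hwp')⁻¹) := by
        group
      rw [h2, conj_sympT hf _ (D.kE_preserves ρ w 0 hpp hwp hwp'), conj_sympT hf _ (D.kE_preserves ρ w 0 hpp hwp hwp'),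
        hEr, hEr']
    have h3 : Zel hf r ρ' d = D.kE ρ w 0 hpp hwp hwp' * (sympT hf r' (-1) * sympT hf r d) *
        (D.kE ρ w 0 hpp hwp hwp')⁻¹ * (sympT hf r' (-1) * sympT hf r d)⁻¹ := by
      rw [h1, Zel, mul_inv_rev, sympT_inv, sympT_inv]
      have h4 : sympT hf r' (-1) * sympT hf (r + ρ') d = sympT hf (r + ρ') d * sympT hf r' (-1) :=
        sympT_comm hf (by rw [hb.add_right, form_comm_eq hf hrr', fr'ρ', add_zero]) _ _
      have h5 : sympT hf r' (-1) * sympT hf r (-d) = sympT hf r (-d) * sympT hf r' (-1) :=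
        sympT_comm hf (form_comm_eq hf hrr') _ _
      have h6 : sympT hf r' (-1) * sympT hf r' (- -1) = 1 := by
        rw [sympT_mul, add_neg_cancel, sympT_zero]
      calc sympT hf (r + ρ') d * sympT hf r (-d)
          = sympT hf (r + ρ') d * sympT hf r (-d) * (sympT hf r' (-1) * sympT hf r' (- -1)) := by
            rw [h6, mul_one]
        _ = sympT hf (r + ρ') d * (sympT hf r (-d) * sympT hf r' (-1)) * sympT hf r' (- -1) := by group
        _ = sympT hf (r + ρ') d * (sympT hf r' (-1) * sympT hf r (-d)) * sympT hf r' (- -1) := by rw [h5]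
        _ = (sympT hf (r + ρ') d * sympT hf r' (-1)) * (sympT hf r (-d) * sympT hf r' (- -1)) := by group
        _ = _ := by rw [← h4]
    rw [h3]
    exact M.mul_mem (M.mul_mem (M.mul_mem hE hT) (M.inv_mem hE)) (M.inv_mem hT)
  -- the second vector
  have hrX₂ : r ∉ Submodule.span F (Set.range ![ρ, θ *ᵥ ρ]) := by
    intro h
    apply hrX₁
    have h1 : Submodule.span F (Set.range ![ρ, θ *ᵥ ρ]) ≤ X₁ := by
      rw [Submodule.span_le]
      rintro _ ⟨i, rfl⟩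
      fin_cases i
      · exact hX₁3
      · exact hX₁4
    exact h1 h
  obtain ⟨b₁, hb₁, hb₁'⟩ := exists_dual D.s_symm D.s_nd _ hrX₂
  have e1 : sF hf θ ρ b₁ = 0 := hb₁ _ (Submodule.subset_span ⟨0, rfl⟩)
  have e2 : sF hf θ (θ *ᵥ ρ) b₁ = 0 := hb₁ _ (Submodule.subset_span ⟨1, rfl⟩)
  obtain ⟨X₃, hX₃⟩ : ∃ X₃ : Submodule F (ι → F), X₃ = Submodule.span F (Set.range ![ρ, θ *ᵥ ρ, r]) := ⟨_, rfl⟩
  have hX₃fin : Module.finrank F X₃ ≤ 3 := by
    rw [hX₃]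
    exact finrank_orth_le_span _
  obtain ⟨y, hy, hyQ⟩ := exists_singular_shift D.s_symm D.s_nd D.two X₃ (by omega) b₁
  have e3 : sF hf θ ρ y = 0 := hy _ (by rw [hX₃]; exact Submodule.subset_span ⟨0, rfl⟩)
  have e4 : sF hf θ (θ *ᵥ ρ) y = 0 := hy _ (by rw [hX₃]; exact Submodule.subset_span ⟨1, rfl⟩)
  have e5 : sF hf θ r y = 0 := hy _ (by rw [hX₃]; exact Submodule.subset_span ⟨2, rfl⟩)
  obtain ⟨w₁, hw₁⟩ : ∃ w₁, w₁ = b₁ + y := ⟨_, rfl⟩
  rw [← hw₁] at hyQ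
  have e6 : sF hf θ ρ w₁ = 0 := by rw [hw₁, map_add, e1, e3, add_zero]
  have e7 : sF hf θ (θ *ᵥ ρ) w₁ = 0 := by rw [hw₁, map_add, e2, e4, add_zero]
  have e8 : sF hf θ r w₁ ≠ 0 := by
    rw [hw₁, map_add, e5, add_zero]
    exact hb₁'
  have fρw₁ : f ρ w₁ = 0 := D.f_of_s e7
  have fρθw₁ : f ρ (θ *ᵥ w₁) = 0 := D.fθ_of_s e6
  have fθρw₁ : f (θ *ᵥ ρ) w₁ = 0 := e6
  have fθρθw₁ : f (θ *ᵥ ρ) (θ *ᵥ w₁) = 0 := by
    rw [D.f_θθ, fρw₁, mul_zero, neg_zero]
  have hw₁iso : f w₁ (θ *ᵥ w₁) = 0 := D.iso_of_s hyQ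
  have fρ'w₁ : f ρ' w₁ = 0 := by
    rw [hρ', hb.add_left, hb.smul_left, hb.smul_left, fρw₁, fθρw₁]
    ring
  have fρ'θw₁ : f ρ' (θ *ᵥ w₁) = 0 := by
    rw [hρ', hb.add_left, hb.smul_left, hb.smul_left, fρθw₁, fθρθw₁]
    ring
  refine ⟨ρ', hρ'0, ?_, fun τ => ?_⟩
  · rw [hρ']
    simp only [Matrix.mulVec_add, Matrix.mulVec_smul, D.sq, hb.add_left, hb.add_right, hb.smul_left, hb.smul_right,
      hf.alternating, hpp, hθρρ]
    ring
  obtain ⟨A, hA⟩ : ∃ A, A = f (θ *ᵥ r) w₁ := ⟨_, rfl⟩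
  obtain ⟨C₀, hC₀⟩ : ∃ C₀, C₀ = f r w₁ := ⟨_, rfl⟩
  have hA0 : A ≠ 0 := by
    rw [hA]
    exact e8
  obtain ⟨N, hNdef⟩ : ∃ N, N = A * A - d * (C₀ * C₀) := ⟨_, rfl⟩
  have hN : N ≠ 0 := fun h0 => hA0 (D.aniso (hNdef ▸ h0)).1
  have hd := D.d_ne
  have h2' := D.two
  obtain ⟨t, ht⟩ : ∃ t, t = τ / (2 * d * d * N) := ⟨_, rfl⟩
  have hC := hU _ (D.kU_preserves w₁ t) (D.kU_comm w₁ t hw₁iso)
  have hrθw₁ : f r (θ *ᵥ w₁) = - A := by
    rw [hA, D.adj, neg_neg]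
  have hCr : ((D.kU w₁ t : GL ι F) : Matrix ι ι F) *ᵥ r = r + (t * d * C₀) • w₁ + (t * A) • θ *ᵥ w₁ := by
    rw [D.kU_mulVec w₁ t hw₁iso, hrθw₁, ← hC₀]
    ext i
    simp only [Pi.add_apply, Pi.sub_apply, Pi.smul_apply, smul_eq_mul]
    ring
  have hCρ' : ((D.kU w₁ t : GL ι F) : Matrix ι ι F) *ᵥ ρ' = ρ' := by
    rw [D.kU_mulVec w₁ t hw₁iso, fρ'w₁, fρ'θw₁]
    simp
  have hvρ' : f (((D.kU w₁ t : GL ι F) : Matrix ι ι F) *ᵥ r) ρ' = 0 := by
    have h1 := D.kU_preserves w₁ t r ρ'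
    rw [hCρ', frρ'] at h1
    exact h1
  have hvr : f (((D.kU w₁ t : GL ι F) : Matrix ι ι F) *ᵥ r) r = t * N := by
    rw [hCr, hb.add_left, hb.add_left, hb.smul_left, hb.smul_left, hf.alternating, hNdef]
    have h3 : f w₁ r = - C₀ := by rw [hC₀, hf.skew]
    have h4 : f (θ *ᵥ w₁) r = A := by
      rw [hf.skew, hrθw₁, neg_neg]
    rw [h3, h4]
    ring
  have hZ₂ : Zel hf (((D.kU w₁ t : GL ι F) : Matrix ι ι F) *ᵥ r) ρ' d ∈ M := by
    have h1 := Zel_conj hf (D.kU w₁ t) (D.kU_preserves w₁ t) r ρ' d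
    rw [hCρ'] at h1
    rw [← h1]
    exact M.mul_mem (M.mul_mem hC hZ₁) (M.inv_mem hC)
  have hcomm := Zel_comm hf d frρ' hvρ'
  have hparam : 2 * d * d * f (((D.kU w₁ t : GL ι F) : Matrix ι ι F) *ᵥ r) r = τ := by
    rw [hvr, ht]
    field_simp
  rw [hparam] at hcomm
  rw [← hcomm]
  exact M.mul_mem (M.mul_mem (M.mul_mem hZ₁ hZ₂) (M.inv_mem hZ₁)) (M.inv_mem hZ₂)

/-- Transfer of centres between `K`-independent isotropic vectors. -/
theorem centre_step (hι : 14 ≤ Fintype.card ι) {M : Subgroup (GL ι F)}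
    (hU : ∀ h : GL ι F, (∀ u v, f ((h : Matrix ι ι F) *ᵥ u) ((h : Matrix ι ι F) *ᵥ v) = f u v) →
      (∀ x, (h : Matrix ι ι F) *ᵥ (θ *ᵥ x) = θ *ᵥ ((h : Matrix ι ι F) *ᵥ x)) → h ∈ M)
    {a a' : ι → F} (ha0 : a ≠ 0) (ha : f a (θ *ᵥ a) = 0) (ha' : f a' (θ *ᵥ a') = 0) (hac : a ∈ centres hf M)
    (hk : ¬ ∃ x y : F, a' = x • a + y • θ *ᵥ a) : a' ∈ centres hf M := by
  have hb := hf.bilinear
  have h1 : a ∉ Submodule.span F (Set.range ![θ *ᵥ a, a', θ *ᵥ a']) := by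
    intro h
    rw [Submodule.mem_span_range_iff_exists_fun] at h
    obtain ⟨c, hc⟩ := h
    rw [Fin.sum_univ_three] at hc
    simp only [Matrix.cons_val_zero, Matrix.cons_val_one, Matrix.cons_val] at hc
    have h2 := D.indep4 (a := 1) (b := - c 0) (c := - c 1) (e := - c 2) ha0 hk (by
      nth_rewrite 1 [← hc]
      simp only [one_smul, neg_smul]
      abel)
    exact one_ne_zero h2.1
  have ha'0 : a' ≠ 0 := by
    rintro rfl
    exact hk ⟨0, 0, by simp⟩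
  have h2 : a' ∉ Submodule.span F (Set.range ![a, θ *ᵥ a, θ *ᵥ a']) := by
    intro h
    rw [Submodule.mem_span_range_iff_exists_fun] at h
    obtain ⟨c, hc⟩ := h
    rw [Fin.sum_univ_three] at hc
    simp only [Matrix.cons_val_zero, Matrix.cons_val_one, Matrix.cons_val] at hc
    have h3 := D.indep4 (a := - c 0) (b := - c 1) (c := 1) (e := - c 2) ha0 hk (by
      nth_rewrite 1 [← hc]
      simp only [one_smul, neg_smul]
      abel)
    exact one_ne_zero h3.2.2.1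
  obtain ⟨b₁, hb₁, hb₁'⟩ := exists_dual D.s_symm D.s_nd _ h1
  obtain ⟨b₂, hb₂, hb₂'⟩ := exists_dual D.s_symm D.s_nd _ h2
  have e1 : sF hf θ (θ *ᵥ a) b₁ = 0 := hb₁ _ (Submodule.subset_span ⟨0, rfl⟩)
  have e2 : sF hf θ a' b₁ = 0 := hb₁ _ (Submodule.subset_span ⟨1, rfl⟩)
  have e3 : sF hf θ (θ *ᵥ a') b₁ = 0 := hb₁ _ (Submodule.subset_span ⟨2, rfl⟩)
  have e4 : sF hf θ a b₂ = 0 := hb₂ _ (Submodule.subset_span ⟨0, rfl⟩)
  have e5 : sF hf θ (θ *ᵥ a) b₂ = 0 := hb₂ _ (Submodule.subset_span ⟨1, rfl⟩)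
  have e6 : sF hf θ (θ *ᵥ a') b₂ = 0 := hb₂ _ (Submodule.subset_span ⟨2, rfl⟩)
  obtain ⟨X, hX⟩ : ∃ X : Submodule F (ι → F), X = Submodule.span F (Set.range ![a, θ *ᵥ a, a', θ *ᵥ a']) := ⟨_, rfl⟩
  have hXfin : Module.finrank F X ≤ 4 := by
    rw [hX]
    exact finrank_orth_le_span _
  obtain ⟨p₀, hp₀⟩ : ∃ p₀, p₀ = (sF hf θ a b₁)⁻¹ • b₁ + (sF hf θ a' b₂)⁻¹ • b₂ := ⟨_, rfl⟩
  obtain ⟨y, hy, hyQ⟩ := exists_singular_shift D.s_symm D.s_nd D.two X (by omega) p₀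
  have e7 : sF hf θ a y = 0 := hy _ (by rw [hX]; exact Submodule.subset_span ⟨0, rfl⟩)
  have e8 : sF hf θ (θ *ᵥ a) y = 0 := hy _ (by rw [hX]; exact Submodule.subset_span ⟨1, rfl⟩)
  have e9 : sF hf θ a' y = 0 := hy _ (by rw [hX]; exact Submodule.subset_span ⟨2, rfl⟩)
  have e10 : sF hf θ (θ *ᵥ a') y = 0 := hy _ (by rw [hX]; exact Submodule.subset_span ⟨3, rfl⟩)
  obtain ⟨p, hp⟩ : ∃ p, p = p₀ + y := ⟨_, rfl⟩
  rw [← hp] at hyQ
  have v1 : sF hf θ a p = 1 := by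
    rw [hp, hp₀, map_add, map_add, map_smul, map_smul, e4, e7, smul_zero, add_zero, add_zero, smul_eq_mul]
    exact inv_mul_cancel₀ hb₁'
  have v2 : sF hf θ (θ *ᵥ a) p = 0 := by
    rw [hp, hp₀, map_add, map_add, map_smul, map_smul, e1, e5, e8]
    simp
  have v3 : sF hf θ a' p = 1 := by
    rw [hp, hp₀, map_add, map_add, map_smul, map_smul, e2, e9, smul_zero, add_zero, zero_add, smul_eq_mul]
    exact inv_mul_cancel₀ hb₂'
  have v4 : sF hf θ (θ *ᵥ a') p = 0 := by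
    rw [hp, hp₀, map_add, map_add, map_smul, map_smul, e3, e6, e10]
    simp
  have hap : f a p = 0 := D.f_of_s v2
  have ha'p : f a' p = 0 := D.f_of_s v4
  have haθp : f a (θ *ᵥ p) = -1 := by
    rw [sF_apply, D.adj] at v1
    linear_combination -v1
  have ha'θp : f a' (θ *ᵥ p) = -1 := by
    rw [sF_apply, D.adj] at v3
    linear_combination -v3
  have hpp : f p (θ *ᵥ p) = 0 := D.iso_of_s hyQ
  obtain ⟨q, hq⟩ : ∃ q, q = a' - a := ⟨_, rfl⟩
  have hqp : f q p = 0 := by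
    rw [hq, P_sub_left hf, hap, ha'p, sub_zero]
  have hqp' : f q (θ *ᵥ p) = 0 := by
    rw [hq, P_sub_left hf, haθp, ha'θp, sub_self]
  have hE := hU _ (D.kE_preserves p q (f a q) hpp hqp hqp') (D.kE_comm p q (f a q) hpp hqp hqp')
  have hEa : ((D.kE p q (f a q) hpp hqp hqp' : GL ι F) : Matrix ι ι F) *ᵥ a = a' := by
    rw [D.kE_mulVec, hap, haθp]
    have h3 : f a (θ *ᵥ q) = f a (θ *ᵥ a') := by
      rw [hq, Matrix.mulVec_sub, P_sub_right hf, ha, sub_zero]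
    have h4 : f q (θ *ᵥ q) = - (2 * f a (θ *ᵥ a')) := by
      have h5 : f a' (θ *ᵥ a) = f a (θ *ᵥ a') := by
        have h6 := D.adj a' a
        rw [hf.skew] at h6
        linear_combination h6
      rw [hq, Matrix.mulVec_sub, P_sub_right hf, P_sub_left hf, P_sub_left hf, ha, ha', h5]
      ring
    rw [h3, h4]
    have h2' := D.two
    have h5 : -(2 * f a (θ *ᵥ a')) / 2 = - f a (θ *ᵥ a') := by
      field_simp
    rw [h5, hq]
    ext i
    simp only [Pi.add_apply, Pi.sub_apply, Pi.smul_apply, smul_eq_mul]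
    ring
  have h3 := centres_mulVec hf hac hE (D.kE_preserves p q (f a q) hpp hqp hqp')
  rwa [hEa] at h3

/-- Centres spread to all isotropic vectors. -/
theorem centre_transfer (hι : 14 ≤ Fintype.card ι) {M : Subgroup (GL ι F)}
    (hU : ∀ h : GL ι F, (∀ u v, f ((h : Matrix ι ι F) *ᵥ u) ((h : Matrix ι ι F) *ᵥ v) = f u v) →
      (∀ x, (h : Matrix ι ι F) *ᵥ (θ *ᵥ x) = θ *ᵥ ((h : Matrix ι ι F) *ᵥ x)) → h ∈ M)
    {a a' : ι → F} (ha0 : a ≠ 0) (ha : f a (θ *ᵥ a) = 0) (ha' : f a' (θ *ᵥ a') = 0) (hac : a ∈ centres hf M) :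
    a' ∈ centres hf M := by
  have hcard : Module.finrank F (ι → F) = Fintype.card ι := by simp
  by_cases ha'0 : a' = 0
  · rw [ha'0]
    exact centres_zero hf M
  by_cases hk : ∃ x y : F, a' = x • a + y • θ *ᵥ a
  · obtain ⟨X, hX⟩ : ∃ X : Submodule F (ι → F), X = Submodule.span F (Set.range ![a, θ *ᵥ a]) := ⟨_, rfl⟩
    have hXfin : Module.finrank F X ≤ 2 := by
      rw [hX]
      exact finrank_orth_le_span _
    obtain ⟨a'', -, ha''X, ha''Q⟩ := exists_singular_avoid D.s_symm D.s_nd D.two ⊤ X (by simp; omega)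
    have ha''0 : a'' ≠ 0 := fun h => ha''X (by rw [h]; exact X.zero_mem)
    have h1 : ¬ ∃ x y : F, a'' = x • a + y • θ *ᵥ a := by
      rintro ⟨x, y, h⟩
      apply ha''X
      rw [h, hX]
      exact Submodule.add_mem _ (Submodule.smul_mem _ _ (Submodule.subset_span ⟨0, rfl⟩))
        (Submodule.smul_mem _ _ (Submodule.subset_span ⟨1, rfl⟩))
    have h2 := D.centre_step hι hU ha0 ha (D.iso_of_s ha''Q) hac h1
    refine D.centre_step hι hU ha''0 (D.iso_of_s ha''Q) ha' h2 ?_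
    intro h3
    obtain ⟨x', y', h4⟩ := D.k_symm ha'0 h3
    obtain ⟨x, y, h5⟩ := hk
    apply h1
    refine ⟨x' * x + y' * y * d, x' * y + y' * x, ?_⟩
    rw [h4, h5]
    simp only [Matrix.mulVec_add, Matrix.mulVec_smul, D.sq]
    ext i
    simp only [Pi.add_apply, Pi.smul_apply, smul_eq_mul]
    ring
  · exact D.centre_step hι hU ha0 ha ha' hac hk

/-- Centres spread to all vectors. -/
theorem centre_all (hι : 14 ≤ Fintype.card ι) {M : Subgroup (GL ι F)}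
    (hall : ∀ a, f a (θ *ᵥ a) = 0 → a ∈ centres hf M) (x : ι → F) : x ∈ centres hf M := by
  by_cases hx : x = 0
  · rw [hx]
    exact centres_zero hf M
  obtain ⟨w, v, τ, hw, hv, hwv, rfl⟩ := D.exists_decomp hι hx
  exact centres_add_smul hf (hall v hv) (hall w hw) hwv τ

/-- A map sending all isotropic `K`-lines to `K`-lines is `K`-semilinear. -/
theorem exists_move (hι : 14 ≤ Fintype.card ι) (g : GL ι F)
    (hcon : ∀ p, f p (θ *ᵥ p) = 0 → ∃ a b : F, (g : Matrix ι ι F) *ᵥ (θ *ᵥ p) =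
      a • (g : Matrix ι ι F) *ᵥ p + b • θ *ᵥ ((g : Matrix ι ι F) *ᵥ p)) :
    ∃ a b : F, ∀ x, (g : Matrix ι ι F) *ᵥ (θ *ᵥ x) =
      a • (g : Matrix ι ι F) *ᵥ x + b • θ *ᵥ ((g : Matrix ι ι F) *ᵥ x) := by
  have hcard : Module.finrank F (ι → F) = Fintype.card ι := by simp
  have hb := hf.bilinear
  have hinj : ∀ x : ι → F, (g : Matrix ι ι F) *ᵥ x = 0 → x = 0 := by
    intro x h0
    have := inv_mulVec_mulVec g x
    rw [h0, Matrix.mulVec_zero] at this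
    exact this.symm
  -- comparison of two orthogonal lines
  have hkey : ∀ {p₁ p₂ : ι → F} {a₁ b₁ a₂ b₂ : F}, p₁ ≠ 0 → f p₁ (θ *ᵥ p₁) = 0 → f p₂ (θ *ᵥ p₂) = 0 →
      (¬ ∃ x y : F, p₂ = x • p₁ + y • θ *ᵥ p₁) → f p₁ p₂ = 0 → f p₁ (θ *ᵥ p₂) = 0 →
      (g : Matrix ι ι F) *ᵥ (θ *ᵥ p₁) = a₁ • (g : Matrix ι ι F) *ᵥ p₁ + b₁ • θ *ᵥ ((g : Matrix ι ι F) *ᵥ p₁) →
      (g : Matrix ι ι F) *ᵥ (θ *ᵥ p₂) = a₂ • (g : Matrix ι ι F) *ᵥ p₂ + b₂ • θ *ᵥ ((g : Matrix ι ι F) *ᵥ p₂) →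
      a₁ = a₂ ∧ b₁ = b₂ := by
    intro p₁ p₂ a₁ b₁ a₂ b₂ hp₁ hi₁ hi₂ hk h₁₂ h₁₂' e₁ e₂
    have hp₂ : p₂ ≠ 0 := by
      rintro rfl
      exact hk ⟨0, 0, by simp⟩
    have hb₀ : ∀ {p : ι → F} {a b : F}, p ≠ 0 → (g : Matrix ι ι F) *ᵥ (θ *ᵥ p) =
        a • (g : Matrix ι ι F) *ᵥ p + b • θ *ᵥ ((g : Matrix ι ι F) *ᵥ p) → b ≠ 0 := by
      intro p a b hp e h0
      rw [h0, zero_smul, add_zero, ← Matrix.mulVec_smul] at e
      have h1 : θ *ᵥ p = a • p := by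
        have := congrArg (fun v => ((g⁻¹ : GL ι F) : Matrix ι ι F) *ᵥ v) e
        simpa [inv_mulVec_mulVec] using this
      have h2 := D.k_zero (a := - a) (b := 1) (y := p) (by rw [one_smul, h1, neg_smul]; abel) hp
      exact one_ne_zero h2.2
    have hb₁ := hb₀ hp₁ e₁
    have hb₂ := hb₀ hp₂ e₂
    have h₂₁ : f p₂ (θ *ᵥ p₁) = 0 := by
      have h6 := D.adj p₂ p₁
      rw [hf.skew, h₁₂'] at h6
      simpa using h6.symm
    have hi₃ : f (p₁ + p₂) (θ *ᵥ (p₁ + p₂)) = 0 := by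
      rw [Matrix.mulVec_add, hb.add_left, hb.add_right, hb.add_right, hi₁, hi₂, h₁₂', h₂₁]
      ring
    obtain ⟨a₃, b₃, e₃⟩ := hcon _ hi₃
    rw [Matrix.mulVec_add, Matrix.mulVec_add, Matrix.mulVec_add, Matrix.mulVec_add, e₁, e₂] at e₃
    -- `θ (g p)` in terms of `g θ p`
    have hθ₁ : θ *ᵥ ((g : Matrix ι ι F) *ᵥ p₁) =
        b₁⁻¹ • ((g : Matrix ι ι F) *ᵥ (θ *ᵥ p₁) - a₁ • (g : Matrix ι ι F) *ᵥ p₁) := by
      rw [e₁, add_sub_cancel_left, smul_smul, inv_mul_cancel₀ hb₁, one_smul]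
    have hθ₂ : θ *ᵥ ((g : Matrix ι ι F) *ᵥ p₂) =
        b₂⁻¹ • ((g : Matrix ι ι F) *ᵥ (θ *ᵥ p₂) - a₂ • (g : Matrix ι ι F) *ᵥ p₂) := by
      rw [e₂, add_sub_cancel_left, smul_smul, inv_mul_cancel₀ hb₂, one_smul]
    have h0 : (g : Matrix ι ι F) *ᵥ (((a₁ - a₃) - (b₁ - b₃) * b₁⁻¹ * a₁) • p₁ + ((b₁ - b₃) * b₁⁻¹) • θ *ᵥ p₁ +
        ((a₂ - a₃) - (b₂ - b₃) * b₂⁻¹ * a₂) • p₂ + ((b₂ - b₃) * b₂⁻¹) • θ *ᵥ p₂) = 0 := by
      simp only [Matrix.mulVec_add, Matrix.mulVec_smul]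
      have h1 : (a₁ - a₃) • (g : Matrix ι ι F) *ᵥ p₁ + (b₁ - b₃) • θ *ᵥ ((g : Matrix ι ι F) *ᵥ p₁) +
          (a₂ - a₃) • (g : Matrix ι ι F) *ᵥ p₂ + (b₂ - b₃) • θ *ᵥ ((g : Matrix ι ι F) *ᵥ p₂) = 0 := by
        ext i
        have h2 := congrFun e₃ i
        simp only [Pi.add_apply, Pi.smul_apply, smul_eq_mul, Pi.zero_apply] at h2 ⊢
        linear_combination h2
      rw [hθ₁, hθ₂] at h1
      ext i
      have h2 := congrFun h1 i
      simp only [Pi.add_apply, Pi.smul_apply, smul_eq_mul, Pi.zero_apply, Pi.sub_apply] at h2 ⊢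
      linear_combination h2
    obtain ⟨c₁, c₂, c₃, c₄⟩ := D.indep4 hp₁ hk (hinj _ h0)
    have hc₂ : b₁ = b₃ := by
      have h1 := (mul_eq_zero.mp c₂).resolve_right (inv_ne_zero hb₁)
      exact sub_eq_zero.mp h1
    have hc₄ : b₂ = b₃ := by
      have h1 := (mul_eq_zero.mp c₄).resolve_right (inv_ne_zero hb₂)
      exact sub_eq_zero.mp h1
    rw [hc₂, sub_self, zero_mul, zero_mul, sub_zero] at c₁
    rw [hc₄, sub_self, zero_mul, zero_mul, sub_zero] at c₃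
    exact ⟨(sub_eq_zero.mp c₁).trans (sub_eq_zero.mp c₃).symm, hc₂.trans hc₄.symm⟩
  -- the base vector
  obtain ⟨p₀, -, hp₀X, hp₀Q⟩ := exists_singular_avoid D.s_symm D.s_nd D.two ⊤ ⊥ (by simp; omega)
  have hp₀0 : p₀ ≠ 0 := fun h => hp₀X (by rw [h]; exact Submodule.zero_mem _)
  have hp₀i := D.iso_of_s hp₀Q
  obtain ⟨a, b, hab⟩ := hcon p₀ hp₀i
  refine ⟨a, b, ?_⟩
  have hsing : ∀ p, f p (θ *ᵥ p) = 0 → (g : Matrix ι ι F) *ᵥ (θ *ᵥ p) =
      a • (g : Matrix ι ι F) *ᵥ p + b • θ *ᵥ ((g : Matrix ι ι F) *ᵥ p) := by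
    intro p hp
    by_cases hp0 : p = 0
    · rw [hp0]
      simp
    obtain ⟨a', b', hab'⟩ := hcon p hp
    obtain ⟨X, hX⟩ : ∃ X : Submodule F (ι → F), X = Submodule.span F (Set.range ![p₀, θ *ᵥ p₀, p, θ *ᵥ p]) := ⟨_, rfl⟩
    have hXfin : Module.finrank F X ≤ 4 := by
      rw [hX]
      exact finrank_orth_le_span _
    have hXo := LinearMap.BilinForm.finrank_orthogonal D.s_nd X
    obtain ⟨z, hzX, hzn, hzQ⟩ := exists_singular_avoid D.s_symm D.s_nd D.two ((sF hf θ).orthogonal X) X (by omega)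
    have m1 : p₀ ∈ X := by rw [hX]; exact Submodule.subset_span ⟨0, rfl⟩
    have m2 : θ *ᵥ p₀ ∈ X := by rw [hX]; exact Submodule.subset_span ⟨1, rfl⟩
    have m3 : p ∈ X := by rw [hX]; exact Submodule.subset_span ⟨2, rfl⟩
    have m4 : θ *ᵥ p ∈ X := by rw [hX]; exact Submodule.subset_span ⟨3, rfl⟩
    have hzi := D.iso_of_s hzQ
    obtain ⟨a'', b'', hab''⟩ := hcon z hzi
    have k1 : ¬ ∃ x y : F, z = x • p₀ + y • θ *ᵥ p₀ := by
      rintro ⟨x, y, h⟩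
      apply hzn
      rw [h]
      exact X.add_mem (X.smul_mem _ m1) (X.smul_mem _ m2)
    have k2 : ¬ ∃ x y : F, z = x • p + y • θ *ᵥ p := by
      rintro ⟨x, y, h⟩
      apply hzn
      rw [h]
      exact X.add_mem (X.smul_mem _ m3) (X.smul_mem _ m4)
    obtain ⟨q1, q2⟩ := hkey hp₀0 hp₀i hzi k1 (D.f_of_s (hzX _ m2)) (D.fθ_of_s (hzX _ m1)) hab hab''
    obtain ⟨q3, q4⟩ := hkey hp0 hp hzi k2 (D.f_of_s (hzX _ m4)) (D.fθ_of_s (hzX _ m3)) hab' hab''
    rw [q1, q2, ← q3, ← q4]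
    exact hab'
  intro x
  by_cases hx : x = 0
  · rw [hx]
    simp
  obtain ⟨w, v, τ, hw, hv, -, rfl⟩ := D.exists_decomp hι hx
  simp only [Matrix.mulVec_add, Matrix.mulVec_smul]
  rw [hsing w hw, hsing v hv]
  ext i
  simp only [Pi.add_apply, Pi.smul_apply, smul_eq_mul]
  ring

/-- **The normaliser of the field is maximal in `Sp`.** -/
theorem isMaximalIn (S : IsSpGroup hf I) (hι : 14 ≤ Fintype.card ι) (K : Subalgebra F (Matrix ι ι F))
    (hK : ∀ k, k ∈ K ↔ ∃ a b : F, k = a • (1 : Matrix ι ι F) + b • θ) :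
    IsMaximalIn I (subalgebraNormalizer K ⊓ I) := by
  have hcard : Module.finrank F (ι → F) = Fintype.card ι := by simp
  have hb := hf.bilinear
  have hθK : θ ∈ K := (hK θ).mpr ⟨0, 1, by simp⟩
  -- elements commuting with `θ` normalise `K`
  have hN1 : ∀ g : GL ι F, (∀ x, (g : Matrix ι ι F) *ᵥ (θ *ᵥ x) = θ *ᵥ ((g : Matrix ι ι F) *ᵥ x)) →
      g ∈ subalgebraNormalizer K := by
    intro g hg
    have hcomm : (g : Matrix ι ι F) * θ = θ * (g : Matrix ι ι F) := by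
      apply Matrix.ext_of_mulVec_single
      intro l
      rw [← Matrix.mulVec_mulVec, ← Matrix.mulVec_mulVec, hg]
    have hconj : ∀ k ∈ K, (g : Matrix ι ι F) * k * ((g⁻¹ : GL ι F) : Matrix ι ι F) = k := by
      intro k hk
      obtain ⟨a, b, rfl⟩ := (hK k).mp hk
      rw [mul_add, add_mul, Matrix.mul_smul, Matrix.mul_smul, Matrix.smul_mul, Matrix.smul_mul, hcomm, mul_one,
        mul_assoc θ, ← Units.val_mul, mul_inv_cancel, Units.val_one, mul_one]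
    have hG'G : ((g⁻¹ : GL ι F) : Matrix ι ι F) * (g : Matrix ι ι F) = 1 := by
      rw [← Units.val_mul, inv_mul_cancel, Units.val_one]
    have hGG' : (g : Matrix ι ι F) * ((g⁻¹ : GL ι F) : Matrix ι ι F) = 1 := by
      rw [← Units.val_mul, mul_inv_cancel, Units.val_one]
    intro k
    constructor
    · intro hk
      rw [hconj k hk]
      exact hk
    · intro hk
      have h1 := hconj _ hk
      have h2 : (g : Matrix ι ι F) * k * ((g⁻¹ : GL ι F) : Matrix ι ι F) = k := by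
        obtain ⟨m, hm⟩ : ∃ m, m = (g : Matrix ι ι F) * k * ((g⁻¹ : GL ι F) : Matrix ι ι F) := ⟨_, rfl⟩
        rw [← hm] at h1 ⊢
        calc m = ((g⁻¹ : GL ι F) : Matrix ι ι F) * ((g : Matrix ι ι F) * m * ((g⁻¹ : GL ι F) : Matrix ι ι F)) * (g : Matrix ι ι F) := by
              simp only [mul_assoc, hG'G, mul_one]
              rw [← mul_assoc, hG'G, one_mul]
          _ = ((g⁻¹ : GL ι F) : Matrix ι ι F) * m * (g : Matrix ι ι F) := by rw [h1]
          _ = k := by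
              rw [hm]
              simp only [mul_assoc, hG'G, mul_one]
              rw [← mul_assoc, hG'G, one_mul]
      rwa [h2] at hk
  -- semilinear elements normalise `K`
  have hN3 : ∀ (g : GL ι F) (a b : F), (∀ x, (g : Matrix ι ι F) *ᵥ (θ *ᵥ x) =
      a • (g : Matrix ι ι F) *ᵥ x + b • θ *ᵥ ((g : Matrix ι ι F) *ᵥ x)) → g ∈ subalgebraNormalizer K := by
    intro g a b hg
    have hG'G : ((g⁻¹ : GL ι F) : Matrix ι ι F) * (g : Matrix ι ι F) = 1 := by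
      rw [← Units.val_mul, inv_mul_cancel, Units.val_one]
    have hGG' : (g : Matrix ι ι F) * ((g⁻¹ : GL ι F) : Matrix ι ι F) = 1 := by
      rw [← Units.val_mul, mul_inv_cancel, Units.val_one]
    have hmat : (g : Matrix ι ι F) * θ = (a • (1 : Matrix ι ι F) + b • θ) * (g : Matrix ι ι F) := by
      apply Matrix.ext_of_mulVec_single
      intro l
      rw [← Matrix.mulVec_mulVec, ← Matrix.mulVec_mulVec, hg, Matrix.add_mulVec, Matrix.smul_mulVec, Matrix.smul_mulVec,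
        Matrix.one_mulVec]
    have hb0 : b ≠ 0 := by
      intro h0
      obtain ⟨p, -, hpX, -⟩ := exists_singular_avoid D.s_symm D.s_nd D.two ⊤ ⊥ (by simp; omega)
      have hp0 : p ≠ 0 := fun h => hpX (by rw [h]; exact Submodule.zero_mem _)
      have h1 := hg p
      rw [h0, zero_smul, add_zero, ← Matrix.mulVec_smul] at h1
      have h2 : θ *ᵥ p = a • p := by
        have := congrArg (fun v => ((g⁻¹ : GL ι F) : Matrix ι ι F) *ᵥ v) h1
        simpa [inv_mulVec_mulVec] using this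
      have h3 := D.k_zero (a := - a) (b := 1) (y := p) (by rw [one_smul, h2, neg_smul]; abel) hp0
      exact one_ne_zero h3.2
    have hc1 : (g : Matrix ι ι F) * θ * ((g⁻¹ : GL ι F) : Matrix ι ι F) = a • (1 : Matrix ι ι F) + b • θ := by
      rw [hmat, mul_assoc, hGG', mul_one]
    have hc2 : ((g⁻¹ : GL ι F) : Matrix ι ι F) * θ * (g : Matrix ι ι F) = (-(a / b)) • (1 : Matrix ι ι F) + b⁻¹ • θ := by
      have h1 : θ = ((g⁻¹ : GL ι F) : Matrix ι ι F) * ((g : Matrix ι ι F) * θ) := by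
        rw [← mul_assoc, hG'G, one_mul]
      have h2 : θ = ((g⁻¹ : GL ι F) : Matrix ι ι F) * (a • (1 : Matrix ι ι F) + b • θ) * (g : Matrix ι ι F) := by
        nth_rewrite 1 [h1]
        rw [hmat, mul_assoc]
      rw [mul_add, add_mul, Matrix.mul_smul, Matrix.mul_smul, Matrix.smul_mul, Matrix.smul_mul, mul_one, hG'G] at h2
      have h3 : ((g⁻¹ : GL ι F) : Matrix ι ι F) * θ * (g : Matrix ι ι F) = b⁻¹ • (θ - a • (1 : Matrix ι ι F)) := by
        nth_rewrite 2 [h2]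
        rw [add_sub_cancel_left, smul_smul, inv_mul_cancel₀ hb0, one_smul]
      rw [h3, smul_sub, smul_smul, add_comm, neg_smul]
      rw [sub_eq_add_neg]
      congr 2
      rw [div_eq_inv_mul]
    intro k
    constructor
    · intro hk
      obtain ⟨x, y, rfl⟩ := (hK k).mp hk
      have : (g : Matrix ι ι F) * (x • (1 : Matrix ι ι F) + y • θ) * ((g⁻¹ : GL ι F) : Matrix ι ι F) =
          x • (1 : Matrix ι ι F) + y • ((g : Matrix ι ι F) * θ * ((g⁻¹ : GL ι F) : Matrix ι ι F)) := by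
        rw [mul_add, add_mul, Matrix.mul_smul, Matrix.mul_smul, Matrix.smul_mul, Matrix.smul_mul, mul_one, hGG']
      rw [this, hc1]
      exact K.add_mem (K.smul_mem K.one_mem _) (K.smul_mem (K.add_mem (K.smul_mem K.one_mem _) (K.smul_mem hθK _)) _)
    · intro hk
      obtain ⟨x, y, hxy⟩ := (hK _).mp hk
      have h1 : k = ((g⁻¹ : GL ι F) : Matrix ι ι F) * ((g : Matrix ι ι F) * k * ((g⁻¹ : GL ι F) : Matrix ι ι F)) *
          (g : Matrix ι ι F) := by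
        simp only [mul_assoc, hG'G, mul_one]
        rw [← mul_assoc, hG'G, one_mul]
      rw [h1, hxy, mul_add, add_mul, Matrix.mul_smul, Matrix.mul_smul, Matrix.smul_mul, Matrix.smul_mul, mul_one, hG'G, hc2]
      exact K.add_mem (K.smul_mem K.one_mem _) (K.smul_mem (K.add_mem (K.smul_mem K.one_mem _) (K.smul_mem hθK _)) _)
  -- normalising elements are semilinear
  have hN2 : ∀ g : GL ι F, g ∈ subalgebraNormalizer K → ∃ a b : F, ∀ x, (g : Matrix ι ι F) *ᵥ (θ *ᵥ x) =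
      a • (g : Matrix ι ι F) *ᵥ x + b • θ *ᵥ ((g : Matrix ι ι F) *ᵥ x) := by
    intro g hg
    obtain ⟨a, b, hab⟩ := (hK _).mp ((hg θ).mp hθK)
    refine ⟨a, b, fun x => ?_⟩
    have hG'G : ((g⁻¹ : GL ι F) : Matrix ι ι F) * (g : Matrix ι ι F) = 1 := by
      rw [← Units.val_mul, inv_mul_cancel, Units.val_one]
    have h1 : (g : Matrix ι ι F) * θ = (a • (1 : Matrix ι ι F) + b • θ) * (g : Matrix ι ι F) := by
      rw [← hab, mul_assoc, hG'G, mul_one]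
    have h2 := congrArg (fun m => m *ᵥ x) h1
    simp only [← Matrix.mulVec_mulVec, Matrix.add_mulVec, Matrix.smul_mulVec, Matrix.one_mulVec] at h2
    exact h2
  refine isMaximalIn_of_forall ?_ ?_
  · refine lt_of_le_of_ne inf_le_right ?_
    intro he
    obtain ⟨p, -, hpX, hpQ⟩ := exists_singular_avoid D.s_symm D.s_nd D.two ⊤ ⊥ (by simp; omega)
    have hp0 : p ≠ 0 := fun h => hpX (by rw [h]; exact Submodule.zero_mem _)
    have hpi := D.iso_of_s hpQ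
    obtain ⟨-, ⟨v, hv⟩⟩ := hf.nondegenerate _ hp0
    have hT : sympT hf v 1 ∈ subalgebraNormalizer K ⊓ I := by
      rw [he]
      exact (S.mem_iff _).mpr (sympT_preserves hf v 1)
    obtain ⟨a, b, hab⟩ := hN2 _ hT.1
    have hk : ¬ ∃ x y : F, v = x • p + y • θ *ᵥ p := by
      rintro ⟨x, y, h⟩
      apply hv
      rw [h, hb.add_right, hb.smul_right, hb.smul_right, hf.alternating, hpi]
      ring
    have h1 := hab p
    rw [sympT_mulVec, sympT_mulVec, Matrix.mulVec_add, Matrix.mulVec_smul, Matrix.mulVec_smul] at h1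
    have h2 := D.indep4 (a := - a) (b := 1 - b) (c := f (θ *ᵥ p) v - a * f p v) (e := - (b * f p v)) hp0 hk (by
      ext i
      have h3 := congrFun h1 i
      simp only [Pi.add_apply, Pi.smul_apply, smul_eq_mul, Pi.zero_apply, one_mul] at h3 ⊢
      linear_combination h3)
    obtain ⟨-, h3, -, h4⟩ := h2
    have hb1 : b = 1 := by linear_combination -h3
    rw [hb1] at h4
    apply hv
    linear_combination -h4
  intro M hHM hMI g hgM hgH
  have hiso : ∀ h ∈ M, ∀ u v, f ((h : Matrix ι ι F) *ᵥ u) ((h : Matrix ι ι F) *ᵥ v) = f u v :=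
    fun h hh => (S.mem_iff h).mp (hMI hh)
  have hg : g ∉ subalgebraNormalizer K := fun hs => hgH ⟨hs, hMI hgM⟩
  have hU : ∀ h : GL ι F, (∀ u v, f ((h : Matrix ι ι F) *ᵥ u) ((h : Matrix ι ι F) *ᵥ v) = f u v) →
      (∀ x, (h : Matrix ι ι F) *ᵥ (θ *ᵥ x) = θ *ᵥ ((h : Matrix ι ι F) *ᵥ x)) → h ∈ M :=
    fun h h1 h2 => hHM ⟨hN1 h h2, (S.mem_iff h).mpr h1⟩
  obtain ⟨p, hp, hnot⟩ : ∃ p, f p (θ *ᵥ p) = 0 ∧ ¬ ∃ a b : F, (g : Matrix ι ι F) *ᵥ (θ *ᵥ p) =
      a • (g : Matrix ι ι F) *ᵥ p + b • θ *ᵥ ((g : Matrix ι ι F) *ᵥ p) := by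
    by_contra hcon
    push Not at hcon
    apply hg
    obtain ⟨a, b, hab⟩ := D.exists_move hι g (fun p hp => by
      obtain ⟨a, b, h⟩ := hcon p hp
      exact ⟨a, b, h⟩)
    exact hN3 g a b hab
  have hp0 : (g : Matrix ι ι F) *ᵥ p ≠ 0 := by
    intro h0
    apply hnot
    have h1 : p = 0 := by
      have := inv_mulVec_mulVec g p
      rw [h0, Matrix.mulVec_zero] at this
      exact this.symm
    refine ⟨0, 0, ?_⟩
    rw [h1]
    simp
  have hgi := hiso g hgM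
  have hT : sympT hf ((g : Matrix ι ι F) *ᵥ (θ *ᵥ p)) (-1) * sympT hf ((g : Matrix ι ι F) *ᵥ p) d ∈ M := by
    have h1 : g * (D.kU p 1) * g⁻¹ = sympT hf ((g : Matrix ι ι F) *ᵥ (θ *ᵥ p)) (-1) * sympT hf ((g : Matrix ι ι F) *ᵥ p) d := by
      have h2 : g * (D.kU p 1) * g⁻¹ = (g * sympT hf (θ *ᵥ p) (-1) * g⁻¹) * (g * sympT hf p (1 * d) * g⁻¹) := by
        rw [kU]
        group
      rw [h2, conj_sympT hf g hgi, conj_sympT hf g hgi, one_mul]
    rw [← h1]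
    exact M.mul_mem (M.mul_mem hgM (hU _ (D.kU_preserves p 1) (D.kU_comm p 1 hp))) (M.inv_mem hgM)
  obtain ⟨ρ, hρ0, hρi, hρc⟩ := D.exists_centre hι hU (r := (g : Matrix ι ι F) *ᵥ p)
    (r' := (g : Matrix ι ι F) *ᵥ (θ *ᵥ p)) (by rw [hgi]; exact hp) hT
    (fun h => hnot (D.k_symm hp0 h))
  have hall := D.centre_all hι (M := M) (fun a ha => D.centre_transfer hι hU hρ0 hρi ha hρc)
  exact S.gen M (fun v a => hall v a)

end KStr

/-- Extraction of the square root from a field subalgebra. -/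
theorem exists_kstr (hf : IsSymplecticForm f) (K : Subalgebra F (Matrix ι ι F)) (hK : IsFieldSubalgebra 2 K)
    (hac : IsAdjointClosedFor f K) (hnsa : ¬ IsSelfAdjointFor f K) (h2 : (2 : F) ≠ 0) :
    ∃ (θ : Matrix ι ι F) (d : F), KStr hf θ d ∧ ∀ k, k ∈ K ↔ ∃ a b : F, k = a • (1 : Matrix ι ι F) + b • θ := by
  have hb := hf.bilinear
  simp only [IsSelfAdjointFor, not_forall] at hnsa
  obtain ⟨k₀, hk₀, u₀, v₀, hne⟩ := hnsa
  obtain ⟨k', hk', hadj⟩ := hac k₀ hk₀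
  obtain ⟨θ, hθ⟩ : ∃ θ, θ = k₀ - k' := ⟨_, rfl⟩
  have hθK : θ ∈ K := by
    rw [hθ]
    exact K.sub_mem hk₀ hk'
  have hadj' : ∀ u v, f (k' *ᵥ u) v = f u (k₀ *ᵥ v) := by
    intro u v
    rw [hf.skew, ← hadj, hf.skew (k₀ *ᵥ v) u, neg_neg]
  have hsub : ∀ (A A' : Matrix ι ι F) (x : ι → F), (A - A') *ᵥ x = A *ᵥ x - A' *ᵥ x := by
    intro A A' x
    rw [Matrix.sub_mulVec]
  have hθadj : ∀ x y, f (θ *ᵥ x) y = - f x (θ *ᵥ y) := by
    intro x y
    rw [hθ, hsub, hsub, P_sub_left hf, P_sub_right hf, hadj, hadj']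
    ring
  have hθ0 : θ ≠ 0 := by
    intro h0
    apply hne
    have h1 : k₀ = k' := sub_eq_zero.mp (hθ ▸ h0)
    rw [hadj, h1]
  -- `θ` is not a scalar
  have hscal : ∀ c : F, θ ≠ c • (1 : Matrix ι ι F) := by
    intro c hc
    apply hθ0
    have hc0 : c = 0 := by
      by_contra hc0
      apply hne
      have hz : ∀ u v, f u v = 0 := by
        intro u v
        have h1 := hθadj u v
        rw [hc, Matrix.smul_mulVec, Matrix.smul_mulVec, Matrix.one_mulVec, Matrix.one_mulVec, hb.smul_left,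
          hb.smul_right] at h1
        have h3 : (2 * c) * f u v = 0 := by linear_combination h1
        exact (mul_eq_zero.mp h3).resolve_left (mul_ne_zero h2 hc0)
      rw [hz, hz]
    rw [hc, hc0, zero_smul]
  have h1ne : (1 : Matrix ι ι F) ≠ 0 := by
    intro h0
    apply hθ0
    rw [← mul_one θ, h0, mul_zero]
  -- `K` is spanned by `1` and `θ`
  have hspan : ∀ k ∈ K, ∃ a b : F, k = a • (1 : Matrix ι ι F) + b • θ := by
    intro k hk
    have hLI : LinearIndependent F ![(⟨1, K.one_mem⟩ : K), ⟨θ, hθK⟩] := by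
      rw [LinearIndependent.pair_iff]
      intro s t hst
      have hst' : s • (1 : Matrix ι ι F) + t • θ = 0 := congrArg Subtype.val hst
      have ht : t = 0 := by
        by_contra ht
        apply hscal (-(s / t))
        have h3 : θ = t⁻¹ • (t • θ) := by rw [smul_smul, inv_mul_cancel₀ ht, one_smul]
        rw [h3, eq_neg_of_add_eq_zero_right hst', smul_neg, smul_smul, neg_smul]
        congr 2
        rw [div_eq_inv_mul]
      refine ⟨?_, ht⟩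
      rw [ht, zero_smul, add_zero] at hst'
      exact (smul_eq_zero.mp hst').resolve_right h1ne
    have hFin : FiniteDimensional F K := inferInstance
    have htop := hLI.span_eq_top_of_card_eq_finrank' (by simpa using hK.finrank_eq.symm)
    have hmem : (⟨k, hk⟩ : K) ∈ Submodule.span F (Set.range ![(⟨1, K.one_mem⟩ : K), ⟨θ, hθK⟩]) := by
      rw [htop]
      exact Submodule.mem_top
    rw [Submodule.mem_span_range_iff_exists_fun] at hmem
    obtain ⟨c, hc⟩ := hmem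
    rw [Fin.sum_univ_two] at hc
    refine ⟨c 0, c 1, ?_⟩
    have := congrArg Subtype.val hc
    exact this.symm
  obtain ⟨d, b, hsq⟩ := hspan _ (K.mul_mem hθK hθK)
  have hθθ : ∀ x, θ *ᵥ (θ *ᵥ x) = d • x + b • θ *ᵥ x := by
    intro x
    rw [Matrix.mulVec_mulVec, hsq, Matrix.add_mulVec, Matrix.smul_mulVec, Matrix.smul_mulVec, Matrix.one_mulVec]
  have hb0 : b = 0 := by
    by_contra hb0
    apply hθ0
    have hz : ∀ u v, f u (θ *ᵥ v) = 0 := by
      intro u v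
      have h3 : f (θ *ᵥ (θ *ᵥ u)) v = f u (θ *ᵥ (θ *ᵥ v)) := by
        rw [hθadj, hθadj, neg_neg]
      rw [hθθ, hθθ, hb.add_left, hb.add_right, hb.smul_left, hb.smul_left, hb.smul_right, hb.smul_right, hθadj] at h3
      have h4 : (2 * b) * f u (θ *ᵥ v) = 0 := by linear_combination -h3
      exact (mul_eq_zero.mp h4).resolve_left (mul_ne_zero h2 hb0)
    apply Matrix.ext_of_mulVec_single
    intro l
    by_contra hne'
    rw [Matrix.zero_mulVec] at hne'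
    obtain ⟨⟨y, hy⟩, -⟩ := hf.nondegenerate _ hne'
    exact hy (hz y _)
  rw [hb0, zero_smul, add_zero] at hsq
  refine ⟨θ, d, ⟨?_, hθadj, ?_, h2⟩, ?_⟩
  · intro x
    rw [hθθ, hb0, zero_smul, add_zero]
  · intro x hx
    have hk₁ : θ - x • (1 : Matrix ι ι F) ∈ K := K.sub_mem hθK (K.smul_mem K.one_mem _)
    have hne₁ : θ - x • (1 : Matrix ι ι F) ≠ 0 := fun h0 => hscal x (sub_eq_zero.mp h0)
    obtain ⟨y, hy, hxy⟩ := hK.inv _ hk₁ hne₁
    have hprod : (θ - x • (1 : Matrix ι ι F)) * (θ + x • (1 : Matrix ι ι F)) = 0 := by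
      rw [sub_mul, mul_add, mul_add, hsq, mul_smul_comm, smul_mul_assoc, smul_mul_assoc, mul_one, one_mul, mul_smul_comm,
        mul_one, smul_smul, hx]
      abel
    have hzero : θ + x • (1 : Matrix ι ι F) = 0 := by
      calc θ + x • (1 : Matrix ι ι F) = ((θ - x • (1 : Matrix ι ι F)) * y) * (θ + x • (1 : Matrix ι ι F)) := by
            rw [hxy, one_mul]
        _ = (y * (θ - x • (1 : Matrix ι ι F))) * (θ + x • (1 : Matrix ι ι F)) := by
            rw [hK.comm _ hk₁ _ hy]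
        _ = 0 := by rw [mul_assoc, hprod, mul_zero]
    apply hscal (-x)
    rw [neg_smul]
    exact eq_neg_of_add_eq_zero_left hzero
  · intro k
    refine ⟨hspan k, ?_⟩
    rintro ⟨a, b', rfl⟩
    exact K.add_mem (K.smul_mem K.one_mem _) (K.smul_mem hθK _)

end Cfsg.Agent.Lib.Geo.SpGU
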