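/-
Stabilisers of orthogonal decompositions in `Ω`, members of dimension two: hyperbolic members. Elements acting on a member,
the properties of the members.
-/
import Cfsg.Agent.Lib.Geo.Om2E
set_option autoImplicit false

namespace Cfsg.Agent.Lib.Geo.Om2

open Cfsg Cfsg.Geo Cfsg.Agent.Lib.Geo.Basic Cfsg.Agent.Lib.Geo.Parabolic Cfsg.Agent.Lib.Geo.Centres
open Cfsg.Agent.Lib.Geo.Polar Cfsg.Agent.Lib.Geo.QForm
open Cfsg.Agent.Lib.GeoOmega.Basic Cfsg.Agent.Lib.GeoOmega.Eichler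
open Cfsg.Agent.Lib.GeoOmega.Levi (rf rf_mulVec rf_mem rf_mul_mem_omega rf_inv rf_conj)
open Cfsg.Agent.Lib.Geo.OmSub (Par Par.add Par.zero Par.neg Par.sub Par.conj Par.swap pol_sum_left eich_zero)
open Cfsg.Agent.Lib.Geo.SpDecomp (exists_comps mem_decompositionStabilizer_of_forall)
open Cfsg.Agent.Lib.Geo.OmDec
open Cfsg.Agent.Lib.Geo.OmB
open scoped MatrixGroups Matrix

variable {ι : Type} [Fintype ι] [DecidableEq ι] {F : Type*} [Field F]
variable {Q : (ι → F) → F} {t : ℕ} {D : Fin t → Submodule F (ι → F)}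

/-- Hyperbolic pairs in a member. -/
structure HP (Q : (ι → F) → F) (D : Fin t → Submodule F (ι → F)) (j : Fin t) (s s' : ι → F) : Prop where
  hs : s ∈ D j
  hs' : s' ∈ D j
  q : Q s = 0
  q' : Q s' = 0
  p : pol Q s s' = 1

section HPS

variable (hQ : IsNondegenerateQuadraticForm Q) {j : Fin t} {s s' : ι → F}
include hQ

theorem HP.p' (H : HP Q D j s s') : pol Q s' s = 1 := by
  rw [pol_symm hQ, H.p]

theorem HP.ne (H : HP Q D j s s') : s ≠ 0 := by
  rintro rfl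
  have := H.p
  rw [pol_zero_left hQ] at this
  exact zero_ne_one this

theorem HP.indep (H : HP Q D j s s') (c : F) : s' ≠ c • s := by
  rintro rfl
  have := H.p
  rw [pol_smul_right hQ, pol_singular hQ H.q, mul_zero] at this
  exact zero_ne_one this

theorem HP.symm (H : HP Q D j s s') : HP Q D j s' s := ⟨H.hs', H.hs, H.q', H.q, H.p' hQ⟩

theorem HP.Q_comb (H : HP Q D j s s') (a b : F) : Q (a • s + b • s') = a * b := by
  rw [Q_smul_add hQ, H.q, H.q', H.p]
  ring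

theorem HP.pol_comb (H : HP Q D j s s') (a b a' b' : F) :
    pol Q (a • s + b • s') (a' • s + b' • s') = a * b' + b * a' := by
  simp only [pol_add_left hQ, pol_add_right hQ, pol_smul_left hQ, pol_smul_right hQ, pol_singular hQ H.q,
    pol_singular hQ H.q', H.p, H.p' hQ]
  ring

theorem HP.comb_mem (H : HP Q D j s s') (a b : F) : a • s + b • s' ∈ D j :=
  (D j).add_mem ((D j).smul_mem _ H.hs) ((D j).smul_mem _ H.hs')

omit hQ in
theorem HP.of_sing (hQ : IsNondegenerateQuadraticForm Q) (B : Blk Q D) {x : ι → F} (hx : x ∈ D j) (hx0 : x ≠ 0)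
    (hxQ : Q x = 0) : ∃ x', HP Q D j x x' := by
  obtain ⟨x', hx', hx'Q, hxx'⟩ := exists_hypW hQ (B.nd j) hx hx0 hxQ
  exact ⟨x', hx, hx', hxQ, hx'Q, hxx'⟩

/-- Rotations of a hyperbolic plane. -/
theorem HP.exists_T (B : Blk Q D) (H : HP Q D j s s') {θ : F} (hθ : θ ≠ 0) :
    ∃ ζ : GL ι F, Rot hQ D j ζ ∧ (ζ : Matrix ι ι F) *ᵥ s = θ • s ∧ (ζ : Matrix ι ι F) *ᵥ s' = θ⁻¹ • s' ∧
      rf hQ (s + s') * rf hQ (s + θ • s') = ζ := by
  have ha : Q (s + s') = 1 := by
    have := H.Q_comb hQ 1 1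
    simpa using this
  have hb : Q (s + θ • s') = θ := by
    have := H.Q_comb hQ 1 θ
    simpa using this
  have hpa : pol Q s (s + s') = 1 := by
    rw [pol_add_right hQ, pol_singular hQ H.q, H.p, zero_add]
  have hpa' : pol Q s' (s + s') = 1 := by
    rw [pol_add_right hQ, pol_singular hQ H.q', H.p' hQ, add_zero]
  have hpb : pol Q s (s + θ • s') = θ := by
    rw [pol_add_right hQ, pol_smul_right hQ, pol_singular hQ H.q, H.p]
    ring
  have hpb' : pol Q s' (s + θ • s') = 1 := by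
    rw [pol_add_right hQ, pol_smul_right hQ, pol_singular hQ H.q', H.p' hQ]
    ring
  have hsmem : s + s' ∈ D j := (D j).add_mem H.hs H.hs'
  have hbmem : s + θ • s' ∈ D j := (D j).add_mem H.hs ((D j).smul_mem _ H.hs')
  refine ⟨rf hQ (s + s') * rf hQ (s + θ • s'), ⟨(isometryGroup F Q).mul_mem (rf_mem hQ _) (rf_mem hQ _), fun i x hx => ?_,
    fun v hv => ?_, Or.inr ⟨_, _, by rw [ha]; exact one_ne_zero, by rw [hb]; exact hθ, rfl⟩⟩, ?_, ?_, rfl⟩
  · rw [Units.val_mul, ← Matrix.mulVec_mulVec]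
    exact pres_of_rf hQ B hsmem i (pres_of_rf hQ B hbmem i hx)
  · rw [Units.val_mul, ← Matrix.mulVec_mulVec, fix_of_rf hQ B hbmem hv, fix_of_rf hQ B hsmem hv]
  · rw [Units.val_mul, ← Matrix.mulVec_mulVec, rf_mulVec hQ (s + θ • s') s, hb, hpb, inv_mul_cancel₀ hθ, one_smul,
      rf_mulVec, ha, inv_one, one_mul, pol_sub_left hQ, pol_add_left hQ, pol_smul_left hQ, hpa, hpa']
    module
  · have e1 : θ⁻¹ * 1 = θ⁻¹ := mul_one _
    rw [Units.val_mul, ← Matrix.mulVec_mulVec, rf_mulVec hQ (s + θ • s') s', hb, hpb', e1, rf_mulVec, ha, inv_one,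
      one_mul, pol_sub_left hQ, pol_smul_left hQ, hpa', pol_add_left hQ, pol_smul_left hQ, hpa, hpa']
    have e : 1 - θ⁻¹ * (1 + θ * 1) = -θ⁻¹ := by
      field_simp
      ring
    rw [e, smul_add, smul_smul, inv_mul_cancel₀ hθ, one_smul]
    module

end HPS

section Avoid

variable {K : Type*} [Field K] [Fintype K]

theorem exists_not_mem_card {A : Finset K} (h : A.card < Fintype.card K) : ∃ x, x ∉ A := by
  by_contra hcon
  push Not at hcon
  have : A = Finset.univ := Finset.eq_univ_iff_forall.mpr hcon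
  rw [this, Finset.card_univ] at h
  exact lt_irrefl _ h

/-- Elements of the field avoiding a few roots. -/
theorem exists_avoid (hq : 7 ≤ Fintype.card K) (a b : K) : ∃ p : K, p ≠ 0 ∧ p ≠ 1 ∧ p ≠ a ∧ p ^ 2 ≠ b := by
  classical
  have h1 : (Polynomial.nthRoots 2 b).toFinset.card ≤ 2 :=
    (Multiset.toFinset_card_le _).trans (Polynomial.card_nthRoots 2 b)
  have h2 : (({0, 1, a} : Finset K) ∪ (Polynomial.nthRoots 2 b).toFinset).card < Fintype.card K := by
    have h3 : ({0, 1, a} : Finset K).card ≤ 3 := Finset.card_le_three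
    have h4 := Finset.card_union_le ({0, 1, a} : Finset K) (Polynomial.nthRoots 2 b).toFinset
    omega
  obtain ⟨p, hp⟩ := exists_not_mem_card h2
  simp only [Finset.mem_union, Finset.mem_insert, Finset.mem_singleton, Multiset.mem_toFinset,
    Polynomial.mem_nthRoots (show 0 < 2 by norm_num)] at hp
  push Not at hp
  exact ⟨p, hp.1.1, hp.1.2.1, hp.1.2.2, hp.2⟩

theorem exists_xi (hq : 7 ≤ Fintype.card K) : ∃ ξ : K, ξ ≠ 0 ∧ ξ ^ 4 ≠ 1 := by
  classical
  have h1 : (Polynomial.nthRoots 4 (1 : K)).toFinset.card ≤ 4 :=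
    (Multiset.toFinset_card_le _).trans (Polynomial.card_nthRoots 4 1)
  have h2 : (({0} : Finset K) ∪ (Polynomial.nthRoots 4 (1 : K)).toFinset).card < Fintype.card K := by
    have h4 := Finset.card_union_le ({0} : Finset K) (Polynomial.nthRoots 4 (1 : K)).toFinset
    rw [Finset.card_singleton] at h4
    omega
  obtain ⟨p, hp⟩ := exists_not_mem_card h2
  simp only [Finset.mem_union, Finset.mem_singleton, Multiset.mem_toFinset,
    Polynomial.mem_nthRoots (show 0 < 4 by norm_num)] at hp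
  push Not at hp
  exact ⟨p, hp.1, hp.2⟩

theorem exists_eta (hq : 7 ≤ Fintype.card K) : ∃ η : K, η ≠ 0 ∧ 1 + η ≠ 0 ∧ η ^ 2 + η + 1 ≠ 0 := by
  classical
  have h1 : (Polynomial.nthRoots 3 (1 : K)).toFinset.card ≤ 3 :=
    (Multiset.toFinset_card_le _).trans (Polynomial.card_nthRoots 3 1)
  have h2 : (({0, -1} : Finset K) ∪ (Polynomial.nthRoots 3 (1 : K)).toFinset).card < Fintype.card K := by
    have h3 : ({0, -1} : Finset K).card ≤ 2 := Finset.card_le_two
    have h4 := Finset.card_union_le ({0, -1} : Finset K) (Polynomial.nthRoots 3 (1 : K)).toFinset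
    omega
  obtain ⟨p, hp⟩ := exists_not_mem_card h2
  simp only [Finset.mem_union, Finset.mem_insert, Finset.mem_singleton, Multiset.mem_toFinset,
    Polynomial.mem_nthRoots (show 0 < 3 by norm_num)] at hp
  push Not at hp
  refine ⟨p, hp.1.1, fun h => hp.1.2 (by linear_combination h), fun h => hp.2 ?_⟩
  linear_combination (p - 1) * h

end Avoid

section TDP

variable [Fintype F] (hQ : IsNondegenerateQuadraticForm Q) (B : Blk Q D) (hfin : ∀ i, Module.finrank F (D i) = 2)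
  (hsing : ∀ i, ∃ p ∈ D i, p ≠ 0 ∧ Q p = 0)
include hQ B

theorem exists_HP_of (hsing : ∀ i, ∃ p ∈ D i, p ≠ 0 ∧ Q p = 0) (i : Fin t) : ∃ s s', HP Q D i s s' := by
  obtain ⟨p, hp, hp0, hpQ⟩ := hsing i
  obtain ⟨p', hp'⟩ := HP.of_sing hQ B hp hp0 hpQ
  exact ⟨p, p', hp'⟩

include hfin

theorem HP.coords {j : Fin t} {s s' : ι → F} (H : HP Q D j s s') {z : ι → F} (hz : z ∈ D j) :
    ∃ a b : F, z = a • s + b • s' :=
  span2 hfin H.hs H.hs' (H.ne hQ) (H.indep hQ) hz

include hsing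

/-- The properties of the members, hyperbolic case. -/
theorem td_plus (hq : 7 ≤ Fintype.card F) : ∃ s, TD hQ D s := by
  obtain ⟨ξ₀, hξ₀, hξ₀4⟩ := exists_xi hq
  refine ⟨ξ₀ + ξ₀⁻¹, ?_, ?_, ?_, ?_, ?_⟩
  · intro h
    apply hξ₀4
    have h1 : ξ₀ ^ 2 = -1 := by
      field_simp at h
      linear_combination h
    calc ξ₀ ^ 4 = (ξ₀ ^ 2) ^ 2 := by ring
      _ = 1 := by rw [h1]; ring
  · intro h
    apply hξ₀4
    have h1 : (ξ₀ ^ 2 - 1) ^ 2 = 0 := by
      have h2 : (ξ₀ + ξ₀⁻¹) ^ 2 * ξ₀ ^ 2 = 4 * ξ₀ ^ 2 := by rw [h]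
      have h3 : (ξ₀ + ξ₀⁻¹) * ξ₀ = ξ₀ ^ 2 + 1 := by
        field_simp
      have h4 : (ξ₀ ^ 2 + 1) ^ 2 = 4 * ξ₀ ^ 2 := by
        rw [← h3, mul_pow, h2]
      linear_combination h4
    have h2 : ξ₀ ^ 2 = 1 := by
      have := pow_eq_zero_iff (n := 2) (by norm_num) |>.mp h1
      linear_combination this
    calc ξ₀ ^ 4 = (ξ₀ ^ 2) ^ 2 := by ring
      _ = 1 := by rw [h2]; ring
  · intro j z hz hzQ
    obtain ⟨f, f', H⟩ := exists_HP_of hQ B hsing j
    obtain ⟨a, b, rfl⟩ := H.coords hQ B hfin hz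
    rw [H.Q_comb hQ] at hzQ ⊢
    refine ⟨(ξ₀ * a) • f + (ξ₀⁻¹ * b) • f', H.comb_mem hQ _ _, ?_, ?_⟩
    · rw [H.Q_comb hQ]
      field_simp
    · rw [H.pol_comb hQ]
      field_simp
      ring
  · intro j m z z' hz hz' hzQ hz'Q
    obtain ⟨f, f', H⟩ := exists_HP_of hQ B hsing j
    obtain ⟨g, g', H'⟩ := exists_HP_of hQ B hsing m
    obtain ⟨a, b, rfl⟩ := H.coords hQ B hfin hz
    obtain ⟨a', b', rfl⟩ := H'.coords hQ B hfin hz'
    rw [H.Q_comb hQ] at hzQ
    rw [H'.Q_comb hQ] at hz'Q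
    obtain ⟨ρ, hρ⟩ : ∃ ρ, ρ = -(a' * b') / (a * b) := ⟨_, rfl⟩
    have hρ0 : ρ ≠ 0 := by
      rw [hρ]
      exact div_ne_zero (neg_ne_zero.mpr hz'Q) hzQ
    have ha0 : a ≠ 0 := left_ne_zero_of_mul hzQ
    have hb0 : b ≠ 0 := right_ne_zero_of_mul hzQ
    have hB : a' * b' = -ρ * (a * b) := by
      rw [hρ]
      field_simp
    obtain ⟨p, hp0, hp1, hpρ, hpρ2⟩ := exists_avoid hq ρ ρ
    have hp1' : 1 - p ≠ 0 := fun h => hp1 (by linear_combination -h)
    have hpρ' : p - ρ ≠ 0 := sub_ne_zero.mpr hpρ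
    obtain ⟨ξ, hξd⟩ : ∃ ξ, ξ = p * (1 - p) / (p - ρ) := ⟨_, rfl⟩
    obtain ⟨η, hηd⟩ : ∃ η, η = ρ * (1 - p) / (p * (p - ρ)) := ⟨_, rfl⟩
    have hξ0 : ξ ≠ 0 := by
      rw [hξd]
      exact div_ne_zero (mul_ne_zero hp0 hp1') hpρ'
    have hη0 : η ≠ 0 := by
      rw [hηd]
      exact div_ne_zero (mul_ne_zero hρ0 hp1') (mul_ne_zero hp0 hpρ')
    have hξ1 : 1 - ξ ≠ 0 := by
      rw [hξd]
      intro h
      apply hpρ2
      field_simp at h
      linear_combination h
    have hη1 : 1 - η ≠ 0 := by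
      rw [hηd]
      intro h
      apply hpρ2
      field_simp at h
      linear_combination h
    have hξ2 : 1 - ξ⁻¹ ≠ 0 := by
      intro h
      apply hξ1
      field_simp at h
      linear_combination -h
    have hη2 : 1 - η⁻¹ ≠ 0 := by
      intro h
      apply hη1
      field_simp at h
      linear_combination -h
    have hd1 : a • f + b • f' - ((ξ * a) • f + (ξ⁻¹ * b) • f') = ((1 - ξ) * a) • f + ((1 - ξ⁻¹) * b) • f' := by
      module
    have hd2 : a' • g + b' • g' - ((η * a') • g + (η⁻¹ * b') • g') = ((1 - η) * a') • g + ((1 - η⁻¹) * b') • g' := by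
      module
    have hQ1 : Q (a • f + b • f' - ((ξ * a) • f + (ξ⁻¹ * b) • f')) = (1 - ξ) * (1 - ξ⁻¹) * (a * b) := by
      rw [hd1, H.Q_comb hQ]
      ring
    have hQ2 : Q (a' • g + b' • g' - ((η * a') • g + (η⁻¹ * b') • g')) = (1 - η) * (1 - η⁻¹) * (a' * b') := by
      rw [hd2, H'.Q_comb hQ]
      ring
    refine ⟨(ξ * a) • f + (ξ⁻¹ * b) • f', H.comb_mem hQ _ _, (η * a') • g + (η⁻¹ * b') • g', H'.comb_mem hQ _ _, ?_, ?_,
      fun h => ?_, fun h => ?_, ?_⟩
    · rw [H.Q_comb hQ, H.Q_comb hQ]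
      field_simp
    · rw [H'.Q_comb hQ, H'.Q_comb hQ]
      field_simp
    · rw [h, sub_self, Q_zero hQ] at hQ1
      exact (mul_ne_zero (mul_ne_zero hξ1 hξ2) hzQ) hQ1.symm
    · rw [h, sub_self, Q_zero hQ] at hQ2
      exact (mul_ne_zero (mul_ne_zero hη1 hη2) hz'Q) hQ2.symm
    · rw [hQ1, hQ2, hB]
      have e : (1 - ξ) * (1 - ξ⁻¹) = ρ * ((1 - η) * (1 - η⁻¹)) := by
        rw [hξd, hηd]
        field_simp
        ring
      rw [e]
      ring
  · intro r P hadd hneg hrot y hy hyQ hP x hx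
    obtain ⟨f, f', H⟩ := exists_HP_of hQ B hsing r
    obtain ⟨a, b, rfl⟩ := H.coords hQ B hfin hy
    rw [H.Q_comb hQ] at hyQ
    have ha0 : a ≠ 0 := left_ne_zero_of_mul hyQ
    have hb0 : b ≠ 0 := right_ne_zero_of_mul hyQ
    have hsub : ∀ u v, P u → P v → P (u - v) := fun u v hu hv => by
      rw [sub_eq_add_neg]
      exact hadd _ _ hu (hneg _ hv)
    have hzero : P 0 := by
      have := hsub _ _ hP hP
      rwa [sub_self] at this
    -- the action of a rotation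
    have hT : ∀ (c d : F) (θ : F), θ ≠ 0 → P (c • f + d • f') → P ((θ * c) • f + (θ⁻¹ * d) • f') := by
      intro c d θ hθ hc
      obtain ⟨ζ, hζ, e₁, e₂, -⟩ := H.exists_T hQ B hθ
      have h1 := hrot _ (H.comb_mem hQ c d) hc ζ hζ
      rw [Matrix.mulVec_add, Matrix.mulVec_smul, Matrix.mulVec_smul, e₁, e₂, smul_smul, smul_smul] at h1
      rw [mul_comm θ, mul_comm θ⁻¹]
      exact h1
    obtain ⟨η, hη0, hη1, hη2⟩ := exists_eta hq
    obtain ⟨γ, hγ⟩ : ∃ γ, γ = 1 + η⁻¹ - (1 + η)⁻¹ := ⟨_, rfl⟩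
    have hγ0 : γ ≠ 0 := by
      rw [hγ]
      intro h
      apply hη2
      field_simp at h
      linear_combination h
    -- the first line
    have h1 : P ((γ * a) • f) := by
      have h2 := hT a b 1 one_ne_zero hP
      have h3 := hT a b η⁻¹ (inv_ne_zero hη0) hP
      have h4 := hT a b (1 + η)⁻¹ (inv_ne_zero hη1) hP
      have h5 := hsub _ _ (hadd _ _ h2 h3) h4
      have e : (1 * a) • f + (1⁻¹ * b) • f' + ((η⁻¹ * a) • f + (η⁻¹⁻¹ * b) • f') -
          (((1 + η)⁻¹ * a) • f + ((1 + η)⁻¹⁻¹ * b) • f') = (γ * a) • f := by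
        rw [inv_inv, inv_inv, hγ, inv_one]
        module
      rwa [e] at h5
    have h2 : P ((γ * b) • f') := by
      have h3 := hT a b 1 one_ne_zero hP
      have h4 := hT a b η hη0 hP
      have h5 := hT a b (1 + η) hη1 hP
      have h6 := hsub _ _ (hadd _ _ h3 h4) h5
      have e : (1 * a) • f + (1⁻¹ * b) • f' + ((η * a) • f + (η⁻¹ * b) • f') -
          (((1 + η) * a) • f + ((1 + η)⁻¹ * b) • f') = (γ * b) • f' := by
        rw [hγ, inv_one]
        module
      rwa [e] at h6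
    have hγa : γ * a ≠ 0 := mul_ne_zero hγ0 ha0
    have hγb : γ * b ≠ 0 := mul_ne_zero hγ0 hb0
    have hf : ∀ c : F, P (c • f) := fun c => by
      by_cases hc : c = 0
      · rw [hc, zero_smul]
        exact hzero
      · have h3 := hT (γ * a) 0 (c / (γ * a)) (div_ne_zero hc hγa) (by simpa using h1)
        have e : (c / (γ * a) * (γ * a)) • f + ((c / (γ * a))⁻¹ * 0) • f' = c • f := by
          rw [div_mul_cancel₀ _ hγa, mul_zero, zero_smul, add_zero]
        rwa [e] at h3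
    have hf' : ∀ c : F, P (c • f') := fun c => by
      by_cases hc : c = 0
      · rw [hc, zero_smul]
        exact hzero
      · have h3 := hT 0 (γ * b) ((γ * b) / c) (div_ne_zero hγb hc) (by simpa using h2)
        have e : ((γ * b) / c * 0) • f + (((γ * b) / c)⁻¹ * (γ * b)) • f' = c • f' := by
          rw [mul_zero, zero_smul, zero_add, inv_div, div_mul_cancel₀ _ hγb]
        rwa [e] at h3
    obtain ⟨α, β, rfl⟩ := H.coords hQ B hfin hx
    exact hadd _ _ (hf α) (hf' β)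

end TDP

end Cfsg.Agent.Lib.Geo.Om2
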