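/-
Stabilisers of orthogonal decompositions in `Ω`, members of dimension two: hyperbolic members, Eichler transformations with
centre in a member.
-/
import Cfsg.Agent.Lib.Geo.Om2F
set_option autoImplicit false

namespace Cfsg.Agent.Lib.Geo.Om2

open Cfsg Cfsg.Geo Cfsg.Agent.Lib.Geo.Basic Cfsg.Agent.Lib.Geo.Parabolic Cfsg.Agent.Lib.Geo.Centres
open Cfsg.Agent.Lib.Geo.Polar Cfsg.Agent.Lib.Geo.QForm
open Cfsg.Agent.Lib.GeoOmega.Basic Cfsg.Agent.Lib.GeoOmega.Eichler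
open Cfsg.Agent.Lib.GeoOmega.Levi (rf rf_mulVec rf_mem rf_mul_mem_omega rf_inv rf_conj)
open Cfsg.Agent.Lib.Geo.OmSub (Par Par.add Par.zero Par.neg Par.sub Par.conj Par.swap pol_sum_left eich_zero)
open Cfsg.Agent.Lib.Geo.SpDecomp (exists_comps mem_decompositionStabilizer_of_forall)
open Cfsg.Agent.Lib.Geo.OmDec
open Cfsg.Agent.Lib.Geo.OmB
open scoped MatrixGroups Matrix

variable {ι : Type} [Fintype ι] [DecidableEq ι] {F : Type*} [Field F]
variable {Q : (ι → F) → F} {t : ℕ} {D : Fin t → Submodule F (ι → F)}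

theorem par_smul_centre (hQ : IsNondegenerateQuadraticForm Q) {M : Subgroup (GL ι F)} {s v : ι → F} {μ : F}
    (hs : Q s = 0) (hP : Par Q M (μ • s) v) : Par Q M s (μ • v) := by
  have hsv : pol Q s (μ • v) = 0 := by
    have := hP.1
    rw [pol_smul_left hQ] at this
    rw [pol_smul_right hQ]
    exact this
  refine ⟨hsv, fun g hg => hP.2 g fun x => ?_⟩
  rw [hg x, pol_smul_right hQ, pol_smul_right hQ, hQ.smul]
  module

section Tools

variable [Fintype F] {M : Subgroup (GL ι F)} (S : Ctx2 Q D M)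
include S

/-- A square rotation lies in `M`. -/
theorem Ctx2.exists_T_mem {j : Fin t} {s s' : ι → F} (H : HP Q D j s s') {ω : F} (hω : ω ≠ 0) :
    ∃ τ : GL ι F, τ ∈ M ∧ Bw D τ ∧ (∀ v, cp D j v = 0 → (τ : Matrix ι ι F) *ᵥ v = v) ∧
      (τ : Matrix ι ι F) *ᵥ s = ω ^ 2 • s ∧ (τ : Matrix ι ι F) *ᵥ s' = (ω ^ 2)⁻¹ • s' := by
  have hQ := S.hQ
  have B := S.blk
  obtain ⟨ζ, hζ, e₁, e₂, hd⟩ := H.exists_T hQ B (pow_ne_zero 2 hω)
  have ha : Q (s + s') = 1 := by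
    have := H.Q_comb hQ 1 1
    simpa using this
  have hb : Q (s + ω ^ 2 • s') = ω ^ 2 := by
    have := H.Q_comb hQ 1 (ω ^ 2)
    simpa using this
  have hO : ζ ∈ omegaGL Q := by
    rw [← hd]
    refine rf_mul_mem_omega_sq hQ S.card7 (by rw [ha]; exact one_ne_zero) (by rw [hb]; exact pow_ne_zero 2 hω) ?_
    rw [ha, hb, one_mul, sq]
    exact ⟨ω, rfl⟩
  exact ⟨ζ, S.mem_bw hO hζ.pres, hζ.pres, hζ.fix, e₁, e₂⟩

/-- An element of `M` exchanging the two singular lines of a hyperbolic member. -/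
theorem Ctx2.exists_flip {j f : Fin t} (hjf : j ≠ f) {s s' p p' : ι → F} (H : HP Q D j s s') (H' : HP Q D f p p') :
    ∃ φ : GL ι F, φ ∈ M ∧ Bw D φ ∧ (∀ v, cp D j v = 0 → cp D f v = 0 → (φ : Matrix ι ι F) *ᵥ v = v) ∧
      (φ : Matrix ι ι F) *ᵥ s = -s' := by
  have hQ := S.hQ
  have B := S.blk
  have ha : Q (s + s') = 1 := by
    have := H.Q_comb hQ 1 1
    simpa using this
  have hb : Q (p + p') = 1 := by
    have := H'.Q_comb hQ 1 1
    simpa using this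
  have ham : s + s' ∈ D j := (D j).add_mem H.hs H.hs'
  have hbm : p + p' ∈ D f := (D f).add_mem H'.hs H'.hs'
  have hO : rf hQ (s + s') * rf hQ (p + p') ∈ omegaGL Q :=
    rf_mul_mem_omega hQ S.card7 hb ha one_ne_zero
  have hB : Bw D (rf hQ (s + s') * rf hQ (p + p')) := (S.bw_rf ham).mul (S.bw_rf hbm)
  refine ⟨_, S.mem_bw hO hB, hB, fun v h1 h2 => ?_, ?_⟩
  · rw [Units.val_mul, ← Matrix.mulVec_mulVec, fix_of_rf hQ B hbm h2, fix_of_rf hQ B ham h1]
  · have h1 : cp D f s = 0 := cp_other hQ B (Ne.symm hjf) H.hs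
    rw [Units.val_mul, ← Matrix.mulVec_mulVec, fix_of_rf hQ B hbm h1, rf_mulVec, ha, inv_one, one_mul, pol_add_right hQ,
      pol_singular hQ H.q, H.p, zero_add, one_smul]
    abel

/-- From a parameter to a parameter in a member. -/
theorem Ctx2.par_to_block {s' : F} (T : TD S.hQ D s') (hq : ∃ ω : F, ω ≠ 0 ∧ ω ^ 2 ≠ 1)
    {s y₀ : ι → F} {o l : Fin t} (hsQ : Q s = 0) (hs : s ∈ D o) (hlo : l ≠ o) (hP : Par Q M s y₀) (hl : cp D l y₀ ≠ 0) :
    ∃ y ∈ D l, y ≠ 0 ∧ Par Q M s y := by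
  have hQ := S.hQ
  have B := S.blk
  have hsl : cp D l s = 0 := cp_other hQ B hlo hs
  by_cases hns : Q (cp D l y₀) = 0
  · obtain ⟨x', H⟩ := HP.of_sing hQ B (cp_mem B l y₀) hl hns
    obtain ⟨ω, hω, hω1⟩ := hq
    obtain ⟨τ, hτM, hτB, hτf, e₁, -⟩ := S.exists_T_mem H hω
    have P1 := S.par_conj_fix hP hτM (hτf s hsl)
    have P2 := Par.sub hQ hsQ P1 hP
    have e : (τ : Matrix ι ι F) *ᵥ y₀ - y₀ = (ω ^ 2 - 1) • cp D l y₀ := by
      have h1 : y₀ = cp D l y₀ + (y₀ - cp D l y₀) := by abel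
      conv_lhs => rw [h1, Matrix.mulVec_add, hτf (y₀ - cp D l y₀) (cp_rest hQ B l y₀), e₁]
      module
    rw [e] at P2
    exact ⟨_, (D l).smul_mem _ (cp_mem B l y₀), smul_ne_zero (sub_ne_zero.mpr hω1) hl, P2⟩
  · have hP' : Par Q M s ((1 : F) • y₀) := by rwa [one_smul]
    obtain ⟨y, hy, hyQ, hPy⟩ := S.step_rot T (r := l) hsQ hsl hns one_ne_zero hP'
    exact ⟨y, hy, fun h => hyQ (by rw [h, Q_zero hQ]), hPy⟩

/-- Parameters in all members. -/
theorem Ctx2.g_pure {s' : F} (T : TD S.hQ D s') (hsing : ∀ i, ∃ p ∈ D i, p ≠ 0 ∧ Q p = 0) {s y : ι → F} {j r : Fin t}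
    (hrj : r ≠ j) (hs : s ∈ D j) (hs0 : s ≠ 0) (hsQ : Q s = 0) (hy : y ∈ D r) (hy0 : y ≠ 0) (hP : Par Q M s y) :
    omegaGL Q ≤ M := by
  have hQ := S.hQ
  have B := S.blk
  have hcps : ∀ i, i ≠ j → cp D i s = 0 := fun i hi => cp_other hQ B hi hs
  -- rotations
  have hrot : ∀ a ∈ D r, Par Q M s a → ∀ ζ, Rot hQ D r ζ → Par Q M s ((ζ : Matrix ι ι F) *ᵥ a) := by
    intro a ha hPa ζ hζ
    obtain ⟨f', h1, h2, -⟩ := S.exists_ne3 j r r
    obtain ⟨h, hM, -, -, hv⟩ := S.exists_lift f' hζ.iso hζ.pres hζ.ev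
    have hfix : (h : Matrix ι ι F) *ᵥ s = s := by
      rw [hv s (hcps f' h1), hζ.fix s (hcps r hrj)]
    have := S.par_conj_fix hPa hM hfix
    rwa [hv a (cp_other hQ B h2 ha)] at this
  have hblock : ∀ a ∈ D r, Par Q M s a := by
    by_cases hyQ : Q y = 0
    · obtain ⟨y', H⟩ := HP.of_sing hQ B hy hy0 hyQ
      obtain ⟨f, hf1, hf2, -⟩ := S.exists_ne3 j r r
      obtain ⟨p, p', H'⟩ := exists_HP_of hQ B hsing f
      obtain ⟨φ, hφM, -, hφf, e₁⟩ := S.exists_flip (Ne.symm hf2) H H'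
      have h1 := S.par_conj_fix hP hφM (hφf s (hcps r hrj) (hcps f hf1))
      rw [e₁] at h1
      have h2 : Par Q M s y' := by
        have := Par.neg hQ hsQ h1
        rwa [neg_neg] at this
      have hall : ∀ (x : ι → F), x ∈ D r → Par Q M s x → (∀ θ : F, θ ≠ 0 → ∃ ζ : GL ι F, Rot hQ D r ζ ∧
          (ζ : Matrix ι ι F) *ᵥ x = θ • x) → ∀ c : F, Par Q M s (c • x) := by
        intro x hx hPx hT c
        by_cases hc : c = 0
        · rw [hc, zero_smul]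
          exact Par.zero hQ s
        · obtain ⟨ζ, hζ, e⟩ := hT c hc
          have := hrot x hx hPx ζ hζ
          rwa [e] at this
      have h3 := hall y hy hP fun θ hθ => by
        obtain ⟨ζ, hζ, e, -, -⟩ := H.exists_T hQ B hθ
        exact ⟨ζ, hζ, e⟩
      have h4 := hall y' H.hs' h2 fun θ hθ => by
        obtain ⟨ζ, hζ, -, e, -⟩ := H.exists_T hQ B (inv_ne_zero hθ)
        refine ⟨ζ, hζ, ?_⟩
        rwa [inv_inv] at e
      intro a ha
      obtain ⟨α, β, e⟩ := H.coords hQ B S.fin ha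
      rw [e]
      exact Par.add hQ hsQ (h3 α) (h4 β)
    · exact T.span r (Par Q M s) (fun a b ha hb => Par.add hQ hsQ ha hb) (fun a ha => Par.neg hQ hsQ ha) hrot y hy hyQ hP
  have hother : ∀ r', r' ≠ j → ∀ a ∈ D r', Par Q M s a := by
    intro r' h1 a ha
    by_cases hrr : r' = r
    · subst hrr
      exact hblock a ha
    · obtain ⟨r'', h3, h5, h6⟩ := S.exists_ne3 j r r'
      obtain ⟨g, hg, hg1, -, -, hg2⟩ := S.base.exists_cycle (a := r') (b := r'') (c := r) (Ne.symm h6) (Ne.symm hrr)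
        (Ne.symm h5)
      have hgp : (g : Matrix ι ι F) *ᵥ s = s := hg2 j (Ne.symm h1) (Ne.symm h3) (Ne.symm hrj) s hs
      have hgi : ((g⁻¹ : GL ι F) : Matrix ι ι F) *ᵥ s = s := by
        conv_lhs => rw [← hgp]
        exact inv_mulVec_mulVec g s
      have := S.par_conj_fix (hblock _ (hg1 a ha)) (M.inv_mem hg) hgi
      rwa [inv_mulVec_mulVec] at this
  have hF : Full Q M s := by
    intro b g hb hg
    refine (?_ : Par Q M s b).2 g hg
    have e1 : b = cp D j b + ∑ i ∈ Finset.univ.erase j, cp D i b := by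
      conv_lhs => rw [← sum_cp B b, ← Finset.add_sum_erase Finset.univ _ (Finset.mem_univ j)]
    have h1 : pol Q s (cp D j b) = 0 := by
      rw [pol_symm hQ, ← pol_cp hQ B j b hs, pol_symm hQ]
      exact hb
    obtain ⟨c, hc⟩ := eq_smul_of_sing hQ B S.fin hs hs0 hsQ (cp_mem B j b) h1
    have h3 : Par Q M s (∑ i ∈ Finset.univ.erase j, cp D i b) := by
      refine Finset.sum_induction _ (Par Q M s) (fun a b ha hb => Par.add hQ hsQ ha hb) (Par.zero hQ s) fun i hi => ?_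
      simp only [Finset.mem_erase, Finset.mem_univ, and_true] at hi
      exact hother i hi _ (cp_mem B i b)
    rw [e1, hc]
    have h4 := par_add_self hQ hsQ (Par.zero hQ s : Par Q M s 0) c
    rw [zero_add] at h4
    exact Par.add hQ hsQ h4 h3
  obtain ⟨s₁, H⟩ := HP.of_sing hQ B hs hs0 hsQ
  obtain ⟨f, hf1, -, -⟩ := S.exists_ne3 j j j
  obtain ⟨p, p', H'⟩ := exists_HP_of hQ B hsing f
  obtain ⟨φ, hφM, -, -, e₁⟩ := S.exists_flip (Ne.symm hf1) H H'
  have hF2 := hF.conj hφM (S.miso hφM)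
  rw [e₁] at hF2
  have hnQ : Q (-s₁) = 0 := by
    have := hQ.smul (-1) s₁
    simp only [neg_smul, one_smul] at this
    rw [this, H.q']
    ring
  refine omega_le_of_full hQ S.card7 hsQ hnQ hF hF2 ?_
  rw [pol_neg_left_aux hQ, H.p' hQ]
  exact neg_ne_zero.mpr one_ne_zero

/-- A vector linked to a member with a singular non-zero component and another non-zero component. -/
theorem Ctx2.case_sing {s' : F} (T : TD S.hQ D s') (hsing : ∀ i, ∃ p ∈ D i, p ≠ 0 ∧ Q p = 0)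
    (hq : ∃ ω : F, ω ≠ 0 ∧ ω ^ 2 ≠ 1) {e : ι → F} {j r : Fin t} (he : Phi S.hQ D M e) (hrj : r ≠ j)
    (hj : cp D j e ≠ 0) (hjQ : Q (cp D j e) = 0) (hr : cp D r e ≠ 0) : omegaGL Q ≤ M := by
  have hQ := S.hQ
  have B := S.blk
  obtain ⟨s₁, H⟩ := HP.of_sing hQ B (cp_mem B j e) hj hjQ
  obtain ⟨ω, hω, hω1⟩ := id hq
  obtain ⟨τ, hτM, hτB, hτf, e₁, -⟩ := S.exists_T_mem H hω
  have hIτ := (mem_isometryGroup_iff Q τ).mp (S.miso hτM)
  have hτe : (τ : Matrix ι ι F) *ᵥ e = e + (ω ^ 2 - 1) • cp D j e := by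
    have h1 : e = cp D j e + (e - cp D j e) := by abel
    conv_lhs => rw [h1, Matrix.mulVec_add, hτf (e - cp D j e) (cp_rest hQ B j e), e₁]
    module
  have he' := S.phi_bw he hτM hτB
  have hL := S.phi_lk he he' (hIτ e).symm
  have hd : e - (τ : Matrix ι ι F) *ᵥ e = (1 - ω ^ 2) • cp D j e := by
    rw [hτe]
    module
  have hP := hL.par (by rw [hd, hQ.smul, hjQ, mul_zero])
  rw [hd] at hP
  have hP2 := par_smul_centre hQ hjQ hP
  have hcr : cp D r ((1 - ω ^ 2) • (Q ((τ : Matrix ι ι F) *ᵥ e))⁻¹ • (τ : Matrix ι ι F) *ᵥ e) ≠ 0 := by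
    rw [cp_smul hQ B, cp_smul hQ B, hIτ, hτe, cp_add hQ B, cp_smul hQ B, cp_other hQ B hrj (cp_mem B j e), smul_zero,
      add_zero]
    refine smul_ne_zero (sub_ne_zero.mpr fun h => hω1 h.symm) (smul_ne_zero (inv_ne_zero hL.2.1) hr)
  obtain ⟨y, hy, hy0, hPy⟩ := S.par_to_block T hq hjQ (cp_mem B j e) hrj hP2 hcr
  exact S.g_pure T hsing hrj (cp_mem B j e) hj hjQ hy hy0 hPy

/-- The final step for hyperbolic members. -/
theorem Ctx2.main_plus {s' : F} (T : TD S.hQ D s') (hsing : ∀ i, ∃ p ∈ D i, p ≠ 0 ∧ Q p = 0)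
    (hq : ∃ ω : F, ω ≠ 0 ∧ ω ^ 2 ≠ 1) {e : ι → F} (he : Phi S.hQ D M e) (hnp : ∀ c, e ∉ D c) : omegaGL Q ≤ M := by
  have hQ := S.hQ
  have B := S.blk
  have h7 := S.t7
  -- three non-zero components
  have hthree : ∀ (e : ι → F) (j m r : Fin t), Phi hQ D M e → j ≠ m → r ≠ j → r ≠ m → cp D j e ≠ 0 → cp D m e ≠ 0 →
      cp D r e ≠ 0 → omegaGL Q ≤ M := by
    intro e j m r he hjm hrj hrm hj hm hr
    by_cases hns : ∀ i, cp D i e ≠ 0 → Q (cp D i e) ≠ 0
    · exact S.main_three T he hjm hrj hrm hns hj hm hr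
    · push Not at hns
      obtain ⟨i, hi, hiQ⟩ := hns
      by_cases hij : i = j
      · subst hij
        exact S.case_sing T hsing hq he (Ne.symm hjm) hi hiQ hm
      · exact S.case_sing T hsing hq he (Ne.symm hij) hi hiQ hj
  have he0 : e ≠ 0 := by
    rintro rfl
    exact hnp ⟨0, by omega⟩ (Submodule.zero_mem _)
  obtain ⟨j, hj⟩ : ∃ j, cp D j e ≠ 0 := by
    by_contra hcon
    push Not at hcon
    apply he0
    rw [← sum_cp B e]
    exact Finset.sum_eq_zero fun i _ => hcon i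
  obtain ⟨m, hmj, hm⟩ := exists_cp_ne hQ B (hnp j)
  by_cases hr : ∃ r, r ≠ j ∧ r ≠ m ∧ cp D r e ≠ 0
  · obtain ⟨r, h1, h2, h3⟩ := hr
    exact hthree e j m r he (Ne.symm hmj) h1 h2 hj hm h3
  · push Not at hr
    by_cases hjQ : Q (cp D j e) = 0
    · exact S.case_sing T hsing hq he hmj hj hjQ hm
    · obtain ⟨e', r, he', h1, h2, h3, h4, h5⟩ := S.growth T he (Ne.symm hmj) hjQ hm hr
      exact hthree e' j m r he' (Ne.symm hmj) h1 h2 h3 h4 h5

end Tools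

end Cfsg.Agent.Lib.Geo.Om2
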