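/-
Stabilisers of orthogonal decompositions in `Ω`, members of dimension two: hyperbolic members, elements outside the
stabiliser.
-/
import Cfsg.Agent.Lib.Geo.Om2G
set_option autoImplicit false

namespace Cfsg.Agent.Lib.Geo.Om2

open Cfsg Cfsg.Geo Cfsg.Agent.Lib.Geo.Basic Cfsg.Agent.Lib.Geo.Parabolic Cfsg.Agent.Lib.Geo.Centres
open Cfsg.Agent.Lib.Geo.Polar Cfsg.Agent.Lib.Geo.QForm
open Cfsg.Agent.Lib.GeoOmega.Basic Cfsg.Agent.Lib.GeoOmega.Eichler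
open Cfsg.Agent.Lib.GeoOmega.Levi (rf rf_mulVec rf_mem rf_mul_mem_omega rf_inv rf_conj)
open Cfsg.Agent.Lib.Geo.OmSub (Par Par.add Par.zero Par.neg Par.sub Par.conj Par.swap pol_sum_left eich_zero)
open Cfsg.Agent.Lib.Geo.SpDecomp (exists_comps mem_decompositionStabilizer_of_forall)
open Cfsg.Agent.Lib.Geo.OmDec
open Cfsg.Agent.Lib.Geo.OmB
open scoped MatrixGroups Matrix

variable {ι : Type} [Fintype ι] [DecidableEq ι] {F : Type*} [Field F]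
variable {Q : (ι → F) → F} {t : ℕ} {D : Fin t → Submodule F (ι → F)}

/-- A product of two reflections in vectors of the same norm with difference `d`. -/
theorem rf2_formula (hQ : IsNondegenerateQuadraticForm Q) {v d x : ι → F} {c : F} (hc : c ≠ 0) (hv : Q v = c)
    (hv' : Q (v - d) = c) (hxd : pol Q x d = 0) :
    ((rf hQ v * rf hQ (v - d) : GL ι F) : Matrix ι ι F) *ᵥ x =
      x + (c⁻¹ * pol Q x v) • d - (c⁻¹ * pol Q x v * (c⁻¹ * Q d)) • v := by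
  have hdv : pol Q v d = Q d := by
    have h1 : Q (v - d) = Q v + Q d - pol Q v d := Q_sub hQ v d
    rw [hv', hv] at h1
    linear_combination h1
  have hv'v : pol Q (v - d) v = 2 * c - Q d := by
    rw [pol_sub_left hQ, pol_self hQ, hv, pol_symm hQ d v, hdv]
  have hxv' : pol Q x (v - d) = pol Q x v := by
    rw [pol_sub_right hQ, hxd, sub_zero]
  rw [Units.val_mul, ← Matrix.mulVec_mulVec, rf_mulVec, rf_mulVec, hv, hv', hxv', pol_sub_left hQ, pol_smul_left hQ, hv'v]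
  obtain ⟨π, hπ⟩ : ∃ π, π = pol Q x v := ⟨_, rfl⟩
  rw [← hπ]
  have e1 : c⁻¹ * (π - c⁻¹ * π * (2 * c - Q d)) = -(c⁻¹ * π) + c⁻¹ * π * (c⁻¹ * Q d) := by
    field_simp
    ring
  rw [e1]
  module

section F1P

variable [Fintype F] {M : Subgroup (GL ι F)} (S : Ctx2 Q D M) {s₀ : F} (T : TD S.hQ D s₀)
include S

/-- Conjugating by a square rotation: the commutator is an Eichler transformation with centre in a member. -/
theorem Ctx2.par_of_sing {a b z s : ι → F} {o : Fin t} {α₁ α₂ ω : F} (hω : ω ≠ 0) (hL : Lk S.hQ M a b) (hs : s ∈ D o)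
    (hs0 : s ≠ 0) (hsQ : Q s = 0) (ha : cp D o a = α₁ • s) (hb : cp D o b = α₂ • s) (hsz : pol Q s z = 0)
    (haz : pol Q a z = (ω ^ 2 - 1) * α₁) (hbz : pol Q b z = (ω ^ 2 - 1) * α₂) :
    Par Q M s (z - ((rf S.hQ a * rf S.hQ b : GL ι F) : Matrix ι ι F) *ᵥ z) := by
  have hQ := S.hQ
  have B := S.blk
  obtain ⟨s', H⟩ := HP.of_sing hQ B hs hs0 hsQ
  obtain ⟨τ, hτM, hτB, hτf, e₁, -⟩ := S.exists_T_mem H hω
  have hτI := S.miso hτM
  obtain ⟨E, hE⟩ := exists_eich hQ hsQ hsz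
  obtain ⟨ρ, hρd⟩ : ∃ ρ, ρ = rf hQ a * rf hQ b := ⟨_, rfl⟩
  rw [← hρd]
  have hρM : ρ ∈ M := by
    rw [hρd]
    exact hL.2.2
  have hρI := S.miso hρM
  have hEI : E ∈ isometryGroup F Q := hE.mem_isometry hQ hsQ hsz
  have hsa : pol Q a s = 0 := by
    rw [pol_cp hQ B o a hs, ha, pol_smul_left hQ, pol_singular hQ hsQ, mul_zero]
  have hsb : pol Q b s = 0 := by
    rw [pol_cp hQ B o b hs, hb, pol_smul_left hQ, pol_singular hQ hsQ, mul_zero]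
  have hτv : ∀ (x : ι → F) (α : F), cp D o x = α • s → (τ : Matrix ι ι F) *ᵥ x = x + ((ω ^ 2 - 1) * α) • s := by
    intro x α hx
    have h1 : x = cp D o x + (x - cp D o x) := by abel
    conv_lhs => rw [h1, Matrix.mulVec_add, hτf (x - cp D o x) (cp_rest hQ B o x), hx, Matrix.mulVec_smul, e₁]
    module
  have hEa : (E : Matrix ι ι F) *ᵥ a = (τ : Matrix ι ι F) *ᵥ a := by
    rw [hE a, hsa, haz, hτv a α₁ ha]
    simp
  have hEb : (E : Matrix ι ι F) *ᵥ b = (τ : Matrix ι ι F) *ᵥ b := by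
    rw [hE b, hsb, hbz, hτv b α₂ hb]
    simp
  have hconj : τ * ρ * τ⁻¹ = E * ρ * E⁻¹ := by
    have h1 : ∀ g : GL ι F, g ∈ isometryGroup F Q → g * ρ * g⁻¹ = rf hQ ((g : Matrix ι ι F) *ᵥ a) * rf hQ ((g : Matrix ι ι F) *ᵥ b) := by
      intro g hg
      rw [← rf_conj hQ g hg, ← rf_conj hQ g hg, hρd]
      group
    rw [h1 τ hτI, h1 E hEI, hEa, hEb]
  have hρs : (ρ : Matrix ι ι F) *ᵥ s = s := by
    rw [hρd, Units.val_mul, ← Matrix.mulVec_mulVec, rf_mulVec hQ b s, pol_symm hQ s b, hsb, mul_zero, zero_smul, sub_zero,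
      rf_mulVec, pol_symm hQ s a, hsa, mul_zero, zero_smul, sub_zero]
  have hsρz : pol Q s ((ρ : Matrix ι ι F) *ᵥ z) = 0 := by
    have := pol_isometry ρ hρI s z
    rwa [hρs, hsz] at this
  have hsρz' : pol Q s (-(ρ : Matrix ι ι F) *ᵥ z) = 0 := by
    have h1 : -(ρ : Matrix ι ι F) *ᵥ z = (-1 : F) • (ρ : Matrix ι ι F) *ᵥ z := by
      rw [neg_smul, one_smul, Matrix.neg_mulVec]
    rw [h1, pol_smul_right hQ, hsρz, mul_zero]
  have hE' := hE.conj hρI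
  rw [hρs] at hE'
  obtain ⟨G, hG⟩ := exists_eich hQ hsQ hsρz'
  have h1 := hE'.mul hQ hG hsQ hsρz hsρz'
  have h0 : (ρ : Matrix ι ι F) *ᵥ z + -(ρ : Matrix ι ι F) *ᵥ z = 0 := by
    rw [Matrix.neg_mulVec]
    abel
  rw [h0] at h1
  have h2 := eich_zero hQ h1
  have hGe : G = ρ * E⁻¹ * ρ⁻¹ := by
    have h3 : G = (ρ * E * ρ⁻¹)⁻¹ := eq_inv_of_mul_eq_one_right h2
    rw [h3]
    group
  have h4 := hE.mul hQ hG hsQ hsz hsρz'
  have e : E * G = τ * ρ * τ⁻¹ * ρ⁻¹ := by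
    rw [hconj, hGe]
    group
  rw [e] at h4
  have hmem : τ * ρ * τ⁻¹ * ρ⁻¹ ∈ M := M.mul_mem (M.mul_mem (M.mul_mem hτM hρM) (M.inv_mem hτM)) (M.inv_mem hρM)
  have e2 : z + -(ρ : Matrix ι ι F) *ᵥ z = z - (ρ : Matrix ι ι F) *ᵥ z := by
    rw [Matrix.neg_mulVec, sub_eq_add_neg]
  rw [e2] at h4
  refine ⟨by rw [pol_sub_right hQ, hsz, hsρz, sub_zero], fun g hg => ?_⟩
  rw [Eich.unique' hg h4]
  exact hmem

include T

/-- A singular vector of a member orthogonal to the two vectors. -/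
theorem Ctx2.case2a (hsing : ∀ i, ∃ p ∈ D i, p ≠ 0 ∧ Q p = 0) (hq : ∃ ω : F, ω ≠ 0 ∧ ω ^ 2 ≠ 1) {u v s : ι → F} {o : Fin t}
    (hL : Lk S.hQ M u v) (hC1 : ∀ o, ∀ p' ∈ D o, Q p' ≠ 0 → pol Q p' u = 0 → pol Q p' v ≠ 0) (hs : s ∈ D o) (hs0 : s ≠ 0)
    (hsQ : Q s = 0) (hsu : pol Q s u = 0) (hsv : pol Q s v = 0) : omegaGL Q ≤ M := by
  have hQ := S.hQ
  have B := S.blk
  obtain ⟨ω, hω, hω1⟩ := id hq
  have hθ : ω ^ 2 - 1 ≠ 0 := sub_ne_zero.mpr hω1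
  have hcp : ∀ x, pol Q s x = 0 → ∃ α : F, cp D o x = α • s := fun x hx => by
    refine eq_smul_of_sing hQ B S.fin hs hs0 hsQ (cp_mem B o x) ?_
    rw [pol_symm hQ, ← pol_cp hQ B o x hs, pol_symm hQ]
    exact hx
  obtain ⟨α₁, hα₁⟩ := hcp u hsu
  obtain ⟨α₂, hα₂⟩ := hcp v hsv
  -- the two coefficients do not both vanish
  have hαne : α₁ ≠ 0 ∨ α₂ ≠ 0 := by
    by_contra hcon
    push Not at hcon
    obtain ⟨s', H⟩ := HP.of_sing hQ B hs hs0 hsQ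
    have h1 : Q (s + s') ≠ 0 := by
      have := H.Q_comb hQ 1 1
      simp only [one_smul, mul_one] at this
      rw [this]
      exact one_ne_zero
    have hmem : s + s' ∈ D o := (D o).add_mem H.hs H.hs'
    refine hC1 o _ hmem h1 ?_ ?_
    · rw [pol_symm hQ, pol_cp hQ B o u hmem, hα₁, hcon.1, zero_smul, pol_zero_left hQ]
    · rw [pol_symm hQ, pol_cp hQ B o v hmem, hα₂, hcon.2, zero_smul, pol_zero_left hQ]
  -- a member on which the two vectors are independent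
  have hex : ∃ l, ∀ p' ∈ D l, p' ≠ 0 → pol Q p' u = 0 → pol Q p' v ≠ 0 := by
    by_contra hcon
    push Not at hcon
    apply hL.2.1
    rw [Q_eq_sum hQ B]
    refine Finset.sum_eq_zero fun l _ => ?_
    obtain ⟨p', hp', hp'0, h1, h2⟩ := hcon l
    have hp'Q : Q p' = 0 := by
      by_contra h3
      exact hC1 l p' hp' h3 h1 h2
    obtain ⟨c, hc⟩ := eq_smul_of_sing hQ B S.fin hp' hp'0 hp'Q (cp_mem B l u) (by
      rw [pol_symm hQ, ← pol_cp hQ B l u hp', pol_symm hQ]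
      exact h1)
    rw [hc, hQ.smul, hp'Q, mul_zero]
  obtain ⟨l, hl⟩ := hex
  have hlo : l ≠ o := by
    rintro rfl
    exact hl s hs hs0 hsu hsv
  obtain ⟨p₁, hp₁, hp₁0, hp₁u⟩ := S.exists_cut_ne l u
  obtain ⟨p₂, hp₂, hp₂0, hp₂v⟩ := S.exists_cut_ne l v
  have hp₁v := hl p₁ hp₁ hp₁0 hp₁u
  have hp₂u : pol Q p₂ u ≠ 0 := fun h => hl p₂ hp₂ hp₂0 h hp₂v
  obtain ⟨A, hA⟩ : ∃ A, A = (ω ^ 2 - 1) * α₁ := ⟨_, rfl⟩
  obtain ⟨A', hA'⟩ : ∃ A', A' = (ω ^ 2 - 1) * α₂ := ⟨_, rfl⟩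
  obtain ⟨z, hzd⟩ : ∃ z, z = (A / pol Q p₂ u) • p₂ + (A' / pol Q p₁ v) • p₁ := ⟨_, rfl⟩
  have hzD : z ∈ D l := by
    rw [hzd]
    exact (D l).add_mem ((D l).smul_mem _ hp₂) ((D l).smul_mem _ hp₁)
  have huz : pol Q u z = A := by
    rw [hzd, pol_add_right hQ, pol_smul_right hQ, pol_smul_right hQ, pol_symm hQ u p₂, pol_symm hQ u p₁, hp₁u]
    field_simp
    ring
  have hvz : pol Q v z = A' := by
    rw [hzd, pol_add_right hQ, pol_smul_right hQ, pol_smul_right hQ, pol_symm hQ v p₂, pol_symm hQ v p₁, hp₂v]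
    field_simp
    ring
  have hsz : pol Q s z = 0 := B.orth o l (Ne.symm hlo) s hs z hzD
  have hP := S.par_of_sing hω hL hs hs0 hsQ hα₁ hα₂ hsz (by rw [huz, hA]) (by rw [hvz, hA'])
  obtain ⟨c, hc⟩ : ∃ c, c = Q u := ⟨_, rfl⟩
  have hc0 : c ≠ 0 := by
    rw [hc]
    exact hL.2.1
  have hvQ : Q v = c := by rw [← hL.1, hc]
  obtain ⟨C₂, hC₂⟩ : ∃ C₂, C₂ = c⁻¹ * A' := ⟨_, rfl⟩
  obtain ⟨C₁, hC₁⟩ : ∃ C₁, C₁ = c⁻¹ * (A - C₂ * pol Q v u) := ⟨_, rfl⟩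
  have hy₀ : z - ((rf hQ u * rf hQ v : GL ι F) : Matrix ι ι F) *ᵥ z = C₂ • v + C₁ • u := by
    rw [Units.val_mul, ← Matrix.mulVec_mulVec, rf_mulVec hQ v z, rf_mulVec, hvQ, ← hc, pol_symm hQ z v, hvz, ← hC₂,
      pol_sub_left hQ, pol_smul_left hQ, pol_symm hQ z u, huz, ← hC₁]
    abel
  rw [hy₀] at hP
  have hlc : cp D l (C₂ • v + C₁ • u) ≠ 0 := by
    rw [cp_add hQ B, cp_smul hQ B, cp_smul hQ B]
    intro h0
    have h1 : pol Q p₁ (C₂ • cp D l v + C₁ • cp D l u) = C₂ * pol Q p₁ v := by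
      rw [pol_add_right hQ, pol_smul_right hQ, pol_smul_right hQ, pol_symm hQ p₁, ← pol_cp hQ B l v hp₁,
        pol_symm hQ p₁, ← pol_cp hQ B l u hp₁, pol_symm hQ u, hp₁u, pol_symm hQ v]
      ring
    have h2 : pol Q p₂ (C₂ • cp D l v + C₁ • cp D l u) = C₁ * pol Q p₂ u := by
      rw [pol_add_right hQ, pol_smul_right hQ, pol_smul_right hQ, pol_symm hQ p₂, ← pol_cp hQ B l v hp₂,
        pol_symm hQ p₂, ← pol_cp hQ B l u hp₂, pol_symm hQ v, hp₂v, pol_symm hQ u]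
      ring
    rw [h0, pol_zero_right hQ] at h1 h2
    have h3 : C₂ = 0 := (mul_eq_zero.mp h1.symm).resolve_right hp₁v
    have h4 : C₁ = 0 := (mul_eq_zero.mp h2.symm).resolve_right hp₂u
    have h5 : A' = 0 := by
      rw [hC₂] at h3
      exact (mul_eq_zero.mp h3).resolve_left (inv_ne_zero hc0)
    have h6 : A = 0 := by
      rw [hC₁, h3, zero_mul, sub_zero] at h4
      exact (mul_eq_zero.mp h4).resolve_left (inv_ne_zero hc0)
    rw [hA] at h6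
    rw [hA'] at h5
    rcases hαne with h7 | h7
    · exact (mul_ne_zero hθ h7) h6
    · exact (mul_ne_zero hθ h7) h5
  obtain ⟨y, hy, hy0, hPy⟩ := S.par_to_block T hq hsQ hs hlo hP hlc
  exact S.g_pure T hsing hlo hs hs0 hsQ hy hy0 hPy

/-- The last case: the two vectors are independent on each member. -/
theorem Ctx2.case3_core (hsing : ∀ i, ∃ p ∈ D i, p ≠ 0 ∧ Q p = 0) (hq : ∃ ω : F, ω ≠ 0 ∧ ω ^ 2 ≠ 1) {u v b b' : ι → F}
    {i m : Fin t} (hL : Lk S.hQ M u v) (hC3 : ∀ o, ∀ p' ∈ D o, p' ≠ 0 → pol Q p' u = 0 → pol Q p' v ≠ 0) (him : i ≠ m)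
    (hb : b ∈ D i) (hb' : b' ∈ D m) (hb0 : b ≠ 0) (hb'0 : b' ≠ 0) (hbQ : Q b ≠ 0) (hb'Q : Q b' ≠ 0) (hbu : pol Q b u = 0)
    (hb'u : pol Q b' u = 0) (hsq : IsSquare (Q b * Q b')) :
    omegaGL Q ≤ M ∨ ∃ e, Phi S.hQ D M e ∧ ∀ c, e ∉ D c := by
  have hQ := S.hQ
  have B := S.blk
  have hv_cp : ∀ l, cp D l v ≠ 0 := fun l h0 => by
    obtain ⟨x, hx, hx0, hxu⟩ := S.exists_cut_ne l u
    apply hC3 l x hx hx0 hxu
    rw [pol_symm hQ, pol_cp hQ B l v hx, h0, pol_zero_left hQ]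
  have hbv := hC3 i b hb hb0 hbu
  have hb'v := hC3 m b' hb' hb'0 hb'u
  have hτO := rf_mul_mem_omega_sq hQ S.card7 hbQ hb'Q hsq
  have hτB : Bw D (rf hQ b * rf hQ b') := (S.bw_rf hb).mul (S.bw_rf hb')
  have hτM := S.mem_bw hτO hτB
  have hτu : ((rf hQ b * rf hQ b' : GL ι F) : Matrix ι ι F) *ᵥ u = u := by
    rw [Units.val_mul, ← Matrix.mulVec_mulVec, rf_mulVec, rf_mulVec, pol_symm hQ u b', hb'u, mul_zero, zero_smul,
      sub_zero, pol_symm hQ u b, hbu, mul_zero, zero_smul, sub_zero]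
  have hL' := hL.move hτM (S.miso hτM) hτu
  obtain ⟨κ₁, hκ₁⟩ : ∃ κ₁, κ₁ = (Q b)⁻¹ * pol Q v b := ⟨_, rfl⟩
  obtain ⟨κ₂, hκ₂⟩ : ∃ κ₂, κ₂ = (Q b')⁻¹ * pol Q v b' := ⟨_, rfl⟩
  have hκ₁0 : κ₁ ≠ 0 := by
    rw [hκ₁, pol_symm hQ]
    exact mul_ne_zero (inv_ne_zero hbQ) hbv
  obtain ⟨d, hd⟩ : ∃ d, d = κ₁ • b + κ₂ • b' := ⟨_, rfl⟩
  have hτv : ((rf hQ b * rf hQ b' : GL ι F) : Matrix ι ι F) *ᵥ v = v - d := by
    rw [Units.val_mul, ← Matrix.mulVec_mulVec, rf_mulVec, rf_mulVec, pol_sub_left hQ, pol_smul_left hQ,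
      B.orth m i (Ne.symm him) b' hb' b hb, mul_zero, sub_zero, ← hκ₁, ← hκ₂, hd]
    abel
  rw [hτv] at hL'
  obtain ⟨o, ho1, ho2, -⟩ := S.exists_ne3 i m m
  obtain ⟨l₁, hl₁1, hl₁2, hl₁3⟩ := S.exists_ne3 i m o
  obtain ⟨l₂, hl₂1, hl₂2, hl₂3, hl₂4⟩ := S.exists_ne4 i m o l₁
  have hdcp : ∀ l, l ≠ i → l ≠ m → cp D l d = 0 := fun l h1 h2 => by
    rw [hd]
    exact cp_two hQ B ((D i).smul_mem _ hb) ((D m).smul_mem _ hb') h1 h2
  have hdD : ∀ l, l ≠ i → l ≠ m → ∀ x ∈ D l, pol Q x d = 0 := fun l h1 h2 x hx => by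
    rw [pol_symm hQ]
    exact pol_eq_zero_of_cp hQ B (hdcp l h1 h2) hx
  obtain ⟨c, hcd⟩ : ∃ c, c = Q v := ⟨_, rfl⟩
  have hc0 : c ≠ 0 := by
    rw [hcd, ← hL.1]
    exact hL.2.1
  have hv'Q : Q (v - d) = c := by rw [← hL'.1, hcd]
  have hvQ : Q v = c := hcd.symm
  have hρ'M : rf hQ v * rf hQ (v - d) ∈ M := hL'.2.2
  have hform := fun x hx => rf2_formula hQ (x := x) hc0 hvQ hv'Q hx
  obtain ⟨p', hp', hp'0, hp'v⟩ := S.exists_cut_ne o v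
  -- the component of `d`
  have hcomp_i : ∀ κ : F, κ ≠ 0 → cp D i (κ • d) ≠ 0 := fun κ hκ => by
    rw [cp_smul hQ B, hd, cp_add hQ B, cp_smul hQ B, cp_smul hQ B, cp_self hQ B hb, cp_other hQ B him hb', smul_zero,
      add_zero, smul_smul]
    exact smul_ne_zero (mul_ne_zero hκ hκ₁0) hb0
  by_cases hp'Q : Q p' = 0
  · -- singular component
    left
    obtain ⟨α, hα⟩ := eq_smul_of_sing hQ B S.fin hp' hp'0 hp'Q (cp_mem B o v) (by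
      rw [pol_symm hQ, ← pol_cp hQ B o v hp', pol_symm hQ]
      exact hp'v)
    obtain ⟨s₁, hs₁⟩ : ∃ s₁, s₁ = cp D o v := ⟨_, rfl⟩
    have hs₁D : s₁ ∈ D o := by
      rw [hs₁]
      exact cp_mem B o v
    have hs₁0 : s₁ ≠ 0 := by
      rw [hs₁]
      exact hv_cp o
    have hs₁Q : Q s₁ = 0 := by
      rw [hs₁, hα, hQ.smul, hp'Q, mul_zero]
    obtain ⟨ω, hω, hω1⟩ := id hq
    have hθ : ω ^ 2 - 1 ≠ 0 := sub_ne_zero.mpr hω1
    obtain ⟨y, hy, hne⟩ := (B.nd l₁ _ (cp_mem B l₁ v) (hv_cp l₁)).2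
    change pol Q (cp D l₁ v) y ≠ 0 at hne
    have hvy : pol Q v y ≠ 0 := by
      rw [pol_cp hQ B l₁ v hy]
      exact hne
    obtain ⟨z, hzd⟩ : ∃ z, z = ((ω ^ 2 - 1) / pol Q v y) • y := ⟨_, rfl⟩
    have hzD : z ∈ D l₁ := by
      rw [hzd]
      exact (D l₁).smul_mem _ hy
    have hvz : pol Q v z = (ω ^ 2 - 1) * 1 := by
      rw [hzd, pol_smul_right hQ]
      field_simp
    have hzd0 : pol Q z d = 0 := hdD l₁ hl₁1 hl₁2 z hzD
    have hv'z : pol Q (v - d) z = (ω ^ 2 - 1) * 1 := by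
      rw [pol_sub_left hQ, hvz, pol_symm hQ d z, hzd0, sub_zero]
    have hsz : pol Q s₁ z = 0 := B.orth o l₁ (Ne.symm hl₁3) s₁ hs₁D z hzD
    have hc1 : cp D o v = (1 : F) • s₁ := by rw [one_smul, hs₁]
    have hc2 : cp D o (v - d) = (1 : F) • s₁ := by
      rw [cp_sub hQ B, hdcp o ho1 ho2, sub_zero, one_smul, hs₁]
    have hP := S.par_of_sing hω hL' hs₁D hs₁0 hs₁Q hc1 hc2 hsz hvz hv'z
    rw [hform z hzd0] at hP
    obtain ⟨κ, hκ⟩ : ∃ κ, κ = c⁻¹ * pol Q z v := ⟨_, rfl⟩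
    have hzv : pol Q z v ≠ 0 := by
      rw [pol_symm hQ, hvz, mul_one]
      exact hθ
    have hκ0 : κ ≠ 0 := by
      rw [hκ]
      exact mul_ne_zero (inv_ne_zero hc0) hzv
    rw [← hκ] at hP
    obtain ⟨η, hη⟩ : ∃ η, η = κ * (c⁻¹ * Q d) := ⟨_, rfl⟩
    rw [← hη] at hP
    have e : z - (z + κ • d - η • v) = η • v + (-κ) • d := by
      module
    rw [e] at hP
    by_cases hQd : Q d = 0
    · have hη0 : η = 0 := by
        rw [hη, hQd]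
        ring
      have hcc : cp D i (η • v + (-κ) • d) ≠ 0 := by
        rw [hη0, zero_smul, zero_add]
        exact hcomp_i _ (neg_ne_zero.mpr hκ0)
      obtain ⟨y', hy', hy'0, hPy⟩ := S.par_to_block T hq hs₁Q hs₁D (Ne.symm ho1) hP hcc
      exact S.g_pure T hsing (Ne.symm ho1) hs₁D hs₁0 hs₁Q hy' hy'0 hPy
    · have hη0 : η ≠ 0 := by
        rw [hη]
        exact mul_ne_zero hκ0 (mul_ne_zero (inv_ne_zero hc0) hQd)
      have hcc : cp D l₂ (η • v + (-κ) • d) ≠ 0 := by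
        rw [cp_add hQ B, cp_smul hQ B, cp_smul hQ B, hdcp l₂ hl₂1 hl₂2, smul_zero, add_zero]
        exact smul_ne_zero hη0 (hv_cp l₂)
      obtain ⟨y', hy', hy'0, hPy⟩ := S.par_to_block T hq hs₁Q hs₁D hl₂3 hP hcc
      exact S.g_pure T hsing hl₂3 hs₁D hs₁0 hs₁Q hy' hy'0 hPy
  · right
    obtain ⟨p, hp, hpQ, hp'p, hpc⟩ := T.v3 hp' hp'Q
    obtain ⟨π, hπd⟩ : ∃ π, π = pol Q p v := ⟨_, rfl⟩
    have hπ0 : π ≠ 0 := by
      rw [hπd]
      intro h0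
      apply hv_cp o
      apply eq_zero_of_mem hQ B (cp_mem B o v)
      intro y hy
      obtain ⟨α, β, e⟩ := span2 S.fin hp' hp hp'0 hpc hy
      rw [pol_symm hQ, ← pol_cp hQ B o v hy, pol_symm hQ, e, pol_add_left hQ, pol_smul_left hQ, pol_smul_left hQ,
        hp'v, h0]
      ring
    have hρ'p' : ((rf hQ v * rf hQ (v - d) : GL ι F) : Matrix ι ι F) *ᵥ p' = p' := by
      rw [hform p' (hdD o ho1 ho2 p' hp'), hp'v]
      simp
    have hphi : Phi hQ D M (((rf hQ v * rf hQ (v - d) : GL ι F) : Matrix ι ι F) *ᵥ p) := by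
      have h1 := (S.lk_pure hp hp' hpQ (by rw [hpQ]; exact hp'Q)).conj hρ'M (S.miso hρ'M)
      rw [hρ'p'] at h1
      exact ⟨o, p', hp', h1⟩
    refine ⟨_, hphi, ?_⟩
    rw [hform p (hdD o ho1 ho2 p hp), ← hπd]
    obtain ⟨κ, hκ⟩ : ∃ κ, κ = c⁻¹ * π := ⟨_, rfl⟩
    have hκ0 : κ ≠ 0 := by
      rw [hκ]
      exact mul_ne_zero (inv_ne_zero hc0) hπ0
    rw [← hκ]
    obtain ⟨η, hη⟩ : ∃ η, η = κ * (c⁻¹ * Q d) := ⟨_, rfl⟩
    rw [← hη]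
    have hcpe : ∀ l, cp D l (p + κ • d - η • v) = cp D l p + κ • cp D l d - η • cp D l v := fun l => by
      rw [cp_sub hQ B, cp_add hQ B, cp_smul hQ B, cp_smul hQ B]
    by_cases hQd : Q d = 0
    · have hη0 : η = 0 := by
        rw [hη, hQd]
        ring
      have h1 : cp D o (p + κ • d - η • v) ≠ 0 := by
        rw [hcpe, hη0, zero_smul, sub_zero, hdcp o ho1 ho2, smul_zero, add_zero, cp_self hQ B hp]
        intro h0
        apply hp'Q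
        rw [← hpQ, h0, Q_zero hQ]
      have h2 : cp D i (p + κ • d - η • v) ≠ 0 := by
        rw [hcpe, hη0, zero_smul, sub_zero, cp_other hQ B (Ne.symm ho1) hp, zero_add, ← cp_smul hQ B]
        exact hcomp_i κ hκ0
      exact not_mem_of_two hQ B ho1 h1 h2
    · have hη0 : η ≠ 0 := by
        rw [hη]
        exact mul_ne_zero hκ0 (mul_ne_zero (inv_ne_zero hc0) hQd)
      have hl : ∀ l, l ≠ i → l ≠ m → l ≠ o → cp D l (p + κ • d - η • v) ≠ 0 := fun l h1 h2 h3 => by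
        rw [hcpe, cp_other hQ B h3 hp, hdcp l h1 h2, smul_zero, add_zero, zero_sub]
        exact neg_ne_zero.mpr (smul_ne_zero hη0 (hv_cp l))
      exact not_mem_of_two hQ B (Ne.symm hl₂4) (hl l₁ hl₁1 hl₁2 hl₁3) (hl l₂ hl₂1 hl₂2 hl₂3)

omit T in
/-- A vector with three non-singular components. -/
theorem Ctx2.exists_three (hq : 7 ≤ Fintype.card F) {f₁ f₂ : ι → F}
    (hC : ∀ o, ∀ p' ∈ D o, p' ≠ 0 → pol Q p' f₁ = 0 → pol Q p' f₂ ≠ 0) :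
    ∃ ξ : F, ξ ≠ 0 ∧ ∃ l₁ l₂ l₃, l₁ ≠ l₂ ∧ l₁ ≠ l₃ ∧ l₂ ≠ l₃ ∧ Q (cp D l₁ (f₁ + ξ • f₂)) ≠ 0 ∧
      Q (cp D l₂ (f₁ + ξ • f₂)) ≠ 0 ∧ Q (cp D l₃ (f₁ + ξ • f₂)) ≠ 0 := by
  classical
  have hQ := S.hQ
  have B := S.blk
  have h7 := S.t7
  obtain ⟨ξ₂, h20, h21, -, -⟩ := exists_avoid hq (0 : F) (0 : F)
  obtain ⟨ξ₃, h30, h31, h32, -⟩ := exists_avoid hq ξ₂ (0 : F)
  obtain ⟨G, hG⟩ : ∃ G : F → Finset (Fin t), G = fun ξ => Finset.univ.filter (fun l => Q (cp D l (f₁ + ξ • f₂)) ≠ 0) :=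
    ⟨_, rfl⟩
  have hmem : ∀ ξ l, l ∈ G ξ ↔ Q (cp D l (f₁ + ξ • f₂)) ≠ 0 := fun ξ l => by
    rw [hG]
    simp
  have hgood : ∀ ξ : F, ξ ≠ 0 → 2 < (G ξ).card → ∃ ξ : F, ξ ≠ 0 ∧ ∃ l₁ l₂ l₃, l₁ ≠ l₂ ∧ l₁ ≠ l₃ ∧ l₂ ≠ l₃ ∧
      Q (cp D l₁ (f₁ + ξ • f₂)) ≠ 0 ∧ Q (cp D l₂ (f₁ + ξ • f₂)) ≠ 0 ∧ Q (cp D l₃ (f₁ + ξ • f₂)) ≠ 0 := by
    intro ξ hξ h
    obtain ⟨a, ha, b, hb, c, hc, hab, hac, hbc⟩ := Finset.two_lt_card.mp h
    exact ⟨ξ, hξ, a, b, c, hab, hac, hbc, (hmem ξ a).mp ha, (hmem ξ b).mp hb, (hmem ξ c).mp hc⟩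
  by_cases h1 : 2 < (G 1).card
  · exact hgood 1 one_ne_zero h1
  by_cases h2 : 2 < (G ξ₂).card
  · exact hgood ξ₂ h20 h2
  by_cases h3 : 2 < (G ξ₃).card
  · exact hgood ξ₃ h30 h3
  exfalso
  have hcard : (G 1 ∪ G ξ₂ ∪ G ξ₃).card < t := by
    have h4 := Finset.card_union_le (G 1 ∪ G ξ₂) (G ξ₃)
    have h5 := Finset.card_union_le (G 1) (G ξ₂)
    omega
  obtain ⟨l, hl⟩ := S.exists_ne _ hcard
  simp only [Finset.mem_union, not_or, hmem, not_not] at hl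
  obtain ⟨⟨hl1, hl2⟩, hl3⟩ := hl
  obtain ⟨x, hx⟩ : ∃ x, x = cp D l f₁ := ⟨_, rfl⟩
  obtain ⟨x', hx'⟩ : ∃ x', x' = cp D l f₂ := ⟨_, rfl⟩
  have hxD : x ∈ D l := by
    rw [hx]
    exact cp_mem B l f₁
  have hx'D : x' ∈ D l := by
    rw [hx']
    exact cp_mem B l f₂
  have hform : ∀ ξ : F, Q (cp D l (f₁ + ξ • f₂)) = Q x + ξ ^ 2 * Q x' + ξ * pol Q x x' := fun ξ => by
    rw [cp_add hQ B, cp_smul hQ B, ← hx, ← hx', Q_add hQ, hQ.smul, pol_smul_right hQ]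
  rw [hform] at hl1 hl2 hl3
  have h21' : 1 - ξ₂ ≠ 0 := fun h => h21 (by linear_combination -h)
  have h31' : 1 - ξ₃ ≠ 0 := fun h => h31 (by linear_combination -h)
  have h32' : ξ₂ - ξ₃ ≠ 0 := fun h => h32 (by linear_combination -h)
  have e1 : (1 + ξ₂) * Q x' + pol Q x x' = 0 := by
    apply mul_left_cancel₀ h21'
    linear_combination hl1 - hl2
  have e2 : (1 + ξ₃) * Q x' + pol Q x x' = 0 := by
    apply mul_left_cancel₀ h31'
    linear_combination hl1 - hl3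
  have hB : Q x' = 0 := by
    apply mul_left_cancel₀ h32'
    linear_combination e1 - e2
  have hC' : pol Q x x' = 0 := by
    rw [hB] at e1
    linear_combination e1
  have hA : Q x = 0 := by
    rw [hB, hC'] at hl1
    linear_combination hl1
  have hpf : ∀ p' ∈ D l, pol Q p' f₁ = pol Q p' x ∧ pol Q p' f₂ = pol Q p' x' := fun p' hp' => by
    rw [hx, hx', pol_symm hQ p' f₁, pol_cp hQ B l f₁ hp', pol_symm hQ p' f₂, pol_cp hQ B l f₂ hp', pol_symm hQ _ p',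
      pol_symm hQ _ p']
    exact ⟨rfl, rfl⟩
  by_cases hx0 : x = 0
  · by_cases hx'0 : x' = 0
    · obtain ⟨p', hp', hp'0⟩ := S.exists_ne_zero l
      refine hC l p' hp' hp'0 ?_ ?_
      · rw [(hpf p' hp').1, hx0, pol_zero_right hQ]
      · rw [(hpf p' hp').2, hx'0, pol_zero_right hQ]
    · refine hC l x' hx'D hx'0 ?_ ?_
      · rw [(hpf x' hx'D).1, hx0, pol_zero_right hQ]
      · rw [(hpf x' hx'D).2, pol_singular hQ hB]
  · refine hC l x hxD hx0 ?_ ?_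
    · rw [(hpf x hxD).1, pol_singular hQ hA]
    · rw [(hpf x hxD).2, hC']

/-- The first elements of the proof for hyperbolic members. -/
theorem Ctx2.exists_phi_plus (hsing : ∀ i, ∃ p ∈ D i, p ≠ 0 ∧ Q p = 0) (hq7 : 7 ≤ Fintype.card F) {g : GL ι F} (hg : g ∈ M)
    (hgs : g ∉ decompositionStabilizer D) : omegaGL Q ≤ M ∨ ∃ e, Phi S.hQ D M e ∧ ∀ c, e ∉ D c := by
  have hQ := S.hQ
  have B := S.blk
  have hq : ∃ ω : F, ω ≠ 0 ∧ ω ^ 2 ≠ 1 := by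
    obtain ⟨p, h0, -, -, h1⟩ := exists_avoid hq7 (0 : F) (1 : F)
    exact ⟨p, h0, h1⟩
  obtain ⟨k, hk⟩ := S.exists_not_block hgs
  obtain ⟨f, f', H⟩ := exists_HP_of hQ B hsing k
  have hgI := S.miso hg
  have hgq := (mem_isometryGroup_iff Q g).mp hgI
  have hginj : ∀ x, (g : Matrix ι ι F) *ᵥ x = 0 → x = 0 := fun x hx => by
    have := inv_mulVec_mulVec g x
    rw [hx] at this
    simpa using this.symm
  -- general setting for two vectors of the same norm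
  have hsetup : ∀ z₁ ∈ D k, Q z₁ ≠ 0 → ∃ z₂ ∈ D k, Q z₂ = Q z₁ ∧ pol Q z₁ z₂ = s₀ * Q z₁ ∧ (∀ c : F, z₂ ≠ c • z₁) ∧
      Lk hQ M ((g : Matrix ι ι F) *ᵥ z₁) ((g : Matrix ι ι F) *ᵥ z₂) := by
    intro z₁ hz₁ hz₁Q
    obtain ⟨z₂, hz₂, hz₂Q, hz₁₂, hz₂c⟩ := T.v3 hz₁ hz₁Q
    exact ⟨z₂, hz₂, hz₂Q, hz₁₂, hz₂c, (S.lk_pure hz₁ hz₂ hz₂Q.symm hz₁Q).conj hg hgI⟩
  have hz₁D : f + f' ∈ D k := (D k).add_mem H.hs H.hs'
  have hz₁Q : Q (f + f') ≠ 0 := by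
    have := H.Q_comb hQ 1 1
    simp only [one_smul, mul_one] at this
    rw [this]
    exact one_ne_zero
  obtain ⟨z₂, hz₂, hz₂Q, hz₁₂, hz₂c, hL⟩ := hsetup _ hz₁D hz₁Q
  obtain ⟨z₁, hz₁e⟩ : ∃ z₁, z₁ = f + f' := ⟨_, rfl⟩
  rw [← hz₁e] at hz₂Q hz₁₂ hz₂c hL hz₁D hz₁Q
  obtain ⟨u, hu⟩ : ∃ u, u = (g : Matrix ι ι F) *ᵥ z₁ := ⟨_, rfl⟩
  obtain ⟨v, hv⟩ : ∃ v, v = (g : Matrix ι ι F) *ᵥ z₂ := ⟨_, rfl⟩
  rw [← hu, ← hv] at hL
  obtain ⟨c, hcd⟩ : ∃ c, c = Q z₁ := ⟨_, rfl⟩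
  rw [← hcd] at hz₂Q hz₁₂
  rw [← hcd] at hz₁Q
  have huQ : Q u = c := by rw [hu, hgq, hcd]
  have hvQ : Q v = c := by rw [hv, hgq, hz₂Q]
  have huv : pol Q u v = s₀ * c := by rw [hu, hv, pol_isometry g hgI, hz₁₂]
  have hvu : pol Q v u = s₀ * c := by rw [pol_symm hQ, huv]
  obtain ⟨W, hWd⟩ : ∃ W, W = (D k).map (Matrix.toLin' (g : Matrix ι ι F)) := ⟨_, rfl⟩
  have huW : u ∈ W := by
    rw [hWd, hu]
    exact ⟨z₁, hz₁D, Matrix.toLin'_apply _ _⟩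
  have hvW : v ∈ W := by
    rw [hWd, hv]
    exact ⟨z₂, hz₂, Matrix.toLin'_apply _ _⟩
  have hWfin : Module.finrank F W = 2 := by
    rw [hWd, finrank_map_toLin', S.fin]
  have hWne : ∀ a, W ≠ D a := fun a => by
    rw [hWd]
    exact hk a
  by_cases hC1 : ∃ o, ∃ p' ∈ D o, Q p' ≠ 0 ∧ pol Q p' u = 0 ∧ pol Q p' v = 0
  · right
    obtain ⟨o, p', hp', hp'Q, h1, h2⟩ := hC1
    obtain ⟨ρ, hρd⟩ : ∃ ρ, ρ = rf hQ u * rf hQ v := ⟨_, rfl⟩
    have hρM : ρ ∈ M := by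
      rw [hρd]
      exact hL.2.2
    have hρa : ∀ x, (ρ : Matrix ι ι F) *ᵥ x = x - ((Q v)⁻¹ * pol Q x v) • v -
        ((Q u)⁻¹ * pol Q (x - ((Q v)⁻¹ * pol Q x v) • v) u) • u := fun x => by
      rw [hρd, Units.val_mul, ← Matrix.mulVec_mulVec, rf_mulVec, rf_mulVec]
    have hW : ∀ x, (ρ : Matrix ι ι F) *ᵥ x - x ∈ W := fun x => by
      rw [hρa]
      have : x - ((Q v)⁻¹ * pol Q x v) • v - ((Q u)⁻¹ * pol Q (x - ((Q v)⁻¹ * pol Q x v) • v) u) • u - x =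
          -(((Q v)⁻¹ * pol Q x v) • v) - ((Q u)⁻¹ * pol Q (x - ((Q v)⁻¹ * pol Q x v) • v) u) • u := by abel
      rw [this]
      exact W.sub_mem (W.neg_mem (W.smul_mem _ hvW)) (W.smul_mem _ huW)
    have hc0 : c ≠ 0 := hz₁Q
    have hs0 := T.s0
    have hρu : (ρ : Matrix ι ι F) *ᵥ u = (s₀ ^ 2 - 1) • u - s₀ • v := by
      rw [hρa, pol_sub_left hQ, pol_smul_left hQ, huv, hvu, hvQ, huQ, pol_self hQ, huQ]
      have e1 : c⁻¹ * (s₀ * c) = s₀ := by field_simp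
      rw [e1, show c⁻¹ * (2 * c - s₀ * (s₀ * c)) = 2 - s₀ ^ 2 by
        field_simp]
      module
    have hρv : (ρ : Matrix ι ι F) *ᵥ v = s₀ • u - v := by
      rw [hρa, pol_sub_left hQ, pol_smul_left hQ, pol_self hQ, hvu, hvQ, huQ]
      have e1 : c⁻¹ * (2 * c) = 2 := by field_simp
      have e2 : c⁻¹ * (s₀ * c - 2 * (s₀ * c)) = -s₀ := by
        field_simp
        ring
      rw [e1, e2]
      module
    have hne : (ρ : Matrix ι ι F) *ᵥ ((ρ : Matrix ι ι F) *ᵥ u) ≠ u := by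
      intro h
      rw [hρu, Matrix.mulVec_sub, Matrix.mulVec_smul, Matrix.mulVec_smul, hρu, hρv] at h
      have h1 : ((s₀ ^ 2 - 1) ^ 2 - s₀ ^ 2 - 1) • u + (s₀ * (2 - s₀ ^ 2)) • v = 0 := by
        rw [← sub_eq_zero] at h
        rw [← h]
        module
      have hind : ∀ a b : F, a • u + b • v = 0 → b = 0 := by
        intro a b hab
        by_contra hb
        apply hz₂c (-a / b)
        apply sub_eq_zero.mp
        apply hginj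
        rw [Matrix.mulVec_sub, Matrix.mulVec_smul, ← hu, ← hv]
        have h3 : b • v = (-a) • u := by
          have := eq_neg_of_add_eq_zero_right hab
          rw [this, neg_smul]
        calc v - (-a / b) • u = b⁻¹ • (b • v - (-a) • u) := by
              rw [smul_sub, smul_smul, inv_mul_cancel₀ hb, one_smul, smul_smul]
              congr 2
              field_simp
          _ = 0 := by rw [h3, sub_self, smul_zero]
      have h2 := hind _ _ h1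
      have h3 : s₀ ^ 2 = 2 := by
        have := (mul_eq_zero.mp h2).resolve_left hs0
        linear_combination -this
      rw [h2, zero_smul, add_zero, h3] at h1
      have h4 : (-2 : F) • u = 0 := by
        rw [← h1]
        congr 1
        ring
      have hu0 : u ≠ 0 := fun h0 => hc0 (by rw [← huQ, h0, Q_zero hQ])
      have h5 := (smul_eq_zero.mp h4).resolve_right hu0
      have h6 : (2 : F) = 0 := by linear_combination -h5
      rw [h6] at h3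
      exact hs0 (by simpa using h3)
    refine S.case1_step T hρM hW hWfin hWne huW hne hp' hp'Q ?_
    rw [hρa, h2, mul_zero, zero_smul, sub_zero, h1, mul_zero, zero_smul, sub_zero]
  · push Not at hC1
    by_cases hC2 : ∃ o, ∃ s ∈ D o, s ≠ 0 ∧ Q s = 0 ∧ pol Q s u = 0 ∧ pol Q s v = 0
    · left
      obtain ⟨o, s, hs, hs0, hsQ, h1, h2⟩ := hC2
      exact S.case2a T hsing hq hL hC1 hs hs0 hsQ h1 h2
    · push Not at hC2
      have hC3 : ∀ o, ∀ p' ∈ D o, p' ≠ 0 → pol Q p' u = 0 → pol Q p' v ≠ 0 := fun o p' hp' hp'0 h1 => by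
        by_cases h2 : Q p' = 0
        · exact hC2 o p' hp' hp'0 h2 h1
        · exact hC1 o p' hp' h2 h1
      obtain ⟨f₁, hf₁⟩ : ∃ f₁, f₁ = (g : Matrix ι ι F) *ᵥ f := ⟨_, rfl⟩
      obtain ⟨f₂, hf₂⟩ : ∃ f₂, f₂ = (g : Matrix ι ι F) *ᵥ f' := ⟨_, rfl⟩
      have hz₁0 : z₁ ≠ 0 := fun h => hz₁Q (by rw [hcd, h, Q_zero hQ])
      -- orthogonal to the image of the member
      have hperp : ∀ {a b p' : ι → F} , a ∈ D k → b ∈ D k → (∀ c : F, b ≠ c • a) → a ≠ 0 →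
          pol Q p' ((g : Matrix ι ι F) *ᵥ a) = 0 → pol Q p' ((g : Matrix ι ι F) *ᵥ b) = 0 → ∀ y ∈ D k,
          pol Q p' ((g : Matrix ι ι F) *ᵥ y) = 0 := by
        intro a b p' ha hb hc ha0 h1 h2 y hy
        obtain ⟨α, β, e⟩ := span2 S.fin ha hb ha0 hc hy
        rw [e, Matrix.mulVec_add, Matrix.mulVec_smul, Matrix.mulVec_smul, pol_add_right hQ, pol_smul_right hQ,
          pol_smul_right hQ, h1, h2]
        ring
      have hC' : ∀ o, ∀ p' ∈ D o, p' ≠ 0 → pol Q p' f₁ = 0 → pol Q p' f₂ ≠ 0 := by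
        intro o p' hp' hp'0 h1 h2
        have h3 := hperp H.hs H.hs' (H.indep hQ) (H.ne hQ) (by rw [← hf₁]; exact h1) (by rw [← hf₂]; exact h2)
        refine hC3 o p' hp' hp'0 ?_ ?_
        · rw [hu]
          exact h3 z₁ hz₁D
        · rw [hv]
          exact h3 z₂ hz₂
      obtain ⟨ξ, hξ, l₁, l₂, l₃, h12, h13, h23, hn₁, hn₂, hn₃⟩ := S.exists_three hq7 hC'
      have hu'e : f₁ + ξ • f₂ = (g : Matrix ι ι F) *ᵥ (f + ξ • f') := by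
        rw [Matrix.mulVec_add, Matrix.mulVec_smul, hf₁, hf₂]
      rw [hu'e] at hn₁ hn₂ hn₃
      have hy₁D : f + ξ • f' ∈ D k := (D k).add_mem H.hs ((D k).smul_mem _ H.hs')
      have hy₁Q : Q (f + ξ • f') ≠ 0 := by
        have := H.Q_comb hQ 1 ξ
        simp only [one_smul, one_mul] at this
        rw [this]
        exact hξ
      obtain ⟨y₂, hy₂, -, -, hy₂c, hL'⟩ := hsetup _ hy₁D hy₁Q
      have hy₁0 : f + ξ • f' ≠ 0 := fun h => hy₁Q (by rw [h, Q_zero hQ])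
      obtain ⟨u', hu'⟩ : ∃ u', u' = (g : Matrix ι ι F) *ᵥ (f + ξ • f') := ⟨_, rfl⟩
      obtain ⟨v', hv'⟩ : ∃ v', v' = (g : Matrix ι ι F) *ᵥ y₂ := ⟨_, rfl⟩
      rw [← hu'] at hL' hn₁ hn₂ hn₃
      rw [← hv'] at hL'
      have hC3' : ∀ o, ∀ p' ∈ D o, p' ≠ 0 → pol Q p' u' = 0 → pol Q p' v' ≠ 0 := by
        intro o p' hp' hp'0 h1 h2
        have h3 := hperp hy₁D hy₂ hy₂c hy₁0 (by rw [← hu']; exact h1) (by rw [← hv']; exact h2)
        refine hC' o p' hp' hp'0 ?_ ?_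
        · rw [hf₁]
          exact h3 f H.hs
        · rw [hf₂]
          exact h3 f' H.hs'
      have hpick : ∃ (i m : Fin t) (b b' : ι → F), i ≠ m ∧ b ∈ D i ∧ b' ∈ D m ∧ b ≠ 0 ∧ b' ≠ 0 ∧ Q b ≠ 0 ∧ Q b' ≠ 0 ∧
          pol Q b u' = 0 ∧ pol Q b' u' = 0 ∧ IsSquare (Q b * Q b') := by
        have hb : ∀ l, Q (cp D l u') ≠ 0 → ∃ b ∈ D l, b ≠ 0 ∧ Q b ≠ 0 ∧ pol Q b u' = 0 := fun l hl => by
          obtain ⟨b, hb, hb0, hbQ, h1⟩ := exists_perp hQ B S.fin (cp_mem B l u') hl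
          refine ⟨b, hb, hb0, hbQ, ?_⟩
          rw [pol_symm hQ, pol_cp hQ B l u' hb]
          exact h1
        obtain ⟨b₀, hb₀, hb₀0, hb₀Q, hb₀u⟩ := hb l₁ hn₁
        obtain ⟨b₁, hb₁, hb₁0, hb₁Q, hb₁u⟩ := hb l₂ hn₂
        obtain ⟨b₂, hb₂, hb₂0, hb₂Q, hb₂u⟩ := hb l₃ hn₃
        by_cases s01 : IsSquare (Q b₀ * Q b₁)
        · exact ⟨l₁, l₂, b₀, b₁, h12, hb₀, hb₁, hb₀0, hb₁0, hb₀Q, hb₁Q, hb₀u, hb₁u, s01⟩
        · by_cases s02 : IsSquare (Q b₀ * Q b₂)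
          · exact ⟨l₁, l₃, b₀, b₂, h13, hb₀, hb₂, hb₀0, hb₂0, hb₀Q, hb₂Q, hb₀u, hb₂u, s02⟩
          · have hodd : Fintype.card F % 2 = 1 := by
              by_contra hcon
              apply s01
              have h4 : Fintype.card F % 2 = 0 := by omega
              have h5 : ringChar F = 2 := FiniteField.even_card_iff_char_two.mpr h4
              exact FiniteField.isSquare_of_char_two h5 _
            have h4 := isSquare_mul_of_not hodd s01 s02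
            have h5 : IsSquare (Q b₁ * Q b₂) := by
              apply isSquare_of_mul_sq hb₀Q
              convert h4 using 1
              ring
            exact ⟨l₂, l₃, b₁, b₂, h23, hb₁, hb₂, hb₁0, hb₂0, hb₁Q, hb₂Q, hb₁u, hb₂u, h5⟩
      obtain ⟨i, m, b, b', him, hb, hb', hb0, hb'0, hbQ, hb'Q, hbu, hb'u, hsq⟩ := hpick
      exact S.case3_core T hsing hq hL' hC3' him hb hb' hb0 hb'0 hbQ hb'Q hbu hb'u hsq

end F1P

/-- The hyperbolic case. -/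
theorem isMaximalIn_plus [Fintype F] (hQ : IsNondegenerateQuadraticForm Q) (hD : IsOrthogonalMDecomposition Q 2 D)
    (h7 : 7 ≤ Fintype.card ι) (ht : 7 ≤ t) (hsing : ∀ i, ∃ p ∈ D i, p ≠ 0 ∧ Q p = 0) (hq : 7 ≤ Fintype.card F) :
    IsMaximalIn (omegaGL Q) (decompositionStabilizer D ⊓ omegaGL Q) := by
  refine isMaximalIn_of2 hQ hD h7 ht fun M S g hg hgs => ?_
  obtain ⟨s, T⟩ := td_plus S.hQ S.blk S.fin hsing hq
  have hω : ∃ ω : F, ω ≠ 0 ∧ ω ^ 2 ≠ 1 := by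
    obtain ⟨p, h0, -, -, h1⟩ := exists_avoid hq (0 : F) (1 : F)
    exact ⟨p, h0, h1⟩
  rcases S.exists_phi_plus T hsing hq hg hgs with h | ⟨e, he, hnp⟩
  · exact h
  · exact S.main_plus T hsing hω he hnp

end Cfsg.Agent.Lib.Geo.Om2
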