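/-
The normaliser in `Ω(Q)` of a quadratic field of similarities with non-trivial involution (the group `GU_{n/2}(q).2`) is
maximal in `Ω(Q)`.
-/
import Cfsg.Agent.Lib.GeoOmega.Roots
set_option autoImplicit false

namespace Cfsg.Agent.Lib.Geo.OmegaGU

open Cfsg Cfsg.Geo Cfsg.Agent.Lib.Geo.Basic Cfsg.Agent.Lib.Geo.Parabolic Cfsg.Agent.Lib.Geo.Centres
open Cfsg.Agent.Lib.Geo.Polar Cfsg.Agent.Lib.Geo.QForm
open Cfsg.Agent.Lib.QuadFn Cfsg.Agent.Lib.GeoOmega.Basic Cfsg.Agent.Lib.GeoOmega.Planes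
open Cfsg.Agent.Lib.GeoOmega.Eichler Cfsg.Agent.Lib.GeoOmega.Singular Cfsg.Agent.Lib.GeoOmega.Roots
open scoped MatrixGroups Matrix

variable {ι : Type} [Fintype ι] [DecidableEq ι] {F : Type*} [Field F]
variable {Q : (ι → F) → F}

/-- A generator of a quadratic field of similarities of `Q`, with its trace `τ` and norm `N`. -/
structure KQ (Q : (ι → F) → F) (θ : Matrix ι ι F) (τ N : F) : Prop where
  sq : ∀ x, θ *ᵥ (θ *ᵥ x) = τ • θ *ᵥ x - N • x
  adj : ∀ x y, pol Q (θ *ᵥ x) y = τ * pol Q x y - pol Q x (θ *ᵥ y)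
  norm : ∀ x, Q (θ *ᵥ x) = N * Q x
  trace : ∀ x, pol Q (θ *ᵥ x) x = τ * Q x
  irr : ∀ a : F, a * a - τ * a + N ≠ 0

namespace KQ

variable {θ : Matrix ι ι F} {τ N : F} (D : KQ Q θ τ N)
include D

theorem N_ne : N ≠ 0 := by
  have := D.irr 0
  simpa using this

/-- The norm form of `K` is anisotropic. -/
theorem aniso {c d : F} (h : c * c + c * d * τ + d * d * N = 0) : c = 0 ∧ d = 0 := by
  have hd : d = 0 := by
    by_contra hd
    apply D.irr (- c / d)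
    field_simp
    linear_combination h
  refine ⟨?_, hd⟩
  rw [hd] at h
  have : c * c = 0 := by linear_combination h
  exact mul_self_eq_zero.mp this

theorem elim (c d : F) (v : ι → F) :
    (c + d * τ) • (c • v + d • θ *ᵥ v) - d • θ *ᵥ (c • v + d • θ *ᵥ v) = (c * c + c * d * τ + d * d * N) • v := by
  simp only [Matrix.mulVec_add, Matrix.mulVec_smul, D.sq]
  ext i
  simp only [Pi.add_apply, Pi.sub_apply, Pi.smul_apply, smul_eq_mul]
  ring

theorem k_zero {c d : F} {y : ι → F} (h : c • y + d • θ *ᵥ y = 0) (hy : y ≠ 0) : c = 0 ∧ d = 0 := by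
  have h1 := D.elim c d y
  rw [h] at h1
  simp only [Matrix.mulVec_zero, smul_zero, sub_zero] at h1
  exact D.aniso ((smul_eq_zero.mp h1.symm).resolve_right hy)

theorem no_eigen {a : F} {y : ι → F} (h : θ *ᵥ y = a • y) (hy : y ≠ 0) : False := by
  have := D.k_zero (c := - a) (d := 1) (y := y) (by rw [one_smul, h, neg_smul]; abel) hy
  exact one_ne_zero this.2

/-- Elimination in a `θ`-stable subspace. -/
theorem mem_of_k {Z : Submodule F (ι → F)} (hZ : ∀ z ∈ Z, θ *ᵥ z ∈ Z) {c d : F} {v : ι → F}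
    (h : c • v + d • θ *ᵥ v ∈ Z) (hne : ¬ (c = 0 ∧ d = 0)) : v ∈ Z := by
  have h1 := D.elim c d v
  have h2 : (c * c + c * d * τ + d * d * N) • v ∈ Z := by
    rw [← h1]
    exact Z.sub_mem (Z.smul_mem _ h) (Z.smul_mem _ (hZ _ h))
  have h3 : c * c + c * d * τ + d * d * N ≠ 0 := fun h0 => hne (D.aniso h0)
  exact (Submodule.smul_mem_iff Z h3).mp h2

end KQ

/-- The `K`-line of a vector. -/
def L1 (θ : Matrix ι ι F) (a : ι → F) : Submodule F (ι → F) := Submodule.span F (Set.range ![a, θ *ᵥ a])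

/-- The `K`-span of two vectors. -/
def L2 (θ : Matrix ι ι F) (a b : ι → F) : Submodule F (ι → F) :=
  Submodule.span F (Set.range ![a, θ *ᵥ a, b, θ *ᵥ b])

theorem mem_L1 (θ : Matrix ι ι F) (a x : ι → F) : x ∈ L1 θ a ↔ ∃ c d : F, c • a + d • θ *ᵥ a = x := by
  rw [L1, Submodule.mem_span_range_iff_exists_fun]
  constructor
  · rintro ⟨c, hc⟩
    rw [Fin.sum_univ_two] at hc
    exact ⟨c 0, c 1, by simpa using hc⟩
  · rintro ⟨c, d, h⟩
    refine ⟨![c, d], ?_⟩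
    rw [Fin.sum_univ_two]
    simpa using h

theorem mem_L2 (θ : Matrix ι ι F) (a b x : ι → F) :
    x ∈ L2 θ a b ↔ ∃ c d e g : F, c • a + d • θ *ᵥ a + e • b + g • θ *ᵥ b = x := by
  rw [L2, Submodule.mem_span_range_iff_exists_fun]
  constructor
  · rintro ⟨c, hc⟩
    rw [Fin.sum_univ_four] at hc
    exact ⟨c 0, c 1, c 2, c 3, by simpa using hc⟩
  · rintro ⟨c, d, e, g, h⟩
    refine ⟨![c, d, e, g], ?_⟩
    rw [Fin.sum_univ_four]
    simpa using h

namespace KQ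

variable {θ : Matrix ι ι F} {τ N : F} (D : KQ Q θ τ N)
include D

theorem L1_stable (a : ι → F) : ∀ z ∈ L1 θ a, θ *ᵥ z ∈ L1 θ a := by
  intro z hz
  rw [mem_L1] at hz ⊢
  obtain ⟨c, d, rfl⟩ := hz
  refine ⟨- (d * N), c + d * τ, ?_⟩
  simp only [Matrix.mulVec_add, Matrix.mulVec_smul, D.sq]
  ext i
  simp only [Pi.add_apply, Pi.sub_apply, Pi.smul_apply, smul_eq_mul]
  ring

theorem L2_stable (a b : ι → F) : ∀ z ∈ L2 θ a b, θ *ᵥ z ∈ L2 θ a b := by
  intro z hz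
  rw [mem_L2] at hz ⊢
  obtain ⟨c, d, e, g, rfl⟩ := hz
  refine ⟨- (d * N), c + d * τ, - (g * N), e + g * τ, ?_⟩
  simp only [Matrix.mulVec_add, Matrix.mulVec_smul, D.sq]
  ext i
  simp only [Pi.add_apply, Pi.sub_apply, Pi.smul_apply, smul_eq_mul]
  ring

/-- `K`-linear dependence is symmetric modulo a stable subspace. -/
theorem L2_swap {a b c : ι → F} (hb : b ∉ L1 θ a) (h : c ∉ L2 θ a b) : b ∉ L2 θ a c := by
  intro hm
  rw [mem_L2] at hm
  obtain ⟨x₁, x₂, x₃, x₄, hx⟩ := hm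
  by_cases h0 : x₃ = 0 ∧ x₄ = 0
  · apply hb
    rw [mem_L1]
    refine ⟨x₁, x₂, ?_⟩
    rw [← hx, h0.1, h0.2]
    simp
  · apply h
    refine D.mem_of_k (D.L2_stable a b) (c := x₃) (d := x₄) ?_ h0
    have e1 : x₃ • c + x₄ • θ *ᵥ c = b - x₁ • a - x₂ • θ *ᵥ a := by
      rw [← hx]
      abel
    rw [e1, mem_L2]
    refine ⟨- x₁, - x₂, 1, 0, ?_⟩
    simp only [neg_smul, one_smul, zero_smul, add_zero]
    abel

/-- Independence of two `K`-independent vectors. -/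
theorem indep4 {x y : ι → F} (hx : x ≠ 0) (hy : y ∉ L1 θ x) {a b c e : F}
    (h : a • x + b • θ *ᵥ x + c • y + e • θ *ᵥ y = 0) : a = 0 ∧ b = 0 ∧ c = 0 ∧ e = 0 := by
  have hce : c = 0 ∧ e = 0 := by
    by_contra hne
    apply hy
    refine D.mem_of_k (D.L1_stable x) (c := c) (d := e) ?_ hne
    rw [mem_L1]
    refine ⟨- a, - b, ?_⟩
    ext i
    have h2 := congrFun h i
    simp only [Pi.add_apply, Pi.smul_apply, smul_eq_mul, Pi.zero_apply] at h2 ⊢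
    linear_combination - h2
  obtain ⟨hc, he⟩ := hce
  rw [hc, he, zero_smul, zero_smul, add_zero, add_zero] at h
  obtain ⟨ha, hb⟩ := D.k_zero h hx
  exact ⟨ha, hb, hc, he⟩

theorem L1_le_L2 (a b : ι → F) : L1 θ a ≤ L2 θ a b := by
  intro x hx
  rw [mem_L1] at hx
  rw [mem_L2]
  obtain ⟨c, d, h⟩ := hx
  exact ⟨c, d, 0, 0, by simpa using h⟩

end KQ

namespace KQ

variable {θ : Matrix ι ι F} {τ N : F} (hQ : IsNondegenerateQuadraticForm Q) (D : KQ Q θ τ N)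
include hQ D

theorem pol_θθ (x y : ι → F) : pol Q (θ *ᵥ x) (θ *ᵥ y) = N * pol Q x y := by
  rw [D.adj, D.sq, pol_sub_right hQ, pol_smul_right hQ, pol_smul_right hQ]
  ring

theorem pol_right (x y : ι → F) : pol Q x (θ *ᵥ y) = τ * pol Q x y - pol Q (θ *ᵥ x) y := by
  rw [D.adj]
  ring

theorem Q_θ {p : ι → F} (hp : Q p = 0) : Q (θ *ᵥ p) = 0 := by
  rw [D.norm, hp, mul_zero]

theorem pol_p_θp {p : ι → F} (hp : Q p = 0) : pol Q p (θ *ᵥ p) = 0 := by
  rw [pol_symm hQ, D.trace, hp, mul_zero]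

theorem pol_θp_p {p : ι → F} (hp : Q p = 0) : pol Q (θ *ᵥ p) p = 0 := by
  rw [D.trace, hp, mul_zero]

/-- Eichler transformations with parameter in the `K`-line of the centre commute with `θ`. -/
theorem eich_comm {g : GL ι F} {p : ι → F} {t : F} (hp : Q p = 0) (hg : Eich Q g p (t • θ *ᵥ p)) (x : ι → F) :
    (g : Matrix ι ι F) *ᵥ (θ *ᵥ x) = θ *ᵥ ((g : Matrix ι ι F) *ᵥ x) := by
  rw [hg, hg]
  simp only [pol_smul_right hQ, hQ.smul, D.norm, hp, D.pol_θθ hQ, D.adj, mul_zero, zero_mul]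
  simp only [Matrix.mulVec_add, Matrix.mulVec_sub, Matrix.mulVec_smul, D.sq]
  ext i
  simp only [Pi.add_apply, Pi.sub_apply, Pi.smul_apply, smul_eq_mul]
  ring

/-- The `K`-linear Eichler transformation. -/
theorem exists_kE [Finite F] (hn : 7 ≤ Fintype.card ι) {p w : ι → F} (hp : Q p = 0) (h1 : pol Q w p = 0)
    (h2 : pol Q w (θ *ᵥ p) = 0) :
    ∃ T : GL ι F, T ∈ omegaGL Q ∧ T ∈ isometryGroup F Q ∧
      (∀ x, (T : Matrix ι ι F) *ᵥ x = x + pol Q x w • θ *ᵥ p - pol Q x (θ *ᵥ p) • w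
        - (Q w * pol Q x (θ *ᵥ p)) • θ *ᵥ p - pol Q x (θ *ᵥ w) • p + (τ * Q w * pol Q x (θ *ᵥ p)) • p
        + pol Q x p • θ *ᵥ w - (N * Q w * pol Q x p) • p) ∧
      ∀ x, (T : Matrix ι ι F) *ᵥ (θ *ᵥ x) = θ *ᵥ ((T : Matrix ι ι F) *ᵥ x) := by
  have hθp := D.Q_θ hQ hp
  have e1 : pol Q (θ *ᵥ p) w = 0 := by rw [pol_symm hQ, h2]
  have e2 : pol Q p (-(θ *ᵥ w)) = 0 := by
    rw [pol_neg_right hQ, D.pol_right hQ, pol_symm hQ p w, h1, e1]
    ring
  obtain ⟨A, hA⟩ := exists_eich hQ hθp e1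
  obtain ⟨C, hC⟩ := exists_eich hQ hp e2
  have hAM := hA.mem_omega hQ hn hθp e1
  have hCM := hC.mem_omega hQ hn hp e2
  have hAI := hA.mem_isometry hQ hθp e1
  have hCI := hC.mem_isometry hQ hp e2
  have hform : ∀ x, ((C * A : GL ι F) : Matrix ι ι F) *ᵥ x = x + pol Q x w • θ *ᵥ p - pol Q x (θ *ᵥ p) • w
        - (Q w * pol Q x (θ *ᵥ p)) • θ *ᵥ p - pol Q x (θ *ᵥ w) • p + (τ * Q w * pol Q x (θ *ᵥ p)) • p
        + pol Q x p • θ *ᵥ w - (N * Q w * pol Q x p) • p := by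
    intro x
    rw [Units.val_mul, ← Matrix.mulVec_mulVec, hC, hA x]
    have e3 : pol Q (θ *ᵥ p) p = 0 := D.pol_θp_p hQ hp
    have e4 : pol Q w p = 0 := h1
    have e5 : pol Q (θ *ᵥ p) (θ *ᵥ w) = 0 := by rw [D.pol_θθ hQ, pol_symm hQ p w, h1, mul_zero]
    have e6 : pol Q w (θ *ᵥ w) = τ * Q w := by rw [pol_symm hQ, D.trace]
    have e7 : Q (-(θ *ᵥ w)) = N * Q w := by
      have := hQ.smul (-1) (θ *ᵥ w)
      rw [neg_one_smul] at this
      rw [this, D.norm]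
      ring
    simp only [pol_add_left hQ, pol_sub_left hQ, pol_smul_left hQ, pol_neg_right hQ, e3, e4, e5, e6, e7]
    ext i
    simp only [Pi.add_apply, Pi.sub_apply, Pi.neg_apply, Pi.smul_apply, smul_eq_mul]
    ring
  refine ⟨C * A, (omegaGL Q).mul_mem hCM hAM, (isometryGroup F Q).mul_mem hCI hAI, hform, ?_⟩
  intro x
  rw [hform, hform]
  simp only [D.pol_θθ hQ, D.adj]
  simp only [Matrix.mulVec_add, Matrix.mulVec_sub, Matrix.mulVec_smul, D.sq]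
  ext i
  simp only [Pi.add_apply, Pi.sub_apply, Pi.smul_apply, smul_eq_mul]
  ring

end KQ

namespace KQ

variable {θ : Matrix ι ι F} {τ N : F} (hQ : IsNondegenerateQuadraticForm Q) (D : KQ Q θ τ N)
variable {M : Subgroup (GL ι F)}
include hQ D

omit D in
theorem r_mem {r : ι → F} (hr : Q r = 0) : r ∈ UU hQ M r hr := by
  refine ⟨pol_singular hQ hr, fun t g hg => ?_⟩
  have : g = 1 := by
    apply gl_ext_mulVec
    intro x
    rw [hg x, pol_smul_right hQ, hQ.smul, hr]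
    simp only [Units.val_one, Matrix.one_mulVec]
    ext i
    simp only [Pi.add_apply, Pi.sub_apply, Pi.smul_apply, smul_eq_mul]
    ring
  rw [this]
  exact M.one_mem

theorem θr_mem [Finite F] (hn : 7 ≤ Fintype.card ι)
    (hU : ∀ k : GL ι F, k ∈ omegaGL Q → (∀ x, (k : Matrix ι ι F) *ᵥ (θ *ᵥ x) = θ *ᵥ ((k : Matrix ι ι F) *ᵥ x)) → k ∈ M)
    {r : ι → F} (hr : Q r = 0) : θ *ᵥ r ∈ UU hQ M r hr := by
  refine ⟨D.pol_p_θp hQ hr, fun t g hg => ?_⟩
  refine hU g (hg.mem_omega hQ hn hr ?_) (D.eich_comm hQ hr hg)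
  rw [pol_smul_right hQ, D.pol_p_θp hQ hr, mul_zero]

theorem L1_le_UU [Finite F] (hn : 7 ≤ Fintype.card ι)
    (hU : ∀ k : GL ι F, k ∈ omegaGL Q → (∀ x, (k : Matrix ι ι F) *ᵥ (θ *ᵥ x) = θ *ᵥ ((k : Matrix ι ι F) *ᵥ x)) → k ∈ M)
    {r : ι → F} (hr : Q r = 0) : L1 θ r ≤ UU hQ M r hr := by
  intro x hx
  rw [mem_L1] at hx
  obtain ⟨c, d, rfl⟩ := hx
  exact Submodule.add_mem _ (Submodule.smul_mem _ _ (r_mem hQ hr)) (Submodule.smul_mem _ _ (D.θr_mem hQ hn hU hr))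

/-- Dual vectors for a `K`-independent vector. -/
theorem exists_dual₁ [Finite F] {a b y : ι → F} (hy : y ∉ L2 θ a b) :
    ∃ e, pol Q e a = 0 ∧ pol Q e (θ *ᵥ a) = 0 ∧ pol Q e b = 0 ∧ pol Q e (θ *ᵥ b) = 0 ∧ pol Q e y = 0 ∧
      pol Q (θ *ᵥ y) e = 1 := by
  have hmem : θ *ᵥ y ∉ Submodule.span F (Set.range ![y, a, θ *ᵥ a, b, θ *ᵥ b]) := by
    intro h
    rw [Submodule.mem_span_range_iff_exists_fun] at h
    obtain ⟨c, hc⟩ := h
    rw [Fin.sum_univ_five] at hc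
    apply hy
    refine D.mem_of_k (D.L2_stable a b) (c := - c 0) (d := 1) ?_ (by simp)
    rw [mem_L2]
    refine ⟨c 1, c 2, c 3, c 4, ?_⟩
    rw [← hc]
    simp
    abel
  obtain ⟨e, he, he1⟩ := (isPolar hQ).exists_perp_ne_zero _ _ hmem
  rw [IsPolar.mem_perp] at he
  refine ⟨e, he 1, he 2, he 3, he 4, he 0, he1⟩

/-- Dual vectors for a `K`-independent vector. -/
theorem exists_dual₂ [Finite F] {a b y : ι → F} (hy : y ∉ L2 θ a b) :
    ∃ e, pol Q e a = 0 ∧ pol Q e (θ *ᵥ a) = 0 ∧ pol Q e b = 0 ∧ pol Q e (θ *ᵥ b) = 0 ∧ pol Q e (θ *ᵥ y) = 0 ∧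
      pol Q y e = 1 := by
  have hmem : y ∉ Submodule.span F (Set.range ![θ *ᵥ y, a, θ *ᵥ a, b, θ *ᵥ b]) := by
    intro h
    rw [Submodule.mem_span_range_iff_exists_fun] at h
    obtain ⟨c, hc⟩ := h
    rw [Fin.sum_univ_five] at hc
    apply hy
    refine D.mem_of_k (D.L2_stable a b) (c := 1) (d := - c 0) ?_ (by simp)
    rw [mem_L2]
    refine ⟨c 1, c 2, c 3, c 4, ?_⟩
    ext i
    have h5 := congrFun hc i
    simp at h5 ⊢
    linear_combination h5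
  obtain ⟨e, he, he1⟩ := (isPolar hQ).exists_perp_ne_zero _ _ hmem
  rw [IsPolar.mem_perp] at he
  refine ⟨e, he 1, he 2, he 3, he 4, he 0, he1⟩

/-- The basic move: from a parameter `y` to a parameter `w`. -/
theorem step [Finite F] (hn : 7 ≤ Fintype.card ι)
    (hU : ∀ k : GL ι F, k ∈ omegaGL Q → (∀ x, (k : Matrix ι ι F) *ᵥ (θ *ᵥ x) = θ *ᵥ ((k : Matrix ι ι F) *ᵥ x)) → k ∈ M)
    {r y w : ι → F} (hr : Q r = 0) (hy : Q y = 0) (hw : Q w = 0) (hyU : y ∈ UU hQ M r hr)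
    (h1 : pol Q y r = 0) (h2 : pol Q y (θ *ᵥ r) = 0) (h3 : pol Q w r = 0) (h4 : pol Q w (θ *ᵥ r) = 0)
    (h5 : pol Q y w = 0) (h6 : pol Q y (θ *ᵥ w) = 0) (hind : y ∉ L2 θ r w) : w ∈ UU hQ M r hr := by
  obtain ⟨a₀, a1, a2, a3, a4, a5, a6⟩ := D.exists_dual₁ hQ hind
  have hθy : Q (θ *ᵥ y) = 0 := D.Q_θ hQ hy
  obtain ⟨l, hl⟩ := (isPolar hQ).B_shift (θ *ᵥ y) a₀ hθy (by rw [a6]; exact one_ne_zero)
  simp only [Set.mem_ofPred_eq] at hl
  obtain ⟨a, ha⟩ : ∃ a, a = a₀ + l • θ *ᵥ y := ⟨_, rfl⟩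
  rw [← ha] at hl
  have hyy : pol Q y y = 0 := pol_singular hQ hy
  have b1 : pol Q a r = 0 := by
    rw [ha, pol_add_left hQ, pol_smul_left hQ, a1, D.adj, h1, h2]
    ring
  have b2 : pol Q a (θ *ᵥ r) = 0 := by
    rw [ha, pol_add_left hQ, pol_smul_left hQ, a2, D.pol_θθ hQ, h1]
    ring
  have b3 : pol Q a w = 0 := by
    rw [ha, pol_add_left hQ, pol_smul_left hQ, a3, D.adj, h5, h6]
    ring
  have b4 : pol Q a (θ *ᵥ w) = 0 := by
    rw [ha, pol_add_left hQ, pol_smul_left hQ, a4, D.pol_θθ hQ, h5]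
    ring
  have b5 : pol Q y a = 0 := by
    rw [pol_symm hQ, ha, pol_add_left hQ, pol_smul_left hQ, a5, D.trace, hy]
    ring
  have b6 : pol Q (θ *ᵥ y) a = 1 := by
    rw [ha, pol_add_right hQ, pol_smul_right hQ, a6, D.pol_θθ hQ, hyy]
    ring
  have b7 : pol Q y (θ *ᵥ a) = -1 := by
    rw [D.pol_right hQ, b5, b6]
    ring
  have c1 : pol Q w a = 0 := by rw [pol_symm hQ, b3]
  have c2 : pol Q w (θ *ᵥ a) = 0 := by
    rw [D.pol_right hQ, c1, pol_symm hQ _ a, b4]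
    ring
  obtain ⟨T, hT1, hT2, hT3, hT4⟩ := D.exists_kE hQ hn hl c1 c2
  have hTr : (T : Matrix ι ι F) *ᵥ r = r := by
    have e1 : pol Q r w = 0 := by rw [pol_symm hQ, h3]
    have e2 : pol Q r a = 0 := by rw [pol_symm hQ, b1]
    have e3 : pol Q r (θ *ᵥ a) = 0 := by
      rw [D.pol_right hQ, e2, pol_symm hQ _ a, b2]
      ring
    have e4 : pol Q r (θ *ᵥ w) = 0 := by
      rw [D.pol_right hQ, e1, pol_symm hQ _ w, h4]
      ring
    rw [hT3, e1, e2, e3, e4]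
    simp
  have hTy : (T : Matrix ι ι F) *ᵥ y = y + w := by
    rw [hT3, h5, h6, b5, b7, hw]
    simp
  have h7 := UU_fix hyU (hU T hT1 hT4) hT2 hTr
  rw [hTy] at h7
  have h8 := Submodule.sub_mem _ h7 hyU
  rwa [add_sub_cancel_left] at h8

theorem L2_le_UU [Finite F] (hn : 7 ≤ Fintype.card ι)
    (hU : ∀ k : GL ι F, k ∈ omegaGL Q → (∀ x, (k : Matrix ι ι F) *ᵥ (θ *ᵥ x) = θ *ᵥ ((k : Matrix ι ι F) *ᵥ x)) → k ∈ M)
    {r y : ι → F} (hr : Q r = 0) (hy : y ∈ UU hQ M r hr) (hθy : θ *ᵥ y ∈ UU hQ M r hr) : L2 θ r y ≤ UU hQ M r hr := by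
  intro x hx
  rw [mem_L2] at hx
  obtain ⟨c, d, e, g, rfl⟩ := hx
  exact Submodule.add_mem _ (Submodule.add_mem _ (Submodule.add_mem _ (Submodule.smul_mem _ _ (r_mem hQ hr))
    (Submodule.smul_mem _ _ (D.θr_mem hQ hn hU hr))) (Submodule.smul_mem _ _ hy)) (Submodule.smul_mem _ _ hθy)

omit D in
/-- A vector orthogonal to `S` and not orthogonal to a vector `q` in `S^⊥` is not in the `K`-span of `S`. -/
theorem notMem_L2_of_pair {a b p q : ι → F} (h1 : pol Q q a = 0) (h2 : pol Q q (θ *ᵥ a) = 0) (h3 : pol Q q b = 0)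
    (h4 : pol Q q (θ *ᵥ b) = 0) (h : pol Q q p ≠ 0) : p ∉ L2 θ a b := by
  intro hm
  rw [mem_L2] at hm
  obtain ⟨c, d, e, g, rfl⟩ := hm
  apply h
  simp only [pol_add_right hQ, pol_smul_right hQ, h1, h2, h3, h4]
  ring

/-- All of the `K`-perp of `r` and `y` is in the parameter space. -/
theorem perp_le [Finite F] (hn : 14 ≤ Fintype.card ι)
    (hU : ∀ k : GL ι F, k ∈ omegaGL Q → (∀ x, (k : Matrix ι ι F) *ᵥ (θ *ᵥ x) = θ *ᵥ ((k : Matrix ι ι F) *ᵥ x)) → k ∈ M)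
    {r y : ι → F} (hr : Q r = 0) (hy : Q y = 0) (hyU : y ∈ UU hQ M r hr)
    (h1 : pol Q y r = 0) (h2 : pol Q y (θ *ᵥ r) = 0) (hL : y ∉ L1 θ r) :
    ∃ p, Q p = 0 ∧ p ∈ UU hQ M r hr ∧ pol Q p r = 0 ∧ pol Q p (θ *ᵥ r) = 0 ∧ p ∉ L2 θ r y ∧
      ∀ x, pol Q x r = 0 → pol Q x (θ *ᵥ r) = 0 → pol Q x y = 0 → pol Q x (θ *ᵥ y) = 0 → x ∈ UU hQ M r hr := by
  have hn7 : 7 ≤ Fintype.card ι := by omega
  obtain ⟨p, q, hp, hq, hpQ, hqQ, hpq⟩ := (isPolar hQ).exists_hyperbolic ![r, θ *ᵥ r, y, θ *ᵥ y] (by omega)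
  rw [IsPolar.mem_perp] at hp hq
  simp only [Set.mem_ofPred_eq] at hpQ hqQ
  have p1 := hp 0
  have p2 := hp 1
  have p3 := hp 2
  have p4 := hp 3
  have q1 := hq 0
  have q2 := hq 1
  have q3 := hq 2
  have q4 := hq 3
  simp only [Matrix.cons_val_zero, Matrix.cons_val_one, Matrix.cons_val] at p1 p2 p3 p4 q1 q2 q3 q4
  have hqp : pol Q q p ≠ 0 := by
    rw [pol_symm hQ, hpq]
    exact one_ne_zero
  have hpL : p ∉ L2 θ r y := notMem_L2_of_pair hQ q1 q2 q3 q4 hqp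
  have hy0 : pol Q y y = 0 := pol_singular hQ hy
  have key : ∀ z, Q z = 0 → pol Q z r = 0 → pol Q z (θ *ᵥ r) = 0 → pol Q z y = 0 → pol Q z (θ *ᵥ y) = 0 →
      z ∉ L2 θ r y → z ∈ UU hQ M r hr := by
    intro z hz z1 z2 z3 z4 hzL
    refine D.step hQ hn7 hU hr hy hz hyU h1 h2 z1 z2 ?_ ?_ (D.L2_swap hL hzL)
    · rw [pol_symm hQ, z3]
    · rw [D.pol_right hQ, pol_symm hQ y z, z3, pol_symm hQ _ z, z4]
      ring
  have hpU : p ∈ UU hQ M r hr := key p hpQ p1 p2 p3 p4 hpL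
  have hqL : q ∉ L2 θ r y := notMem_L2_of_pair hQ p1 p2 p3 p4 (by rw [hpq]; exact one_ne_zero)
  have hqU : q ∈ UU hQ M r hr := key q hqQ q1 q2 q3 q4 hqL
  -- `θ y` is a parameter
  have hθyU : θ *ᵥ y ∈ UU hQ M r hr := by
    refine D.step hQ hn7 hU hr hpQ (D.Q_θ hQ hy) hpU p1 p2 ?_ ?_ p4 ?_ ?_
    · rw [D.adj, h1, h2]
      ring
    · rw [D.pol_θθ hQ, h1, mul_zero]
    · rw [D.sq, pol_sub_right hQ, pol_smul_right hQ, pol_smul_right hQ, p3, p4]
      ring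
    · refine notMem_L2_of_pair hQ q1 q2 q4 ?_ hqp
      rw [D.sq, pol_sub_right hQ, pol_smul_right hQ, pol_smul_right hQ, q3, q4]
      ring
  have hL2 := D.L2_le_UU hQ hn7 hU hr hyU hθyU
  have hsing : ∀ z, Q z = 0 → pol Q z r = 0 → pol Q z (θ *ᵥ r) = 0 → pol Q z y = 0 → pol Q z (θ *ᵥ y) = 0 →
      z ∈ UU hQ M r hr := by
    intro z hz z1 z2 z3 z4
    by_cases hzL : z ∈ L2 θ r y
    · exact hL2 hzL
    · exact key z hz z1 z2 z3 z4 hzL
  refine ⟨p, hpQ, hpU, p1, p2, hpL, ?_⟩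
  intro x x1 x2 x3 x4
  obtain ⟨c, d, hcd⟩ := (isPolar hQ).exists_add_mem_B p q x hqQ hpq
  simp only [Set.mem_ofPred_eq] at hcd
  have h3 := hsing _ hcd (by simp only [pol_add_left hQ, pol_smul_left hQ, x1, p1, q1]; ring)
    (by simp only [pol_add_left hQ, pol_smul_left hQ, x2, p2, q2]; ring)
    (by simp only [pol_add_left hQ, pol_smul_left hQ, x3, p3, q3]; ring)
    (by simp only [pol_add_left hQ, pol_smul_left hQ, x4, p4, q4]; ring)
  have h4 : x = x + c • p + d • q - c • p - d • q := by abel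
  rw [h4]
  exact Submodule.sub_mem _ (Submodule.sub_mem _ h3 (Submodule.smul_mem _ _ hpU)) (Submodule.smul_mem _ _ hqU)

/-- From one parameter `y` in the `K`-perp to all of the `K`-perp. -/
theorem rperp_caseB [Finite F] (hn : 14 ≤ Fintype.card ι)
    (hU : ∀ k : GL ι F, k ∈ omegaGL Q → (∀ x, (k : Matrix ι ι F) *ᵥ (θ *ᵥ x) = θ *ᵥ ((k : Matrix ι ι F) *ᵥ x)) → k ∈ M)
    {r y : ι → F} (hr : Q r = 0) (hy : Q y = 0) (hyU : y ∈ UU hQ M r hr)
    (h1 : pol Q y r = 0) (h2 : pol Q y (θ *ᵥ r) = 0) (hL : y ∉ L1 θ r) :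
    ∀ x, pol Q x r = 0 → pol Q x (θ *ᵥ r) = 0 → x ∈ UU hQ M r hr := by
  obtain ⟨p, hpQ, hpU, p1, p2, hpL, hall⟩ := D.perp_le hQ hn hU hr hy hyU h1 h2 hL
  have hpL1 : p ∉ L1 θ r := fun h => hpL (D.L1_le_L2 r y h)
  obtain ⟨-, -, -, -, -, -, hall'⟩ : ∃ p', Q p' = 0 ∧ p' ∈ UU hQ M r hr ∧ pol Q p' r = 0 ∧ pol Q p' (θ *ᵥ r) = 0 ∧
      p' ∉ L2 θ r p ∧ ∀ x, pol Q x r = 0 → pol Q x (θ *ᵥ r) = 0 → pol Q x p = 0 → pol Q x (θ *ᵥ p) = 0 →
        x ∈ UU hQ M r hr := D.perp_le hQ hn hU hr hpQ hpU p1 p2 hpL1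
  have hyL : y ∉ L2 θ r p := D.L2_swap hL hpL
  obtain ⟨e₁, e11, e12, e13, e14, e15, e16⟩ := D.exists_dual₂ hQ hyL
  obtain ⟨e₂, e21, e22, e23, e24, e25, e26⟩ := D.exists_dual₁ hQ hyL
  intro x x1 x2
  have hx₂ : pol Q x y • e₁ + pol Q x (θ *ᵥ y) • e₂ ∈ UU hQ M r hr := by
    apply hall' <;> simp only [pol_add_left hQ, pol_smul_left hQ, e11, e12, e13, e14, e21, e22, e23, e24] <;> ring
  have e16' : pol Q e₁ y = 1 := by rw [pol_symm hQ, e16]
  have e26' : pol Q e₂ (θ *ᵥ y) = 1 := by rw [pol_symm hQ, e26]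
  have hx₁ : x - (pol Q x y • e₁ + pol Q x (θ *ᵥ y) • e₂) ∈ UU hQ M r hr := by
    apply hall <;> simp only [pol_sub_left hQ, pol_add_left hQ, pol_smul_left hQ, e11, e12, e21, e22, x1, x2, e15, e16',
      e25, e26'] <;> ring
  have h3 := Submodule.add_mem _ hx₁ hx₂
  rwa [sub_add_cancel] at h3

/-- The easy case of the parameter `y`. -/
theorem rperp_caseA [Finite F] (hn : 7 ≤ Fintype.card ι)
    (hU : ∀ k : GL ι F, k ∈ omegaGL Q → (∀ x, (k : Matrix ι ι F) *ᵥ (θ *ᵥ x) = θ *ᵥ ((k : Matrix ι ι F) *ᵥ x)) → k ∈ M)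
    {r y : ι → F} (hr : Q r = 0) (hyU : y ∈ UU hQ M r hr)
    (h1 : pol Q y r = 0) (h2 : pol Q y (θ *ᵥ r) ≠ 0) :
    ∀ x, pol Q x r = 0 → pol Q x (θ *ᵥ r) = 0 → x ∈ UU hQ M r hr := by
  intro w c1 c2
  obtain ⟨T, hT1, hT2, hT3, hT4⟩ := D.exists_kE hQ hn hr c1 c2
  have hrr : pol Q r r = 0 := pol_singular hQ hr
  have hTr : (T : Matrix ι ι F) *ᵥ r = r := by
    have e1 : pol Q r w = 0 := by rw [pol_symm hQ, c1]
    have e3 : pol Q r (θ *ᵥ r) = 0 := D.pol_p_θp hQ hr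
    have e4 : pol Q r (θ *ᵥ w) = 0 := by
      rw [D.pol_right hQ, e1, pol_symm hQ _ w, c2]
      ring
    rw [hT3, e1, hrr, e3, e4]
    simp
  have h7 := UU_fix hyU (hU T hT1 hT4) hT2 hTr
  have hA : (pol Q y (θ *ᵥ r)) • w = y + pol Q y w • θ *ᵥ r - (Q w * pol Q y (θ *ᵥ r)) • θ *ᵥ r - pol Q y (θ *ᵥ w) • r
      + (τ * Q w * pol Q y (θ *ᵥ r)) • r - (y + pol Q y w • θ *ᵥ r - pol Q y (θ *ᵥ r) • w
      - (Q w * pol Q y (θ *ᵥ r)) • θ *ᵥ r - pol Q y (θ *ᵥ w) • r + (τ * Q w * pol Q y (θ *ᵥ r)) • r) := by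
    abel
  have hTy := hT3 y
  rw [h1] at hTy
  simp only [zero_smul, mul_zero, add_zero, sub_zero] at hTy
  rw [← hTy] at hA
  have hθr := D.θr_mem hQ hn hU hr
  have hrr' := r_mem (M := M) hQ hr
  have h8 : (pol Q y (θ *ᵥ r)) • w ∈ UU hQ M r hr := by
    rw [hA]
    exact Submodule.sub_mem _ (Submodule.add_mem _ (Submodule.sub_mem _ (Submodule.sub_mem _ (Submodule.add_mem _ hyU
      (Submodule.smul_mem _ _ hθr)) (Submodule.smul_mem _ _ hθr)) (Submodule.smul_mem _ _ hrr'))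
      (Submodule.smul_mem _ _ hrr')) h7
  exact (Submodule.smul_mem_iff _ h2).mp h8

end KQ

namespace KQ

variable {θ : Matrix ι ι F} {τ N : F} (hQ : IsNondegenerateQuadraticForm Q) (D : KQ Q θ τ N)
variable {M : Subgroup (GL ι F)}
include D

omit D in
theorem L1_self_L2 {a y : ι → F} (hy : y ∉ L1 θ a) : y ∉ L2 θ a a := by
  intro h
  rw [mem_L2] at h
  obtain ⟨c, d, e, g, rfl⟩ := h
  apply hy
  rw [mem_L1]
  refine ⟨c + e, d + g, ?_⟩
  rw [add_smul, add_smul]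
  abel

theorem L1_symm {x y : ι → F} (hx : x ≠ 0) (h : x ∈ L1 θ y) : y ∈ L1 θ x := by
  rw [mem_L1] at h
  obtain ⟨c, d, hcd⟩ := h
  refine D.mem_of_k (D.L1_stable x) (c := c) (d := d) ?_ ?_
  · rw [hcd, mem_L1]
    exact ⟨1, 0, by simp⟩
  · rintro ⟨rfl, rfl⟩
    apply hx
    rw [← hcd]
    simp

include hQ

/-- Isometries commuting with `θ`: transitivity on `K`-independent singular vectors. -/
theorem exists_trans₁ [Finite F] (hn : 14 ≤ Fintype.card ι) {a a' : ι → F} (ha : Q a = 0) (ha' : Q a' = 0)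
    (h0 : a' ∉ L1 θ a) (h1 : a ∉ L1 θ a') :
    ∃ k : GL ι F, k ∈ omegaGL Q ∧ k ∈ isometryGroup F Q ∧
      (∀ x, (k : Matrix ι ι F) *ᵥ (θ *ᵥ x) = θ *ᵥ ((k : Matrix ι ι F) *ᵥ x)) ∧ (k : Matrix ι ι F) *ᵥ a = a' := by
  have hn7 : 7 ≤ Fintype.card ι := by omega
  obtain ⟨e, e1, e2, -, -, e5, e6⟩ := D.exists_dual₁ hQ (L1_self_L2 h1)
  obtain ⟨e', e'1, e'2, -, -, e'5, e'6⟩ := D.exists_dual₁ hQ (L1_self_L2 h0)
  obtain ⟨u, v, hu, hv, huQ, hvQ, huv⟩ := (isPolar hQ).exists_hyperbolic ![a, θ *ᵥ a, a', θ *ᵥ a'] (by omega)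
  rw [IsPolar.mem_perp] at hu hv
  simp only [Set.mem_ofPred_eq] at huQ hvQ
  have u1 := hu 0
  have u2 := hu 1
  have u3 := hu 2
  have u4 := hu 3
  have v1 := hv 0
  have v2 := hv 1
  have v3 := hv 2
  have v4 := hv 3
  simp only [Matrix.cons_val_zero, Matrix.cons_val_one, Matrix.cons_val] at u1 u2 u3 u4 v1 v2 v3 v4
  obtain ⟨c, d, hcd⟩ := (isPolar hQ).exists_add_mem_B u v (e + e') hvQ huv
  simp only [Set.mem_ofPred_eq] at hcd
  obtain ⟨p, hp⟩ : ∃ p, p = e + e' + c • u + d • v := ⟨_, rfl⟩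
  rw [← hp] at hcd
  have p1 : pol Q p a = 0 := by
    rw [hp]
    simp only [pol_add_left hQ, pol_smul_left hQ, e5, e'1, u1, v1]
    ring
  have p2 : pol Q p a' = 0 := by
    rw [hp]
    simp only [pol_add_left hQ, pol_smul_left hQ, e1, e'5, u3, v3]
    ring
  have e6' : pol Q e (θ *ᵥ a) = 1 := by rw [pol_symm hQ, e6]
  have e'6' : pol Q e' (θ *ᵥ a') = 1 := by rw [pol_symm hQ, e'6]
  have p3 : pol Q p (θ *ᵥ a) = 1 := by
    rw [hp]
    simp only [pol_add_left hQ, pol_smul_left hQ, e6', e'2, u2, v2]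
    ring
  have p4 : pol Q p (θ *ᵥ a') = 1 := by
    rw [hp]
    simp only [pol_add_left hQ, pol_smul_left hQ, e2, e'6', u4, v4]
    ring
  have q1 : pol Q a p = 0 := by rw [pol_symm hQ, p1]
  have q2 : pol Q a' p = 0 := by rw [pol_symm hQ, p2]
  have q3 : pol Q a (θ *ᵥ p) = -1 := by
    rw [D.pol_right hQ, q1, pol_symm hQ _ p, p3]
    ring
  have q4 : pol Q a' (θ *ᵥ p) = -1 := by
    rw [D.pol_right hQ, q2, pol_symm hQ _ p, p4]
    ring
  obtain ⟨w, hw⟩ : ∃ w, w = a' - a := ⟨_, rfl⟩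
  have w1 : pol Q w p = 0 := by
    rw [hw, pol_sub_left hQ, q1, q2, sub_self]
  have w2 : pol Q w (θ *ᵥ p) = 0 := by
    rw [hw, pol_sub_left hQ, q3, q4, sub_self]
  obtain ⟨T, hT1, hT2, hT3, hT4⟩ := D.exists_kE hQ (by omega) hcd w1 w2
  have hwQ : Q w = - pol Q a' a := by
    rw [hw, Q_sub hQ, ha, ha']
    ring
  have hTa : (T : Matrix ι ι F) *ᵥ a = a' + pol Q (θ *ᵥ a) a' • p := by
    have haa : pol Q a a = 0 := pol_singular hQ ha
    have hθaa : pol Q (θ *ᵥ a) a = 0 := D.pol_θp_p hQ ha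
    rw [hT3, q1, q3, hwQ, hw, pol_sub_right hQ, Matrix.mulVec_sub, pol_sub_right hQ, D.pol_right hQ a a',
      D.pol_right hQ a a, haa, hθaa, pol_symm hQ a a']
    ext i
    simp only [Pi.add_apply, Pi.sub_apply, Pi.smul_apply, smul_eq_mul]
    ring
  have hpθ : pol Q p (θ *ᵥ p) = 0 := D.pol_p_θp hQ hcd
  have hb : pol Q p (pol Q (θ *ᵥ a) a' • θ *ᵥ p) = 0 := by
    rw [pol_smul_right hQ, hpθ, mul_zero]
  obtain ⟨E, hE⟩ := exists_eich hQ hcd hb
  refine ⟨E * T, (omegaGL Q).mul_mem (hE.mem_omega hQ (by omega) hcd hb) hT1,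
    (isometryGroup F Q).mul_mem (hE.mem_isometry hQ hcd hb) hT2, ?_, ?_⟩
  · intro x
    simp only [Units.val_mul, ← Matrix.mulVec_mulVec]
    rw [hT4, D.eich_comm hQ hcd hE]
  · rw [Units.val_mul, ← Matrix.mulVec_mulVec, hTa, hE]
    have hpp : pol Q p p = 0 := pol_singular hQ hcd
    simp only [pol_add_left hQ, pol_smul_left hQ, pol_smul_right hQ, q2, q4, hpp, hpθ, hQ.smul, D.norm, hcd]
    ext i
    simp only [Pi.add_apply, Pi.sub_apply, Pi.smul_apply, smul_eq_mul]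
    ring

/-- Isometries commuting with `θ` are transitive on non-zero singular vectors. -/
theorem exists_trans [Finite F] (hn : 14 ≤ Fintype.card ι) {a a' : ι → F} (ha : Q a = 0) (ha' : Q a' = 0)
    (h0 : a ≠ 0) (h1 : a' ≠ 0) :
    ∃ k : GL ι F, k ∈ omegaGL Q ∧ k ∈ isometryGroup F Q ∧
      (∀ x, (k : Matrix ι ι F) *ᵥ (θ *ᵥ x) = θ *ᵥ ((k : Matrix ι ι F) *ᵥ x)) ∧ (k : Matrix ι ι F) *ᵥ a = a' := by
  obtain ⟨u, v, hu, hv, huQ, hvQ, huv⟩ := (isPolar hQ).exists_hyperbolic ![a, θ *ᵥ a, a', θ *ᵥ a'] (by omega)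
  rw [IsPolar.mem_perp] at hu hv
  simp only [Set.mem_ofPred_eq] at huQ hvQ
  have v1 := hv 0
  have v2 := hv 1
  have v3 := hv 2
  have v4 := hv 3
  simp only [Matrix.cons_val_zero, Matrix.cons_val_one, Matrix.cons_val] at v1 v2 v3 v4
  have hvu : pol Q v u ≠ 0 := by
    rw [pol_symm hQ, huv]
    exact one_ne_zero
  have hL : u ∉ L2 θ a a' := notMem_L2_of_pair hQ v1 v2 v3 v4 hvu
  have hu1 : u ∉ L1 θ a := fun h => hL (D.L1_le_L2 a a' h)
  have hu2 : u ∉ L1 θ a' := by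
    intro h
    apply hL
    rw [mem_L1] at h
    rw [mem_L2]
    obtain ⟨c, d, h⟩ := h
    exact ⟨0, 0, c, d, by simpa using h⟩
  have ha1 : a ∉ L1 θ u := fun h => hu1 (D.L1_symm h0 h)
  have ha2 : a' ∉ L1 θ u := fun h => hu2 (D.L1_symm h1 h)
  obtain ⟨k₁, k11, k12, k13, k14⟩ := D.exists_trans₁ hQ hn ha huQ hu1 ha1
  obtain ⟨k₂, k21, k22, k23, k24⟩ := D.exists_trans₁ hQ hn huQ ha' ha2 hu2
  refine ⟨k₂ * k₁, (omegaGL Q).mul_mem k21 k11, (isometryGroup F Q).mul_mem k22 k12, ?_, ?_⟩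
  · intro x
    simp only [Units.val_mul, ← Matrix.mulVec_mulVec]
    rw [k13, k23]
  · rw [Units.val_mul, ← Matrix.mulVec_mulVec, k14, k24]

/-- Transfer of the parameter space to all singular points. -/
theorem transfer [Finite F] (hn : 14 ≤ Fintype.card ι)
    (hU : ∀ k : GL ι F, k ∈ omegaGL Q → (∀ x, (k : Matrix ι ι F) *ᵥ (θ *ᵥ x) = θ *ᵥ ((k : Matrix ι ι F) *ᵥ x)) → k ∈ M)
    {r : ι → F} (hr : Q r = 0) (hr0 : r ≠ 0) (hall : ∀ x, pol Q x r = 0 → pol Q x (θ *ᵥ r) = 0 → x ∈ UU hQ M r hr)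
    {c : ι → F} (hc : Q c = 0) (hc0 : c ≠ 0) : ∀ x, pol Q x c = 0 → pol Q x (θ *ᵥ c) = 0 → x ∈ UU hQ M c hc := by
  obtain ⟨k, k1, k2, k3, k4⟩ := D.exists_trans hQ hn hr hc hr0 hc0
  subst k4
  intro x x1 x2
  have h1 : ((k⁻¹ : GL ι F) : Matrix ι ι F) *ᵥ x ∈ UU hQ M r hr := by
    apply hall
    · have := pol_isometry k k2 (((k⁻¹ : GL ι F) : Matrix ι ι F) *ᵥ x) r
      rw [mulVec_inv_mulVec] at this
      rw [← this, x1]
    · have := pol_isometry k k2 (((k⁻¹ : GL ι F) : Matrix ι ι F) *ᵥ x) (θ *ᵥ r)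
      rw [mulVec_inv_mulVec, k3] at this
      rw [← this, x2]
  have h2 := UU_conj h1 (hU k k1 k3) k2 hc
  rwa [mulVec_inv_mulVec] at h2

/-- From the `K`-perp to the whole perp. -/
theorem full_of_all [Finite F] (hn : 14 ≤ Fintype.card ι)
    (hall : ∀ c (hc : Q c = 0), c ≠ 0 → ∀ x, pol Q x c = 0 → pol Q x (θ *ᵥ c) = 0 → x ∈ UU hQ M c hc)
    {r : ι → F} (hr : Q r = 0) (hr0 : r ≠ 0) : Full Q M r := by
  have hn7 : 7 ≤ Fintype.card ι := by omega
  have hθr : θ *ᵥ r ∉ Submodule.span F {r} := by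
    intro h
    obtain ⟨t, ht⟩ := Submodule.mem_span_singleton.mp h
    exact D.no_eigen ht.symm hr0
  obtain ⟨c, hc, hcr, hcθ⟩ := exists_singular_orth_one hQ hn7 r (θ *ᵥ r) hθr
  have hc0 : c ≠ 0 := by
    rintro rfl
    exact hcθ (pol_zero_left hQ _)
  obtain ⟨z, d, hz, hd, hzQ, hdQ, hzd⟩ := (isPolar hQ).exists_hyperbolic ![r, θ *ᵥ r, c, θ *ᵥ c] (by omega)
  rw [IsPolar.mem_perp] at hz hd
  simp only [Set.mem_ofPred_eq] at hzQ hdQ
  have z1 := hz 0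
  have z2 := hz 1
  have z3 := hz 2
  have d1 := hd 0
  have d2 := hd 1
  have d3 := hd 2
  have d4 := hd 3
  simp only [Matrix.cons_val_zero, Matrix.cons_val_one, Matrix.cons_val] at z1 z2 z3 d1 d2 d3 d4
  have hdU := hall c hc hc0 d d3 d4
  have hcd : pol Q c d = 0 := by rw [pol_symm hQ, d3]
  obtain ⟨k, hk⟩ := exists_eich hQ hc hcd
  have hkM : k ∈ M := mem_of_UU hdU hk
  have hzU := hall r hr hr0 z z1 z2
  have hcU : c ∈ UU hQ M r hr := rule1 hc hk hkM hcd (by rw [pol_symm hQ, hcr]) (by rw [pol_symm hQ, d1]) hzU z3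
    (by rw [hzd]; exact one_ne_zero)
  rw [full_iff (hQ := hQ) (hp := hr)]
  intro b hb
  obtain ⟨t, ht⟩ : ∃ t, t = pol Q b (θ *ᵥ r) / pol Q c (θ *ᵥ r) := ⟨_, rfl⟩
  have h1 : b - t • c ∈ UU hQ M r hr := by
    apply hall r hr hr0
    · rw [pol_sub_left hQ, pol_smul_left hQ, hcr, pol_symm hQ, hb]
      ring
    · rw [pol_sub_left hQ, pol_smul_left hQ, ht]
      field_simp
      ring
  have h2 := Submodule.add_mem _ h1 (Submodule.smul_mem _ t hcU)
  rwa [sub_add_cancel] at h2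

/-- A map sending all singular `K`-lines to `K`-lines is `K`-semilinear. -/
theorem exists_move [Finite F] (hn : 14 ≤ Fintype.card ι) (g : GL ι F)
    (hcon : ∀ p, Q p = 0 → ∃ a b : F, (g : Matrix ι ι F) *ᵥ (θ *ᵥ p) =
      a • (g : Matrix ι ι F) *ᵥ p + b • θ *ᵥ ((g : Matrix ι ι F) *ᵥ p)) :
    ∃ a b : F, ∀ x, (g : Matrix ι ι F) *ᵥ (θ *ᵥ x) =
      a • (g : Matrix ι ι F) *ᵥ x + b • θ *ᵥ ((g : Matrix ι ι F) *ᵥ x) := by
  have hn7 : 7 ≤ Fintype.card ι := by omega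
  have hinj : ∀ x : ι → F, (g : Matrix ι ι F) *ᵥ x = 0 → x = 0 := by
    intro x h0
    have := inv_mulVec_mulVec g x
    rw [h0, Matrix.mulVec_zero] at this
    exact this.symm
  -- comparison of two orthogonal lines
  have hkey : ∀ {p₁ p₂ : ι → F} {a₁ b₁ a₂ b₂ : F}, p₁ ≠ 0 → Q p₁ = 0 → Q p₂ = 0 →
      p₂ ∉ L1 θ p₁ → pol Q p₁ p₂ = 0 →
      (g : Matrix ι ι F) *ᵥ (θ *ᵥ p₁) = a₁ • (g : Matrix ι ι F) *ᵥ p₁ + b₁ • θ *ᵥ ((g : Matrix ι ι F) *ᵥ p₁) →
      (g : Matrix ι ι F) *ᵥ (θ *ᵥ p₂) = a₂ • (g : Matrix ι ι F) *ᵥ p₂ + b₂ • θ *ᵥ ((g : Matrix ι ι F) *ᵥ p₂) →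
      a₁ = a₂ ∧ b₁ = b₂ := by
    intro p₁ p₂ a₁ b₁ a₂ b₂ hp₁ hi₁ hi₂ hk h₁₂ e₁ e₂
    have hp₂ : p₂ ≠ 0 := by
      rintro rfl
      exact hk (Submodule.zero_mem _)
    have hb₀ : ∀ {p : ι → F} {a b : F}, p ≠ 0 → (g : Matrix ι ι F) *ᵥ (θ *ᵥ p) =
        a • (g : Matrix ι ι F) *ᵥ p + b • θ *ᵥ ((g : Matrix ι ι F) *ᵥ p) → b ≠ 0 := by
      intro p a b hp e h0
      rw [h0, zero_smul, add_zero, ← Matrix.mulVec_smul] at e
      have h1 : θ *ᵥ p = a • p := by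
        have := congrArg (fun v => ((g⁻¹ : GL ι F) : Matrix ι ι F) *ᵥ v) e
        simpa [inv_mulVec_mulVec] using this
      exact D.no_eigen h1 hp
    have hb₁ := hb₀ hp₁ e₁
    have hb₂ := hb₀ hp₂ e₂
    have hi₃ : Q (p₁ + p₂) = 0 := by
      rw [Q_add hQ, hi₁, hi₂, h₁₂]
      ring
    obtain ⟨a₃, b₃, e₃⟩ := hcon _ hi₃
    rw [Matrix.mulVec_add, Matrix.mulVec_add, Matrix.mulVec_add, Matrix.mulVec_add, e₁, e₂] at e₃
    -- `θ (g p)` in terms of `g θ p`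
    have hθ₁ : θ *ᵥ ((g : Matrix ι ι F) *ᵥ p₁) =
        b₁⁻¹ • ((g : Matrix ι ι F) *ᵥ (θ *ᵥ p₁) - a₁ • (g : Matrix ι ι F) *ᵥ p₁) := by
      rw [e₁, add_sub_cancel_left, smul_smul, inv_mul_cancel₀ hb₁, one_smul]
    have hθ₂ : θ *ᵥ ((g : Matrix ι ι F) *ᵥ p₂) =
        b₂⁻¹ • ((g : Matrix ι ι F) *ᵥ (θ *ᵥ p₂) - a₂ • (g : Matrix ι ι F) *ᵥ p₂) := by
      rw [e₂, add_sub_cancel_left, smul_smul, inv_mul_cancel₀ hb₂, one_smul]
    have h0 : (g : Matrix ι ι F) *ᵥ (((a₁ - a₃) - (b₁ - b₃) * b₁⁻¹ * a₁) • p₁ + ((b₁ - b₃) * b₁⁻¹) • θ *ᵥ p₁ +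
        ((a₂ - a₃) - (b₂ - b₃) * b₂⁻¹ * a₂) • p₂ + ((b₂ - b₃) * b₂⁻¹) • θ *ᵥ p₂) = 0 := by
      simp only [Matrix.mulVec_add, Matrix.mulVec_smul]
      have h1 : (a₁ - a₃) • (g : Matrix ι ι F) *ᵥ p₁ + (b₁ - b₃) • θ *ᵥ ((g : Matrix ι ι F) *ᵥ p₁) +
          (a₂ - a₃) • (g : Matrix ι ι F) *ᵥ p₂ + (b₂ - b₃) • θ *ᵥ ((g : Matrix ι ι F) *ᵥ p₂) = 0 := by
        ext i
        have h2 := congrFun e₃ i
        simp only [Pi.add_apply, Pi.smul_apply, smul_eq_mul, Pi.zero_apply] at h2 ⊢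
        linear_combination h2
      rw [hθ₁, hθ₂] at h1
      ext i
      have h2 := congrFun h1 i
      simp only [Pi.add_apply, Pi.smul_apply, smul_eq_mul, Pi.zero_apply, Pi.sub_apply] at h2 ⊢
      linear_combination h2
    obtain ⟨c₁, c₂, c₃, c₄⟩ := D.indep4 hp₁ hk (hinj _ h0)
    have hc₂ : b₁ = b₃ := by
      have h1 := (mul_eq_zero.mp c₂).resolve_right (inv_ne_zero hb₁)
      exact sub_eq_zero.mp h1
    have hc₄ : b₂ = b₃ := by
      have h1 := (mul_eq_zero.mp c₄).resolve_right (inv_ne_zero hb₂)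
      exact sub_eq_zero.mp h1
    rw [hc₂, sub_self, zero_mul, zero_mul, sub_zero] at c₁
    rw [hc₄, sub_self, zero_mul, zero_mul, sub_zero] at c₃
    exact ⟨(sub_eq_zero.mp c₁).trans (sub_eq_zero.mp c₃).symm, hc₂.trans hc₄.symm⟩
  -- the base vector
  obtain ⟨p₀, q₀, -, -, hp₀, hq₀, hpq₀⟩ := (isPolar hQ).exists_hyperbolic (Fin.elim0 : Fin 0 → ι → F) (by omega)
  simp only [Set.mem_ofPred_eq] at hp₀ hq₀
  have hp₀0 : p₀ ≠ 0 := by
    rintro rfl
    rw [pol_zero_left hQ] at hpq₀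
    exact zero_ne_one hpq₀
  obtain ⟨a, b, hab⟩ := hcon p₀ hp₀
  refine ⟨a, b, ?_⟩
  have hsing : ∀ p, Q p = 0 → (g : Matrix ι ι F) *ᵥ (θ *ᵥ p) =
      a • (g : Matrix ι ι F) *ᵥ p + b • θ *ᵥ ((g : Matrix ι ι F) *ᵥ p) := by
    intro p hp
    by_cases hp0 : p = 0
    · rw [hp0]
      simp
    obtain ⟨a', b', hab'⟩ := hcon p hp
    obtain ⟨z, z', hz, hz', hzQ, hz'Q, hzz'⟩ := (isPolar hQ).exists_hyperbolic ![p₀, θ *ᵥ p₀, p, θ *ᵥ p] (by omega)
    rw [IsPolar.mem_perp] at hz hz'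
    simp only [Set.mem_ofPred_eq] at hzQ hz'Q
    have z1 := hz 0
    have z3 := hz 2
    have u1 := hz' 0
    have u2 := hz' 1
    have u3 := hz' 2
    have u4 := hz' 3
    simp only [Matrix.cons_val_zero, Matrix.cons_val_one, Matrix.cons_val] at z1 z3 u1 u2 u3 u4
    obtain ⟨a'', b'', hab''⟩ := hcon z hzQ
    have hz1 : z ∉ L2 θ p₀ p := notMem_L2_of_pair hQ u1 u2 u3 u4 (by rw [pol_symm hQ, hzz']; exact one_ne_zero)
    have k1 : z ∉ L1 θ p₀ := fun h => hz1 (D.L1_le_L2 p₀ p h)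
    have k2 : z ∉ L1 θ p := by
      intro h
      apply hz1
      rw [mem_L1] at h
      rw [mem_L2]
      obtain ⟨c, d, h⟩ := h
      exact ⟨0, 0, c, d, by simpa using h⟩
    obtain ⟨q1, q2⟩ := hkey hp₀0 hp₀ hzQ k1 (by rw [pol_symm hQ, z1]) hab hab''
    obtain ⟨q3, q4⟩ := hkey hp0 hp hzQ k2 (by rw [pol_symm hQ, z3]) hab' hab''
    rw [q1, q2, ← q3, ← q4]
    exact hab'
  intro x
  have hspan := (isPolar hQ).top_le_span p₀ hp₀0 hn7
  have hx : x ∈ Submodule.span F {c | c ∈ {x : ι → F | Q x = 0} ∧ pol Q c p₀ ≠ 0} := hspan trivial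
  induction hx using Submodule.span_induction with
  | mem z hz => exact hsing z hz.1
  | zero => simp
  | add u v _ _ hu hv =>
    simp only [Matrix.mulVec_add]
    rw [hu, hv]
    ext i
    simp only [Pi.add_apply, Pi.smul_apply, smul_eq_mul]
    ring
  | smul c u _ hu =>
    simp only [Matrix.mulVec_smul]
    rw [hu]
    ext i
    simp only [Pi.add_apply, Pi.smul_apply, smul_eq_mul]
    ring

end KQ

namespace KQ

variable {θ : Matrix ι ι F} {τ N : F} (hQ : IsNondegenerateQuadraticForm Q) (D : KQ Q θ τ N)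
include hQ D

/-- **The normaliser of the field is maximal in `Ω`.** -/
theorem isMaximalIn [Fintype F] (hn : 14 ≤ Fintype.card ι) (K : Subalgebra F (Matrix ι ι F))
    (hK : ∀ k, k ∈ K ↔ ∃ a b : F, k = a • (1 : Matrix ι ι F) + b • θ) :
    IsMaximalIn (omegaGL Q) (subalgebraNormalizer K ⊓ omegaGL Q) := by
  have hn7 : 7 ≤ Fintype.card ι := by omega
  have hθK : θ ∈ K := (hK θ).mpr ⟨0, 1, by simp⟩
  obtain ⟨p₀, q₀, -, -, hp₀, hq₀, hpq₀⟩ := (isPolar hQ).exists_hyperbolic (Fin.elim0 : Fin 0 → ι → F) (by omega)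
  simp only [Set.mem_ofPred_eq] at hp₀ hq₀
  have hp₀0 : p₀ ≠ 0 := by
    rintro rfl
    rw [pol_zero_left hQ] at hpq₀
    exact zero_ne_one hpq₀
  have hq₀0 : q₀ ≠ 0 := by
    rintro rfl
    rw [pol_zero_right hQ] at hpq₀
    exact zero_ne_one hpq₀
  -- semilinear elements normalise `K`
  have hN3 : ∀ (g : GL ι F) (a b : F), (∀ x, (g : Matrix ι ι F) *ᵥ (θ *ᵥ x) =
      a • (g : Matrix ι ι F) *ᵥ x + b • θ *ᵥ ((g : Matrix ι ι F) *ᵥ x)) → g ∈ subalgebraNormalizer K := by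
    intro g a b hg
    have hG'G : ((g⁻¹ : GL ι F) : Matrix ι ι F) * (g : Matrix ι ι F) = 1 := by
      rw [← Units.val_mul, inv_mul_cancel, Units.val_one]
    have hGG' : (g : Matrix ι ι F) * ((g⁻¹ : GL ι F) : Matrix ι ι F) = 1 := by
      rw [← Units.val_mul, mul_inv_cancel, Units.val_one]
    have hmat : (g : Matrix ι ι F) * θ = (a • (1 : Matrix ι ι F) + b • θ) * (g : Matrix ι ι F) := by
      apply Matrix.ext_of_mulVec_single
      intro l
      rw [← Matrix.mulVec_mulVec, ← Matrix.mulVec_mulVec, hg, Matrix.add_mulVec, Matrix.smul_mulVec, Matrix.smul_mulVec,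
        Matrix.one_mulVec]
    have hb0 : b ≠ 0 := by
      intro h0
      have h1 := hg p₀
      rw [h0, zero_smul, add_zero, ← Matrix.mulVec_smul] at h1
      have h2 : θ *ᵥ p₀ = a • p₀ := by
        have := congrArg (fun v => ((g⁻¹ : GL ι F) : Matrix ι ι F) *ᵥ v) h1
        simpa [inv_mulVec_mulVec] using this
      exact D.no_eigen h2 hp₀0
    have hc1 : (g : Matrix ι ι F) * θ * ((g⁻¹ : GL ι F) : Matrix ι ι F) = a • (1 : Matrix ι ι F) + b • θ := by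
      rw [hmat, mul_assoc, hGG', mul_one]
    have hc2 : ((g⁻¹ : GL ι F) : Matrix ι ι F) * θ * (g : Matrix ι ι F) = (-(a / b)) • (1 : Matrix ι ι F) + b⁻¹ • θ := by
      have h1 : θ = ((g⁻¹ : GL ι F) : Matrix ι ι F) * ((g : Matrix ι ι F) * θ) := by
        rw [← mul_assoc, hG'G, one_mul]
      have h2 : θ = ((g⁻¹ : GL ι F) : Matrix ι ι F) * (a • (1 : Matrix ι ι F) + b • θ) * (g : Matrix ι ι F) := by
        nth_rewrite 1 [h1]
        rw [hmat, mul_assoc]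
      rw [mul_add, add_mul, Matrix.mul_smul, Matrix.mul_smul, Matrix.smul_mul, Matrix.smul_mul, mul_one, hG'G] at h2
      have h3 : ((g⁻¹ : GL ι F) : Matrix ι ι F) * θ * (g : Matrix ι ι F) = b⁻¹ • (θ - a • (1 : Matrix ι ι F)) := by
        nth_rewrite 2 [h2]
        rw [add_sub_cancel_left, smul_smul, inv_mul_cancel₀ hb0, one_smul]
      rw [h3, smul_sub, smul_smul, add_comm, neg_smul]
      rw [sub_eq_add_neg]
      congr 2
      rw [div_eq_inv_mul]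
    intro k
    constructor
    · intro hk
      obtain ⟨x, y, rfl⟩ := (hK k).mp hk
      have : (g : Matrix ι ι F) * (x • (1 : Matrix ι ι F) + y • θ) * ((g⁻¹ : GL ι F) : Matrix ι ι F) =
          x • (1 : Matrix ι ι F) + y • ((g : Matrix ι ι F) * θ * ((g⁻¹ : GL ι F) : Matrix ι ι F)) := by
        rw [mul_add, add_mul, Matrix.mul_smul, Matrix.mul_smul, Matrix.smul_mul, Matrix.smul_mul, mul_one, hGG']
      rw [this, hc1]
      exact K.add_mem (K.smul_mem K.one_mem _) (K.smul_mem (K.add_mem (K.smul_mem K.one_mem _) (K.smul_mem hθK _)) _)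
    · intro hk
      obtain ⟨x, y, hxy⟩ := (hK _).mp hk
      have h1 : k = ((g⁻¹ : GL ι F) : Matrix ι ι F) * ((g : Matrix ι ι F) * k * ((g⁻¹ : GL ι F) : Matrix ι ι F)) *
          (g : Matrix ι ι F) := by
        simp only [mul_assoc, hG'G, mul_one]
        rw [← mul_assoc, hG'G, one_mul]
      rw [h1, hxy, mul_add, add_mul, Matrix.mul_smul, Matrix.mul_smul, Matrix.smul_mul, Matrix.smul_mul, mul_one, hG'G, hc2]
      exact K.add_mem (K.smul_mem K.one_mem _) (K.smul_mem (K.add_mem (K.smul_mem K.one_mem _) (K.smul_mem hθK _)) _)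
  have hN1 : ∀ g : GL ι F, (∀ x, (g : Matrix ι ι F) *ᵥ (θ *ᵥ x) = θ *ᵥ ((g : Matrix ι ι F) *ᵥ x)) →
      g ∈ subalgebraNormalizer K := by
    intro g hg
    refine hN3 g 0 1 (fun x => ?_)
    rw [hg]
    simp
  -- normalising elements are semilinear
  have hN2 : ∀ g : GL ι F, g ∈ subalgebraNormalizer K → ∃ a b : F, ∀ x, (g : Matrix ι ι F) *ᵥ (θ *ᵥ x) =
      a • (g : Matrix ι ι F) *ᵥ x + b • θ *ᵥ ((g : Matrix ι ι F) *ᵥ x) := by
    intro g hg
    obtain ⟨a, b, hab⟩ := (hK _).mp ((hg θ).mp hθK)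
    refine ⟨a, b, fun x => ?_⟩
    have hG'G : ((g⁻¹ : GL ι F) : Matrix ι ι F) * (g : Matrix ι ι F) = 1 := by
      rw [← Units.val_mul, inv_mul_cancel, Units.val_one]
    have h1 : (g : Matrix ι ι F) * θ = (a • (1 : Matrix ι ι F) + b • θ) * (g : Matrix ι ι F) := by
      rw [← hab, mul_assoc, hG'G, mul_one]
    have h2 := congrArg (fun m => m *ᵥ x) h1
    simp only [← Matrix.mulVec_mulVec, Matrix.add_mulVec, Matrix.smul_mulVec, Matrix.one_mulVec] at h2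
    exact h2
  refine isMaximalIn_of_forall ?_ ?_
  · -- strictness
    refine lt_of_le_of_ne inf_le_right ?_
    intro he
    obtain ⟨u, v, hu, hv, huQ, hvQ, huv⟩ := (isPolar hQ).exists_hyperbolic ![p₀, θ *ᵥ p₀] (by omega)
    rw [IsPolar.mem_perp] at hu hv
    simp only [Set.mem_ofPred_eq] at huQ hvQ
    have u1 := hu 0
    have u2 := hu 1
    have v1 := hv 0
    have v2 := hv 1
    simp only [Matrix.cons_val_zero, Matrix.cons_val_one] at u1 u2 v1 v2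
    have hpu : pol Q p₀ u = 0 := by rw [pol_symm hQ, u1]
    obtain ⟨E, hE⟩ := exists_eich hQ hp₀ hpu
    have hEM : E ∈ subalgebraNormalizer K ⊓ omegaGL Q := by
      rw [he]
      exact hE.mem_omega hQ hn7 hp₀ hpu
    obtain ⟨a, b, hab⟩ := hN2 _ hEM.1
    -- a vector orthogonal to everything
    obtain ⟨x₀, y₀, hx₀, -, -, -, hxy₀⟩ := (isPolar hQ).exists_hyperbolic ![p₀, θ *ᵥ p₀, u, θ *ᵥ u] (by omega)
    rw [IsPolar.mem_perp] at hx₀
    have x1 := hx₀ 0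
    have x2 := hx₀ 1
    have x3 := hx₀ 2
    have x4 := hx₀ 3
    simp only [Matrix.cons_val_zero, Matrix.cons_val_one, Matrix.cons_val] at x1 x2 x3 x4
    have hx₀0 : x₀ ≠ 0 := by
      rintro rfl
      rw [pol_zero_left hQ] at hxy₀
      exact zero_ne_one hxy₀
    have hab₀ := hab x₀
    rw [hE, hE] at hab₀
    have x5 : pol Q (θ *ᵥ x₀) u = 0 := by
      rw [D.adj, x3, x4]
      ring
    have x6 : pol Q (θ *ᵥ x₀) p₀ = 0 := by
      rw [D.adj, x1, x2]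
      ring
    rw [x5, x6, x1, x3] at hab₀
    simp only [zero_smul, mul_zero, add_zero, sub_zero] at hab₀
    obtain ⟨h1, h2⟩ := D.k_zero (c := - a) (d := 1 - b) (y := x₀) (by
      ext i
      have h3 := congrFun hab₀ i
      simp only [Pi.add_apply, Pi.smul_apply, smul_eq_mul, Pi.zero_apply, Pi.sub_apply] at h3 ⊢
      simp only [neg_mul, sub_mul, one_mul]
      linear_combination h3) hx₀0
    have ha : a = 0 := by linear_combination - h1
    have hb : b = 1 := by linear_combination - h2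
    have hab₁ := hab q₀
    rw [hE, hE, ha, hb, zero_smul, zero_add, one_smul, huQ] at hab₁
    simp only [zero_mul, zero_smul, sub_zero, Matrix.mulVec_add, Matrix.mulVec_sub, Matrix.mulVec_smul] at hab₁
    have hL : u ∉ L1 θ p₀ := by
      intro h
      rw [mem_L1] at h
      obtain ⟨c, d, h⟩ := h
      have h4 := congrArg (fun z => pol Q v z) h
      simp only [pol_add_right hQ, pol_smul_right hQ, v1, v2] at h4
      rw [pol_symm hQ v u, huv] at h4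
      simp at h4
    obtain ⟨-, -, -, h5⟩ := D.indep4 (a := pol Q (θ *ᵥ q₀) u) (b := - pol Q q₀ u) (c := - pol Q (θ *ᵥ q₀) p₀)
      (e := pol Q q₀ p₀) hp₀0 hL (by
      ext i
      have h3 := congrFun hab₁ i
      simp only [Pi.add_apply, Pi.sub_apply, Pi.smul_apply, smul_eq_mul, Pi.zero_apply] at h3 ⊢
      linear_combination h3)
    rw [pol_symm hQ, hpq₀] at h5
    exact one_ne_zero h5
  intro M hHM hMI g hgM hgH
  have hg : g ∉ subalgebraNormalizer K := fun hs => hgH ⟨hs, hMI hgM⟩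
  have hU : ∀ k : GL ι F, k ∈ omegaGL Q → (∀ x, (k : Matrix ι ι F) *ᵥ (θ *ᵥ x) = θ *ᵥ ((k : Matrix ι ι F) *ᵥ x)) → k ∈ M :=
    fun k h1 h2 => hHM ⟨hN1 k h2, h1⟩
  obtain ⟨p, hp, hnot⟩ : ∃ p, Q p = 0 ∧ ¬ ∃ a b : F, (g : Matrix ι ι F) *ᵥ (θ *ᵥ p) =
      a • (g : Matrix ι ι F) *ᵥ p + b • θ *ᵥ ((g : Matrix ι ι F) *ᵥ p) := by
    by_contra hcon
    push Not at hcon
    apply hg
    obtain ⟨a, b, hab⟩ := D.exists_move hQ hn g (fun p hp => by
      obtain ⟨a, b, h⟩ := hcon p hp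
      exact ⟨a, b, h⟩)
    exact hN3 g a b hab
  have hgI : g ∈ isometryGroup F Q := omegaGL_le_isometryGroup Q (hMI hgM)
  have hgQ : ∀ v, Q ((g : Matrix ι ι F) *ᵥ v) = Q v := (mem_isometryGroup_iff Q g).mp hgI
  obtain ⟨r, hrdef⟩ : ∃ r, r = (g : Matrix ι ι F) *ᵥ p := ⟨_, rfl⟩
  obtain ⟨y, hydef⟩ : ∃ y, y = (g : Matrix ι ι F) *ᵥ (θ *ᵥ p) := ⟨_, rfl⟩
  have hr : Q r = 0 := by rw [hrdef, hgQ, hp]
  have hy : Q y = 0 := by rw [hydef, hgQ, D.Q_θ hQ hp]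
  have hyU : y ∈ UU hQ M r hr := by
    subst hrdef hydef
    exact UU_conj (D.θr_mem hQ hn7 hU hp) hgM hgI hr
  have h1 : pol Q y r = 0 := by
    rw [hrdef, hydef, pol_isometry g hgI, D.pol_θp_p hQ hp]
  have hL : y ∉ L1 θ r := by
    intro h
    rw [mem_L1] at h
    obtain ⟨c, d, h⟩ := h
    apply hnot
    exact ⟨c, d, by rw [← hydef, ← hrdef, h]⟩
  have hr0 : r ≠ 0 := by
    rintro rfl
    apply hL
    have hp0 : p = 0 := by
      have := inv_mulVec_mulVec g p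
      rw [← hrdef, Matrix.mulVec_zero] at this
      exact this.symm
    rw [hydef, hp0, mem_L1]
    exact ⟨0, 0, by simp⟩
  have hall₀ : ∀ x, pol Q x r = 0 → pol Q x (θ *ᵥ r) = 0 → x ∈ UU hQ M r hr := by
    by_cases h2 : pol Q y (θ *ᵥ r) = 0
    · exact D.rperp_caseB hQ hn hU hr hy hyU h1 h2 hL
    · exact D.rperp_caseA hQ hn7 hU hr hyU h1 h2
  have hall : ∀ c (hc : Q c = 0), c ≠ 0 → ∀ x, pol Q x c = 0 → pol Q x (θ *ᵥ c) = 0 → x ∈ UU hQ M c hc :=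
    fun c hc hc0 => D.transfer hQ hn hU hr hr0 hall₀ hc hc0
  exact omega_le_of_full hQ hn7 hp₀ hq₀ (D.full_of_all hQ hn hall hp₀ hp₀0) (D.full_of_all hQ hn hall hq₀ hq₀0)
    (by rw [pol_symm hQ, hpq₀]; exact one_ne_zero)

end KQ

/-- Extraction of the generator from a field subalgebra. -/
theorem exists_kq (hQ : IsNondegenerateQuadraticForm Q) (K : Subalgebra F (Matrix ι ι F)) (hK : IsFieldSubalgebra 2 K)
    (hac : IsAdjointClosedFor (pol Q) K) (hnsa : ¬ IsSelfAdjointFor (pol Q) K)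
    (hsc : ∀ k ∈ K, ∃ c : F, ∀ v : (ι → F), Q (k *ᵥ v) = c * Q v) :
    ∃ (θ : Matrix ι ι F) (τ N : F), KQ Q θ τ N ∧ ∀ k, k ∈ K ↔ ∃ a b : F, k = a • (1 : Matrix ι ι F) + b • θ := by
  simp only [IsSelfAdjointFor, not_forall] at hnsa
  obtain ⟨θ, hθK, u₀, v₀, hne⟩ := hnsa
  obtain ⟨k', hk', hadj⟩ := hac θ hθK
  have hadj' : ∀ u v, pol Q (k' *ᵥ u) v = pol Q u (θ *ᵥ v) := by
    intro u v
    rw [pol_symm hQ, ← hadj, pol_symm hQ]
  -- non-degeneracy for vectors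
  have hnd : ∀ y y' : ι → F, (∀ x, pol Q x y = pol Q x y') → y = y' := by
    intro y y' h
    by_contra hne'
    have h1 : y - y' ≠ 0 := sub_ne_zero.mpr hne'
    obtain ⟨x, hx⟩ := (hQ.nondegenerate _ h1).1
    apply hx
    change pol Q x (y - y') = 0
    rw [pol_sub_right hQ, h x, sub_self]
  -- `θ` is not a scalar
  have hscal : ∀ c : F, θ ≠ c • (1 : Matrix ι ι F) := by
    intro c hc
    apply hne
    rw [hc, Matrix.smul_mulVec, Matrix.smul_mulVec, Matrix.one_mulVec, Matrix.one_mulVec, pol_smul_left hQ,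
      pol_smul_right hQ]
  have hθ0 : θ ≠ 0 := by
    intro h0
    apply hscal 0
    rw [h0, zero_smul]
  have h1ne : (1 : Matrix ι ι F) ≠ 0 := by
    intro h0
    apply hθ0
    rw [← mul_one θ, h0, mul_zero]
  -- `K` is spanned by `1` and `θ`
  have hspan : ∀ k ∈ K, ∃ a b : F, k = a • (1 : Matrix ι ι F) + b • θ := by
    intro k hk
    have hLI : LinearIndependent F ![(⟨1, K.one_mem⟩ : K), ⟨θ, hθK⟩] := by
      rw [LinearIndependent.pair_iff]
      intro s t hst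
      have hst' : s • (1 : Matrix ι ι F) + t • θ = 0 := congrArg Subtype.val hst
      have ht : t = 0 := by
        by_contra ht
        apply hscal (-(s / t))
        have h3 : θ = t⁻¹ • (t • θ) := by rw [smul_smul, inv_mul_cancel₀ ht, one_smul]
        rw [h3, eq_neg_of_add_eq_zero_right hst', smul_neg, smul_smul, neg_smul]
        congr 2
        rw [div_eq_inv_mul]
      refine ⟨?_, ht⟩
      rw [ht, zero_smul, add_zero] at hst'
      exact (smul_eq_zero.mp hst').resolve_right h1ne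
    have hFin : FiniteDimensional F K := inferInstance
    have htop := hLI.span_eq_top_of_card_eq_finrank' (by simpa using hK.finrank_eq.symm)
    have hmem : (⟨k, hk⟩ : K) ∈ Submodule.span F (Set.range ![(⟨1, K.one_mem⟩ : K), ⟨θ, hθK⟩]) := by
      rw [htop]
      exact Submodule.mem_top
    rw [Submodule.mem_span_range_iff_exists_fun] at hmem
    obtain ⟨c, hc⟩ := hmem
    rw [Fin.sum_univ_two] at hc
    refine ⟨c 0, c 1, ?_⟩
    have := congrArg Subtype.val hc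
    exact this.symm
  -- no eigenvector-free relation: a matrix relation on vectors
  have hscal' : ∀ c d : F, (∀ v, c • θ *ᵥ v = d • v) → c = 0 := by
    intro c d h
    by_contra hc
    apply hscal (d / c)
    apply Matrix.ext_of_mulVec_single
    intro l
    rw [Matrix.smul_mulVec, Matrix.one_mulVec]
    have h1 := h (Pi.single l 1)
    have h2 : θ *ᵥ (Pi.single l 1) = c⁻¹ • (c • θ *ᵥ (Pi.single l 1)) := by
      rw [smul_smul, inv_mul_cancel₀ hc, one_smul]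
    rw [h2, h1, smul_smul, div_eq_inv_mul]
  obtain ⟨a, b, hk'ab⟩ := hspan _ hk'
  have hk'v : ∀ v, k' *ᵥ v = a • v + b • θ *ᵥ v := by
    intro v
    rw [hk'ab, Matrix.add_mulVec, Matrix.smul_mulVec, Matrix.smul_mulVec, Matrix.one_mulVec]
  -- `b = -1`
  have hrel : ∀ v, (1 - b * b) • θ *ᵥ v = (a + a * b) • v := by
    intro v
    apply hnd
    intro x
    have h1 := hadj' x v
    rw [hk'v, pol_add_left hQ, pol_smul_left hQ, pol_smul_left hQ, hadj, hk'v, pol_add_right hQ, pol_smul_right hQ,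
      pol_smul_right hQ] at h1
    rw [pol_smul_right hQ, pol_smul_right hQ]
    linear_combination -h1
  have hb2 : 1 - b * b = 0 := hscal' _ _ hrel
  have hab0 : a + a * b = 0 := by
    have hv := hrel (Pi.single (Classical.choice (by
      by_contra hemp
      rw [not_nonempty_iff] at hemp
      exact h1ne (Subsingleton.elim _ _))) 1)
    rw [hb2, zero_smul] at hv
    by_contra h0
    have := (smul_eq_zero.mp hv.symm).resolve_left h0
    have h5 := congrFun this (Classical.choice (by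
      by_contra hemp
      rw [not_nonempty_iff] at hemp
      exact h1ne (Subsingleton.elim _ _)))
    simp at h5
  have hb1 : b = -1 := by
    have h1 : (b - 1) * (b + 1) = 0 := by linear_combination -hb2
    rcases mul_eq_zero.mp h1 with h2 | h2
    · have hb : b = 1 := by linear_combination h2
      rw [hb] at hab0
      have h3 : a = 0 → False := by
        intro ha
        apply hne
        rw [hadj]
        rw [hk'v, ha, hb, zero_smul, zero_add, one_smul]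
      have ha : a ≠ 0 := h3
      have h4 : a * 2 = 0 := by linear_combination hab0
      have h5 : (2 : F) = 0 := (mul_eq_zero.mp h4).resolve_left ha
      rw [hb]
      linear_combination h5
    · linear_combination h2
  subst hb1
  obtain ⟨τ, hτ⟩ : ∃ τ, τ = a := ⟨_, rfl⟩
  rw [← hτ] at hk'v hab0
  have hk'v' : ∀ v, k' *ᵥ v = τ • v - θ *ᵥ v := by
    intro v
    rw [hk'v, neg_smul, one_smul, sub_eq_add_neg]
  have hadjθ : ∀ x y, pol Q (θ *ᵥ x) y = τ * pol Q x y - pol Q x (θ *ᵥ y) := by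
    intro x y
    rw [hadj, hk'v', pol_sub_right hQ, pol_smul_right hQ]
  -- the square of `θ`
  obtain ⟨s, t, hst⟩ := hspan _ (K.mul_mem hθK hθK)
  have hθθ' : ∀ x, θ *ᵥ (θ *ᵥ x) = s • x + t • θ *ᵥ x := by
    intro x
    rw [Matrix.mulVec_mulVec, hst, Matrix.add_mulVec, Matrix.smul_mulVec, Matrix.smul_mulVec, Matrix.one_mulVec]
  -- `τ` is not zero in characteristic two, and `t = τ`
  have htt : t = τ := by
    by_contra htt
    have hrel2 : ∀ v, (2 : F) • θ *ᵥ v = τ • v := by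
      intro v
      apply hnd
      intro x
      have h3 := hadjθ (θ *ᵥ x) v
      rw [hθθ', pol_add_left hQ, pol_smul_left hQ, pol_smul_left hQ, hadjθ, hadjθ x (θ *ᵥ v), hθθ', pol_add_right hQ,
        pol_smul_right hQ, pol_smul_right hQ] at h3
      have h4 : (t - τ) * (2 * pol Q x (θ *ᵥ v) - τ * pol Q x v) = 0 := by linear_combination -h3
      have h5 := (mul_eq_zero.mp h4).resolve_left (sub_ne_zero.mpr htt)
      rw [pol_smul_right hQ, pol_smul_right hQ]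
      linear_combination h5
    have h20 : (2 : F) = 0 := hscal' _ _ hrel2
    have hτ0 : τ = 0 := by
      have hi : Nonempty ι := by
        by_contra hemp
        rw [not_nonempty_iff] at hemp
        exact h1ne (Subsingleton.elim _ _)
      obtain ⟨i⟩ := hi
      have h6 := congrFun (hrel2 (Pi.single i 1)) i
      simp [h20] at h6
      exact h6.symm
    apply hne
    rw [hadjθ, hτ0, zero_mul, zero_sub]
    have h7 : ∀ z : F, - z = z := by
      intro z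
      linear_combination (-z) * h20
    exact h7 _ 
  subst htt
  obtain ⟨N, hN⟩ : ∃ N, N = - s := ⟨_, rfl⟩
  have hsq : ∀ x, θ *ᵥ (θ *ᵥ x) = t • θ *ᵥ x - N • x := by
    intro x
    rw [hθθ', hN, neg_smul, sub_neg_eq_add, add_comm]
  have hθθpol : ∀ x y, pol Q (θ *ᵥ x) (θ *ᵥ y) = N * pol Q x y := by
    intro x y
    rw [hadjθ, hsq, pol_sub_right hQ, pol_smul_right hQ, pol_smul_right hQ]
    ring
  obtain ⟨x₁, y₁, hxy₁⟩ : ∃ x₁ y₁, pol Q x₁ y₁ ≠ 0 := by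
    have hi : Nonempty ι := by
      by_contra hemp
      rw [not_nonempty_iff] at hemp
      exact h1ne (Subsingleton.elim _ _)
    obtain ⟨i⟩ := hi
    have h0 : (Pi.single i 1 : ι → F) ≠ 0 := by
      intro h
      have := congrFun h i
      simp at this
    obtain ⟨x, hx⟩ := (hQ.nondegenerate _ h0).1
    exact ⟨x, _, hx⟩
  have hnorm : ∀ x, Q (θ *ᵥ x) = N * Q x := by
    obtain ⟨c, hc⟩ := hsc θ hθK
    have hcN : c = N := by
      have h1 := hθθpol x₁ y₁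
      have h2 : pol Q (θ *ᵥ x₁) (θ *ᵥ y₁) = c * pol Q x₁ y₁ := by
        simp only [pol, QuadraticMap.polar, ← Matrix.mulVec_add, hc]
        ring
      rw [h1] at h2
      have h3 : (N - c) * pol Q x₁ y₁ = 0 := by linear_combination h2
      have h4 := (mul_eq_zero.mp h3).resolve_right hxy₁
      linear_combination -h4
    intro x
    rw [hc, hcN]
  have htrace : ∀ x, pol Q (θ *ᵥ x) x = t * Q x := by
    obtain ⟨c, hc⟩ := hsc (θ + 1) (K.add_mem hθK K.one_mem)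
    have h1 : ∀ x, pol Q (θ *ᵥ x) x = (c - N - 1) * Q x := by
      intro x
      have h2 := hc x
      rw [Matrix.add_mulVec, Matrix.one_mulVec, Q_add hQ, hnorm] at h2
      linear_combination h2
    have h3 : c - N - 1 = t := by
      have h4 := h1 (x₁ + y₁)
      rw [Matrix.mulVec_add, pol_add_left hQ, pol_add_right hQ, pol_add_right hQ, Q_add hQ, h1 x₁, h1 y₁] at h4
      rw [hadjθ y₁ x₁, pol_symm hQ y₁ x₁, pol_symm hQ y₁ (θ *ᵥ x₁)] at h4
      have h5 : (c - N - 1 - t) * pol Q x₁ y₁ = 0 := by linear_combination -h4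
      have h6 := (mul_eq_zero.mp h5).resolve_right hxy₁
      linear_combination h6
    intro x
    rw [h1, h3]
  refine ⟨θ, t, N, ⟨hsq, hadjθ, hnorm, htrace, ?_⟩, ?_⟩
  · intro x hx
    have hk₁ : θ - x • (1 : Matrix ι ι F) ∈ K := K.sub_mem hθK (K.smul_mem K.one_mem _)
    have hne₁ : θ - x • (1 : Matrix ι ι F) ≠ 0 := fun h0 => hscal x (sub_eq_zero.mp h0)
    obtain ⟨y, hy, hxy⟩ := hK.inv _ hk₁ hne₁
    have hmat : θ * θ = t • θ - N • (1 : Matrix ι ι F) := by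
      rw [hst, hN, neg_smul, sub_neg_eq_add, add_comm]
    have hprod : (θ - x • (1 : Matrix ι ι F)) * (θ + (x - t) • (1 : Matrix ι ι F)) = 0 := by
      have e1 : (θ - x • (1 : Matrix ι ι F)) * (θ + (x - t) • (1 : Matrix ι ι F)) =
          θ * θ + (x - t - x) • θ - (x * (x - t)) • (1 : Matrix ι ι F) := by
        rw [sub_mul, mul_add, mul_add]
        simp only [mul_smul_comm, smul_mul_assoc, mul_one, one_mul, smul_smul]
        ext i j
        simp only [Matrix.add_apply, Matrix.sub_apply, Matrix.smul_apply, smul_eq_mul]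
        ring
      rw [e1, hmat]
      have e2 : t • θ - N • (1 : Matrix ι ι F) + (x - t - x) • θ - (x * (x - t)) • (1 : Matrix ι ι F) =
          (- (x * x - t * x + N)) • (1 : Matrix ι ι F) := by
        ext i j
        simp only [Matrix.add_apply, Matrix.sub_apply, Matrix.smul_apply, smul_eq_mul]
        ring
      rw [e2, hx, neg_zero, zero_smul]
    have hzero : θ + (x - t) • (1 : Matrix ι ι F) = 0 := by
      calc θ + (x - t) • (1 : Matrix ι ι F) = ((θ - x • (1 : Matrix ι ι F)) * y) * (θ + (x - t) • (1 : Matrix ι ι F)) := by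
            rw [hxy, one_mul]
        _ = (y * (θ - x • (1 : Matrix ι ι F))) * (θ + (x - t) • (1 : Matrix ι ι F)) := by
            rw [hK.comm _ hk₁ _ hy]
        _ = 0 := by rw [mul_assoc, hprod, mul_zero]
    apply hscal (-(x - t))
    rw [neg_smul]
    exact eq_neg_of_add_eq_zero_left hzero
  · intro k
    refine ⟨hspan k, ?_⟩
    rintro ⟨a, b', rfl⟩
    exact K.add_mem (K.smul_mem K.one_mem _) (K.smul_mem hθK _)

end Cfsg.Agent.Lib.Geo.OmegaGU
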