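/-
The stabiliser of a pair of complementary totally singular subspaces is maximal in `SU`.
-/
import Cfsg.Agent.Lib.Geo.SUWitt
import Cfsg.Agent.Lib.Geo.SpDecomp
set_option autoImplicit false

namespace Cfsg.Agent.Lib.Geo.SUPair

open Cfsg Cfsg.Geo Cfsg.Agent.Lib.Geo.Basic Cfsg.Agent.Lib.Geo.Parabolic Cfsg.Agent.Lib.Geo.Centres
open Cfsg.Agent.Lib.Geo.Polar Cfsg.Agent.Lib.Geo.UnitaryInSL Cfsg.Agent.Lib.Geo.QForm
open Cfsg.Agent.Lib.Geo.SUGen Cfsg.Agent.Lib.Geo.SUBase Cfsg.Agent.Lib.Geo.SUSingular Cfsg.Agent.Lib.Geo.SUWitt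
open Cfsg.Agent.Lib.Geo.SUNondeg
open scoped MatrixGroups Matrix

variable {ι : Type} [Fintype ι] [DecidableEq ι] {F : Type*} [Field F]
variable {σ : F ≃+* F} {f : (ι → F) → (ι → F) → F} {hf : IsUnitaryForm σ f} {I : Subgroup (GL ι F)}

section Siegel

/-- The Siegel element `x ↦ x + f(x, a) b - f(x, b) a` for isotropic orthogonal `a`, `b`. -/
noncomputable def uS (hf : IsUnitaryForm σ f) (a b : ι → F) (haa : f a a = 0) (hba : f b a = 0) : GL ι F :=
  uE hf a b 0 haa hba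

theorem uS_mulVec (hf : IsUnitaryForm σ f) (a b : ι → F) (haa : f a a = 0) (hba : f b a = 0) (x : ι → F) :
    ((uS hf a b haa hba : GL ι F) : Matrix ι ι F) *ᵥ x = x + f x a • b - f x b • a := by
  rw [uS, uE_mulVec]
  simp

theorem uS_det (hf : IsUnitaryForm σ f) (a b : ι → F) (haa : f a a = 0) (hba : f b a = 0) :
    ((uS hf a b haa hba : GL ι F) : Matrix ι ι F).det = 1 :=
  uE_det hf a b 0 haa hba

theorem uS_isIso [Finite F] (hf : IsUnitaryForm σ f) (a b : ι → F) (haa : f a a = 0) (hbb : f b b = 0)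
    (hba : f b a = 0) : IsIso f (uS hf a b haa hba) :=
  uE_isIso hf a b 0 haa hba (by rw [hbb]; simp)

theorem conj_uS (hf : IsUnitaryForm σ f) {g : GL ι F} (hg : IsIso f g) (a b : ι → F) (haa : f a a = 0)
    (hba : f b a = 0) (a' b' : ι → F) (ha'a' : f a' a' = 0) (hb'a' : f b' a' = 0)
    (ha : (g : Matrix ι ι F) *ᵥ a = a') (hb : (g : Matrix ι ι F) *ᵥ b = b') :
    g * uS hf a b haa hba * g⁻¹ = uS hf a' b' ha'a' hb'a' := by
  apply gl_ext_mulVec
  intro x
  simp only [Units.val_mul, ← Matrix.mulVec_mulVec]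
  rw [uS_mulVec, uS_mulVec, form_inv hg, form_inv hg, Matrix.mulVec_sub, Matrix.mulVec_add, mulVec_inv_mulVec,
    Matrix.mulVec_smul, Matrix.mulVec_smul, ha, hb]

/-- The Heisenberg relation. -/
theorem commutator_uS [Finite F] (hf : IsUnitaryForm σ f) (a e b : ι → F) (haa : f a a = 0) (hee : f e e = 0)
    (hbb : f b b = 0) (hea : f e a = 0) (hba : f b a = 0) :
    uS hf a e haa hea * uS hf a b haa hba * (uS hf a e haa hea)⁻¹ * (uS hf a b haa hba)⁻¹ =
      uT hf a (σ (f b e) - f b e) haa := by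
  have hae : f a e = 0 := UForm.refl hf _ _ hea
  have P := UForm.isPolar hf
  have h1 : f (b - f b e • a) a = 0 := by
    rw [P.sub_left, hf.smul_left, hba, haa]
    ring
  have h2 := conj_uS hf (uS_isIso hf a e haa hee hea) a b haa hba a (b - f b e • a) haa h1
    (by rw [uS_mulVec, haa, hae]; simp)
    (by rw [uS_mulVec, hba]; simp)
  have h3 : uS hf a (b - f b e • a) haa h1 = uT hf a (σ (f b e) - f b e) haa * uS hf a b haa hba := by
    apply gl_ext_mulVec
    intro x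
    simp only [Units.val_mul, ← Matrix.mulVec_mulVec]
    rw [uS_mulVec, uT_mulVec, uS_mulVec]
    have hb' : f (x + f x a • b - f x b • a) a = f x a := by
      rw [P.sub_left, hf.add_left, hf.smul_left, hf.smul_left, hba, haa]
      ring
    rw [hb', P.sub_right, UForm.smul_right hf]
    ext i
    simp only [Pi.add_apply, Pi.sub_apply, Pi.smul_apply, smul_eq_mul]
    ring
  rw [h2, h3]
  group

end Siegel

section pair

variable {U U' : Submodule F (ι → F)}

theorem eq_zero_of_mem_both (hf : IsUnitaryForm σ f) (hU : IsTotallySingularFor f U)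
    (hU' : IsTotallySingularFor f U') (hsup : ∀ x, ∃ a ∈ U, ∃ b ∈ U', a + b = x) {x : ι → F}
    (h1 : x ∈ U) (h2 : x ∈ U') : x = 0 := by
  by_contra h0
  obtain ⟨⟨y, hy⟩, -⟩ := hf.nondegenerate x h0
  obtain ⟨a, ha, b, hb, rfl⟩ := hsup y
  apply hy
  rw [hf.add_left, hU a ha x h1, hU' b hb x h2, add_zero]

/-- The pairing between the two members is non-degenerate. -/
theorem exists_pairing (hf : IsUnitaryForm σ f) (hU : IsTotallySingularFor f U)
    (hsup : ∀ x, ∃ a ∈ U, ∃ b ∈ U', a + b = x) {x : ι → F}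
    (h1 : x ∈ U) (h0 : x ≠ 0) : ∃ b ∈ U', f x b ≠ 0 := by
  obtain ⟨-, ⟨y, hy⟩⟩ := hf.nondegenerate x h0
  obtain ⟨a, ha, b, hb, rfl⟩ := hsup y
  rw [UForm.add_right hf, hU x h1 a ha, zero_add] at hy
  exact ⟨b, hb, hy⟩

theorem mem_of_orth' (hf : IsUnitaryForm σ f) (hU : IsTotallySingularFor f U)
    (hU' : IsTotallySingularFor f U') (hsup : ∀ x, ∃ a ∈ U, ∃ b ∈ U', a + b = x) {z : ι → F}
    (hz : ∀ u ∈ U, f u z = 0) : z ∈ U := by
  obtain ⟨a, ha, b, hb, rfl⟩ := hsup z
  have h1 : b = 0 := by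
    by_contra h0
    obtain ⟨⟨y, hy⟩, -⟩ := hf.nondegenerate b h0
    obtain ⟨c, hc, d, hd, rfl⟩ := hsup y
    apply hy
    have h2 := hz c hc
    rw [UForm.add_right hf, hU c hc a ha, zero_add] at h2
    rw [hf.add_left, h2, hU' d hd b hb, add_zero]
  rw [h1, add_zero]
  exact ha

/-- A good pair of an element moving both members away from the second. -/
theorem exists_good_pair [Finite F] (hf : IsUnitaryForm σ f) (hU : IsTotallySingularFor f U)
    (hsup : ∀ x, ∃ a ∈ U, ∃ b ∈ U', a + b = x)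
    (hdim : 2 ≤ Module.finrank F U) (g : GL ι F)
    (h1 : ∃ a ∈ U, (g : Matrix ι ι F) *ᵥ a ∉ U') (h2 : ∃ b ∈ U', (g : Matrix ι ι F) *ᵥ b ∉ U') :
    ∃ a ∈ U, ∃ b ∈ U', f b a = 0 ∧ (g : Matrix ι ι F) *ᵥ a ∉ U' ∧ (g : Matrix ι ι F) *ᵥ b ∉ U' := by
  have P := UForm.isPolar hf
  obtain ⟨a₀, ha₀, hga₀⟩ := h1
  obtain ⟨b₀, hb₀, hgb₀⟩ := h2
  by_cases h0 : f a₀ b₀ = 0
  · exact ⟨a₀, ha₀, b₀, hb₀, UForm.refl hf _ _ h0, hga₀, hgb₀⟩
  -- a non-zero vector of `U` orthogonal to `b₀`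
  have ha₀0 : a₀ ≠ 0 := by
    rintro rfl
    exact h0 (UForm.zero_left hf _)
  obtain ⟨k, hk, hka⟩ : ∃ k ∈ U, k ∉ Submodule.span F {a₀} := by
    by_contra hcon
    push Not at hcon
    have h3 : Module.finrank F U ≤ Module.finrank F (Submodule.span F {a₀}) :=
      Submodule.finrank_mono (fun y hy => hcon y hy)
    rw [finrank_span_singleton ha₀0] at h3
    omega
  obtain ⟨a', ha'⟩ : ∃ a', a' = k - (f k b₀ / f a₀ b₀) • a₀ := ⟨_, rfl⟩
  have ha'U : a' ∈ U := by
    rw [ha']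
    exact U.sub_mem hk (U.smul_mem _ ha₀)
  have ha'b : f a' b₀ = 0 := by
    rw [ha', P.sub_left, hf.smul_left]
    field_simp
    ring
  have ha'0 : a' ≠ 0 := by
    intro h3
    apply hka
    have h4 : k = (f k b₀ / f a₀ b₀) • a₀ := by
      rw [ha'] at h3
      exact sub_eq_zero.mp h3
    rw [h4]
    exact Submodule.smul_mem _ _ (Submodule.mem_span_singleton_self a₀)
  by_cases hga' : (g : Matrix ι ι F) *ᵥ a' ∈ U'
  swap
  · exact ⟨a', ha'U, b₀, hb₀, UForm.refl hf _ _ ha'b, hga', hgb₀⟩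
  obtain ⟨b'', hb'', hab''⟩ := exists_pairing hf hU hsup ha'U ha'0
  obtain ⟨b', hb'⟩ : ∃ b', b' = b'' - (σ (f a₀ b'' / f a₀ b₀)) • b₀ := ⟨_, rfl⟩
  have hb'U : b' ∈ U' := by
    rw [hb']
    exact U'.sub_mem hb'' (U'.smul_mem _ hb₀)
  have hab' : f a₀ b' = 0 := by
    rw [hb', P.sub_right, UForm.smul_right hf, hf.involutive]
    field_simp
    ring
  have ha'b' : f a' b' ≠ 0 := by
    rw [hb', P.sub_right, UForm.smul_right hf, ha'b, mul_zero, sub_zero]
    exact hab''
  by_cases hgb' : (g : Matrix ι ι F) *ᵥ b' ∈ U'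
  swap
  · exact ⟨a₀, ha₀, b', hb'U, UForm.refl hf _ _ hab', hga₀, hgb'⟩
  obtain ⟨t, ht⟩ : ∃ t, σ t = - f a₀ b₀ / f a' b' := σ.surjective _
  refine ⟨a₀ + a', U.add_mem ha₀ ha'U, b₀ + t • b', U'.add_mem hb₀ (U'.smul_mem _ hb'U), ?_, ?_, ?_⟩
  · apply UForm.refl hf
    simp only [hf.add_left, UForm.add_right hf, UForm.smul_right hf, hab', ha'b]
    rw [ht]
    field_simp
    ring
  · intro h3
    apply hga₀
    rw [Matrix.mulVec_add] at h3
    have := U'.sub_mem h3 hga'
    rwa [add_sub_cancel_right] at this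
  · intro h3
    apply hgb₀
    rw [Matrix.mulVec_add, Matrix.mulVec_smul] at h3
    have := U'.sub_mem h3 (U'.smul_mem t hgb')
    rwa [add_sub_cancel_right] at this

/-- The core of the argument: a centre appears in `U`. -/
theorem exists_centre [Finite F] (hf : IsUnitaryForm σ f)
    (hU : IsTotallySingularFor f U)
    (hU' : IsTotallySingularFor f U') (hsup : ∀ x, ∃ a ∈ U, ∃ b ∈ U', a + b = x)
    (hdim : 5 ≤ Module.finrank F U) {M : Subgroup (GL ι F)}
    (hE : ∀ a ∈ U, ∀ b ∈ U', ∀ (haa : f a a = 0) (hba : f b a = 0), uS hf a b haa hba ∈ M)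
    (g : GL ι F) (hgM : g ∈ M) (hg : IsIso f g)
    (h1 : ∃ a ∈ U, (g : Matrix ι ι F) *ᵥ a ∉ U') (h3 : ∃ b ∈ U', (g : Matrix ι ι F) *ᵥ b ∉ U') :
    ∃ a ∈ U, a ≠ 0 ∧ a ∈ cen hf M := by
  have P := UForm.isPolar hf
  obtain ⟨a₁, ha₁, b₁, hb₁, h0, hpU', hqU'⟩ := exists_good_pair hf hU hsup (by omega) g h1 h3
  obtain ⟨p, hp⟩ : ∃ p, p = (g : Matrix ι ι F) *ᵥ a₁ := ⟨_, rfl⟩
  obtain ⟨q, hq⟩ : ∃ q, q = (g : Matrix ι ι F) *ᵥ b₁ := ⟨_, rfl⟩
  rw [← hp] at hpU'
  rw [← hq] at hqU'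
  have hqp : f q p = 0 := by rw [hp, hq, hg, h0]
  have hpp : f p p = 0 := by rw [hp, hg, hU a₁ ha₁ a₁ ha₁]
  have hqq : f q q = 0 := by rw [hq, hg, hU' b₁ hb₁ b₁ hb₁]
  -- the conjugates
  have ht : ∀ (s : F) (h1 : f (s • p) (s • p) = 0) (h2 : f q (s • p) = 0), uS hf (s • p) q h1 h2 ∈ M := by
    intro s h1 h2
    have hsa : f (s • a₁) (s • a₁) = 0 := hU _ (U.smul_mem s ha₁) _ (U.smul_mem s ha₁)
    have hbsa : f b₁ (s • a₁) = 0 := by rw [UForm.smul_right hf, h0, mul_zero]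
    rw [← conj_uS hf hg (s • a₁) b₁ hsa hbsa (s • p) q h1 h2 (by rw [Matrix.mulVec_smul, hp]) hq.symm]
    exact M.mul_mem (M.mul_mem hgM (hE _ (U.smul_mem s ha₁) b₁ hb₁ hsa hbsa)) (M.inv_mem hgM)
  obtain ⟨p₁, hp₁, p₂, hp₂, hpd⟩ := hsup p
  obtain ⟨q₁, hq₁, q₂, hq₂, hqd⟩ := hsup q
  have hp₁0 : p₁ ≠ 0 := by
    rintro rfl
    rw [zero_add] at hpd
    exact hpU' (hpd ▸ hp₂)
  have hq₁0 : q₁ ≠ 0 := by
    rintro rfl
    rw [zero_add] at hqd
    exact hqU' (hqd ▸ hq₂)
  -- the vector `a`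
  have hE₀ := finrank_inf_ker U (formVec f p)
  have hE₁ := finrank_inf_ker (U ⊓ LinearMap.ker (dualOfVec (formVec f p))) (formVec f q)
  obtain ⟨a, haE, hasp⟩ : ∃ a ∈ (U ⊓ LinearMap.ker (dualOfVec (formVec f p))) ⊓
      LinearMap.ker (dualOfVec (formVec f q)), a ∉ Submodule.span F {p₁, q₁} := by
    by_contra hcon
    push Not at hcon
    have h4 := Submodule.finrank_mono (show (U ⊓ LinearMap.ker (dualOfVec (formVec f p))) ⊓
      LinearMap.ker (dualOfVec (formVec f q)) ≤ Submodule.span F {p₁, q₁} from fun y hy => hcon y hy)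
    have h5 : Module.finrank F (Submodule.span F {p₁, q₁}) ≤ 2 := by
      have := finrank_range_le_card (R := F) ![p₁, q₁]
      have h6 : Set.range ![p₁, q₁] = {p₁, q₁} := by
        simp [Matrix.range_cons, Matrix.range_empty, Set.pair_comm]
      rw [h6] at this
      simpa [Set.finrank] using this
    omega
  have haU : a ∈ U := haE.1.1
  have hap : f a p = 0 := by
    have : dualOfVec (formVec f p) a = 0 := haE.1.2
    rwa [dualOfVec_apply, P.formVec_eq] at this
  have haq : f a q = 0 := by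
    have : dualOfVec (formVec f q) a = 0 := haE.2
    rwa [dualOfVec_apply, P.formVec_eq] at this
  have haa : f a a = 0 := hU a haU a haU
  have ha0 : a ≠ 0 := by
    rintro rfl
    exact hasp (Submodule.zero_mem _)
  refine ⟨a, haU, ha0, ?_⟩
  -- the vector `b`
  have hnot : ∀ r₁ ∈ U, r₁ ≠ 0 → r₁ ∈ Submodule.span F {p₁, q₁} → ∀ r₂ ∈ U',
      ∃ e ∈ (U' ⊓ LinearMap.ker (dualOfVec (formVec f a))), f e (r₁ + r₂) ≠ 0 := by
    intro r₁ hr₁ hr₁0 hr₁s r₂ hr₂
    have hr₁W : r₁ ∉ Submodule.span F {a} ⊔ U' := by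
      intro hmem
      obtain ⟨y, hy, z, hz, hyz⟩ := Submodule.mem_sup.mp hmem
      obtain ⟨c, rfl⟩ := Submodule.mem_span_singleton.mp hy
      have h4 : z = r₁ - c • a := by rw [← hyz]; abel
      have h5 : z ∈ U := by
        rw [h4]
        exact U.sub_mem hr₁ (U.smul_mem _ haU)
      have h6 := eq_zero_of_mem_both hf hU hU' hsup h5 hz
      rw [h6, add_zero] at hyz
      have hc : c ≠ 0 := by
        rintro rfl
        rw [zero_smul] at hyz
        exact hr₁0 hyz.symm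
      apply hasp
      have h7 : a = c⁻¹ • r₁ := by
        rw [← hyz, smul_smul, inv_mul_cancel₀ hc, one_smul]
      rw [h7]
      exact Submodule.smul_mem _ _ hr₁s
    obtain ⟨z, hz, hfz⟩ := exists_orth hf _ r₁ hr₁W
    have hzU' : z ∈ U' := mem_of_orth' hf hU' hU (fun x => by
      obtain ⟨c, hc, d, hd, hcd⟩ := hsup x
      exact ⟨d, hd, c, hc, by rw [add_comm]; exact hcd⟩) (fun u hu => hz u (Submodule.mem_sup_right hu))
    refine ⟨z, ⟨hzU', ?_⟩, ?_⟩
    · show dualOfVec (formVec f a) z = 0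
      rw [dualOfVec_apply, P.formVec_eq]
      exact UForm.refl hf _ _ (hz a (Submodule.mem_sup_left (Submodule.mem_span_singleton_self a)))
    · apply form_comm_ne hf
      rw [hf.add_left, hfz, hU' r₂ hr₂ z hzU', add_zero]
      exact one_ne_zero
  -- avoid two hyperplanes
  obtain ⟨b, hbE, hbp, hbq⟩ : ∃ b ∈ (U' ⊓ LinearMap.ker (dualOfVec (formVec f a))), f b p ≠ 0 ∧ f b q ≠ 0 := by
    obtain ⟨e₁, he₁, h₁⟩ := hnot p₁ hp₁ hp₁0 (Submodule.subset_span (by simp)) p₂ hp₂
    obtain ⟨e₂, he₂, h₂⟩ := hnot q₁ hq₁ hq₁0 (Submodule.subset_span (by simp)) q₂ hq₂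
    rw [hpd] at h₁
    rw [hqd] at h₂
    by_cases h₃ : f e₁ q = 0
    · by_cases h₄ : f e₂ p = 0
      · refine ⟨e₁ + e₂, Submodule.add_mem _ he₁ he₂, ?_, ?_⟩
        · rwa [hf.add_left, h₄, add_zero]
        · rwa [hf.add_left, h₃, zero_add]
      · exact ⟨e₂, he₂, h₄, h₂⟩
    · exact ⟨e₁, he₁, h₁, h₃⟩
  have hbU' : b ∈ U' := hbE.1
  have hba : f b a = 0 := by
    have : dualOfVec (formVec f a) b = 0 := hbE.2
    rwa [dualOfVec_apply, P.formVec_eq] at this
  have hab : f a b = 0 := UForm.refl hf _ _ hba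
  have hbb : f b b = 0 := hU' b hbU' b hbU'
  -- the scaling
  obtain ⟨ω, hω⟩ : ∃ ω : F, σ ω ≠ ω := by
    by_contra hcon
    push Not at hcon
    apply hf.ne_refl
    ext z
    simpa using hcon z
  obtain ⟨w₀, hw₀⟩ : ∃ w₀, w₀ = σ (f b p) * f b q := ⟨_, rfl⟩
  have hw₀0 : w₀ ≠ 0 := by
    rw [hw₀]
    exact mul_ne_zero ((map_ne_zero σ).mpr hbp) hbq
  obtain ⟨s, hs⟩ : ∃ s, s = ω / w₀ := ⟨_, rfl⟩
  have hsw : s * w₀ = ω := by
    rw [hs]
    field_simp
  have hsp : f (s • p) (s • p) = 0 := by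
    rw [hf.smul_left, UForm.smul_right hf, hpp]
    ring
  have hqsp : f q (s • p) = 0 := by
    rw [UForm.smul_right hf, hqp, mul_zero]
  have htM := ht s hsp hqsp
  have hI := uS_isIso hf (s • p) q hsp hqq hqsp
  have hta : ((uS hf (s • p) q hsp hqsp : GL ι F) : Matrix ι ι F) *ᵥ a = a := by
    rw [uS_mulVec, haq, hf.herm a (s • p), hf.smul_left, map_mul]
    have : σ (f p a) = 0 := by
      rw [UForm.sigma_form hf p a, hap]
    rw [this]
    simp
  obtain ⟨e, he⟩ : ∃ e, e = ((uS hf (s • p) q hsp hqsp : GL ι F) : Matrix ι ι F) *ᵥ b := ⟨_, rfl⟩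
  have he' : e = b + f b (s • p) • q - f b q • s • p := by rw [he, uS_mulVec]
  have hea : f e a = 0 := by
    have := hI b a
    rw [← he, hta] at this
    rw [this, hba]
  have hee : f e e = 0 := by
    rw [he, hI, hbb]
  have hC₁ : uS hf a e haa hea ∈ M := by
    rw [← conj_uS hf hI a b haa hba a e haa hea hta he.symm]
    exact M.mul_mem (M.mul_mem htM (hE a haU b hbU' haa hba)) (M.inv_mem htM)
  have hbe : f b e = ω - σ ω := by
    have h6 : σ ω = σ s * (f b p * σ (f b q)) := by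
      rw [← hsw, hw₀, map_mul, map_mul, hf.involutive]
    have h7 : ω = s * (σ (f b p) * f b q) := by rw [← hsw, hw₀]
    have hbsp : f b (s • p) = σ s * f b p := UForm.smul_right hf s b p
    rw [he', P.sub_right, UForm.add_right hf, UForm.smul_right hf _ b q, UForm.smul_right hf _ b (s • p), hbsp,
      hbb, map_mul, hf.involutive, h6, h7]
    ring
  have hD0 : ω - σ ω ≠ 0 := sub_ne_zero.mpr (Ne.symm hω)
  have hsD : σ (ω - σ ω) = -(ω - σ ω) := by
    rw [map_sub, hf.involutive]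
    ring
  refine ⟨haa, fun c hc => ?_⟩
  have hsc : σ c = -c := eq_neg_of_add_eq_zero_right hc
  have hr : σ (-c / (ω - σ ω)) = -c / (ω - σ ω) := by
    rw [map_div₀, map_neg, hsc, hsD]
    field_simp
  obtain ⟨l, hl⟩ := exists_add_sigma_eq σ hf.ne_refl hf.involutive _ hr
  have hla : f (l • b) a = 0 := by rw [hf.smul_left, hba, mul_zero]
  have hlb : f (l • b) (l • b) = 0 := by
    rw [hf.smul_left, UForm.smul_right hf, hbb]
    ring
  have hR := hE a haU (l • b) (U'.smul_mem _ hbU') haa hla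
  have hcomm := commutator_uS hf a e (l • b) haa hee hlb hea hla
  have hv : σ (f (l • b) e) - f (l • b) e = c := by
    rw [hf.smul_left, hbe, map_mul, hsD]
    have h5 : (l + σ l) * (ω - σ ω) = -c := by
      rw [hl]
      field_simp
    linear_combination -h5
  have hu : uT hf a c haa = uT hf a (σ (f (l • b) e) - f (l • b) e) haa := by
    congr 1
    exact hv.symm
  rw [hu, ← hcomm]
  exact M.mul_mem (M.mul_mem (M.mul_mem hC₁ hR) (M.inv_mem hC₁)) (M.inv_mem hR)

/-- From one centre in `U` to all vectors of `U`. -/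
theorem centres_of_mem [Finite F] (hf : IsUnitaryForm σ f) (hU : IsTotallySingularFor f U)
    (hU' : IsTotallySingularFor f U')
    (hsup : ∀ x, ∃ a ∈ U, ∃ b ∈ U', a + b = x) {M : Subgroup (GL ι F)}
    (hE : ∀ a ∈ U, ∀ b ∈ U', ∀ (haa : f a a = 0) (hba : f b a = 0), uS hf a b haa hba ∈ M)
    (hiso : ∀ h ∈ M, IsIso f h)
    {a : ι → F} (ha : a ∈ U) (ha0 : a ≠ 0) (haC : a ∈ cen hf M) {a' : ι → F} (ha' : a' ∈ U) :
    a' ∈ cen hf M := by
  have P := UForm.isPolar hf
  by_cases ha'0 : a' = 0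
  · rw [ha'0]
    have := cen_smul haC 0
    rwa [zero_smul] at this
  obtain ⟨b, hb, h1, h2⟩ := exists_common hf U' a a' (exists_pairing hf hU hsup ha ha0)
    (exists_pairing hf hU hsup ha' ha'0)
  obtain ⟨l, hl⟩ : ∃ l, l = f a b / f a' b := ⟨_, rfl⟩
  have hl0 : l ≠ 0 := by
    rw [hl]
    exact div_ne_zero h1 h2
  have hlb : f (l • a') b = f a b := by
    rw [hf.smul_left, hl]
    field_simp
  obtain ⟨w, hw⟩ : ∃ w, w = (f a b)⁻¹ • (l • a' - a) := ⟨_, rfl⟩
  have hwU : w ∈ U := by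
    rw [hw]
    exact U.smul_mem _ (U.sub_mem (U.smul_mem _ ha') ha)
  have hwb : f w b = 0 := by
    rw [hw, hf.smul_left, P.sub_left, hlb, sub_self, mul_zero]
  have hbw : f b w = 0 := UForm.refl hf _ _ hwb
  have hww : f w w = 0 := hU w hwU w hwU
  have hbb : f b b = 0 := hU' b hb b hb
  have hnb : f (-b) w = 0 := by rw [P.neg_left, hbw, neg_zero]
  have hnbb : f (-b) (-b) = 0 := by rw [P.neg_left, P.neg_right, hbb]; simp
  have h3 := cen_mulVec haC (hE w hwU (-b) (U'.neg_mem hb) hww hnb) (uS_isIso hf w (-b) hww hnbb hnb)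
  rw [uS_mulVec, hU a ha w hwU, P.neg_right, zero_smul, add_zero, neg_smul, sub_neg_eq_add, hw, smul_smul,
    mul_inv_cancel₀ h1, one_smul, add_sub_cancel] at h3
  have h4 := cen_smul h3 l⁻¹
  rwa [smul_smul, inv_mul_cancel₀ hl0, one_smul] at h4

/-- Everything from the two members. -/
theorem centres_all [Finite F] (hf : IsUnitaryForm σ f) (hU : IsTotallySingularFor f U)
    (hU' : IsTotallySingularFor f U') (hsup : ∀ x, ∃ a ∈ U, ∃ b ∈ U', a + b = x)
    {M : Subgroup (GL ι F)} (h1 : ∀ a ∈ U, a ∈ cen hf M) (h2 : ∀ a ∈ U', a ∈ cen hf M)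
    (x : ι → F) (hx : f x x = 0) : x ∈ cen hf M := by
  have P := UForm.isPolar hf
  -- the first case
  have key : ∀ a ∈ U, ∀ b ∈ U', f a b ≠ 0 → f (a + b) (a + b) = 0 → a + b ∈ cen hf M := by
    intro a ha b hb hab hn
    have haa := hU a ha a ha
    have hbb := hU' b hb b hb
    have hba : f b a = σ (f a b) := hf.herm b a
    have hba0 : f b a ≠ 0 := form_comm_ne hf hab
    have htr : f a b + f b a = 0 := by
      rw [hf.add_left, UForm.add_right hf, UForm.add_right hf, haa, hbb] at hn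
      linear_combination hn
    have hs : σ (f b a) = - f b a := by
      rw [UForm.sigma_form hf b a]
      exact eq_neg_of_add_eq_zero_left htr
    have hc : (f b a)⁻¹ + σ (f b a)⁻¹ = 0 := by
      rw [map_inv₀, hs]
      field_simp
      ring
    have h3 := cen_plane (h1 a ha) (h2 b hb) _ hc
    rw [smul_smul, mul_inv_cancel₀ hba0, one_smul] at h3
    rwa [add_comm]
  obtain ⟨a, ha, b, hb, rfl⟩ := hsup x
  by_cases ha0 : a = 0
  · rw [ha0, zero_add]
    exact h2 b hb
  by_cases hab : f a b = 0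
  · obtain ⟨b', hb', hab'⟩ := exists_pairing hf hU hsup ha ha0
    obtain ⟨κ, hκ0, hκ⟩ := exists_trace_zero σ hf.ne_refl hf.involutive
    -- scale `b'` so that the pairing has trace zero
    obtain ⟨t, ht⟩ : ∃ t, σ t = κ / f a b' := σ.surjective _
    have haa := hU a ha a ha
    have hb'b' := hU' b' hb' b' hb'
    have hab't : f a (t • b') = κ := by
      rw [UForm.smul_right hf, ht]
      field_simp
    have hb'ta : f (t • b') a = σ κ := by
      rw [hf.herm, hab't]
    have htb : t • b' ∈ U' := U'.smul_mem _ hb'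
    have ht0 : f (t • b') (t • b') = 0 := hU' _ htb _ htb
    have h3 : a + t • b' ∈ cen hf M := key a ha (t • b') htb (by rw [hab't]; exact hκ0) (by
      rw [hf.add_left, UForm.add_right hf, UForm.add_right hf, haa, ht0, hab't, hb'ta]
      linear_combination hκ)
    have h4 : b - t • b' ∈ U' := U'.sub_mem hb htb
    have hsκ : σ κ = -κ := eq_neg_of_add_eq_zero_right hκ
    have hc : (-κ)⁻¹ + σ ((-κ)⁻¹) = 0 := by
      rw [map_inv₀, map_neg, hsκ]
      field_simp
      ring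
    have h5 := cen_plane (h2 _ h4) h3 _ hc
    have h6 : f (a + t • b') (b - t • b') = -κ := by
      rw [hf.add_left, P.sub_right, P.sub_right, hab, hab't, hU' _ htb _ hb, ht0]
      ring
    rw [h6, smul_smul, mul_inv_cancel₀ (neg_ne_zero.mpr hκ0), one_smul] at h5
    have h7 : a + t • b' + (b - t • b') = a + b := by abel
    rwa [h7] at h5
  · exact key a ha b hb hab hx

end pair

/-- Independence from a dual family. -/
theorem linearIndependent_of_dual (hf : IsUnitaryForm σ f) {κ : Type*} [Finite κ] [DecidableEq κ]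
    (u w : κ → ι → F) (h : ∀ x y, f (u x) (w y) = if x = y then 1 else 0) :
    LinearIndependent F u := by
  have := Fintype.ofFinite κ
  rw [Fintype.linearIndependent_iff]
  intro g hg y
  have h1 := congrArg (fun z => f z (w y)) hg
  simp only [form_sum_left hf, hf.smul_left, h, UForm.zero_left hf] at h1
  simpa using h1

/-- A swap of two complementary totally singular subspaces, of determinant one. -/
theorem exists_swap [Finite F] (hf : IsUnitaryForm σ f) {U U' : Submodule F (ι → F)}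
    (hU : IsTotallySingularFor f U)
    (hU' : IsTotallySingularFor f U') (hsup : ∀ x, ∃ a ∈ U, ∃ b ∈ U', a + b = x) {m : ℕ}
    (hm : Module.finrank F U = m) (hm' : Module.finrank F U' = m) (hm0 : 0 < m) :
    ∃ w : GL ι F, IsIso f w ∧ (w : Matrix ι ι F).det = 1 ∧
      (∀ x ∈ U, (w : Matrix ι ι F) *ᵥ x ∈ U') ∧ (∀ x ∈ U', (w : Matrix ι ι F) *ᵥ x ∈ U) := by
  classical
  have hsup' : ∀ x, ∃ a ∈ U', ∃ b ∈ U, a + b = x := fun x => by
    obtain ⟨c, hc, d, hd, hcd⟩ := hsup x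
    exact ⟨d, hd, c, hc, by rw [add_comm]; exact hcd⟩
  let bU : Module.Basis (Fin m) F U := Module.finBasisOfFinrankEq F U hm
  let e : Fin m → ι → F := fun a => (bU a : ι → F)
  have he : ∀ a, e a ∈ U := fun a => (bU a).2
  have hind : LinearIndependent F e :=
    bU.linearIndependent.map' U.subtype (Submodule.ker_subtype U)
  -- the dual family
  have hdual : ∀ a, ∃ z ∈ U', ∀ b, f (e b) z = if b = a then 1 else 0 := by
    intro a
    obtain ⟨W, hW⟩ : ∃ W, W = Submodule.span F (e '' {b | b ≠ a}) ⊔ U' := ⟨_, rfl⟩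
    have hnot : e a ∉ W := by
      intro hmem
      rw [hW] at hmem
      obtain ⟨y, hy, z, hz, hyz⟩ := Submodule.mem_sup.mp hmem
      have h1 : y ∈ U := by
        refine (Submodule.span_le.mpr ?_) hy
        rintro _ ⟨b, -, rfl⟩
        exact he b
      have h2 : z ∈ U := by
        have h3 : z = e a - y := by rw [← hyz]; abel
        rw [h3]
        exact U.sub_mem (he a) h1
      have h3 := eq_zero_of_mem_both hf hU hU' hsup h2 hz
      rw [h3, add_zero] at hyz
      rw [hyz] at hy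
      have h4 := hind.notMem_span_image (s := {b | b ≠ a}) (x := a) (by simp)
      exact h4 hy
    obtain ⟨z, hz, h1⟩ := exists_orth hf W _ hnot
    have hz' : ∀ w ∈ W, f w z = 0 := hz
    rw [hW] at hz'
    refine ⟨z, mem_of_orth' hf hU' hU hsup' (fun u hu => hz' u (Submodule.mem_sup_right hu)), fun b => ?_⟩
    by_cases hb : b = a
    · subst hb
      simpa using h1
    · rw [if_neg hb]
      exact hz' _ (Submodule.mem_sup_left (Submodule.subset_span ⟨b, hb, rfl⟩))
  choose e' he' hee' using hdual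
  have h1 : ∀ a b, f (e a) (e b) = 0 := fun a b => hU _ (he a) _ (he b)
  have h2 : ∀ a b, f (e' a) (e' b) = 0 := fun a b => hU' _ (he' a) _ (he' b)
  have h3 : ∀ a b, f (e a) (e' b) = if a = b then 1 else 0 := fun a b => hee' b a
  have h3' : ∀ a b, f (e' a) (e b) = if a = b then 1 else 0 := by
    intro a b
    rw [hf.herm, h3]
    by_cases hab : a = b
    · subst hab
      simp
    · simp [hab, Ne.symm hab]
  have hind₁ : LinearIndependent F (Sum.elim e e') := by
    apply linearIndependent_of_dual hf _ (Sum.elim e' e)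
    rintro (a | a) (b | b)
    · simpa using h3 a b
    · simp [h1]
    · simp [h2]
    · simpa using h3' a b
  have hind₂ : LinearIndependent F (Sum.elim e' e) := by
    apply linearIndependent_of_dual hf _ (Sum.elim e e')
    rintro (a | a) (b | b)
    · simpa using h3' a b
    · simp [h2]
    · simp [h1]
    · simpa using h3 a b
  obtain ⟨w₀, hw₀, hwu⟩ := exists_isometry_family hf (Sum.elim e e') (Sum.elim e' e)
    hind₁ hind₂ (by
      rintro (a | a) (b | b)
      · simp [h1, h2]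
      · simp only [Sum.elim_inl, Sum.elim_inr]
        rw [h3, h3']
      · simp only [Sum.elim_inl, Sum.elim_inr]
        rw [h3, h3']
      · simp [h1, h2])
  have hspan : U ≤ Submodule.span F (Set.range e) := by
    refine le_of_eq ?_
    refine Submodule.eq_of_le_of_finrank_eq ?_ ?_ |>.symm
    · rw [Submodule.span_le]
      rintro _ ⟨a, rfl⟩
      exact he a
    · rw [finrank_span_eq_card hind, hm]
      simp
  have hspan' : U' ≤ Submodule.span F (Set.range e') := by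
    have hind' : LinearIndependent F e' := hind₁.comp _ Sum.inr_injective
    refine le_of_eq ?_
    refine Submodule.eq_of_le_of_finrank_eq ?_ ?_ |>.symm
    · rw [Submodule.span_le]
      rintro _ ⟨a, rfl⟩
      exact he' a
    · rw [finrank_span_eq_card hind', hm']
      simp
  have hw1 : ∀ x ∈ U, (w₀ : Matrix ι ι F) *ᵥ x ∈ U' := by
    intro x hx
    have h4 : Submodule.span F (Set.range e) ≤ U'.comap (Matrix.toLin' (w₀ : Matrix ι ι F)) := by
      rw [Submodule.span_le]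
      rintro _ ⟨a, rfl⟩
      show (Matrix.toLin' (w₀ : Matrix ι ι F)) (e a) ∈ U'
      rw [Matrix.toLin'_apply]
      have := hwu (Sum.inl a)
      simp only [Sum.elim_inl] at this
      rw [this]
      exact he' a
    simpa using h4 (hspan hx)
  have hw2 : ∀ x ∈ U', (w₀ : Matrix ι ι F) *ᵥ x ∈ U := by
    intro x hx
    have h4 : Submodule.span F (Set.range e') ≤ U.comap (Matrix.toLin' (w₀ : Matrix ι ι F)) := by
      rw [Submodule.span_le]
      rintro _ ⟨a, rfl⟩
      show (Matrix.toLin' (w₀ : Matrix ι ι F)) (e' a) ∈ U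
      rw [Matrix.toLin'_apply]
      have := hwu (Sum.inr a)
      simp only [Sum.elim_inr] at this
      rw [this]
      exact he a
    simpa using h4 (hspan' hx)
  -- correcting the determinant
  have hN := isIso_norm_det hf hw₀
  obtain ⟨d, hd⟩ : ∃ d, d = (w₀ : Matrix ι ι F).det := ⟨_, rfl⟩
  rw [← hd] at hN
  have hd0 : d ≠ 0 := left_ne_zero_of_mul_eq_one hN
  have hsd0 : σ d ≠ 0 := (map_ne_zero σ).mpr hd0
  have hNi : d⁻¹ * σ d⁻¹ = 1 := by
    rw [map_inv₀, ← mul_inv, hN, inv_one]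
  obtain ⟨y, hy0, hy⟩ := hilbert90 σ hf.ne_refl hf.involutive _ hNi
  have hsy0 : σ y ≠ 0 := (map_ne_zero σ).mpr hy0
  let a₀ : Fin m := ⟨0, hm0⟩
  obtain ⟨L, hL, hLd, hLx⟩ := exists_levi hf (e a₀) (e' a₀) (h1 _ _) (h2 _ _) (by rw [h3, if_pos rfl]) y hy0
  refine ⟨L * w₀, hL.mul hw₀, ?_, ?_, ?_⟩
  · rw [Units.val_mul, Matrix.det_mul, hLd, ← hd]
    have : y * (σ y)⁻¹ = d⁻¹ := by
      rw [mul_inv_eq_iff_eq_mul₀ hsy0]
      exact hy
    rw [this]
    exact inv_mul_cancel₀ hd0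
  · intro x hx
    rw [Units.val_mul, ← Matrix.mulVec_mulVec, hLx]
    have h5 := hw1 x hx
    rw [hU' _ h5 _ (he' a₀), zero_mul, zero_smul, add_zero]
    exact U'.add_mem h5 (U'.smul_mem _ (he' a₀))
  · intro x hx
    rw [Units.val_mul, ← Matrix.mulVec_mulVec, hLx]
    have h5 := hw2 x hx
    rw [hU _ h5 _ (he a₀), zero_mul, zero_smul, add_zero]
    exact U.add_mem h5 (U.smul_mem _ (he a₀))

/-- **The stabiliser of a pair of complementary totally singular subspaces is maximal in `SU`.** -/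
theorem pair_isMaximalIn [Finite F] (S : IsSUGroup hf I) {m : ℕ} (hm : 5 ≤ m)
    {D : Fin 2 → Submodule F (ι → F)} (hD : IsMDecomposition m D)
    (hts : ∀ i, IsTotallySingularFor f (D i)) : IsMaximalIn I (decompositionStabilizer D ⊓ I) := by
  have P := UForm.isPolar hf
  have hfin := hD.finrank_eq
  have hsup : ∀ i j : Fin 2, i ≠ j → ∀ x, ∃ a ∈ D i, ∃ b ∈ D j, a + b = x := by
    intro i j hij x
    obtain ⟨c, hc, hcs⟩ := Cfsg.Agent.Lib.Geo.SpDecomp.exists_comps hD.iSup_eq_top x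
    rw [Fin.sum_univ_two] at hcs
    have h01 : (i = 0 ∧ j = 1) ∨ (i = 1 ∧ j = 0) := by omega
    rcases h01 with ⟨rfl, rfl⟩ | ⟨rfl, rfl⟩
    · exact ⟨c 0, hc 0, c 1, hc 1, hcs⟩
    · exact ⟨c 1, hc 1, c 0, hc 0, by rw [add_comm]; exact hcs⟩
  have hne : ∀ i, D i ≠ ⊥ := by
    intro i h
    have := hfin i
    rw [h] at this
    simp at this
    omega
  have hzero : ∀ i j : Fin 2, i ≠ j → ∀ x, x ∈ D i → x ∈ D j → x = 0 :=
    fun i j hij x h1 h3 => eq_zero_of_mem_both hf (hts i) (hts j) (hsup i j hij) h1 h3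
  refine isMaximalIn_of_forall ?_ ?_
  · refine lt_of_le_of_ne inf_le_right ?_
    intro he
    obtain ⟨a, ha, ha0⟩ := Submodule.exists_mem_ne_zero_of_ne_bot (hne 0)
    obtain ⟨b, hb, hab⟩ := exists_pairing hf (hts 0) (hsup 0 1 (by decide)) ha ha0
    obtain ⟨κ, hκ0, hκ⟩ := exists_trace_zero σ hf.ne_refl hf.involutive
    have haa : f a a = 0 := hts 0 a ha a ha
    have hT : uT hf a κ haa ∈ decompositionStabilizer D ⊓ I := by
      rw [he]
      exact (S.mem_iff _).mpr ⟨uT_isIso hf a κ haa hκ, (mem_specialLinear_iff _).mp (uT_mem hf a κ haa hκ).2⟩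
    obtain ⟨τ, hτ⟩ := hT.1
    have h1 : ((uT hf a κ haa : GL ι F) : Matrix ι ι F) *ᵥ b ∈ D (τ 1) := by
      rw [← hτ]
      exact ⟨b, hb, rfl⟩
    rw [uT_mulVec, smul_smul] at h1
    have hba := form_comm_ne hf hab
    have hb0 : b ≠ 0 := by
      rintro rfl
      exact hba (UForm.zero_left hf _)
    have hbκ : f b a * κ ≠ 0 := mul_ne_zero hba hκ0
    have hcase : τ 1 = 1 ∨ τ 1 = 0 := by omega
    rcases hcase with hc | hc
    · rw [hc] at h1
      have h3 : (f b a * κ) • a ∈ D 1 := by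
        have := (D 1).sub_mem h1 hb
        rwa [add_sub_cancel_left] at this
      have h4 := (D 1).smul_mem (f b a * κ)⁻¹ h3
      rw [smul_smul, inv_mul_cancel₀ hbκ, one_smul] at h4
      exact ha0 (hzero 0 1 (by decide) a ha h4)
    · rw [hc] at h1
      have h3 : b ∈ D 0 := by
        have := (D 0).sub_mem h1 ((D 0).smul_mem (f b a * κ) ha)
        rwa [add_sub_cancel_right] at this
      exact hb0 (hzero 0 1 (by decide) b h3 hb)
  intro M hHM hMI g hgM hgH
  have hpres : ∀ h ∈ M, IsIso f h := fun h hh => ((S.mem_iff h).mp (hMI hh)).1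
  have hg : g ∉ decompositionStabilizer D := fun hs => hgH ⟨hs, hMI hgM⟩
  have hE : ∀ i j : Fin 2, i ≠ j → ∀ a ∈ D i, ∀ b ∈ D j, ∀ (haa : f a a = 0) (hba : f b a = 0),
      uS hf a b haa hba ∈ M := by
    intro i j hij a ha b hb haa hba
    apply hHM
    refine ⟨Cfsg.Agent.Lib.Geo.SpDecomp.mem_decompositionStabilizer_of_forall hfin 1 _ ?_,
      (S.mem_iff _).mpr ⟨uS_isIso hf a b haa (hts j b hb b hb) hba, uS_det hf a b haa hba⟩⟩
    intro k x hx
    rw [uS_mulVec]
    by_cases hk : k = i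
    · subst hk
      rw [hts k x hx a ha, zero_smul, add_zero]
      exact (D k).sub_mem hx ((D k).smul_mem _ ha)
    · have hk' : k = j := by omega
      subst hk'
      rw [hts k x hx b hb, zero_smul, sub_zero]
      exact (D k).add_mem hx ((D k).smul_mem _ hb)
  obtain ⟨i, j, hij, h1, h3⟩ : ∃ i j : Fin 2, i ≠ j ∧ (∃ a ∈ D j, (g : Matrix ι ι F) *ᵥ a ∉ D i) ∧
      (∃ b ∈ D i, (g : Matrix ι ι F) *ᵥ b ∉ D i) := by
    by_contra hcon
    push Not at hcon
    have hg0 : ∀ x, (g : Matrix ι ι F) *ᵥ x = 0 → x = 0 := by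
      intro x h0
      have := inv_mulVec_mulVec g x
      rw [h0, Matrix.mulVec_zero] at this
      exact this.symm
    have key : ∀ (i j : Fin 2), i ≠ j → (∀ a ∈ D j, (g : Matrix ι ι F) *ᵥ a ∈ D i) ∨
        (∀ b ∈ D i, (g : Matrix ι ι F) *ᵥ b ∈ D i) := by
      intro i j hij
      by_contra hc
      push Not at hc
      obtain ⟨⟨a, ha, hga⟩, ⟨b, hb, hgb⟩⟩ := hc
      exact hgb (hcon i j hij ⟨a, ha, hga⟩ b hb)
    have hnever : ∀ (i j : Fin 2), i ≠ j → ¬ ((∀ a ∈ D i, (g : Matrix ι ι F) *ᵥ a ∈ D j) ∧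
        (∀ a ∈ D i, (g : Matrix ι ι F) *ᵥ a ∈ D i)) := by
      rintro i j hij ⟨h4, h5⟩
      obtain ⟨a, ha, ha0⟩ := Submodule.exists_mem_ne_zero_of_ne_bot (hne i)
      exact ha0 (hg0 a (hzero i j hij _ (h5 a ha) (h4 a ha)))
    apply hg
    rcases key 0 1 (by decide) with h4 | h4 <;> rcases key 1 0 (by decide) with h5 | h5
    · refine Cfsg.Agent.Lib.Geo.SpDecomp.mem_decompositionStabilizer_of_forall hfin (Equiv.swap 0 1) g ?_
      rw [Fin.forall_fin_two]
      exact ⟨fun x hx => by simpa using h5 x hx, fun x hx => by simpa using h4 x hx⟩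
    · exact absurd ⟨h4, h5⟩ (hnever 1 0 (by decide))
    · exact absurd ⟨h5, h4⟩ (hnever 0 1 (by decide))
    · refine Cfsg.Agent.Lib.Geo.SpDecomp.mem_decompositionStabilizer_of_forall hfin 1 g ?_
      rw [Fin.forall_fin_two]
      exact ⟨fun x hx => by simpa using h4 x hx, fun x hx => by simpa using h5 x hx⟩
  have hji := Ne.symm hij
  obtain ⟨a, ha, ha0, haC⟩ := exists_centre hf (hts j) (hts i) (hsup j i hji)
    (by rw [hfin]; exact hm) (hE j i hji) g hgM (hpres g hgM) h1 h3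
  have hUj : ∀ x ∈ D j, x ∈ cen hf M := fun x hx =>
    centres_of_mem hf (hts j) (hts i) (hsup j i hji) (hE j i hji) hpres ha ha0 haC hx
  obtain ⟨w, hw, hwd, hw1, hw2⟩ := exists_swap hf (hts j) (hts i) (hsup j i hji) (hfin j) (hfin i) (by omega)
  have hwM : w ∈ M := by
    apply hHM
    refine ⟨Cfsg.Agent.Lib.Geo.SpDecomp.mem_decompositionStabilizer_of_forall hfin (Equiv.swap i j) w ?_,
      (S.mem_iff _).mpr ⟨hw, hwd⟩⟩
    intro k x hx
    by_cases hk : k = i
    · subst hk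
      simpa using hw2 x hx
    · have hk' : k = j := by omega
      subst hk'
      simpa using hw1 x hx
  have hwa : (w : Matrix ι ι F) *ᵥ a ≠ 0 := by
    intro h0
    apply ha0
    have := inv_mulVec_mulVec w a
    rw [h0, Matrix.mulVec_zero] at this
    exact this.symm
  have hUi : ∀ x ∈ D i, x ∈ cen hf M := fun x hx =>
    centres_of_mem hf (hts i) (hts j) (hsup i j hij) (hE i j hij) hpres (hw1 a ha) hwa
      (cen_mulVec haC hwM hw) hx
  refine S.gen M (fun v c hv hc => ?_)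
  exact cen_mem (centres_all hf (hts j) (hts i) (hsup j i hji) hUj hUi v hv) hv c hc

end Cfsg.Agent.Lib.Geo.SUPair
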