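/-
The subfield group `O_n(q)` (with the scalars) is maximal in `SU_n(q)`, `q` odd.
-/
import Cfsg.Agent.Lib.Geo.SUSymp
import Cfsg.Agent.Lib.Geo.SUPair
import Cfsg.Agent.Lib.Geo.RatOrth
set_option autoImplicit false

namespace Cfsg.Agent.Lib.Geo.SUOrth

open Cfsg Cfsg.Geo Cfsg.Agent.Lib.Geo.Basic Cfsg.Agent.Lib.Geo.Parabolic Cfsg.Agent.Lib.Geo.Centres
open Cfsg.Agent.Lib.Geo.Polar Cfsg.Agent.Lib.Geo.UnitaryInSL Cfsg.Agent.Lib.Geo.QForm
open Cfsg.Agent.Lib.Geo.SUGen Cfsg.Agent.Lib.Geo.SUBase Cfsg.Agent.Lib.Geo.RatStruct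
open Cfsg.Agent.Lib.Geo.SUSymp Cfsg.Agent.Lib.Geo.SUPair Cfsg.Agent.Lib.Geo.RatOrth
open scoped MatrixGroups Matrix

variable {ι : Type} [Fintype ι] [DecidableEq ι] {F : Type*} [Field F]
variable {σ : F ≃+* F} {f : (ι → F) → (ι → F) → F} {hf : IsUnitaryForm σ f} {I : Subgroup (GL ι F)}
variable {F₀ : Subfield F}

/-- Rational vectors in the original coordinates. -/
def Pc (P : GL ι F) (u : ι → F₀) : ι → F := (P : Matrix ι ι F) *ᵥ coeV u

theorem Pc_add (P : GL ι F) (u v : ι → F₀) : Pc P (u + v) = Pc P u + Pc P v := by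
  rw [Pc, coeV_add, Matrix.mulVec_add]
  rfl

theorem Pc_smul (P : GL ι F) (s : F₀) (u : ι → F₀) : Pc P (s • u) = (s : F) • Pc P u := by
  rw [Pc, coeV_smul, Matrix.mulVec_smul]
  rfl

theorem Pc_sub (P : GL ι F) (u v : ι → F₀) : Pc P (u - v) = Pc P u - Pc P v := by
  have h := Pc_add P (u - v) v
  rw [sub_add_cancel] at h
  rw [h]
  abel

theorem Pc_zero (P : GL ι F) : Pc P (0 : ι → F₀) = 0 := by
  have h := Pc_smul P 0 (0 : ι → F₀)
  simpa using h

theorem Pc_eq_zero (P : GL ι F) {u : ι → F₀} (h : Pc P u = 0) : u = 0 := by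
  have h1 := inv_mulVec_mulVec P (coeV u)
  rw [Pc] at h
  rw [h, Matrix.mulVec_zero] at h1
  apply coeV_injective
  rw [← h1]
  ext i
  simp

/-- The data of a symmetric rational structure. -/
structure OData (hf : IsUnitaryForm σ f) (F₀ : Subfield F) (P : GL ι F) (B : LinearMap.BilinForm F₀ (ι → F₀))
    (ω : F) : Prop where
  fix : ∀ x, x ∈ F₀ ↔ σ x = x
  form : ∀ u v, (B u v : F) = f (Pc P u) (Pc P v)
  symm : ∀ x y, B x y = B y x
  nd : B.Nondegenerate
  two : (2 : F₀) ≠ 0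
  ω0 : ω ≠ 0
  ωσ : σ ω = -ω

variable {P : GL ι F} {B : LinearMap.BilinForm F₀ (ι → F₀)} {ω : F}

namespace OData

variable (D : OData hf F₀ P B ω)
include D

theorem two' : (2 : F) ≠ 0 := by
  intro h
  apply D.two
  apply Subtype.ext
  have h3 : ((2 : F₀) : F) = 2 := map_ofNat F₀.subtype 2
  rw [h3, h]
  rfl

theorem ω_ne : σ ω ≠ ω := by
  rw [D.ωσ]
  intro h
  have h1 : (2 : F) * ω = 0 := by linear_combination -h
  exact (mul_eq_zero.mp h1).elim D.two' D.ω0

theorem δ_mem : ω * ω ∈ F₀ := by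
  rw [D.fix, map_mul, D.ωσ]
  ring

theorem scalar_zero {s t : F₀} (h : (s : F) + ω * t = 0) : s = 0 ∧ t = 0 := by
  have ht : t = 0 := by
    by_contra ht
    have ht' : (t : F) ≠ 0 := by simpa using ht
    have h1 : ω = -(s : F) / t := by
      field_simp
      linear_combination h
    have h2 : ω ∈ F₀ := by
      rw [h1]
      exact F₀.div_mem (F₀.neg_mem s.2) t.2
    exact D.ω_ne ((D.fix ω).mp h2)
  refine ⟨?_, ht⟩
  rw [ht] at h
  apply Subtype.ext
  simpa using h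

theorem decomp (v : ι → F) : ∃ x₁ x₂ : ι → F₀, v = Pc P x₁ + ω • Pc P x₂ := by
  obtain ⟨x₁, x₂, h⟩ := exists_decomp_vec hf D.fix ω D.ω_ne (((P⁻¹ : GL ι F) : Matrix ι ι F) *ᵥ v)
  refine ⟨x₁, x₂, ?_⟩
  have h1 := congrArg (fun w => (P : Matrix ι ι F) *ᵥ w) h
  simp only [mulVec_inv_mulVec] at h1
  rw [h1, Matrix.mulVec_add, Matrix.mulVec_smul]
  rfl

theorem decomp_zero {x₁ x₂ : ι → F₀} (h : Pc P x₁ + ω • Pc P x₂ = 0) : x₁ = 0 ∧ x₂ = 0 := by
  have h1 : (P : Matrix ι ι F) *ᵥ (coeV x₁ + ω • coeV x₂) = 0 := by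
    rw [Matrix.mulVec_add, Matrix.mulVec_smul]
    exact h
  have h2 := inv_mulVec_mulVec P (coeV x₁ + ω • coeV x₂)
  rw [h1, Matrix.mulVec_zero] at h2
  have h3 : ∀ i, x₁ i = 0 ∧ x₂ i = 0 := by
    intro i
    apply D.scalar_zero
    have := congrFun h2 i
    simpa using this.symm
  exact ⟨funext fun i => (h3 i).1, funext fun i => (h3 i).2⟩

theorem f_left (x₁ x₂ b : ι → F₀) : f (Pc P x₁ + ω • Pc P x₂) (Pc P b) = B x₁ b + ω * B x₂ b := by
  rw [hf.add_left, hf.smul_left, D.form, D.form]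

theorem f_right (x₁ x₂ b : ι → F₀) : f (Pc P b) (Pc P x₁ + ω • Pc P x₂) = B b x₁ - ω * B b x₂ := by
  rw [UForm.add_right hf, UForm.smul_right hf, D.form, D.form, D.ωσ]
  ring

/-- Rational independence gives independence over the big field. -/
theorem indep {κ : Type*} [Fintype κ] {v : κ → ι → F₀} (hv : LinearIndependent F₀ v) :
    LinearIndependent F (fun i => Pc P (v i)) := by
  classical
  rw [Fintype.linearIndependent_iff] at hv ⊢
  intro c hc i
  have h1 := fun j => exists_decomp_scalar hf D.fix ω D.ω_ne (c j)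
  choose a ha b hb hab using h1
  let a' : κ → F₀ := fun j => ⟨a j, ha j⟩
  let b' : κ → F₀ := fun j => ⟨b j, hb j⟩
  have hsum : ∀ (s : Finset κ) (c' : κ → F₀), Pc P (∑ j ∈ s, c' j • v j) = ∑ j ∈ s, (c' j : F) • Pc P (v j) := by
    intro s c'
    induction s using Finset.induction_on with
    | empty => simpa using Pc_zero P
    | insert x s hx ih => rw [Finset.sum_insert hx, Finset.sum_insert hx, Pc_add, Pc_smul, ih]
  have h2 : Pc P (∑ j, a' j • v j) + ω • Pc P (∑ j, b' j • v j) = 0 := by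
    rw [hsum, hsum, ← hc, Finset.smul_sum, ← Finset.sum_add_distrib]
    refine Finset.sum_congr rfl fun j _ => ?_
    rw [hab j, smul_smul, ← add_smul]
    congr 1
    simp only [a', b']
    ring
  obtain ⟨h3, h4⟩ := D.decomp_zero h2
  have h5 := hv a' h3 i
  have h6 := hv b' h4 i
  rw [hab i]
  have h7 : a i = 0 := by simpa [a'] using congrArg Subtype.val h5
  have h8 : b i = 0 := by simpa [b'] using congrArg Subtype.val h6
  rw [h7, h8]
  ring

theorem iso_of {a : ι → F₀} (h : B a a = 0) : f (Pc P a) (Pc P a) = 0 := by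
  rw [← D.form, h]
  rfl

theorem orth_of {a b : ι → F₀} (h : B a b = 0) : f (Pc P a) (Pc P b) = 0 := by
  rw [← D.form, h]
  rfl

/-- Eichler elements with rational data are in the subfield group. -/
theorem uE_mem_subfield (a q : ι → F₀) (c : F₀) (hpp : f (Pc P a) (Pc P a) = 0)
    (hqp : f (Pc P q) (Pc P a) = 0) : uE hf (Pc P a) (Pc P q) c hpp hqp ∈ subfieldSubgroup F₀ P := by
  apply mem_subfield_of_entries
  intro i j
  have h1 : ((P⁻¹ * uE hf (Pc P a) (Pc P q) c hpp hqp * P : GL ι F) : Matrix ι ι F) i j =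
      (((P⁻¹ * uE hf (Pc P a) (Pc P q) c hpp hqp * P : GL ι F) : Matrix ι ι F) *ᵥ Pi.single j 1) i := by
    simp
  rw [h1]
  simp only [Units.val_mul, ← Matrix.mulVec_mulVec]
  obtain ⟨e, he⟩ : ∃ e : ι → F₀, coeV e = Pi.single j 1 := exists_coeV (isRat_single j)
  have hPe : (P : Matrix ι ι F) *ᵥ Pi.single j 1 = Pc P e := by
    rw [Pc, he]
  rw [hPe, uE_mulVec, ← D.form, ← D.form]
  have h2 : ∀ y : ι → F₀, ((P⁻¹ : GL ι F) : Matrix ι ι F) *ᵥ Pc P y = coeV y := fun y => inv_mulVec_mulVec P _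
  simp only [Matrix.mulVec_add, Matrix.mulVec_sub, Matrix.mulVec_smul, h2]
  rw [he]
  simp only [Pi.add_apply, Pi.sub_apply, Pi.smul_apply, smul_eq_mul, coeV_apply]
  refine F₀.add_mem (F₀.sub_mem (F₀.add_mem (isRat_single j i) (F₀.mul_mem (B e a).2 (q i).2))
    (F₀.mul_mem (B e q).2 (a i).2)) (F₀.mul_mem (F₀.mul_mem c.2 (B e a).2) (a i).2)

theorem uE_mem (S : IsSUGroup hf I) [Finite F] (a q : ι → F₀) (c : F₀) (hpp : f (Pc P a) (Pc P a) = 0)
    (hqp : f (Pc P q) (Pc P a) = 0) (hc : (2 : F₀) * c + B q q = 0) :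
    uE hf (Pc P a) (Pc P q) c hpp hqp ∈ subfieldSubgroup F₀ P ⊓ I := by
  refine ⟨D.uE_mem_subfield a q c hpp hqp, ?_⟩
  refine (S.mem_iff _).mpr ⟨uE_isIso hf _ _ c hpp hqp ?_, uE_det hf _ _ c hpp hqp⟩
  have h1 : σ (c : F) = c := (D.fix _).mp c.2
  have h2 := congrArg (fun x : F₀ => (x : F)) hc
  simp only [Subfield.coe_add, Subfield.coe_mul, D.form, ZeroMemClass.coe_zero] at h2
  rw [h1]
  have h3 : ((2 : F₀) : F) = 2 := map_ofNat F₀.subtype 2
  rw [h3] at h2
  linear_combination h2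

theorem uS_mem (S : IsSUGroup hf I) [Finite F] (a q : ι → F₀) (hpp : f (Pc P a) (Pc P a) = 0)
    (hqp : f (Pc P q) (Pc P a) = 0) (hqq : B q q = 0) :
    uS hf (Pc P a) (Pc P q) hpp hqp ∈ subfieldSubgroup F₀ P ⊓ I :=
  D.uE_mem S a q 0 hpp hqp (by rw [hqq]; simp)

theorem indep_pair {x y : ι → F₀} (h : LinearIndependent F₀ ![x, y]) (s t : F)
    (hst : s • Pc P x + t • Pc P y = 0) : s = 0 ∧ t = 0 := by
  have h0 := D.indep h
  rw [Fintype.linearIndependent_iff] at h0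
  have h1 := h0 ![s, t] (by simpa [Fin.sum_univ_two] using hst)
  exact ⟨h1 0, h1 1⟩

omit D in
theorem rat_coeffs_Pc {a' u' w : ι → F₀} (hind : ∀ s t : F, s • Pc P a' + t • Pc P u' = 0 → s = 0 ∧ t = 0)
    {s t : F} (h : s • Pc P a' + t • Pc P u' = Pc P w) : s ∈ F₀ ∧ t ∈ F₀ := by
  have h1 : ∀ x y : F, ∀ z : ι → F₀, x • coeV a' + y • coeV u' = coeV z ↔
      x • Pc P a' + y • Pc P u' = Pc P z := by
    intro x y z
    constructor
    · intro hh
      have := congrArg (fun v => (P : Matrix ι ι F) *ᵥ v) hh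
      simp only [Matrix.mulVec_add, Matrix.mulVec_smul] at this
      exact this
    · intro hh
      have := congrArg (fun v => ((P⁻¹ : GL ι F) : Matrix ι ι F) *ᵥ v) hh
      simp only [Matrix.mulVec_add, Matrix.mulVec_smul, Pc, inv_mulVec_mulVec] at this
      exact this
  refine rat_coeffs (isRat_coeV a') (isRat_coeV u') ?_ ?_
  · intro x y hxy
    apply hind
    have h2 := (h1 x y 0).mp (by rw [hxy]; ext i; simp)
    rw [h2, Pc_zero]
  · have h2 := (h1 s t w).mpr h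
    rw [h2]
    exact isRat_coeV w

theorem step {g : GL ι F} {a u a' : ι → F₀} {c : F} (hc : c ≠ 0) (ha0 : a ≠ 0) (hB0 : B a u = 0) (haa : B a a = 0)
    (huu : B u u = 0)
    (hline : ∀ x, B x x = 0 → ∃ (l : F) (x' : ι → F₀), (g : Matrix ι ι F) *ᵥ Pc P x = l • Pc P x')
    (hga : (g : Matrix ι ι F) *ᵥ Pc P a = c • Pc P a') : ∃ u' : ι → F₀, (g : Matrix ι ι F) *ᵥ Pc P u = c • Pc P u' := by
  have hinj : ∀ x : ι → F, (g : Matrix ι ι F) *ᵥ x = 0 → x = 0 := by
    intro x h0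
    have := inv_mulVec_mulVec g x
    rw [h0, Matrix.mulVec_zero] at this
    exact this.symm
  by_cases hli : LinearIndependent F₀ ![a, u]
  · obtain ⟨l, u', hu⟩ := hline u huu
    have hB1 : B (a + u) (a + u) = 0 := by
      simp only [map_add, LinearMap.add_apply, haa, huu, hB0, D.symm u a]
      simp
    obtain ⟨l'', w, hw⟩ := hline (a + u) hB1
    rw [Pc_add, Matrix.mulVec_add, hga, hu] at hw
    have hu0 : Pc P u ≠ 0 := by
      intro h0
      exact (hli.ne_zero 1) (by simpa using Pc_eq_zero P h0)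
    have hl : l ≠ 0 := by
      rintro rfl
      rw [zero_smul] at hu
      exact hu0 (hinj _ hu)
    have hind : ∀ s t : F, s • Pc P a' + t • Pc P u' = 0 → s = 0 ∧ t = 0 := by
      intro s t hst
      have h1 : (g : Matrix ι ι F) *ᵥ ((s / c) • Pc P a + (t / l) • Pc P u) = 0 := by
        rw [Matrix.mulVec_add, Matrix.mulVec_smul, Matrix.mulVec_smul, hga, hu, smul_smul, smul_smul,
          div_mul_cancel₀ _ hc, div_mul_cancel₀ _ hl]
        exact hst
      have h2 := D.indep_pair hli _ _ (hinj _ h1)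
      constructor
      · exact (div_eq_zero_iff.mp h2.1).resolve_right hc
      · exact (div_eq_zero_iff.mp h2.2).resolve_right hl
    have hl'' : l'' ≠ 0 := by
      rintro rfl
      rw [zero_smul] at hw
      exact hc (hind _ _ hw).1
    have h1 : (c / l'') • Pc P a' + (l / l'') • Pc P u' = Pc P w := by
      have := congrArg (fun v => l''⁻¹ • v) hw
      simp only [smul_add, smul_smul, inv_mul_cancel₀ hl'', one_smul] at this
      rw [div_eq_inv_mul, div_eq_inv_mul]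
      exact this
    obtain ⟨h2, h3⟩ := rat_coeffs_Pc hind h1
    have h4 : l / c ∈ F₀ := by
      have h5 := F₀.div_mem h3 h2
      have h6 : l / l'' / (c / l'') = l / c := by
        field_simp
      rwa [h6] at h5
    refine ⟨(⟨l / c, h4⟩ : F₀) • u', ?_⟩
    rw [Pc_smul, hu, smul_smul]
    congr 1
    simp only
    field_simp
  · rw [LinearIndependent.pair_iff] at hli
    push Not at hli
    obtain ⟨s, t, hst, hne⟩ := hli
    have ht : t ≠ 0 := by
      rintro rfl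
      have hs : s ≠ 0 := fun h0 => hne h0 rfl
      rw [zero_smul, add_zero] at hst
      exact ha0 ((smul_eq_zero.mp hst).resolve_left hs)
    have hu : u = (-(s / t)) • a := by
      have h1 : t • u = (-s) • a := by
        rw [neg_smul]
        exact eq_neg_of_add_eq_zero_right hst
      have h2 := congrArg (fun v => t⁻¹ • v) h1
      simp only [smul_smul, inv_mul_cancel₀ ht, one_smul] at h2
      rw [h2]
      congr 1
      field_simp
    refine ⟨(-(s / t)) • a', ?_⟩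
    rw [hu, Pc_smul, Pc_smul, Matrix.mulVec_smul, hga, smul_smul, smul_smul, mul_comm]

variable [Finite F]

/-- An element outside the subfield group moves a rational singular vector away from the rational lines. -/
theorem exists_not_line (hι : 9 ≤ Fintype.card ι) {g : GL ι F} (hg : g ∉ subfieldSubgroup F₀ P) :
    ∃ u, B u u = 0 ∧ ∀ (l : F) (x' : ι → F₀), (g : Matrix ι ι F) *ᵥ Pc P u ≠ l • Pc P x' := by
  by_contra hcon
  push Not at hcon
  have hline : ∀ x, B x x = 0 → ∃ (l : F) (x' : ι → F₀), (g : Matrix ι ι F) *ᵥ Pc P x = l • Pc P x' := by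
    intro x hx
    obtain ⟨l, x', h1⟩ := hcon x hx
    exact ⟨l, x', h1⟩
  have hcard : Module.finrank F₀ (ι → F₀) = Fintype.card ι := by simp
  have hinj : ∀ x : ι → F, (g : Matrix ι ι F) *ᵥ x = 0 → x = 0 := by
    intro x h0
    have := inv_mulVec_mulVec g x
    rw [h0, Matrix.mulVec_zero] at this
    exact this.symm
  obtain ⟨a₀, -, ha₀X, ha₀⟩ := exists_singular_avoid D.symm D.nd D.two ⊤ ⊥ (by simp; omega)
  have ha₀0 : a₀ ≠ 0 := fun h => ha₀X (by rw [h]; exact Submodule.zero_mem _)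
  obtain ⟨c, a₀', h₀⟩ := hline a₀ ha₀
  have hc : c ≠ 0 := by
    rintro rfl
    rw [zero_smul] at h₀
    exact ha₀0 (Pc_eq_zero P (hinj _ h₀))
  have hkey : ∀ u, B u u = 0 → ∃ u' : ι → F₀, (g : Matrix ι ι F) *ᵥ Pc P u = c • Pc P u' := by
    intro u hu
    obtain ⟨X, hX⟩ : ∃ X : Submodule F₀ (ι → F₀), X = Submodule.span F₀ (Set.range ![a₀, u]) := ⟨_, rfl⟩
    have hXfin : Module.finrank F₀ X ≤ 2 := by
      rw [hX]
      exact finrank_orth_le_span _
    have h1 := LinearMap.BilinForm.finrank_orthogonal D.nd X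
    obtain ⟨a₂, ha₂, ha₂X, ha₂Q⟩ := exists_singular_avoid D.symm D.nd D.two (B.orthogonal X) X (by omega)
    have ha₂0 : a₂ ≠ 0 := fun h => ha₂X (by rw [h]; exact Submodule.zero_mem _)
    have h2 : B a₀ a₂ = 0 := ha₂ a₀ (by rw [hX]; exact Submodule.subset_span ⟨0, rfl⟩)
    have h3 : B u a₂ = 0 := ha₂ u (by rw [hX]; exact Submodule.subset_span ⟨1, rfl⟩)
    obtain ⟨a₂', h4⟩ := D.step hc ha₀0 h2 ha₀ ha₂Q hline h₀
    exact D.step hc ha₂0 (by rw [D.symm]; exact h3) ha₂Q hu hline h4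
  have hall : ∀ x : ι → F₀, ∃ x' : ι → F₀, (g : Matrix ι ι F) *ᵥ Pc P x = c • Pc P x' := by
    intro x
    by_cases hx : x = 0
    · refine ⟨0, ?_⟩
      rw [hx, Pc_zero, Matrix.mulVec_zero, smul_zero]
    obtain ⟨b₀, hb₀⟩ := exists_right_ne D.nd hx
    obtain ⟨X, hX⟩ : ∃ X : Submodule F₀ (ι → F₀), X = Submodule.span F₀ (Set.range ![x]) := ⟨_, rfl⟩
    have hXfin : Module.finrank F₀ X ≤ 1 := by
      rw [hX]
      exact finrank_orth_le_span _
    obtain ⟨y, hy, hyQ⟩ := exists_singular_shift D.symm D.nd D.two X (by omega) b₀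
    have hxy : B x y = 0 := hy x (by rw [hX]; exact Submodule.subset_span ⟨0, rfl⟩)
    obtain ⟨v, hv⟩ : ∃ v, v = b₀ + y := ⟨_, rfl⟩
    rw [← hv] at hyQ
    have hxv : B x v ≠ 0 := by
      rw [hv, map_add, hxy, add_zero]
      exact hb₀
    have h2' : (2 : F₀) ≠ 0 := D.two
    obtain ⟨s, hs⟩ : ∃ s : F₀, s = B x x / (2 * B x v) := ⟨_, rfl⟩
    obtain ⟨y', hy'⟩ : ∃ y', y' = x - s • v := ⟨_, rfl⟩
    have hy'Q : B y' y' = 0 := by
      rw [hy']
      simp only [map_sub, map_smul, LinearMap.sub_apply, LinearMap.smul_apply, smul_eq_mul, hyQ, D.symm v x]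
      rw [hs]
      field_simp
      ring
    obtain ⟨y'', h3⟩ := hkey y' hy'Q
    obtain ⟨v'', h4⟩ := hkey v hyQ
    refine ⟨y'' + s • v'', ?_⟩
    have h5 : x = y' + s • v := by
      rw [hy']
      abel
    rw [h5, Pc_add, Pc_add, Pc_smul, Pc_smul, Matrix.mulVec_add, Matrix.mulVec_smul, h3, h4, smul_add,
      smul_comm (s : F) c]
  have hne : Nonempty ι := by
    rw [← Fintype.card_pos_iff]
    omega
  apply hg
  apply mem_subfield_of_lines
  intro u hu
  obtain ⟨x, rfl⟩ := exists_coeV hu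
  obtain ⟨x', h1⟩ := hall x
  refine ⟨c, coeV x', isRat_coeV _, ?_⟩
  simp only [Units.val_mul, ← Matrix.mulVec_mulVec]
  have h2 : (g : Matrix ι ι F) *ᵥ ((P : Matrix ι ι F) *ᵥ coeV x) = c • Pc P x' := h1
  rw [h2, Matrix.mulVec_smul, Pc, inv_mulVec_mulVec]

end OData

/-- The commutator producing a Siegel element with a rational centre. -/
theorem uS_shift [Finite F] (hf : IsUnitaryForm σ f) (p r a : ι → F) (α : F) (hpp : f p p = 0) (hrr : f r r = 0) (hrp : f r p = 0)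
    (hpa : f p a = 0) (hra : f r a = 0) (haa : f a a = 0)
    (h1 : f (p + α • a) (p + α • a) = 0) (h2 : f r (p + α • a) = 0)
    (h3 : f (σ α • r) a = 0) :
    uS hf (p + α • a) r h1 h2 = uS hf a (σ α • r) haa h3 * uS hf p r hpp hrp := by
  have Pol := UForm.isPolar hf
  apply gl_ext_mulVec
  intro x
  simp only [Units.val_mul, ← Matrix.mulVec_mulVec]
  rw [uS_mulVec, uS_mulVec, uS_mulVec]
  have hpr : f p r = 0 := UForm.refl hf _ _ hrp
  have e1 : f (x + f x p • r - f x r • p) a = f x a := by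
    rw [Pol.sub_left, hf.add_left, hf.smul_left, hf.smul_left, hpa, hra]
    ring
  have e2 : f (x + f x p • r - f x r • p) (σ α • r) = α * f x r := by
    rw [Pol.sub_left, hf.add_left, hf.smul_left, hf.smul_left, UForm.smul_right hf, UForm.smul_right hf,
      UForm.smul_right hf, hrr, hpr, hf.involutive]
    ring
  rw [e1, e2, UForm.add_right hf, UForm.smul_right hf]
  ext i
  simp only [Pi.add_apply, Pi.sub_apply, Pi.smul_apply, smul_eq_mul]
  ring

namespace OData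

variable (D : OData hf F₀ P B ω)
include D

variable [Finite F]

/-- From a non-rational image of a singular vector to a transvection with rational centre. -/
theorem exists_rat_cen (S : IsSUGroup hf I) (hι : 13 ≤ Fintype.card ι) {M : Subgroup (GL ι F)}
    (hHM : subfieldSubgroup F₀ P ⊓ I ≤ M) (hiso : ∀ h ∈ M, IsIso f h) {g : GL ι F} (hgM : g ∈ M) {u : ι → F₀}
    (huu : B u u = 0) (hline : ∀ (l : F) (x' : ι → F₀), (g : Matrix ι ι F) *ᵥ Pc P u ≠ l • Pc P x') :
    ∃ a, a ≠ 0 ∧ B a a = 0 ∧ Pc P a ∈ cen hf M := by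
  have hgI := hiso g hgM
  have Pol := UForm.isPolar hf
  have hcard : Module.finrank F₀ (ι → F₀) = Fintype.card ι := by simp
  obtain ⟨r, hrdef⟩ : ∃ r, r = (g : Matrix ι ι F) *ᵥ Pc P u := ⟨_, rfl⟩
  rw [← hrdef] at hline
  obtain ⟨r₁, r₂, hr⟩ := D.decomp r
  obtain ⟨W, hW⟩ : ∃ W : Submodule F (ι → F), W = Submodule.span F (Set.range ![Pc P r₁, Pc P r₂]) := ⟨_, rfl⟩
  have hWfin : Module.finrank F W ≤ 2 := by
    rw [hW]
    exact finrank_orth_le_span _
  have hr₁W : Pc P r₁ ∈ W := by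
    rw [hW]
    exact Submodule.subset_span ⟨0, rfl⟩
  have hr₂W : Pc P r₂ ∈ W := by
    rw [hW]
    exact Submodule.subset_span ⟨1, rfl⟩
  -- the rational vectors sent into `W`
  let X₀ : Submodule F₀ (ι → F₀) :=
    { carrier := {x | (g : Matrix ι ι F) *ᵥ Pc P x ∈ W}
      add_mem' := by
        intro x y hx hy
        simp only [Set.mem_ofPred_eq] at hx hy ⊢
        rw [Pc_add, Matrix.mulVec_add]
        exact W.add_mem hx hy
      zero_mem' := by
        simp only [Set.mem_ofPred_eq]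
        rw [Pc_zero, Matrix.mulVec_zero]
        exact W.zero_mem
      smul_mem' := by
        intro c x hx
        simp only [Set.mem_ofPred_eq] at hx ⊢
        rw [Pc_smul, Matrix.mulVec_smul]
        exact W.smul_mem _ hx }
  have hX₀ : Module.finrank F₀ X₀ ≤ 2 := by
    let b := Module.finBasis F₀ X₀
    have h1 : LinearIndependent F₀ (fun i => (b i : ι → F₀)) :=
      b.linearIndependent.map' X₀.subtype (Submodule.ker_subtype X₀)
    have h2 := D.indep h1
    have h3 : LinearIndependent F (fun i => (g : Matrix ι ι F) *ᵥ Pc P (b i : ι → F₀)) := by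
      have := h2.map' (Matrix.mulVecLin (g : Matrix ι ι F)) (by
        rw [LinearMap.ker_eq_bot']
        intro x h0
        have h4 := inv_mulVec_mulVec g x
        rw [Matrix.mulVecLin_apply] at h0
        rw [h0, Matrix.mulVec_zero] at h4
        exact h4.symm)
      exact this
    have h4 : LinearIndependent F (fun i => (⟨(g : Matrix ι ι F) *ᵥ Pc P (b i : ι → F₀), (b i).2⟩ : W)) :=
      LinearIndependent.of_comp W.subtype h3
    have h5 := h4.fintype_card_le_finrank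
    simp only [Fintype.card_fin] at h5
    omega
  -- a first singular vector
  obtain ⟨Y, hY⟩ : ∃ Y : Submodule F₀ (ι → F₀), Y = Submodule.span F₀ (Set.range ![u]) := ⟨_, rfl⟩
  have hYfin : Module.finrank F₀ Y ≤ 1 := by
    rw [hY]
    exact finrank_orth_le_span _
  have hYo := LinearMap.BilinForm.finrank_orthogonal D.nd Y
  obtain ⟨a₁, ha₁Y, ha₁X, ha₁Q⟩ := exists_singular_avoid D.symm D.nd D.two (B.orthogonal Y) X₀ (by omega)
  have hua₁ : B u a₁ = 0 := ha₁Y u (by rw [hY]; exact Submodule.subset_span ⟨0, rfl⟩)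
  have ha₁W : (g : Matrix ι ι F) *ᵥ Pc P a₁ ∉ W := ha₁X
  obtain ⟨p, hpdef⟩ : ∃ p, p = (g : Matrix ι ι F) *ᵥ Pc P a₁ := ⟨_, rfl⟩
  rw [← hpdef] at ha₁W
  obtain ⟨p₁, p₂, hp⟩ := D.decomp p
  have hrr : f r r = 0 := by
    rw [hrdef, hgI, ← D.form, huu]
    rfl
  have hpp : f p p = 0 := by
    rw [hpdef, hgI, ← D.form, ha₁Q]
    rfl
  have hrp : f r p = 0 := by
    rw [hrdef, hpdef, hgI, ← D.form, hua₁]
    rfl
  have hpr : f p r = 0 := UForm.refl hf _ _ hrp
  -- `T` is the conjugate of a rational Siegel element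
  have hT : uS hf p r hpp hrp ∈ M := by
    have h1 := conj_uS hf hgI (Pc P a₁) (Pc P u) (D.iso_of ha₁Q) (D.orth_of hua₁) p r hpp hrp hpdef.symm hrdef.symm
    rw [← h1]
    exact M.mul_mem (M.mul_mem hgM (hHM (D.uS_mem S a₁ u _ _ huu))) (M.inv_mem hgM)
  -- the rational centre
  obtain ⟨U, hU⟩ : ∃ U : Submodule F₀ (ι → F₀), U = Submodule.span F₀ (Set.range ![p₁, p₂, r₁, r₂]) := ⟨_, rfl⟩
  have hUfin : Module.finrank F₀ U ≤ 4 := by
    rw [hU]
    exact finrank_orth_le_span _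
  have hUo := LinearMap.BilinForm.finrank_orthogonal D.nd U
  obtain ⟨a, haU, haX, haQ⟩ := exists_singular_avoid D.symm D.nd D.two (B.orthogonal U) U (by omega)
  have hp₁U : p₁ ∈ U := by rw [hU]; exact Submodule.subset_span ⟨0, rfl⟩
  have hp₂U : p₂ ∈ U := by rw [hU]; exact Submodule.subset_span ⟨1, rfl⟩
  have hr₁U : r₁ ∈ U := by rw [hU]; exact Submodule.subset_span ⟨2, rfl⟩
  have hr₂U : r₂ ∈ U := by rw [hU]; exact Submodule.subset_span ⟨3, rfl⟩
  have hp₁a : B p₁ a = 0 := haU _ hp₁U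
  have hp₂a : B p₂ a = 0 := haU _ hp₂U
  have hr₁a : B r₁ a = 0 := haU _ hr₁U
  have hr₂a : B r₂ a = 0 := haU _ hr₂U
  have ha0 : a ≠ 0 := fun h => haX (by rw [h]; exact U.zero_mem)
  have hpa : f p (Pc P a) = 0 := by
    rw [hp, D.f_left, hp₁a, hp₂a]
    simp
  have hra : f r (Pc P a) = 0 := by
    rw [hr, D.f_left, hr₁a, hr₂a]
    simp
  have haa : f (Pc P a) (Pc P a) = 0 := D.iso_of haQ
  -- the second rational vector
  obtain ⟨X₁, hX₁⟩ : ∃ X₁ : Submodule F₀ (ι → F₀), X₁ = Submodule.span F₀ (Set.range ![a, r₁, r₂]) := ⟨_, rfl⟩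
  have hpX : p₁ ∉ X₁ ∨ p₂ ∉ X₁ := by
    by_contra hcon
    push Not at hcon
    have hred : ∀ x ∈ U, x ∈ X₁ → Pc P x ∈ W := by
      intro x hxU hx
      rw [hX₁, Submodule.mem_span_range_iff_exists_fun] at hx
      obtain ⟨c, hc⟩ := hx
      rw [Fin.sum_univ_three] at hc
      simp only [Matrix.cons_val_zero, Matrix.cons_val_one, Matrix.cons_val] at hc
      have hc0 : c 0 = 0 := by
        by_contra hne
        apply haX
        have h1 : a = (c 0)⁻¹ • (x - c 1 • r₁ - c 2 • r₂) := by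
          have h2 : x - c 1 • r₁ - c 2 • r₂ = c 0 • a := by
            rw [← hc]
            abel
          rw [h2, smul_smul, inv_mul_cancel₀ hne, one_smul]
        rw [h1]
        exact U.smul_mem _ (U.sub_mem (U.sub_mem hxU (U.smul_mem _ hr₁U)) (U.smul_mem _ hr₂U))
      rw [hc0, zero_smul, zero_add] at hc
      rw [← hc, Pc_add, Pc_smul, Pc_smul]
      exact W.add_mem (W.smul_mem _ hr₁W) (W.smul_mem _ hr₂W)
    apply ha₁W
    rw [hp]
    exact W.add_mem (hred _ hp₁U hcon.1) (W.smul_mem _ (hred _ hp₂U hcon.2))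
  obtain ⟨X₂, hX₂⟩ : ∃ X₂ : Submodule F₀ (ι → F₀), X₂ = Submodule.span F₀ (Set.range ![a, r₁, r₂, p₁, p₂]) := ⟨_, rfl⟩
  have hX₂fin : Module.finrank F₀ X₂ ≤ 5 := by
    rw [hX₂]
    exact finrank_orth_le_span _
  have hX₂a : a ∈ X₂ := by rw [hX₂]; exact Submodule.subset_span ⟨0, rfl⟩
  have hX₂r₁ : r₁ ∈ X₂ := by rw [hX₂]; exact Submodule.subset_span ⟨1, rfl⟩
  have hX₂r₂ : r₂ ∈ X₂ := by rw [hX₂]; exact Submodule.subset_span ⟨2, rfl⟩
  have hX₂p₁ : p₁ ∈ X₂ := by rw [hX₂]; exact Submodule.subset_span ⟨3, rfl⟩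
  have hX₂p₂ : p₂ ∈ X₂ := by rw [hX₂]; exact Submodule.subset_span ⟨4, rfl⟩
  have hX₁a : a ∈ X₁ := by rw [hX₁]; exact Submodule.subset_span ⟨0, rfl⟩
  have hX₁r₁ : r₁ ∈ X₁ := by rw [hX₁]; exact Submodule.subset_span ⟨1, rfl⟩
  have hX₁r₂ : r₂ ∈ X₁ := by rw [hX₁]; exact Submodule.subset_span ⟨2, rfl⟩
  obtain ⟨b, hba, hbr₁, hbr₂, hbp, hbQ⟩ : ∃ b, B a b = 0 ∧ B r₁ b = 0 ∧ B r₂ b = 0 ∧
      (B p₁ b ≠ 0 ∨ B p₂ b ≠ 0) ∧ B b b = 0 := by
    have hb₀ : ∃ b₀ ∈ B.orthogonal X₁, B p₁ b₀ ≠ 0 ∨ B p₂ b₀ ≠ 0 := by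
      rcases hpX with h | h
      · obtain ⟨b₀, h1, h2⟩ := exists_dual D.symm D.nd X₁ h
        exact ⟨b₀, h1, Or.inl h2⟩
      · obtain ⟨b₀, h1, h2⟩ := exists_dual D.symm D.nd X₁ h
        exact ⟨b₀, h1, Or.inr h2⟩
    obtain ⟨b₀, h1, h2⟩ := hb₀
    obtain ⟨y, hy, hyQ⟩ := exists_singular_shift D.symm D.nd D.two X₂ (by omega) b₀
    have e1 : B a y = 0 := hy _ hX₂a
    have e2 : B r₁ y = 0 := hy _ hX₂r₁
    have e3 : B r₂ y = 0 := hy _ hX₂r₂
    have e4 : B p₁ y = 0 := hy _ hX₂p₁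
    have e5 : B p₂ y = 0 := hy _ hX₂p₂
    refine ⟨b₀ + y, ?_, ?_, ?_, ?_, hyQ⟩
    · rw [map_add, e1, add_zero]
      exact h1 _ hX₁a
    · rw [map_add, e2, add_zero]
      exact h1 _ hX₁r₁
    · rw [map_add, e3, add_zero]
      exact h1 _ hX₁r₂
    · rw [map_add, map_add, e4, e5, add_zero, add_zero]
      exact h2
  have hab : f (Pc P b) (Pc P a) = 0 := by
    apply D.orth_of
    rw [D.symm]
    exact hba
  have hrb : f r (Pc P b) = 0 := by
    rw [hr, D.f_left, hbr₁, hbr₂]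
    simp
  obtain ⟨α, hαdef⟩ : ∃ α, α = - f p (Pc P b) := ⟨_, rfl⟩
  have hα : α ≠ 0 := by
    rw [hαdef, hp, D.f_left]
    intro h0
    have h1 : ((B p₁ b : F₀) : F) + ω * (B p₂ b : F₀) = 0 := by linear_combination -h0
    obtain ⟨h2, h3⟩ := D.scalar_zero h1
    rcases hbp with h | h
    · exact h h2
    · exact h h3
  have hA : uS hf (Pc P a) (Pc P b) haa hab ∈ M := hHM (D.uS_mem S a b _ _ hbQ)
  have hAiso : IsIso f (uS hf (Pc P a) (Pc P b) haa hab) := uS_isIso hf _ _ haa (D.iso_of hbQ) hab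
  have h1 : f (p + α • Pc P a) (p + α • Pc P a) = 0 := by
    rw [hf.add_left, UForm.add_right hf, UForm.add_right hf, hf.smul_left, hf.smul_left, UForm.smul_right hf,
      UForm.smul_right hf, hpp, hpa, haa, UForm.refl hf _ _ hpa]
    ring
  have h2 : f r (p + α • Pc P a) = 0 := by
    rw [UForm.add_right hf, UForm.smul_right hf, hrp, hra]
    ring
  have h3 : f (σ α • r) (Pc P a) = 0 := by
    rw [hf.smul_left, hra, mul_zero]
  have hconj := conj_uS hf hAiso p r hpp hrp (p + α • Pc P a) r h1 h2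
    (by
      rw [uS_mulVec, hpa, hαdef]
      ext i
      simp [sub_eq_add_neg])
    (by
      rw [uS_mulVec, hra, hrb]
      simp)
  have hshift := uS_shift hf p r (Pc P a) α hpp hrr hrp hpa hra haa h1 h2 h3
  have hC : uS hf (Pc P a) (σ α • r) haa h3 ∈ M := by
    have h4 : uS hf (Pc P a) (σ α • r) haa h3 =
        uS hf (Pc P a) (Pc P b) haa hab * uS hf p r hpp hrp * (uS hf (Pc P a) (Pc P b) haa hab)⁻¹ *
          (uS hf p r hpp hrp)⁻¹ := by
      rw [hconj, hshift]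
      group
    rw [h4]
    exact M.mul_mem (M.mul_mem (M.mul_mem hA hT) (M.inv_mem hA)) (M.inv_mem hT)
  -- the components of `λ r`
  obtain ⟨l₁, hl₁, l₂, hl₂, hl⟩ := exists_decomp_scalar hf D.fix ω D.ω_ne (σ α)
  have hδ := D.δ_mem
  obtain ⟨e₁, he₁⟩ : ∃ e₁ : ι → F₀, e₁ = (⟨l₁, hl₁⟩ : F₀) • r₁ + ((⟨l₂, hl₂⟩ : F₀) * ⟨ω * ω, hδ⟩) • r₂ := ⟨_, rfl⟩
  obtain ⟨e₂, he₂⟩ : ∃ e₂ : ι → F₀, e₂ = (⟨l₁, hl₁⟩ : F₀) • r₂ + (⟨l₂, hl₂⟩ : F₀) • r₁ := ⟨_, rfl⟩
  have he : σ α • r = Pc P e₁ + ω • Pc P e₂ := by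
    rw [hr, he₁, he₂, hl, Pc_add, Pc_add, Pc_smul, Pc_smul, Pc_smul, Pc_smul]
    simp only [Subfield.coe_mul]
    ext i
    simp only [Pi.add_apply, Pi.smul_apply, smul_eq_mul]
    ring
  have hσα : σ α ≠ 0 := by
    intro h0
    apply hα
    have := hf.involutive α
    rw [h0, map_zero] at this
    exact this.symm
  have he₂U : e₂ ∈ U := by
    rw [he₂]
    exact U.add_mem (U.smul_mem _ hr₂U) (U.smul_mem _ hr₁U)
  have he₂a : e₂ ∉ Submodule.span F₀ (Set.range ![a]) := by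
    intro h4
    rw [Submodule.mem_span_range_iff_exists_fun] at h4
    obtain ⟨c, hc⟩ := h4
    simp only [Fin.sum_univ_one, Matrix.cons_val_zero] at hc
    by_cases hc0 : c 0 = 0
    · rw [hc0, zero_smul] at hc
      apply hline (σ α)⁻¹ e₁
      have h5 : σ α • r = Pc P e₁ := by
        rw [he, ← hc, Pc_zero, smul_zero, add_zero]
      rw [← h5, smul_smul, inv_mul_cancel₀ hσα, one_smul]
    · apply haX
      have h6 : a = (c 0)⁻¹ • e₂ := by
        rw [← hc, smul_smul, inv_mul_cancel₀ hc0, one_smul]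
      rw [h6]
      exact U.smul_mem _ he₂U
  obtain ⟨b', hb'a, hb'e, hb'Q⟩ : ∃ b', B a b' = 0 ∧ B e₂ b' ≠ 0 ∧ B b' b' = 0 := by
    obtain ⟨b₀, h4, h5⟩ := exists_dual D.symm D.nd _ he₂a
    obtain ⟨X₃, hX₃⟩ : ∃ X₃ : Submodule F₀ (ι → F₀), X₃ = Submodule.span F₀ (Set.range ![a, e₂]) := ⟨_, rfl⟩
    have hX₃fin : Module.finrank F₀ X₃ ≤ 2 := by
      rw [hX₃]
      exact finrank_orth_le_span _
    obtain ⟨y, hy, hyQ⟩ := exists_singular_shift D.symm D.nd D.two X₃ (by omega) b₀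
    have e1 : B a y = 0 := hy _ (by rw [hX₃]; exact Submodule.subset_span ⟨0, rfl⟩)
    have e2 : B e₂ y = 0 := hy _ (by rw [hX₃]; exact Submodule.subset_span ⟨1, rfl⟩)
    refine ⟨b₀ + y, ?_, ?_, hyQ⟩
    · rw [map_add, e1, add_zero]
      exact h4 _ (Submodule.subset_span ⟨0, rfl⟩)
    · rw [map_add, e2, add_zero]
      exact h5
  refine ⟨a, ha0, haQ, haa, fun κ hκ => ?_⟩
  have hb'e' : ((B e₂ b' : F₀) : F) ≠ 0 := by simpa using hb'e
  obtain ⟨s, hs⟩ : ∃ s : F, s = κ / (2 * ω * (B e₂ b' : F₀)) := ⟨_, rfl⟩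
  have hsF : s ∈ F₀ := by
    rw [D.fix, hs, map_div₀, map_mul, map_mul, D.ωσ, (D.fix _).mp (B e₂ b').2]
    have h4 : σ κ = -κ := by linear_combination hκ
    have h5 : σ (2 : F) = 2 := map_ofNat σ 2
    rw [h4, h5]
    have := D.two'
    have := D.ω0
    field_simp
  obtain ⟨b'', hb''⟩ : ∃ b'', b'' = (⟨s, hsF⟩ : F₀) • b' := ⟨_, rfl⟩
  have hb''Q : B b'' b'' = 0 := by
    rw [hb'']
    simp only [map_smul, LinearMap.smul_apply, hb'Q, smul_zero]
  have hb''a : B a b'' = 0 := by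
    rw [hb'', map_smul, hb'a, smul_zero]
  have hR : uS hf (Pc P a) (Pc P b'') haa (D.orth_of (by rw [D.symm]; exact hb''a)) ∈ M :=
    hHM (D.uS_mem S a b'' _ _ hb''Q)
  have hee : f (σ α • r) (σ α • r) = 0 := by
    rw [hf.smul_left, UForm.smul_right hf, hrr]
    ring
  have hcomm := commutator_uS hf (Pc P a) (σ α • r) (Pc P b'') haa hee (D.iso_of hb''Q) h3
    (D.orth_of (by rw [D.symm]; exact hb''a))
  have hv : σ (f (Pc P b'') (σ α • r)) - f (Pc P b'') (σ α • r) = κ := by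
    rw [he, D.f_right, hb'', D.symm, D.symm _ e₂]
    simp only [map_smul, LinearMap.smul_apply, smul_eq_mul, Subfield.coe_mul]
    simp only [map_sub, map_mul, D.ωσ, (D.fix _).mp (B e₁ b').2, (D.fix _).mp (B e₂ b').2,
      (D.fix s).mp hsF]
    rw [hs]
    have := D.two'
    have := D.ω0
    field_simp
    ring
  have hu : uT hf (Pc P a) κ haa = uT hf (Pc P a) (σ (f (Pc P b'') (σ α • r)) - f (Pc P b'') (σ α • r)) haa := by
    congr 1
    exact hv.symm
  rw [hu, ← hcomm]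
  exact M.mul_mem (M.mul_mem (M.mul_mem hC hR) (M.inv_mem hC)) (M.inv_mem hR)

/-- Centres move along rational singular vectors. -/
theorem cen_transfer (S : IsSUGroup hf I) (hι : 13 ≤ Fintype.card ι) {M : Subgroup (GL ι F)}
    (hHM : subfieldSubgroup F₀ P ⊓ I ≤ M) (hiso : ∀ h ∈ M, IsIso f h) {a a' : ι → F₀} (ha0 : a ≠ 0)
    (ha : B a a = 0) (ha' : B a' a' = 0) (hc : Pc P a ∈ cen hf M) : Pc P a' ∈ cen hf M := by
  by_cases h1 : a' ∈ Submodule.span F₀ (Set.range ![a])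
  · rw [Submodule.mem_span_range_iff_exists_fun] at h1
    obtain ⟨c, hc'⟩ := h1
    simp only [Fin.sum_univ_one, Matrix.cons_val_zero] at hc'
    rw [← hc', Pc_smul]
    exact cen_smul hc _
  have ha'0 : a' ≠ 0 := by
    rintro rfl
    exact h1 (Submodule.zero_mem _)
  have h2 : a ∉ Submodule.span F₀ (Set.range ![a']) := by
    intro h3
    rw [Submodule.mem_span_range_iff_exists_fun] at h3
    obtain ⟨c, hc'⟩ := h3
    simp only [Fin.sum_univ_one, Matrix.cons_val_zero] at hc'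
    have hc0 : c 0 ≠ 0 := by
      intro h0
      rw [h0, zero_smul] at hc'
      exact ha0 hc'.symm
    apply h1
    have h4 : a' = (c 0)⁻¹ • a := by
      rw [← hc', smul_smul, inv_mul_cancel₀ hc0, one_smul]
    rw [h4]
    exact Submodule.smul_mem _ _ (Submodule.subset_span ⟨0, rfl⟩)
  obtain ⟨b₁, hb₁, hb₁'⟩ := exists_dual D.symm D.nd _ h1
  obtain ⟨b₂, hb₂, hb₂'⟩ := exists_dual D.symm D.nd _ h2
  have e1 : B a b₁ = 0 := hb₁ _ (Submodule.subset_span ⟨0, rfl⟩)
  have e2 : B a' b₂ = 0 := hb₂ _ (Submodule.subset_span ⟨0, rfl⟩)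
  obtain ⟨X, hX⟩ : ∃ X : Submodule F₀ (ι → F₀), X = Submodule.span F₀ (Set.range ![a, a']) := ⟨_, rfl⟩
  have hXfin : Module.finrank F₀ X ≤ 2 := by
    rw [hX]
    exact finrank_orth_le_span _
  obtain ⟨y, hy, hyQ⟩ := exists_singular_shift D.symm D.nd D.two X (by omega) (b₁ + b₂)
  have e3 : B a y = 0 := hy _ (by rw [hX]; exact Submodule.subset_span ⟨0, rfl⟩)
  have e4 : B a' y = 0 := hy _ (by rw [hX]; exact Submodule.subset_span ⟨1, rfl⟩)
  obtain ⟨p, hp⟩ : ∃ p, p = b₁ + b₂ + y := ⟨_, rfl⟩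
  rw [← hp] at hyQ
  have h3 : B a p ≠ 0 := by
    rw [hp, map_add, map_add, e1, e3, zero_add, add_zero]
    exact hb₂'
  have h4 : B a' p ≠ 0 := by
    rw [hp, map_add, map_add, e2, e4, add_zero, add_zero]
    exact hb₁'
  obtain ⟨x, hx⟩ : ∃ x, x = (B a p)⁻¹ • a := ⟨_, rfl⟩
  obtain ⟨x', hx'⟩ : ∃ x', x' = (B a' p)⁻¹ • a' := ⟨_, rfl⟩
  have hxQ : B x x = 0 := by
    rw [hx]
    simp only [map_smul, LinearMap.smul_apply, ha, smul_zero]
  have hx'Q : B x' x' = 0 := by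
    rw [hx']
    simp only [map_smul, LinearMap.smul_apply, ha', smul_zero]
  have hxp : B x p = 1 := by
    rw [hx]
    simp only [LinearMap.map_smul, LinearMap.smul_apply, smul_eq_mul]
    exact inv_mul_cancel₀ h3
  have hx'p : B x' p = 1 := by
    rw [hx']
    simp only [LinearMap.map_smul, LinearMap.smul_apply, smul_eq_mul]
    exact inv_mul_cancel₀ h4
  obtain ⟨q, hq⟩ : ∃ q, q = x' - x := ⟨_, rfl⟩
  have hqp : B q p = 0 := by
    rw [hq, map_sub, LinearMap.sub_apply, hxp, hx'p, sub_self]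
  have hcc : (2 : F₀) * B x x' + B q q = 0 := by
    rw [hq]
    simp only [map_sub, LinearMap.sub_apply, hxQ, hx'Q, D.symm x' x]
    ring
  have hE := hHM (D.uE_mem S p q (B x x') (D.iso_of hyQ) (D.orth_of hqp) hcc)
  have hEiso := hiso _ hE
  have hxc : Pc P x ∈ cen hf M := by
    rw [hx, Pc_smul]
    exact cen_smul hc _
  have h5 := cen_mulVec hxc hE hEiso
  have h6 : ((uE hf (Pc P p) (Pc P q) (B x x') (D.iso_of hyQ) (D.orth_of hqp) : GL ι F) : Matrix ι ι F) *ᵥ Pc P x =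
      Pc P x' := by
    rw [uE_mulVec, ← D.form, ← D.form, hxp]
    have h7 : B x q = B x x' := by
      rw [hq, map_sub, hxQ, sub_zero]
    rw [h7]
    have h8 : Pc P q = Pc P x' - Pc P x := by
      rw [hq, Pc_sub]
    rw [h8]
    ext i
    simp only [Pi.add_apply, Pi.sub_apply, Pi.smul_apply, smul_eq_mul]
    simp
  rw [h6] at h5
  have h9 : a' = B a' p • x' := by
    rw [hx', smul_smul, mul_inv_cancel₀ h4, one_smul]
  rw [h9, Pc_smul]
  exact cen_smul h5 _

/-- The form on vectors with two rational components. -/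
theorem f_ZZ (x₁ x₂ : ι → F₀) : f (Pc P x₁ + ω • Pc P x₂) (Pc P x₁ + ω • Pc P x₂) =
    B x₁ x₁ - (ω * ω) * B x₂ x₂ := by
  rw [UForm.add_right hf, UForm.smul_right hf, D.f_left, D.f_left, D.ωσ, D.symm x₂ x₁]
  ring

omit [Finite F] in
theorem tz (t : F₀) : ω * t + σ (ω * t) = 0 := by
  rw [map_mul, D.ωσ, (D.fix _).mp t.2]
  ring

/-- All isotropic vectors are centres, once rational singular vectors are. -/
theorem cen_all (hι : 13 ≤ Fintype.card ι) {M : Subgroup (GL ι F)}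
    (hrat : ∀ a, B a a = 0 → Pc P a ∈ cen hf M) {v : ι → F} (hv : f v v = 0) : v ∈ cen hf M := by
  have hσδ := D.δ_mem
  -- first type
  have h1 : ∀ x₁ x₂ : ι → F₀, B x₁ x₁ = 0 → B x₂ x₂ = 0 → B x₁ x₂ ≠ 0 → Pc P x₁ + ω • Pc P x₂ ∈ cen hf M := by
    intro x₁ x₂ h₁ h₂ h₃
    have h₃' : ((B x₁ x₂ : F₀) : F) ≠ 0 := by simpa using h₃
    have hs : ω / (B x₁ x₂ : F₀) + σ (ω / (B x₁ x₂ : F₀)) = 0 := by
      rw [map_div₀, D.ωσ, (D.fix _).mp (B x₁ x₂).2]
      ring
    have h4 := cen_plane (hrat x₂ h₂) (hrat x₁ h₁) _ hs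
    rw [← D.form, smul_smul, mul_div_cancel₀ _ h₃'] at h4
    exact h4
  -- second type
  have h2 : ∀ x₁ x₂ : ι → F₀, B x₁ x₁ = 0 → B x₂ x₂ = 0 → Pc P x₁ + ω • Pc P x₂ ∈ cen hf M := by
    intro x₁ x₂ h₁ h₂
    by_cases h₃ : B x₁ x₂ = 0
    · by_cases h₄ : x₂ ∈ Submodule.span F₀ (Set.range ![x₁])
      · rw [Submodule.mem_span_range_iff_exists_fun] at h₄
        obtain ⟨c, hc⟩ := h₄
        simp only [Fin.sum_univ_one, Matrix.cons_val_zero] at hc
        have h5 : Pc P x₁ + ω • Pc P x₂ = (1 + ω * (c 0 : F)) • Pc P x₁ := by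
          rw [← hc, Pc_smul, add_smul, one_smul, mul_smul]
        rw [h5]
        exact cen_smul (hrat x₁ h₁) _
      · obtain ⟨b₀, hb₀, hb₀'⟩ := exists_dual D.symm D.nd _ h₄
        have e1 : B x₁ b₀ = 0 := hb₀ _ (Submodule.subset_span ⟨0, rfl⟩)
        obtain ⟨X, hX⟩ : ∃ X : Submodule F₀ (ι → F₀), X = Submodule.span F₀ (Set.range ![x₁, x₂]) := ⟨_, rfl⟩
        have hXfin : Module.finrank F₀ X ≤ 2 := by
          rw [hX]
          exact finrank_orth_le_span _
        obtain ⟨y, hy, hyQ⟩ := exists_singular_shift D.symm D.nd D.two X (by omega) b₀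
        have e3 : B x₁ y = 0 := hy _ (by rw [hX]; exact Submodule.subset_span ⟨0, rfl⟩)
        have e4 : B x₂ y = 0 := hy _ (by rw [hX]; exact Submodule.subset_span ⟨1, rfl⟩)
        obtain ⟨w, hw⟩ : ∃ w, w = b₀ + y := ⟨_, rfl⟩
        rw [← hw] at hyQ
        have e5 : B x₁ w = 0 := by
          rw [hw, map_add, e1, e3, add_zero]
        have e6 : B x₂ w ≠ 0 := by
          rw [hw, map_add, e4, add_zero]
          exact hb₀'
        have hωt := D.tz 1
        obtain ⟨δ, hδ⟩ : ∃ δ : F₀, (δ : F) = ω * ω := ⟨⟨ω * ω, hσδ⟩, rfl⟩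
        have hδ0 : δ ≠ 0 := by
          intro h0
          rw [h0] at hδ
          have : ω * ω ≠ 0 := mul_ne_zero D.ω0 D.ω0
          exact this (by rw [← hδ]; rfl)
        apply cen_plane_rev (hrat w hyQ) _ hωt
        have e7 : f (Pc P x₁ + ω • Pc P x₂) (Pc P w) = ω * (B x₂ w : F₀) := by
          rw [D.f_left, e5]
          simp
        rw [e7]
        have e8 : Pc P x₁ + ω • Pc P x₂ + (ω * (B x₂ w : F₀)) • (ω * ((1 : F₀) : F)) • Pc P w =
            Pc P (x₁ + (δ * B x₂ w) • w) + ω • Pc P x₂ := by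
          rw [Pc_add, Pc_smul, Subfield.coe_mul, hδ]
          ext i
          simp only [Pi.add_apply, Pi.smul_apply, smul_eq_mul]
          simp only [OneMemClass.coe_one]
          ring
        rw [e8]
        apply h1
        · simp only [map_add, map_smul, LinearMap.add_apply, LinearMap.smul_apply, smul_eq_mul, h₁, e5, hyQ,
            D.symm w x₁]
          simp
        · exact h₂
        · rw [D.symm, map_add, LinearMap.map_smul, smul_eq_mul, D.symm x₂ x₁, h₃, zero_add]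
          exact mul_ne_zero (mul_ne_zero hδ0 e6) e6
    · exact h1 x₁ x₂ h₁ h₂ h₃
  by_cases hv0 : v = 0
  · have h3 := h2 0 0 (by simp) (by simp)
    rw [Pc_zero, smul_zero, add_zero] at h3
    rwa [hv0]
  -- reduction
  obtain ⟨x₁, x₂, hx⟩ := D.decomp v
  obtain ⟨z, hz⟩ : ∃ z : ι → F₀, (z = x₁ ∨ z = x₂) ∧ z ≠ 0 := by
    by_cases h0 : x₁ = 0
    · refine ⟨x₂, Or.inr rfl, ?_⟩
      rintro rfl
      apply hv0
      rw [hx, h0, Pc_zero, smul_zero, add_zero]
    · exact ⟨x₁, Or.inl rfl, h0⟩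
  obtain ⟨b₀, hb₀⟩ := exists_right_ne D.nd hz.2
  obtain ⟨X, hX⟩ : ∃ X : Submodule F₀ (ι → F₀), X = Submodule.span F₀ (Set.range ![x₁, x₂]) := ⟨_, rfl⟩
  have hXfin : Module.finrank F₀ X ≤ 2 := by
    rw [hX]
    exact finrank_orth_le_span _
  obtain ⟨y, hy, hyQ⟩ := exists_singular_shift D.symm D.nd D.two X (by omega) b₀
  have e3 : B x₁ y = 0 := hy _ (by rw [hX]; exact Submodule.subset_span ⟨0, rfl⟩)
  have e4 : B x₂ y = 0 := hy _ (by rw [hX]; exact Submodule.subset_span ⟨1, rfl⟩)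
  obtain ⟨w, hw⟩ : ∃ w, w = b₀ + y := ⟨_, rfl⟩
  rw [← hw] at hyQ
  have hρ : f v (Pc P w) ≠ 0 := by
    rw [hx, D.f_left, hw, map_add, map_add, e3, e4, add_zero, add_zero]
    intro h0
    obtain ⟨h5, h6⟩ := D.scalar_zero h0
    rcases hz.1 with h7 | h7
    · rw [h7] at hb₀
      exact hb₀ h5
    · rw [h7] at hb₀
      exact hb₀ h6
  obtain ⟨c, hc⟩ : ∃ c : F, c = (f v (Pc P w))⁻¹ * (1 + ω) := ⟨_, rfl⟩
  -- the rescaled vector
  obtain ⟨y₁, y₂, hy'⟩ := D.decomp (c • v)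
  have h3 : f (c • v) (Pc P w) = 1 + ω := by
    rw [hf.smul_left, hc, inv_mul_eq_div, div_mul_eq_mul_div, mul_div_assoc, div_self hρ, mul_one]
  rw [hy', D.f_left] at h3
  have h4 : ((B y₁ w - 1 : F₀) : F) + ω * ((B y₂ w - 1 : F₀) : F) = 0 := by
    push_cast
    linear_combination h3
  obtain ⟨h5, h6⟩ := D.scalar_zero h4
  have h5' : B y₁ w = 1 := sub_eq_zero.mp h5
  have h6' : B y₂ w = 1 := sub_eq_zero.mp h6
  have hc0 : c ≠ 0 := by
    rw [hc]
    refine mul_ne_zero (inv_ne_zero hρ) ?_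
    intro h0
    have h7 : ((1 : F₀) : F) + ω * ((1 : F₀) : F) = 0 := by
      push_cast
      linear_combination h0
    exact one_ne_zero (D.scalar_zero h7).1
  have hcv : f (c • v) (c • v) = 0 := by
    rw [hf.smul_left, UForm.smul_right hf, hv]
    ring
  obtain ⟨t, ht⟩ : ∃ t : F₀, t = -(B y₂ y₂) / 2 := ⟨_, rfl⟩
  obtain ⟨δ, hδ⟩ : ∃ δ : F₀, (δ : F) = ω * ω := ⟨⟨ω * ω, hσδ⟩, rfl⟩
  have h2' : (2 : F₀) ≠ 0 := D.two
  have hmain : c • v ∈ cen hf M := by
    apply cen_plane_rev (hrat w hyQ) _ (D.tz t)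
    have e7 : f (c • v) (Pc P w) = 1 + ω := by
      rw [hy', D.f_left, h5', h6']
      simp
    rw [e7]
    have e8 : c • v + (1 + ω) • (ω * (t : F)) • Pc P w =
        Pc P (y₁ + (δ * t) • w) + ω • Pc P (y₂ + t • w) := by
      rw [hy', Pc_add, Pc_add, Pc_smul, Pc_smul, Subfield.coe_mul, hδ]
      ext i
      simp only [Pi.add_apply, Pi.smul_apply, smul_eq_mul]
      ring
    rw [e8]
    have e9 : B (y₂ + t • w) (y₂ + t • w) = 0 := by
      simp only [map_add, map_smul, LinearMap.add_apply, LinearMap.smul_apply, smul_eq_mul, hyQ, h6', D.symm w y₂]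
      rw [ht]
      field_simp
      ring
    have e10 : B (y₁ + (δ * t) • w) (y₁ + (δ * t) • w) = 0 := by
      have e11 := D.f_ZZ y₁ y₂
      rw [← hy', hcv] at e11
      have e12 : B y₁ y₁ = δ * B y₂ y₂ := by
        apply Subtype.ext
        rw [Subfield.coe_mul, hδ]
        linear_combination -e11
      simp only [map_add, map_smul, LinearMap.add_apply, LinearMap.smul_apply, smul_eq_mul, hyQ, h5', D.symm w y₁]
      rw [e12, ht]
      field_simp
      ring
    exact h2 _ _ e10 e9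
  have h7 := cen_smul hmain c⁻¹
  rwa [smul_smul, inv_mul_cancel₀ hc0, one_smul] at h7

/-- Strictness. -/
theorem lt_top (S : IsSUGroup hf I) (hι : 13 ≤ Fintype.card ι) : subfieldSubgroup F₀ P ⊓ I < I := by
  refine lt_of_le_of_ne inf_le_right ?_
  intro he
  have hcard : Module.finrank F₀ (ι → F₀) = Fintype.card ι := by simp
  obtain ⟨a, -, ha0, haQ⟩ := exists_singular_avoid D.symm D.nd D.two ⊤ ⊥ (by simp; omega)
  have ha00 : a ≠ 0 := fun h => ha0 (by rw [h]; exact Submodule.zero_mem _)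
  have hκ : ω + σ ω = 0 := by
    rw [D.ωσ]
    ring
  have haa := D.iso_of haQ
  have hT : uT hf (Pc P a) ω haa ∈ subfieldSubgroup F₀ P ⊓ I := by
    rw [he]
    exact (S.mem_iff _).mpr ⟨uT_isIso hf _ ω haa hκ, (mem_specialLinear_iff _).mp (uT_mem hf _ ω haa hκ).2⟩
  obtain ⟨c, hc0, hc⟩ := exists_scalar_of_mem hT.1
  obtain ⟨A, hA⟩ : ∃ A : GL ι F, A = P⁻¹ * uT hf (Pc P a) ω haa * P := ⟨_, rfl⟩
  rw [← hA] at hc
  have hAv : ∀ y : ι → F₀, (A : Matrix ι ι F) *ᵥ coeV y = coeV y + ((B y a : F₀) * ω : F) • coeV a := by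
    intro y
    rw [hA]
    simp only [Units.val_mul, ← Matrix.mulVec_mulVec]
    have h1 : (P : Matrix ι ι F) *ᵥ coeV y = Pc P y := rfl
    rw [h1, uT_mulVec, ← D.form, Matrix.mulVec_add, Matrix.mulVec_smul, Matrix.mulVec_smul, smul_smul]
    have h2 : ∀ x : ι → F₀, ((P⁻¹ : GL ι F) : Matrix ι ι F) *ᵥ Pc P x = coeV x := fun x => inv_mulVec_mulVec P _
    rw [h2, h2]
  have hcA : ∀ y : ι → F₀, IsRat F₀ (c • ((A : Matrix ι ι F) *ᵥ coeV y)) := by
    intro y
    rw [← Matrix.smul_mulVec]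
    exact isRat_mulVec (fun i j => hc i j) (isRat_coeV y)
  obtain ⟨k, hk⟩ : ∃ k, a k ≠ 0 := by
    by_contra hcon
    push Not at hcon
    exact ha00 (funext hcon)
  have hk1 : ((a k : F₀) : F) ≠ 0 := by simpa using hk
  have hcF : c ∈ F₀ := by
    have h1 := hcA a k
    rw [hAv, haQ] at h1
    simp only [Pi.smul_apply, Pi.add_apply, smul_eq_mul, coeV_apply] at h1
    simp only [ZeroMemClass.coe_zero, zero_mul, zero_mul, add_zero] at h1
    have h2 := F₀.div_mem h1 (a k).2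
    rwa [mul_div_cancel_right₀ _ hk1] at h2
  obtain ⟨x, hx⟩ := exists_right_ne D.nd ha00
  have hx' : B x a ≠ 0 := by
    rwa [D.symm]
  have hx'' : ((B x a : F₀) : F) ≠ 0 := by simpa using hx'
  have h1 := hcA x k
  rw [hAv] at h1
  simp only [Pi.smul_apply, Pi.add_apply, smul_eq_mul, coeV_apply] at h1
  have h2 := F₀.div_mem h1 hcF
  rw [mul_div_cancel_left₀ _ hc0] at h2
  have h3 := F₀.sub_mem h2 (x k).2
  rw [add_sub_cancel_left] at h3
  have h4 := F₀.div_mem (F₀.div_mem h3 (a k).2) (B x a).2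
  have h5 : ω ∈ F₀ := by
    have e : (B x a : F₀) * ω * (a k : F₀) / (a k : F₀) / (B x a : F₀) = ω := by
      field_simp
    rwa [e] at h4
  exact D.ω_ne ((D.fix ω).mp h5)

/-- **The orthogonal subfield group is maximal in `SU`.** -/
theorem isMaximalIn (S : IsSUGroup hf I) (hι : 13 ≤ Fintype.card ι) :
    IsMaximalIn I (subfieldSubgroup F₀ P ⊓ I) := by
  refine isMaximalIn_of_forall (D.lt_top S hι) ?_
  intro M hHM hMI g hgM hgH
  have hiso : ∀ h ∈ M, IsIso f h := fun h hh => ((S.mem_iff h).mp (hMI hh)).1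
  have hg : g ∉ subfieldSubgroup F₀ P := fun hs => hgH ⟨hs, hMI hgM⟩
  obtain ⟨u, hu, hline⟩ := D.exists_not_line (by omega) hg
  obtain ⟨a, ha0, haQ, hac⟩ := D.exists_rat_cen S hι hHM hiso hgM hu hline
  have hrat : ∀ a', B a' a' = 0 → Pc P a' ∈ cen hf M := fun a' ha' => D.cen_transfer S hι hHM hiso ha0 haQ ha' hac
  apply S.gen
  intro v κ hv hκ
  exact cen_mem (D.cen_all hι hrat hv) hv κ hκ

end OData

/-- **The orthogonal subfield group is maximal in `SU`**, in terms of the rational structure. -/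
theorem orth_isMaximalIn [Finite F] (S : IsSUGroup hf I) (hι : 13 ≤ Fintype.card ι) (hfix : ∀ x, x ∈ F₀ ↔ σ x = x)
    (h2 : (2 : F) ≠ 0) (P : GL ι F) (hP : IsFormRationalStructure f F₀ 1 P) :
    IsMaximalIn I (subfieldSubgroup F₀ P ⊓ I) := by
  obtain ⟨B, hB⟩ : ∃ B : LinearMap.BilinForm F₀ (ι → F₀), ∀ u v, (B u v : F) = f (Pc P u) (Pc P v) := by
    have hmem : ∀ u v : ι → F₀, f (Pc P u) (Pc P v) ∈ F₀ := by
      intro u v
      have := hP _ _ (isRat_coeV u) (isRat_coeV v)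
      rwa [one_mul] at this
    refine ⟨LinearMap.mk₂ F₀ (fun u v => ⟨f (Pc P u) (Pc P v), hmem u v⟩) ?_ ?_ ?_ ?_, fun u v => rfl⟩
    · intro x y v
      apply Subtype.ext
      simp only [Pc_add, hf.add_left, Subfield.coe_add]
    · intro a x v
      apply Subtype.ext
      simp only [Pc_smul, hf.smul_left, Subfield.coe_mul, smul_eq_mul]
    · intro v x y
      apply Subtype.ext
      simp only [Pc_add, UForm.add_right hf, Subfield.coe_add]
    · intro a v x
      apply Subtype.ext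
      have ha : σ (a : F) = a := (hfix _).mp a.2
      simp only [Pc_smul, UForm.smul_right hf, Subfield.coe_mul, smul_eq_mul, ha]
  have hsymm : ∀ x y, B x y = B y x := by
    intro x y
    apply Subtype.ext
    have h1 : σ (B y x : F) = (B y x : F) := (hfix _).mp (B y x).2
    rw [hB] at h1 ⊢
    rw [hB, ← h1, ← hf.herm]
  have hnd : B.Nondegenerate := by
    have hL : LinearMap.SeparatingLeft B := by
      intro x hx
      by_contra h0
      have hPx : Pc P x ≠ 0 := fun h => h0 (Pc_eq_zero P h)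
      obtain ⟨-, ⟨y, hy⟩⟩ := hf.nondegenerate _ hPx
      apply hy
      apply UForm.refl hf
      apply form_zero_of_rat hf P (F₀ := F₀)
      intro u hu
      obtain ⟨u', rfl⟩ := exists_coeV hu
      have h1 := congrArg (fun a : F₀ => (a : F)) (hx u')
      simp only [hB, ZeroMemClass.coe_zero] at h1
      exact UForm.refl hf _ _ h1
    exact (LinearMap.IsRefl.nondegenerate_iff_separatingLeft (isRefl_of_symm hsymm)).2 hL
  obtain ⟨ω, hω0, hω⟩ := exists_trace_zero σ hf.ne_refl hf.involutive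
  have h2' : (2 : F₀) ≠ 0 := by
    intro h0
    apply h2
    have h3 : ((2 : F₀) : F) = 2 := map_ofNat F₀.subtype 2
    rw [← h3, h0]
    rfl
  have D : OData hf F₀ P B ω :=
    { fix := hfix
      form := hB
      symm := hsymm
      nd := hnd
      two := h2'
      ω0 := hω0
      ωσ := by linear_combination hω }
  exact D.isMaximalIn S hι

end Cfsg.Agent.Lib.Geo.SUOrth
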