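/-
The subfield group of odd prime index is maximal in the special unitary group.
-/
import Cfsg.Agent.Lib.Geo.SUPair
import Cfsg.Agent.Lib.Geo.SpSub
set_option autoImplicit false

namespace Cfsg.Agent.Lib.Geo.SUSub

open Cfsg Cfsg.Geo Cfsg.Agent.Lib.Geo.Basic Cfsg.Agent.Lib.Geo.Parabolic Cfsg.Agent.Lib.Geo.Centres
open Cfsg.Agent.Lib.Geo.Polar Cfsg.Agent.Lib.Geo.UnitaryInSL Cfsg.Agent.Lib.Geo.QForm
open Cfsg.Agent.Lib.Geo.SUGen Cfsg.Agent.Lib.Geo.SUBase Cfsg.Agent.Lib.Geo.SUWitt Cfsg.Agent.Lib.Geo.SUPair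
open Cfsg.Agent.Lib.Geo.RatStruct Cfsg.Agent.Lib.Geo.DicksonGen
open Cfsg.Agent.Lib.Geo.SUSymp (coeV coeV_apply coeV_add coeV_smul isRat_coeV exists_coeV coeV_injective)
open Cfsg.Agent.Lib.Geo.SpSub (eq_sum_single coeV_single coeV_zero exists_sq_sub_sq exists_sq_sub_sq')
open scoped MatrixGroups Matrix

variable {ι : Type} [Fintype ι] [DecidableEq ι] {F : Type*} [Field F]
variable {σ : F ≃+* F} {f : (ι → F) → (ι → F) → F} {F₀ : Subfield F}

/-! ### The form and the standard basis -/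

theorem form_zero_of_single (hf : IsUnitaryForm σ f) {y : ι → F}
    (h : ∀ i, f (Pi.single i 1) y = 0) (x : ι → F) : f x y = 0 := by
  rw [eq_sum_single x, form_sum_left hf]
  refine Finset.sum_eq_zero fun i _ => ?_
  rw [hf.smul_left, h, mul_zero]

theorem eq_zero_of_single (hf : IsUnitaryForm σ f) {y : ι → F}
    (h : ∀ i, f (Pi.single i 1) y = 0) : y = 0 := by
  by_contra h0
  obtain ⟨x, hx⟩ := (hf.nondegenerate y h0).1
  exact hx (form_zero_of_single hf h x)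

theorem neg_right (hf : IsUnitaryForm σ f) (v x : ι → F) : f v (-x) = - f v x := by
  have := UForm.smul_right hf (-1) v x
  simpa using this

theorem neg_left (hf : IsUnitaryForm σ f) (x v : ι → F) : f (-x) v = - f x v := by
  have := hf.smul_left (-1) x v
  simpa using this

theorem sub_right (hf : IsUnitaryForm σ f) (v x y : ι → F) : f v (x - y) = f v x - f v y := by
  rw [sub_eq_add_neg, UForm.add_right hf, neg_right hf, sub_eq_add_neg]

theorem sub_left (hf : IsUnitaryForm σ f) (x y v : ι → F) : f (x - y) v = f x v - f y v := by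
  rw [sub_eq_add_neg, hf.add_left, neg_left hf, sub_eq_add_neg]

theorem eq_of_single (hf : IsUnitaryForm σ f) {y z : ι → F}
    (h : ∀ i, f (Pi.single i 1) y = f (Pi.single i 1) z) : y = z := by
  have := eq_zero_of_single hf (y := y - z) (fun i => by
    rw [sub_right hf, h, sub_self])
  exact sub_eq_zero.mp this

theorem eq_of_form (hf : IsUnitaryForm σ f) {y z : ι → F} (h : ∀ x, f x y = f x z) : y = z :=
  eq_of_single hf (fun i => h _)

/-- A matrix respecting the form on the standard basis is an isometry. -/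
theorem isIso_of_single (hf : IsUnitaryForm σ f) (g : GL ι F)
    (h : ∀ i j, f ((g : Matrix ι ι F) *ᵥ Pi.single i 1) ((g : Matrix ι ι F) *ᵥ Pi.single j 1) =
      f (Pi.single i 1) (Pi.single j 1)) : IsIso f g := by
  intro x y
  have e : ∀ (A : Matrix ι ι F) (x : ι → F), A *ᵥ x = ∑ i, x i • (A *ᵥ Pi.single i 1) := by
    intro A x
    conv_lhs => rw [eq_sum_single x]
    rw [Matrix.mulVec_sum]
    simp only [Matrix.mulVec_smul]
  rw [e _ x, e _ y]
  conv_rhs => rw [eq_sum_single x, eq_sum_single y]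
  rw [form_sum_left hf, form_sum_left hf]
  refine Finset.sum_congr rfl fun i _ => ?_
  rw [hf.smul_left, hf.smul_left, form_sum_right hf, form_sum_right hf]
  congr 1
  refine Finset.sum_congr rfl fun j _ => ?_
  rw [UForm.smul_right hf, UForm.smul_right hf, h]

/-! ### Rational structures -/

/-- A rational structure for a unitary form. -/
structure RatU (hf : IsUnitaryForm σ f) (F₀ : Subfield F) : Prop where
  rat : ∀ u v : ι → F, IsRat F₀ u → IsRat F₀ v → f u v ∈ F₀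
  stable : ∀ x ∈ F₀, σ x ∈ F₀
  exω : ∃ ω ∈ F₀, σ ω ≠ ω

/-- The rational form on the rational vectors. -/
def fo (hrat : ∀ u v : ι → F, IsRat F₀ u → IsRat F₀ v → f u v ∈ F₀) (u v : ι → F₀) : F₀ :=
  ⟨f (coeV u) (coeV v), hrat _ _ (isRat_coeV u) (isRat_coeV v)⟩

omit [Fintype ι] [DecidableEq ι] in
theorem coe_fo (hrat : ∀ u v : ι → F, IsRat F₀ u → IsRat F₀ v → f u v ∈ F₀) (u v : ι → F₀) :
    (fo hrat u v : F) = f (coeV u) (coeV v) := rfl

variable {hf : IsUnitaryForm σ f}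

/-- The restriction of the involution. -/
def RatU.sig (R : RatU hf F₀) : F₀ ≃+* F₀ where
  toFun x := ⟨σ x, R.stable x x.2⟩
  invFun x := ⟨σ x, R.stable x x.2⟩
  left_inv x := Subtype.ext (hf.involutive x)
  right_inv x := Subtype.ext (hf.involutive x)
  map_mul' x y := Subtype.ext (map_mul σ _ _)
  map_add' x y := Subtype.ext (map_add σ _ _)

theorem RatU.coe_sig (R : RatU hf F₀) (x : F₀) : (R.sig x : F) = σ x := rfl

theorem RatU.isUnit (R : RatU hf F₀) : IsUnitaryForm R.sig (fo R.rat) where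
  ne_refl := by
    obtain ⟨ω, hω, hne⟩ := R.exω
    intro h
    apply hne
    have := congrArg (fun s : F₀ ≃+* F₀ => ((s ⟨ω, hω⟩ : F₀) : F)) h
    simpa [R.coe_sig] using this
  involutive := fun a => Subtype.ext (hf.involutive a)
  add_left := fun x y v => by
    apply Subtype.ext
    simp only [coe_fo, coeV_add, hf.add_left, Subfield.coe_add]
  smul_left := fun c x v => by
    apply Subtype.ext
    simp only [coe_fo, coeV_smul, hf.smul_left, Subfield.coe_mul]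
  herm := fun v w => by
    apply Subtype.ext
    rw [R.coe_sig, coe_fo, coe_fo]
    exact hf.herm _ _
  nondegenerate := fun y hy => by
    have hy' : coeV y ≠ 0 := by
      intro h
      apply hy
      apply coeV_injective
      rw [h, coeV_zero]
    have key : ∃ i, f (Pi.single i 1) (coeV y) ≠ 0 := by
      by_contra hcon
      push Not at hcon
      exact hy' (eq_zero_of_single hf hcon)
    obtain ⟨i, hi⟩ := key
    have h1 : fo R.rat (Pi.single i 1) y ≠ 0 := by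
      intro h
      apply hi
      have := congrArg (fun a : F₀ => (a : F)) h
      simpa only [coe_fo, coeV_single, ZeroMemClass.coe_zero] using this
    have h2 : fo R.rat y (Pi.single i 1) ≠ 0 := by
      intro h
      apply hi
      have := congrArg (fun a : F₀ => (a : F)) h
      simp only [coe_fo, coeV_single, ZeroMemClass.coe_zero] at this
      exact UForm.refl hf _ _ this
    exact ⟨⟨_, h1⟩, ⟨_, h2⟩⟩

theorem RatU.skew (R : RatU hf F₀) : ∃ ε ∈ F₀, ε ≠ 0 ∧ ε + σ ε = 0 := by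
  obtain ⟨ω, hω, hne⟩ := R.exω
  refine ⟨ω - σ ω, F₀.sub_mem hω (R.stable _ hω), sub_ne_zero.mpr (Ne.symm hne), ?_⟩
  rw [map_sub, hf.involutive]
  ring

section Rational

variable [Finite F]

omit [Fintype ι] [DecidableEq ι] in
theorem finite_sub : Finite F₀ := Finite.of_injective (fun x : F₀ => (x : F)) Subtype.val_injective

/-- Rational hyperbolic pairs orthogonal to finitely many rational vectors. -/
theorem RatU.hyperbolic (R : RatU hf F₀) {k : ℕ} (S : Fin k → ι → F)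
    (hS : ∀ i, IsRat F₀ (S i)) (hn : 2 * k + 3 ≤ Fintype.card ι) :
    ∃ p q : ι → F, IsRat F₀ p ∧ IsRat F₀ q ∧ f p p = 0 ∧ f q q = 0 ∧ (∀ i, f p (S i) = 0) ∧ (∀ i, f q (S i) = 0) ∧
      f p q = 1 := by
  have hS' := fun i => exists_coeV (hS i)
  choose S₀ hS₀ using hS'
  haveI : Finite F₀ := finite_sub
  have P := UForm.isPolar R.isUnit
  obtain ⟨p, q, hp, hq, hpB, hqB, hpq⟩ := P.exists_hyperbolic S₀ hn
  rw [P.mem_perp] at hp hq
  refine ⟨coeV p, coeV q, isRat_coeV p, isRat_coeV q, ?_, ?_, fun i => ?_, fun i => ?_, ?_⟩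
  · have := congrArg (fun a : F₀ => (a : F)) (show fo R.rat p p = 0 from hpB)
    simpa only [coe_fo, ZeroMemClass.coe_zero] using this
  · have := congrArg (fun a : F₀ => (a : F)) (show fo R.rat q q = 0 from hqB)
    simpa only [coe_fo, ZeroMemClass.coe_zero] using this
  · have := congrArg (fun a : F₀ => (a : F)) (hp i)
    simpa only [coe_fo, hS₀, ZeroMemClass.coe_zero] using this
  · have := congrArg (fun a : F₀ => (a : F)) (hq i)
    simpa only [coe_fo, hS₀, ZeroMemClass.coe_zero] using this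
  · have := congrArg (fun a : F₀ => (a : F)) hpq
    simpa only [coe_fo, OneMemClass.coe_one] using this

/-- Rational functionals are represented by rational vectors. -/
theorem RatU.realize (R : RatU hf F₀) (φ : ι → F) (hφ : IsRat F₀ φ) :
    ∃ y : ι → F, IsRat F₀ y ∧ ∀ i, f (Pi.single i 1) y = φ i := by
  obtain ⟨φ₀, rfl⟩ := exists_coeV hφ
  haveI : Finite F₀ := finite_sub
  have P := UForm.isPolar R.isUnit
  obtain ⟨y, hy⟩ := P.formVec_surjective φ₀
  refine ⟨coeV y, isRat_coeV y, fun i => ?_⟩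
  have := congrFun hy i
  have h2 := congrArg (fun a : F₀ => (a : F)) this
  simp only [formVec, coe_fo, coeV_single] at h2
  rw [h2]
  rfl

/-- Rational separation: a rational vector outside the line of another one. -/
theorem RatU.dual (R : RatU hf F₀) {p w : ι → F} (hp : IsRat F₀ p)
    (hw : IsRat F₀ w) (h : ∀ c ∈ F₀, p ≠ c • w) :
    ∃ y : ι → F, IsRat F₀ y ∧ f y w = 0 ∧ f p y = 1 := by
  obtain ⟨p₀, rfl⟩ := exists_coeV hp
  obtain ⟨w₀, rfl⟩ := exists_coeV hw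
  haveI : Finite F₀ := finite_sub
  have P := UForm.isPolar R.isUnit
  have hmem : p₀ ∉ Submodule.span F₀ (Set.range ![w₀]) := by
    intro hm
    have : Set.range ![w₀] = {w₀} := by
      ext x
      simp [eq_comm]
    rw [this, Submodule.mem_span_singleton] at hm
    obtain ⟨c, hc⟩ := hm
    apply h c c.2
    rw [← hc, coeV_smul]
  obtain ⟨y, hy, hpy⟩ := P.exists_perp_ne_zero ![w₀] p₀ hmem
  rw [P.mem_perp] at hy
  refine ⟨coeV y, isRat_coeV y, ?_, ?_⟩
  · have := congrArg (fun a : F₀ => (a : F)) (hy 0)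
    simpa only [coe_fo, Matrix.cons_val_zero, ZeroMemClass.coe_zero] using this
  · have := congrArg (fun a : F₀ => (a : F)) hpy
    simpa only [coe_fo, OneMemClass.coe_one] using this

/-- A rational partner of a rational isotropic vector. -/
theorem RatU.partner (R : RatU hf F₀) {a : ι → F} (ha : IsRat F₀ a) (haa : f a a = 0) (ha0 : a ≠ 0) :
    ∃ b, IsRat F₀ b ∧ f b b = 0 ∧ f a b = 1 := by
  obtain ⟨y, hy, -, h⟩ := R.dual ha (isRat_zero) (w := 0) (fun c _ => by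
    rw [smul_zero]
    exact ha0)
  obtain ⟨a₀, rfl⟩ := exists_coeV ha
  obtain ⟨y₀, rfl⟩ := exists_coeV hy
  haveI : Finite F₀ := finite_sub
  have P := UForm.isPolar R.isUnit
  have h1 : fo R.rat a₀ y₀ ≠ 0 := by
    intro h0
    have := congrArg (fun a : F₀ => (a : F)) h0
    simp only [coe_fo, ZeroMemClass.coe_zero] at this
    rw [h] at this
    exact one_ne_zero this
  have hB : a₀ ∈ {x | fo R.rat x x = 0} := by
    apply Subtype.ext
    rw [coe_fo, haa]
    rfl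
  obtain ⟨l, hl⟩ := P.B_shift a₀ y₀ hB h1
  refine ⟨coeV (y₀ + l • a₀), isRat_coeV _, ?_, ?_⟩
  · have := congrArg (fun a : F₀ => (a : F)) (show fo R.rat (y₀ + l • a₀) (y₀ + l • a₀) = 0 from hl)
    simpa only [coe_fo, ZeroMemClass.coe_zero] using this
  · rw [coeV_add, coeV_smul, UForm.add_right hf, UForm.smul_right hf, h, haa]
    ring

/-- The rational trace is onto. -/
theorem RatU.trace (R : RatU hf F₀) {n : F} (hn : n ∈ F₀) (hnσ : σ n = n) : ∃ x ∈ F₀, x + σ x = n := by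
  obtain ⟨x, hx⟩ := exists_add_sigma_eq R.sig R.isUnit.ne_refl R.isUnit.involutive ⟨n, hn⟩
    (Subtype.ext hnσ)
  refine ⟨x, x.2, ?_⟩
  have := congrArg (fun a : F₀ => (a : F)) hx
  simpa [R.coe_sig] using this

/-- A rational vector is a combination of three rational isotropic ones. -/
theorem RatU.iso_decomp (R : RatU hf F₀) {k : ℕ} (S : Fin k → ι → F)
    (hS : ∀ i, IsRat F₀ (S i)) (hn : 2 * (k + 1) + 3 ≤ Fintype.card ι) {y : ι → F} (hy : IsRat F₀ y)
    (hyS : ∀ i, f y (S i) = 0) :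
    ∃ y₁ y₂ y₃ : ι → F, IsRat F₀ y₁ ∧ IsRat F₀ y₂ ∧ IsRat F₀ y₃ ∧ f y₁ y₁ = 0 ∧ f y₂ y₂ = 0 ∧ f y₃ y₃ = 0 ∧
      (∀ i, f y₁ (S i) = 0) ∧ (∀ i, f y₂ (S i) = 0) ∧ (∀ i, f y₃ (S i) = 0) ∧ y = y₁ - y₂ - y₃ := by
  obtain ⟨p, q, hp, hq, hpp, hqq, hpS, hqS, hpq⟩ := R.hyperbolic (Fin.cons y S : Fin (k + 1) → ι → F) (by
    intro i
    refine Fin.cases ?_ (fun j => ?_) i
    · simpa using hy
    · simpa using hS j) hn
  have hpy : f p y = 0 := by simpa using hpS 0
  have hqy : f q y = 0 := by simpa using hqS 0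
  have hpS' : ∀ i, f p (S i) = 0 := fun i => by simpa using hpS i.succ
  have hqS' : ∀ i, f q (S i) = 0 := fun i => by simpa using hqS i.succ
  have hyp : f y p = 0 := UForm.refl hf _ _ hpy
  have hyq : f y q = 0 := UForm.refl hf _ _ hqy
  have hqp : f q p = 1 := by rw [hf.herm, hpq, map_one]
  have hn₀ : -f y y ∈ F₀ := F₀.neg_mem (R.rat _ _ hy hy)
  obtain ⟨κ, hκ, hκσ⟩ := R.trace hn₀ (by rw [map_neg, UForm.sigma_self hf])
  refine ⟨y + p + κ • q, p, κ • q, (hy.add hp).add (hq.smul hκ), hp, hq.smul hκ, ?_, hpp, ?_, ?_, hpS', ?_, ?_⟩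
  · simp only [hf.add_left, UForm.add_right hf, hf.smul_left, UForm.smul_right hf, hyp, hyq, hpy, hqy, hpp, hqq,
      hpq, hqp]
    linear_combination hκσ
  · rw [hf.smul_left, UForm.smul_right hf, hqq]
    ring
  · intro i
    rw [hf.add_left, hf.add_left, hf.smul_left, hyS, hpS', hqS']
    ring
  · intro i
    rw [hf.smul_left, hqS']
    ring
  · abel

/-- **Witt's theorem over the subfield**: rational isometries of determinant one. -/
theorem RatU.witt (R : RatU hf F₀) {k : ℕ} (u u' : Fin k → ι → F) (hu : ∀ i, IsRat F₀ (u i))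
    (hu' : ∀ i, IsRat F₀ (u' i)) (hn : 2 * k + 3 ≤ Fintype.card ι)
    (hind : ∀ c : Fin k → F, (∀ i, c i ∈ F₀) → ∑ i, c i • u i = 0 → ∀ i, c i = 0)
    (hind' : ∀ c : Fin k → F, (∀ i, c i ∈ F₀) → ∑ i, c i • u' i = 0 → ∀ i, c i = 0)
    (hgram : ∀ i j, f (u i) (u j) = f (u' i) (u' j)) :
    ∃ g : GL ι F, IsIso f g ∧ (g : Matrix ι ι F).det = 1 ∧ (∀ i j, (g : Matrix ι ι F) i j ∈ F₀) ∧
      ∀ i, (g : Matrix ι ι F) *ᵥ u i = u' i := by
  have hu₀ := fun i => exists_coeV (hu i)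
  have hu'₀ := fun i => exists_coeV (hu' i)
  choose v hv using hu₀
  choose v' hv' using hu'₀
  haveI : Finite F₀ := finite_sub
  have hU := R.isUnit
  have hli : ∀ (w : Fin k → ι → F₀) (w' : Fin k → ι → F), (∀ i, coeV (w i) = w' i) →
      (∀ c : Fin k → F, (∀ i, c i ∈ F₀) → ∑ i, c i • w' i = 0 → ∀ i, c i = 0) → LinearIndependent F₀ w := by
    intro w w' hww h
    rw [Fintype.linearIndependent_iff]
    intro g hg i
    have h1 := h (fun i => (g i : F)) (fun i => (g i).2) (by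
      have h2 := congrArg coeV hg
      ext l
      have h3 := congrFun h2 l
      simp only [coeV_apply, Finset.sum_apply, Pi.smul_apply, Pi.zero_apply, smul_eq_mul, AddSubmonoidClass.coe_finsetSum,
        Subfield.coe_mul, ZeroMemClass.coe_zero] at h3 ⊢
      simp only [← hww, coeV_apply]
      rw [← h3]) i
    exact Subtype.ext h1
  obtain ⟨w₀, hw₀, hwu⟩ := exists_isometry_family hU v v' (hli v u hv hind) (hli v' u' hv' hind') (by
    intro i j
    apply Subtype.ext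
    rw [coe_fo, coe_fo, hv, hv, hv', hv']
    exact hgram i j)
  obtain ⟨e, e', he, he', hee, he'e', heS, he'S, hee'⟩ := R.hyperbolic u' hu' hn
  obtain ⟨e₀, rfl⟩ := exists_coeV he
  obtain ⟨e'₀, rfl⟩ := exists_coeV he'
  have fo0 : ∀ {x y : ι → F₀}, f (coeV x) (coeV y) = 0 → fo R.rat x y = 0 := fun h => by
    apply Subtype.ext
    rw [coe_fo, h]
    rfl
  have hN := isIso_norm_det hU hw₀
  obtain ⟨d, hd⟩ : ∃ d, d = (w₀ : Matrix ι ι F₀).det := ⟨_, rfl⟩
  rw [← hd] at hN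
  have hd0 : d ≠ 0 := left_ne_zero_of_mul_eq_one hN
  have hNi : d⁻¹ * R.sig d⁻¹ = 1 := by
    rw [map_inv₀, ← mul_inv, hN, inv_one]
  obtain ⟨y, hy0, hy⟩ := hilbert90 R.sig hU.ne_refl hU.involutive _ hNi
  have hsy0 : R.sig y ≠ 0 := (map_ne_zero R.sig).mpr hy0
  obtain ⟨L, hL, hLd, hLx⟩ := exists_levi hU e₀ e'₀ (fo0 hee) (fo0 he'e') (by
    apply Subtype.ext
    rw [coe_fo, hee']
    rfl) y hy0
  obtain ⟨g₀, hg₀⟩ : ∃ g₀, g₀ = L * w₀ := ⟨_, rfl⟩
  have hg₀iso : IsIso (fo R.rat) g₀ := by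
    rw [hg₀]
    exact hL.mul hw₀
  have hg₀det : (g₀ : Matrix ι ι F₀).det = 1 := by
    rw [hg₀, Units.val_mul, Matrix.det_mul, hLd, ← hd]
    have : y * (R.sig y)⁻¹ = d⁻¹ := by
      rw [mul_inv_eq_iff_eq_mul₀ hsy0]
      exact hy
    rw [this]
    exact inv_mul_cancel₀ hd0
  have hg₀v : ∀ i, (g₀ : Matrix ι ι F₀) *ᵥ v i = v' i := by
    intro i
    rw [hg₀, Units.val_mul, ← Matrix.mulVec_mulVec, hwu, hLx]
    have h1 : fo R.rat (v' i) e₀ = 0 := fo0 (by rw [hv']; exact UForm.refl hf _ _ (heS i))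
    have h2 : fo R.rat (v' i) e'₀ = 0 := fo0 (by rw [hv']; exact UForm.refl hf _ _ (he'S i))
    rw [h1, h2]
    simp
  -- the lift
  obtain ⟨g, hg⟩ : ∃ g : GL ι F, g = Matrix.GeneralLinearGroup.map (F₀.subtype : F₀ →+* F) g₀ := ⟨_, rfl⟩
  have hgent : ∀ i j, (g : Matrix ι ι F) i j = ((g₀ : Matrix ι ι F₀) i j : F) := by
    intro i j
    rw [hg]
    rfl
  have hgact : ∀ x : ι → F₀, (g : Matrix ι ι F) *ᵥ coeV x = coeV ((g₀ : Matrix ι ι F₀) *ᵥ x) := by
    intro x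
    ext i
    simp only [Matrix.mulVec, dotProduct, coeV_apply, hgent, AddSubmonoidClass.coe_finsetSum, Subfield.coe_mul]
  refine ⟨g, ?_, ?_, fun i j => ?_, fun i => ?_⟩
  · apply isIso_of_single hf
    intro i j
    have h1 := hgact (Pi.single i 1)
    have h2 := hgact (Pi.single j 1)
    rw [coeV_single] at h1 h2
    rw [h1, h2, ← coe_fo R.rat, hg₀iso, coe_fo, coeV_single, coeV_single]
  · have h1 : (g : Matrix ι ι F) = (F₀.subtype : F₀ →+* F).mapMatrix (g₀ : Matrix ι ι F₀) := by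
      ext i j
      rw [hgent]
      rfl
    rw [h1, ← RingHom.map_det, hg₀det, map_one]
  · rw [hgent]
    exact ((g₀ : Matrix ι ι F₀) i j).2
  · rw [← hv, hgact, hg₀v, hv']

end Rational

/-! ### Field facts -/

/-- The fixed field of the involution. -/
def fixF (σ : F ≃+* F) : Subfield F where
  carrier := {x | σ x = x}
  mul_mem' {a b} ha hb := by
    change σ (a * b) = a * b
    rw [map_mul, show σ a = a from ha, show σ b = b from hb]
  one_mem' := map_one σ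
  add_mem' {a b} ha hb := by
    change σ (a + b) = a + b
    rw [map_add, show σ a = a from ha, show σ b = b from hb]
  zero_mem' := map_zero σ
  neg_mem' {a} ha := by
    change σ (-a) = -a
    rw [map_neg, show σ a = a from ha]
  inv_mem' a ha := by
    change σ a⁻¹ = a⁻¹
    rw [map_inv₀, show σ a = a from ha]

omit [Fintype ι] [DecidableEq ι] in
theorem mem_fixF {x : F} : x ∈ fixF σ ↔ σ x = x := Iff.rfl

/-- The plane spanned by `1, c` when `c` is quadratic over `F₀`. -/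
def spanQ (F₀ : Subfield F) {c t n : F} (ht : t ∈ F₀) (hn : n ∈ F₀) (e : c * c = t * c + n) (hc : c ∉ F₀) :
    Subfield F where
  carrier := {y | ∃ p ∈ F₀, ∃ q ∈ F₀, y = p + q * c}
  mul_mem' := by
    rintro _ _ ⟨p, hp, q, hq, rfl⟩ ⟨p', hp', q', hq', rfl⟩
    refine ⟨p * p' + q * q' * n, F₀.add_mem (F₀.mul_mem hp hp') (F₀.mul_mem (F₀.mul_mem hq hq') hn),
      p * q' + q * p' + q * q' * t, F₀.add_mem (F₀.add_mem (F₀.mul_mem hp hq') (F₀.mul_mem hq hp'))
        (F₀.mul_mem (F₀.mul_mem hq hq') ht), ?_⟩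
    linear_combination (q * q') * e
  one_mem' := ⟨1, F₀.one_mem, 0, F₀.zero_mem, by ring⟩
  add_mem' := by
    rintro _ _ ⟨p, hp, q, hq, rfl⟩ ⟨p', hp', q', hq', rfl⟩
    exact ⟨p + p', F₀.add_mem hp hp', q + q', F₀.add_mem hq hq', by ring⟩
  zero_mem' := ⟨0, F₀.zero_mem, 0, F₀.zero_mem, by ring⟩
  neg_mem' := by
    rintro _ ⟨p, hp, q, hq, rfl⟩
    exact ⟨-p, F₀.neg_mem hp, -q, F₀.neg_mem hq, by ring⟩
  inv_mem' := by
    rintro _ ⟨p, hp, q, hq, rfl⟩
    by_cases h0 : p + q * c = 0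
    · rw [h0, inv_zero]
      exact ⟨0, F₀.zero_mem, 0, F₀.zero_mem, by ring⟩
    obtain ⟨N, hNd⟩ : ∃ N, N = p * p + p * q * t - q * q * n := ⟨_, rfl⟩
    have hNF : N ∈ F₀ := by
      rw [hNd]
      exact F₀.sub_mem (F₀.add_mem (F₀.mul_mem hp hp) (F₀.mul_mem (F₀.mul_mem hp hq) ht))
        (F₀.mul_mem (F₀.mul_mem hq hq) hn)
    have hprod : (p + q * c) * (p + q * t - q * c) = N := by
      rw [hNd]
      linear_combination (-q * q) * e
    have hN : N ≠ 0 := by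
      intro hN
      rw [hN] at hprod
      have h2 := (mul_eq_zero.mp hprod).resolve_left h0
      by_cases hq0 : q = 0
      · subst hq0
        apply h0
        simp only [zero_mul, add_zero, sub_zero] at h2 ⊢
        exact h2
      · apply hc
        have h3 : c = (p + q * t) / q := by
          field_simp
          linear_combination -h2
        rw [h3]
        exact F₀.div_mem (F₀.add_mem hp (F₀.mul_mem hq ht)) hq
    refine ⟨(p + q * t) / N, F₀.div_mem (F₀.add_mem hp (F₀.mul_mem hq ht)) hNF, -q / N, F₀.div_mem (F₀.neg_mem hq) hNF, ?_⟩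
    have h4 : (p + q * c) * ((p + q * t) / N + -q / N * c) = 1 := by
      have : (p + q * t) / N + -q / N * c = (p + q * t - q * c) / N := by
        field_simp
        ring
      rw [this, ← mul_div_assoc, hprod, div_self hN]
    exact inv_eq_of_mul_eq_one_right h4

/-- An element quadratic over a subfield of odd prime index lies in the subfield. -/
theorem quad_mem [Fintype F] {r : ℕ} (hr : r.Prime) (hro : Odd r) (hcard : Fintype.card F = Nat.card F₀ ^ r)
    {c t n : F} (ht : t ∈ F₀) (hn : n ∈ F₀) (e : c * c = t * c + n) : c ∈ F₀ := by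
  by_contra hc
  have hle : F₀ ≤ spanQ F₀ ht hn e hc := fun x hx => ⟨x, hx, 0, F₀.zero_mem, by ring⟩
  rcases subfield_eq_or_top F₀ (spanQ F₀ ht hn e hc) hle hr hcard with h | h
  · apply hc
    rw [← h]
    exact ⟨0, F₀.zero_mem, 1, F₀.one_mem, by ring⟩
  · have hall : ∀ y : F, ∃ p ∈ F₀, ∃ q ∈ F₀, y = p + q * c := by
      intro y
      have : y ∈ spanQ F₀ ht hn e hc := by
        rw [h]
        exact Subfield.mem_top y
      exact this
    have hsurj : Function.Surjective (fun x : F₀ × F₀ => (x.1 : F) + (x.2 : F) * c) := by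
      intro y
      obtain ⟨p, hp, q, hq, rfl⟩ := hall y
      exact ⟨(⟨p, hp⟩, ⟨q, hq⟩), rfl⟩
    haveI : Finite F₀ := finite_sub
    have h1 := Nat.card_le_card_of_surjective _ hsurj
    rw [Nat.card_prod, Nat.card_eq_fintype_card, hcard] at h1
    have h2 : 1 < Nat.card F₀ := by
      haveI : Finite F₀ := finite_sub
      exact Finite.one_lt_card
    have h3 : 3 ≤ r := by
      have := hr.two_le
      rcases hro with ⟨k, rfl⟩
      omega
    have h4 : Nat.card F₀ ^ 3 ≤ Nat.card F₀ ^ r := Nat.pow_le_pow_right (by omega) h3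
    have h5 : Nat.card F₀ * Nat.card F₀ < Nat.card F₀ ^ 3 := by
      rw [pow_succ, pow_two]
      exact lt_mul_of_one_lt_right (by positivity) h2
    omega

theorem exists_decomp_fix (hf : IsUnitaryForm σ f) {ω : F} (hω : σ ω ≠ ω) (x : F) :
    ∃ a b : F, σ a = a ∧ σ b = b ∧ x = a + b * ω ∧ b = (x - σ x) / (ω - σ ω) := by
  have hd : ω - σ ω ≠ 0 := sub_ne_zero.mpr (Ne.symm hω)
  obtain ⟨b, hb⟩ : ∃ b, b = (x - σ x) / (ω - σ ω) := ⟨_, rfl⟩
  have hbσ : σ b = b := by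
    rw [hb, map_div₀, map_sub, map_sub, hf.involutive, hf.involutive]
    have hd' : σ ω - ω ≠ 0 := sub_ne_zero.mpr hω
    field_simp
    ring
  refine ⟨x - b * ω, b, ?_, hbσ, by ring, hb⟩
  rw [map_sub, map_mul, hbσ]
  have h1 : b * (ω - σ ω) = x - σ x := by
    rw [hb]
    field_simp
  linear_combination h1

/-- The cardinalities of the fixed fields. -/
theorem card_fix [Fintype F] (R : RatU hf F₀) {r : ℕ} (hcard : Fintype.card F = Nat.card F₀ ^ r) :
    Nat.card (fixF σ) = Nat.card (F₀.comap (fixF σ).subtype) ^ r := by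
  obtain ⟨ω, hωF, hω⟩ := R.exω
  have hinj : ∀ a b a' b' : F, σ a = a → σ b = b → σ a' = a' → σ b' = b' → a + b * ω = a' + b' * ω → a = a' ∧ b = b' := by
    intro a b a' b' ha hb ha' hb' h
    have h1 := congrArg σ h
    simp only [map_add, map_mul, ha, hb, ha', hb'] at h1
    have h2 : (b - b') * (ω - σ ω) = 0 := by linear_combination h - h1
    have h3 : b = b' := sub_eq_zero.mp ((mul_eq_zero.mp h2).resolve_right (sub_ne_zero.mpr (Ne.symm hω)))
    refine ⟨?_, h3⟩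
    rw [h3] at h
    exact add_right_cancel h
  have h1 : Nat.card F = Nat.card (fixF σ) ^ 2 := by
    have : Function.Bijective (fun x : fixF σ × fixF σ => ((x.1 : F)) + (x.2 : F) * ω) := by
      constructor
      · rintro ⟨⟨a, ha⟩, ⟨b, hb⟩⟩ ⟨⟨a', ha'⟩, ⟨b', hb'⟩⟩ h
        obtain ⟨e₁, e₂⟩ := hinj a b a' b' ha hb ha' hb' h
        subst e₁
        subst e₂
        rfl
      · intro x
        obtain ⟨a, b, ha, hb, e, -⟩ := exists_decomp_fix hf hω x
        exact ⟨(⟨a, ha⟩, ⟨b, hb⟩), e.symm⟩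
    rw [← Nat.card_congr (Equiv.ofBijective _ this), Nat.card_prod, pow_two]
  have h2 : Nat.card F₀ = Nat.card (F₀.comap (fixF σ).subtype) ^ 2 := by
    have : Function.Bijective (fun x : F₀.comap (fixF σ).subtype × F₀.comap (fixF σ).subtype =>
        (⟨((x.1 : fixF σ) : F) + ((x.2 : fixF σ) : F) * ω,
          F₀.add_mem x.1.2 (F₀.mul_mem x.2.2 hωF)⟩ : F₀)) := by
      constructor
      · rintro ⟨⟨⟨a, ha⟩, ha₀⟩, ⟨⟨b, hb⟩, hb₀⟩⟩ ⟨⟨⟨a', ha'⟩, ha'₀⟩, ⟨⟨b', hb'⟩, hb'₀⟩⟩ h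
        have h3 := congrArg Subtype.val h
        obtain ⟨e₁, e₂⟩ := hinj a b a' b' ha hb ha' hb' h3
        subst e₁
        subst e₂
        rfl
      · rintro ⟨x, hx⟩
        obtain ⟨a, b, ha, hb, e, ebd⟩ := exists_decomp_fix hf hω x
        have hbF : b ∈ F₀ := by
          rw [ebd]
          exact F₀.div_mem (F₀.sub_mem hx (R.stable _ hx)) (F₀.sub_mem hωF (R.stable _ hωF))
        have haF : a ∈ F₀ := by
          have : a = x - b * ω := by rw [e]; ring
          rw [this]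
          exact F₀.sub_mem hx (F₀.mul_mem hbF hωF)
        exact ⟨(⟨⟨a, ha⟩, haF⟩, ⟨⟨b, hb⟩, hbF⟩), Subtype.ext e.symm⟩
    rw [← Nat.card_congr (Equiv.ofBijective _ this), Nat.card_prod, pow_two]
  rw [Nat.card_eq_fintype_card, hcard, h2, ← pow_mul, mul_comm, pow_mul] at h1
  exact (Nat.pow_left_injective (n := 2) (by omega) h1).symm

/-! ### The system -/

/-- The data of the proof: a group of isometries containing the rational isometries of determinant one. -/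
structure USys (hf : IsUnitaryForm σ f) (F₀ : Subfield F) (M : Subgroup (GL ι F)) : Prop extends RatU hf F₀ where
  pres : ∀ g ∈ M, IsIso f g
  mem : ∀ g : GL ι F, IsIso f g → (g : Matrix ι ι F).det = 1 → (∀ i j, (g : Matrix ι ι F) i j ∈ F₀) → g ∈ M

variable {M : Subgroup (GL ι F)}

theorem USys.memAct (S : USys hf F₀ M) (g : GL ι F) (h1 : IsIso f g) (h2 : (g : Matrix ι ι F).det = 1)
    (h3 : ∀ x : ι → F, IsRat F₀ x → IsRat F₀ ((g : Matrix ι ι F) *ᵥ x)) : g ∈ M := by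
  refine S.mem g h1 h2 fun i j => ?_
  have h4 := h3 _ (isRat_single j) i
  simpa using h4

theorem USys.memT (S : USys hf F₀ M) {a : ι → F} (ha : IsRat F₀ a) (haa : f a a = 0) {c : F} (hc : c ∈ F₀)
    (hcs : c + σ c = 0) : uT hf a c haa ∈ M := by
  refine S.memAct _ (uT_isIso hf a c haa hcs) ((mem_specialLinear_iff _).mp (uT_mem hf a c haa hcs).2) fun x hx => ?_
  rw [uT_mulVec]
  exact hx.add ((ha.smul hc).smul (S.rat _ _ hx ha))

theorem USys.memE [Finite F] (S : USys hf F₀ M) {p q : ι → F} (hp : IsRat F₀ p) (hq : IsRat F₀ q) {c : F} (hc : c ∈ F₀)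
    (hpp : f p p = 0) (hqp : f q p = 0) (hcq : c + σ c + f q q = 0) : uE hf p q c hpp hqp ∈ M := by
  refine S.memAct _ (uE_isIso hf p q c hpp hqp hcq) (uE_det hf p q c hpp hqp) fun x hx => ?_
  rw [uE_mulVec]
  exact (((hx.add (hq.smul (S.rat _ _ hx hp))).sub (hp.smul (S.rat _ _ hx hq)))).add
    (hp.smul (F₀.mul_mem hc (S.rat _ _ hx hp)))

theorem USys.conjT (S : USys hf F₀ M) {g : GL ι F} (hg : g ∈ M) {v : ι → F} {c : F} {hv : f v v = 0}
    (h : uT hf v c hv ∈ M) (hgv : f ((g : Matrix ι ι F) *ᵥ v) ((g : Matrix ι ι F) *ᵥ v) = 0) :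
    uT hf ((g : Matrix ι ι F) *ᵥ v) c hgv ∈ M := by
  rw [← conj_uT hf (S.pres g hg) v c hv hgv]
  exact M.mul_mem (M.mul_mem hg h) (M.inv_mem hg)

theorem USys.iso (S : USys hf F₀ M) {g : GL ι F} (hg : g ∈ M) {v : ι → F} (hv : f v v = 0) :
    f ((g : Matrix ι ι F) *ᵥ v) ((g : Matrix ι ι F) *ᵥ v) = 0 := by
  rw [S.pres g hg, hv]

/-- Rational Witt moves on pairs. -/
theorem USys.move₂ [Finite F] (S : USys hf F₀ M) (hn : 7 ≤ Fintype.card ι) {b d b' d' : ι → F}
    (hb : IsRat F₀ b) (hd : IsRat F₀ d) (hb' : IsRat F₀ b') (hd' : IsRat F₀ d')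
    (hind : ∀ s ∈ F₀, ∀ t ∈ F₀, s • b + t • d = 0 → s = 0 ∧ t = 0)
    (hind' : ∀ s ∈ F₀, ∀ t ∈ F₀, s • b' + t • d' = 0 → s = 0 ∧ t = 0)
    (h1 : f b b = f b' b') (h2 : f d d = f d' d') (h3 : f b d = f b' d') :
    ∃ g ∈ M, (g : Matrix ι ι F) *ᵥ b = b' ∧ (g : Matrix ι ι F) *ᵥ d = d' := by
  have h3' : f d b = f d' b' := by rw [hf.herm, h3, ← hf.herm]
  obtain ⟨g, hg1, hg2, hg3, hg4⟩ := S.toRatU.witt ![b, d] ![b', d'] (by
      intro i
      fin_cases i
      · exact hb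
      · exact hd) (by
      intro i
      fin_cases i
      · exact hb'
      · exact hd') (by simpa using hn) (by
      intro c hc h i
      have h4 := hind _ (hc 0) _ (hc 1) (by simpa [Fin.sum_univ_two] using h)
      fin_cases i
      · exact h4.1
      · exact h4.2) (by
      intro c hc h i
      have h4 := hind' _ (hc 0) _ (hc 1) (by simpa [Fin.sum_univ_two] using h)
      fin_cases i
      · exact h4.1
      · exact h4.2) (by
      intro i j
      fin_cases i <;> fin_cases j <;> simp [h1, h2, h3, h3'])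
  exact ⟨g, S.mem g hg1 hg2 hg3, hg4 0, hg4 1⟩

/-- Rational Witt moves on vectors. -/
theorem USys.move [Finite F] (S : USys hf F₀ M) (hn : 7 ≤ Fintype.card ι) {a a' : ι → F}
    (ha : IsRat F₀ a) (ha' : IsRat F₀ a') (ha0 : a ≠ 0) (ha'0 : a' ≠ 0) (h1 : f a a = f a' a') :
    ∃ g ∈ M, (g : Matrix ι ι F) *ᵥ a = a' := by
  obtain ⟨g, hg1, hg2, hg3, hg4⟩ := S.toRatU.witt ![a] ![a'] (by
      intro i
      fin_cases i
      exact ha) (by
      intro i
      fin_cases i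
      exact ha') (by simp; omega) (by
      intro c _ h i
      fin_cases i
      have h4 : c 0 • a = 0 := by simpa using h
      exact (smul_eq_zero.mp h4).resolve_right ha0) (by
      intro c _ h i
      fin_cases i
      have h4 : c 0 • a' = 0 := by simpa using h
      exact (smul_eq_zero.mp h4).resolve_right ha'0) (by
      intro i j
      fin_cases i
      fin_cases j
      simp [h1])
  exact ⟨g, S.mem g hg1 hg2 hg3, hg4 0⟩

/-! ### Transvections and root elements -/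

theorem uT_add' (hf : IsUnitaryForm σ f) (v : ι → F) (a b : F) (hv : f v v = 0) :
    uT hf v (a + b) hv = uT hf v a hv * uT hf v b hv := by
  apply gl_ext_mulVec
  intro x
  rw [Units.val_mul, ← Matrix.mulVec_mulVec, uT_mulVec, uT_mulVec, uT_mulVec,
    hf.add_left, hf.smul_left, hf.smul_left, hv]
  module

theorem uT_zero' (hf : IsUnitaryForm σ f) (v : ι → F) (hv : f v v = 0) : uT hf v 0 hv = 1 := by
  apply gl_ext_mulVec
  intro x
  rw [uT_mulVec]
  simp

theorem uT_neg' (hf : IsUnitaryForm σ f) (v : ι → F) (a : F) (hv : f v v = 0) :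
    uT hf v (-a) hv = (uT hf v a hv)⁻¹ := by
  apply eq_inv_of_mul_eq_one_left
  rw [← uT_add', neg_add_cancel, uT_zero']

/-- The root element `x ↦ x + α f(x, q) p - σ(α) f(x, p) q`. -/
noncomputable def eU (hf : IsUnitaryForm σ f) (p q : ι → F) (α : F) (hqq : f q q = 0) (hpq : f p q = 0) : GL ι F :=
  uS hf q (α • p) hqq (by rw [hf.smul_left, hpq, mul_zero])

theorem eU_mulVec (hf : IsUnitaryForm σ f) (p q : ι → F) (α : F) (hqq : f q q = 0) (hpq : f p q = 0) (x : ι → F) :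
    ((eU hf p q α hqq hpq : GL ι F) : Matrix ι ι F) *ᵥ x = x + (α * f x q) • p - (σ α * f x p) • q := by
  rw [eU, uS_mulVec, UForm.smul_right hf]
  module

theorem eU_det (hf : IsUnitaryForm σ f) (p q : ι → F) (α : F) (hqq : f q q = 0) (hpq : f p q = 0) :
    ((eU hf p q α hqq hpq : GL ι F) : Matrix ι ι F).det = 1 := uS_det hf _ _ _ _

theorem eU_isIso [Finite F] (hf : IsUnitaryForm σ f) (p q : ι → F) (α : F) (hpp : f p p = 0) (hqq : f q q = 0)
    (hpq : f p q = 0) : IsIso f (eU hf p q α hqq hpq) :=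
  uS_isIso hf _ _ _ (by rw [hf.smul_left, UForm.smul_right hf, hpp, mul_zero, mul_zero]) _

theorem conj_eU (hf : IsUnitaryForm σ f) {g : GL ι F} (hg : IsIso f g) (p q : ι → F) (α : F) (hqq : f q q = 0)
    (hpq : f p q = 0) (p' q' : ι → F) (hq'q' : f q' q' = 0) (hp'q' : f p' q' = 0)
    (hp : (g : Matrix ι ι F) *ᵥ p = p') (hq : (g : Matrix ι ι F) *ᵥ q = q') :
    g * eU hf p q α hqq hpq * g⁻¹ = eU hf p' q' α hq'q' hp'q' := by
  apply gl_ext_mulVec
  intro x
  simp only [Units.val_mul, ← Matrix.mulVec_mulVec]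
  rw [eU_mulVec, eU_mulVec, form_inv hg, form_inv hg, Matrix.mulVec_sub, Matrix.mulVec_add, mulVec_inv_mulVec,
    Matrix.mulVec_smul, Matrix.mulVec_smul, hp, hq]

theorem eU_add (hf : IsUnitaryForm σ f) {p q : ι → F} (α β : F) (hpp : f p p = 0) (hqq : f q q = 0)
    (hpq : f p q = 0) : eU hf p q (α + β) hqq hpq = eU hf p q α hqq hpq * eU hf p q β hqq hpq := by
  have hqp : f q p = 0 := UForm.refl hf _ _ hpq
  apply gl_ext_mulVec
  intro x
  simp only [Units.val_mul, ← Matrix.mulVec_mulVec, eU_mulVec, sub_left hf, hf.add_left, hf.smul_left, hpp, hqq, hpq, hqp,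
    map_add]
  module

theorem eU_smul_left (hf : IsUnitaryForm σ f) {p q : ι → F} (α l : F) (hqq : f q q = 0) (hpq : f p q = 0)
    (hlpq : f (l • p) q = 0) : eU hf (l • p) q α hqq hlpq = eU hf p q (α * l) hqq hpq := by
  apply gl_ext_mulVec
  intro x
  simp only [eU_mulVec, UForm.smul_right hf, map_mul]
  module

/-- The decomposition of a transvection with centre in a totally isotropic plane. -/
theorem uT_add_smul (hf : IsUnitaryForm σ f) {p q : ι → F} (τ e : F) (hpp : f p p = 0) (hqq : f q q = 0)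
    (hpq : f p q = 0) (he : e + σ e = 0) (h : f (p + τ • q) (p + τ • q) = 0) :
    uT hf (p + τ • q) e h = uT hf p e hpp * eU hf p q (e * σ τ) hqq hpq * uT hf q (e * (τ * σ τ)) hqq := by
  have hqp : f q p = 0 := UForm.refl hf _ _ hpq
  have hσe : σ e = -e := by linear_combination he
  apply gl_ext_mulVec
  intro x
  simp only [Units.val_mul, ← Matrix.mulVec_mulVec, eU_mulVec, uT_mulVec, sub_left hf, hf.add_left, hf.smul_left,
    UForm.add_right hf, UForm.smul_right hf, hpp, hqq, hpq, hqp, map_mul, hf.involutive, hσe]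
  module

theorem USys.conjT' (S : USys hf F₀ M) {g : GL ι F} (hg : g ∈ M) {v w : ι → F} {c : F} {hv : f v v = 0}
    (h : uT hf v c hv ∈ M) (hw : (g : Matrix ι ι F) *ᵥ v = w) (hww : f w w = 0) : uT hf w c hww ∈ M := by
  subst hw
  exact S.conjT hg h hww

theorem USys.memEU [Finite F] (S : USys hf F₀ M) {p q : ι → F} (hp : IsRat F₀ p) (hq : IsRat F₀ q) {α : F} (hα : α ∈ F₀)
    (hpp : f p p = 0) (hqq : f q q = 0) (hpq : f p q = 0) : eU hf p q α hqq hpq ∈ M := by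
  refine S.memAct _ (eU_isIso hf p q α hpp hqq hpq) (eU_det hf p q α hqq hpq) fun x hx => ?_
  rw [eU_mulVec]
  exact ((hx.add (hp.smul (F₀.mul_mem hα (S.rat _ _ hx hq)))).sub (hq.smul (F₀.mul_mem (S.stable _ hα) (S.rat _ _ hx hp))))

/-! ### All centres from the rational ones -/

/-- Once all rational isotropic vectors are centres, all isotropic vectors are. -/
theorem USys.cen_of_rat [Finite F] (S : USys hf F₀ M) (hn : 7 ≤ Fintype.card ι)
    (h : ∀ a, IsRat F₀ a → f a a = 0 → a ∈ cen hf M) {x : ι → F} (hx : f x x = 0) : x ∈ cen hf M := by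
  classical
  obtain ⟨ω, hωF, hω⟩ := S.exω
  obtain ⟨ε, hεF, hε0, hεs⟩ := S.toRatU.skew
  have hσε : σ ε = -ε := by linear_combination hεs
  -- root elements with arbitrary parameter
  have hroot : ∀ {p q : ι → F}, IsRat F₀ p → IsRat F₀ q → ∀ (hpp : f p p = 0) (hqq : f q q = 0) (hpq : f p q = 0) (α : F),
      eU hf p q α hqq hpq ∈ M := by
    intro p q hp hq hpp hqq hpq α
    have hqp : f q p = 0 := UForm.refl hf _ _ hpq
    have one : ∀ (e τ : F), e + σ e = 0 → τ ∈ F₀ → eU hf p q (e * σ τ) hqq hpq ∈ M := by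
      intro e τ he hτ
      have hw : f (p + τ • q) (p + τ • q) = 0 := by
        simp only [hf.add_left, UForm.add_right hf, hf.smul_left, UForm.smul_right hf, hpp, hqq, hpq, hqp]
        ring
      have h1 := cen_mem (h _ (hp.add (hq.smul hτ)) hw) hw e he
      have h2 := cen_mem (h _ hp hpp) hpp e he
      have h3 := cen_mem (h _ hq hqq) hqq _ (trace_zero_mul_norm hf e τ he)
      have e1 := uT_add_smul hf τ e hpp hqq hpq he hw
      have e2 : eU hf p q (e * σ τ) hqq hpq =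
          (uT hf p e hpp)⁻¹ * uT hf (p + τ • q) e hw * (uT hf q (e * (τ * σ τ)) hqq)⁻¹ := by
        rw [e1]
        group
      rw [e2]
      exact M.mul_mem (M.mul_mem (M.inv_mem h2) h1) (M.inv_mem h3)
    obtain ⟨a, b, ha, hb, e, -⟩ := exists_decomp_fix hf hω (α / ε)
    have e1 : α = ε * a * σ 1 + ε * b * σ (σ ω) := by
      rw [map_one, hf.involutive]
      have : α = (α / ε) * ε := by field_simp
      rw [this, e]
      ring
    rw [e1, eU_add hf _ _ hpp hqq hpq]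
    refine M.mul_mem (one _ _ ?_ F₀.one_mem) (one _ _ ?_ (S.stable _ hωF))
    · rw [map_mul, ha, hσε]
      ring
    · rw [map_mul, hb, hσε]
      ring
  by_cases hx0 : x = 0
  · have h1 := cen_smul (h 0 isRat_zero (UForm.zero_left hf 0)) (0 : F)
    rw [smul_zero] at h1
    rw [hx0]
    exact h1
  -- a rational isotropic vector not orthogonal to `x`
  obtain ⟨p, hp, hpp, hxp⟩ : ∃ p, IsRat F₀ p ∧ f p p = 0 ∧ f x p ≠ 0 := by
    by_contra hcon
    push Not at hcon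
    apply hx0
    apply eq_zero_of_single hf
    intro i
    apply UForm.refl hf
    obtain ⟨y₁, y₂, y₃, h1, h2, h3, h4, h5, h6, -, -, -, e⟩ := S.toRatU.iso_decomp (k := 0) Fin.elim0
      (fun i => i.elim0) (by omega) (isRat_single i) (fun i => i.elim0)
    rw [e, sub_right hf, sub_right hf, hcon _ h1 h4, hcon _ h2 h5, hcon _ h3 h6]
    ring
  have hp0 : p ≠ 0 := by
    rintro rfl
    apply hxp
    exact zero_right hf x
  obtain ⟨p', hp', hp'p', hpp'⟩ := S.toRatU.partner hp hpp hp0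
  have hp'p : f p' p = 1 := by rw [hf.herm, hpp', map_one]
  have hpC := h p hp hpp
  have hp'C := h p' hp' hp'p'
  -- the Siegel group
  let Good : (ι → F) → Prop := fun q => f q p = 0 ∧ ∀ y ∈ cen hf M, f y p = 1 → ∃ c : F, y + q + c • p ∈ cen hf M
  have hGadd : ∀ q₁ q₂, Good q₁ → Good q₂ → Good (q₁ + q₂) := by
    rintro q₁ q₂ ⟨h1, h2⟩ ⟨h3, h4⟩
    refine ⟨by rw [hf.add_left, h1, h3, add_zero], fun y hy hyp => ?_⟩
    obtain ⟨c₁, hc₁⟩ := h2 y hy hyp
    obtain ⟨c₂, hc₂⟩ := h4 _ hc₁ (by rw [hf.add_left, hf.add_left, hf.smul_left, hyp, h1, hpp]; ring)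
    refine ⟨c₁ + c₂, ?_⟩
    have e : y + (q₁ + q₂) + (c₁ + c₂) • p = y + q₁ + c₁ • p + q₂ + c₂ • p := by module
    rw [e]
    exact hc₂
  have hGzero : Good 0 := by
    refine ⟨UForm.zero_left hf p, fun y hy _ => ⟨0, ?_⟩⟩
    simpa using hy
  have hGbase : ∀ (b : ι → F) (β : F), IsRat F₀ b → f b b = 0 → f b p = 0 → Good (β • b) := by
    intro b β hb hbb hbp
    refine ⟨by rw [hf.smul_left, hbp, mul_zero], fun y hy hyp => ?_⟩
    have hE := hroot hb hp hbb hpp hbp β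
    have h1 := cen_mulVec hy hE (S.pres _ hE)
    rw [eU_mulVec, hyp, mul_one] at h1
    refine ⟨-(σ β * f y b), ?_⟩
    have e : y + β • b + (-(σ β * f y b)) • p = y + β • b - (σ β * f y b) • p := by module
    rw [e]
    exact h1
  have hGrat : ∀ (y : ι → F) (β : F), IsRat F₀ y → f y p = 0 → Good (β • y) := by
    intro y β hy hyp
    obtain ⟨y₁, y₂, y₃, h1, h2, h3, h4, h5, h6, h7, h8, h9, e⟩ := S.toRatU.iso_decomp ![p]
      (by
        intro i
        fin_cases i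
        exact hp) (by simp; omega) hy (by
        intro i
        fin_cases i
        exact hyp)
    have e1 : β • y = β • y₁ + ((-β) • y₂ + (-β) • y₃) := by
      rw [e]
      module
    rw [e1]
    exact hGadd _ _ (hGbase _ _ h1 h4 (h7 0)) (hGadd _ _ (hGbase _ _ h2 h5 (h8 0)) (hGbase _ _ h3 h6 (h9 0)))
  have hGall : ∀ q, f q p = 0 → Good q := by
    intro q hq
    have e : q = ∑ i, q i • (Pi.single i 1 - f (Pi.single i 1) p • p' : ι → F) := by
      have h1 : ∑ i, q i • (Pi.single i 1 - f (Pi.single i 1) p • p' : ι → F) = q - f q p • p' := by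
        simp only [smul_sub, Finset.sum_sub_distrib, smul_smul]
        conv_rhs => rw [eq_sum_single q, form_sum_left hf]
        simp only [hf.smul_left, Finset.sum_smul]
      rw [h1, hq, zero_smul, sub_zero]
    rw [e]
    have key : ∀ s : Finset ι, Good (∑ i ∈ s, q i • (Pi.single i 1 - f (Pi.single i 1) p • p' : ι → F)) := by
      intro s
      induction s using Finset.induction_on with
      | empty => simpa using hGzero
      | insert a s ha ih =>
        rw [Finset.sum_insert ha]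
        refine hGadd _ _ (hGrat _ _ ((isRat_single a).sub (hp'.smul (S.rat _ _ (isRat_single a) hp))) ?_) ih
        rw [sub_left hf, hf.smul_left, hp'p, mul_one, sub_self]
    exact key _
  -- conclusion
  obtain ⟨κ, hκ⟩ : ∃ κ, κ = (f x p)⁻¹ := ⟨_, rfl⟩
  have hκ0 : κ ≠ 0 := by
    rw [hκ]
    exact inv_ne_zero hxp
  obtain ⟨x₁, hx₁⟩ : ∃ x₁, x₁ = κ • x := ⟨_, rfl⟩
  have hx₁p : f x₁ p = 1 := by
    rw [hx₁, hf.smul_left, hκ]
    exact inv_mul_cancel₀ hxp
  have hpx₁ : f p x₁ = 1 := by rw [hf.herm, hx₁p, map_one]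
  have hx₁x₁ : f x₁ x₁ = 0 := by
    rw [hx₁, hf.smul_left, UForm.smul_right hf, hx, mul_zero, mul_zero]
  obtain ⟨c, hc⟩ := (hGall (x₁ - p') (by rw [sub_left hf, hx₁p, hp'p, sub_self])).2 p' hp'C hp'p
  have e : p' + (x₁ - p') + c • p = x₁ + c • p := by abel
  rw [e] at hc
  have hcs : c + σ c = 0 := by
    have h1 := cen_iso hc
    simp only [hf.add_left, UForm.add_right hf, hf.smul_left, UForm.smul_right hf, hx₁x₁, hx₁p, hpx₁, hpp] at h1
    linear_combination h1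
  have hcs' : -c + σ (-c) = 0 := by
    rw [map_neg]
    linear_combination -hcs
  have hT := cen_mem hpC hpp (-c) hcs'
  have h1 := cen_mulVec hc hT (S.pres _ hT)
  rw [uT_mulVec, hf.add_left, hf.smul_left, hx₁p, hpp, mul_zero, add_zero, one_smul] at h1
  have e2 : x₁ + c • p + (-c) • p = x₁ := by module
  rw [e2] at h1
  have h2 := cen_smul h1 κ⁻¹
  rwa [hx₁, smul_smul, inv_mul_cancel₀ hκ0, one_smul] at h2

/-! ### Subgroups of `SL₂` over the fixed field -/

/-- The subgroup of `SL₂(K)` realised on a pair of functions on a stable set. -/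
def repK (M : Subgroup (GL ι F)) (K : Subfield F) (D : Set (ι → F)) (φ ψ : (ι → F) → F) : Subgroup (SL(2, K)) where
  carrier := {A | ∃ k ∈ M, (∀ x, (k : Matrix ι ι F) *ᵥ x ∈ D ↔ x ∈ D) ∧ ∀ x ∈ D,
    φ ((k : Matrix ι ι F) *ᵥ x) = ((A : Matrix (Fin 2) (Fin 2) K) 0 0 : F) * φ x + ((A : Matrix (Fin 2) (Fin 2) K) 0 1 : F) * ψ x ∧
    ψ ((k : Matrix ι ι F) *ᵥ x) = ((A : Matrix (Fin 2) (Fin 2) K) 1 0 : F) * φ x + ((A : Matrix (Fin 2) (Fin 2) K) 1 1 : F) * ψ x}
  mul_mem' := by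
    rintro A B ⟨k, hk, hkD, hA⟩ ⟨l, hl, hlD, hB⟩
    refine ⟨k * l, M.mul_mem hk hl, fun x => ?_, fun x hx => ?_⟩
    · rw [Units.val_mul, ← Matrix.mulVec_mulVec, hkD, hlD]
    have hmul : ∀ i j, (((A * B : SL(2, K)) : Matrix (Fin 2) (Fin 2) K) i j : F) =
        ((A : Matrix (Fin 2) (Fin 2) K) i 0 : F) * ((B : Matrix (Fin 2) (Fin 2) K) 0 j : F) +
          ((A : Matrix (Fin 2) (Fin 2) K) i 1 : F) * ((B : Matrix (Fin 2) (Fin 2) K) 1 j : F) := by
      intro i j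
      rw [Matrix.SpecialLinearGroup.coe_mul, Matrix.mul_apply, Fin.sum_univ_two]
      rfl
    simp only [Units.val_mul, ← Matrix.mulVec_mulVec]
    have hlx : (l : Matrix ι ι F) *ᵥ x ∈ D := (hlD x).mpr hx
    rw [(hA _ hlx).1, (hA _ hlx).2, (hB x hx).1, (hB x hx).2, hmul, hmul, hmul, hmul]
    constructor <;> ring
  one_mem' := by
    refine ⟨1, M.one_mem, fun x => by simp, fun x _ => ?_⟩
    simp
  inv_mem' := by
    rintro A ⟨k, hk, hkD, hA⟩
    refine ⟨k⁻¹, M.inv_mem hk, fun x => ?_, fun x hx => ?_⟩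
    · rw [← hkD, mulVec_inv_mulVec]
    have hdet : ((A : Matrix (Fin 2) (Fin 2) K) 0 0 : F) * ((A : Matrix (Fin 2) (Fin 2) K) 1 1 : F) -
        ((A : Matrix (Fin 2) (Fin 2) K) 0 1 : F) * ((A : Matrix (Fin 2) (Fin 2) K) 1 0 : F) = 1 := by
      have := A.2
      rw [Matrix.det_fin_two] at this
      exact congrArg (fun a : K => (a : F)) this
    have hy : ((k⁻¹ : GL ι F) : Matrix ι ι F) *ᵥ x ∈ D := by
      rw [← hkD, mulVec_inv_mulVec]
      exact hx
    have h1 := hA (((k⁻¹ : GL ι F) : Matrix ι ι F) *ᵥ x) hy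
    rw [mulVec_inv_mulVec] at h1
    obtain ⟨e1, e2⟩ := h1
    obtain ⟨a, ha⟩ : ∃ a, a = φ (((k⁻¹ : GL ι F) : Matrix ι ι F) *ᵥ x) := ⟨_, rfl⟩
    obtain ⟨b, hb⟩ : ∃ b, b = ψ (((k⁻¹ : GL ι F) : Matrix ι ι F) *ᵥ x) := ⟨_, rfl⟩
    rw [← ha, ← hb] at e1 e2
    have hinv : ((A⁻¹ : SL(2, K)) : Matrix (Fin 2) (Fin 2) K) = !![(A : Matrix (Fin 2) (Fin 2) K) 1 1,
        -(A : Matrix (Fin 2) (Fin 2) K) 0 1; -(A : Matrix (Fin 2) (Fin 2) K) 1 0, (A : Matrix (Fin 2) (Fin 2) K) 0 0] :=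
      (Matrix.SpecialLinearGroup.coe_inv A).trans (Matrix.adjugate_fin_two _)
    rw [← ha, ← hb]
    simp only [hinv, Matrix.of_apply, Matrix.cons_val', Matrix.cons_val_zero, Matrix.cons_val_one, Matrix.cons_val_fin_one,
      Subfield.coe_neg]
    constructor
    · rw [e1, e2]
      linear_combination (-a) * hdet
    · rw [e1, e2]
      linear_combination (-b) * hdet

/-- The torus on a section. -/
theorem exists_torusK [Finite F] {K : Subfield F} (K₀ : Subfield K) {r : ℕ} (hr : r.Prime)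
    (hcard : Nat.card K = Nat.card K₀ ^ r)
    (B : AddSubgroup K) (hB : ∀ c ∈ K₀, ∀ b ∈ B, c * b ∈ B) {b₁ b₂ : K} (hb₁ : b₁ ∈ B) (hb₁0 : b₁ ≠ 0)
    (hb₂ : b₂ ∈ B) (hb₂' : ∀ c ∈ K₀, b₂ ≠ c * b₁) {D : Set (ι → F)} {φ ψ : (ι → F) → F}
    (hU : sU 1 ∈ repK M K D φ ψ) (hL : ∀ b ∈ B, sL b ∈ repK M K D φ ψ) (y : K) (hy : y ≠ 0) :
    ∃ k ∈ M, ∃ η : F, (η = 1 ∨ η = -1) ∧ (∀ x, (k : Matrix ι ι F) *ᵥ x ∈ D ↔ x ∈ D) ∧ ∀ x ∈ D,
      φ ((k : Matrix ι ι F) *ᵥ x) = (η * y) * φ x ∧ ψ ((k : Matrix ι ι F) *ᵥ x) = (η * (y : F)⁻¹) * ψ x := by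
  haveI : Finite K := Finite.of_injective (fun x : K => (x : F)) Subtype.val_injective
  letI : Fintype K := Fintype.ofFinite K
  rcases sl_top K₀ hr (by rw [← Nat.card_eq_fintype_card]; exact hcard) B hB hb₁ hb₁0 hb₂ hb₂'
    (repK M K D φ ψ) hU hL (sD y hy) with ⟨k, hk, hkD, h⟩ | ⟨k, hk, hkD, h⟩
  · refine ⟨k, hk, 1, Or.inl rfl, hkD, fun x hx => ?_⟩
    have := h x hx
    simpa [sD] using this
  · refine ⟨k, hk, -1, Or.inr rfl, hkD, fun x hx => ?_⟩
    have hm : ((-(sD y hy) : SL(2, K)) : Matrix (Fin 2) (Fin 2) K) = -((sD y hy : SL(2, K)) : Matrix (Fin 2) (Fin 2) K) :=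
      Matrix.SpecialLinearGroup.coe_neg _
    have := h x hx
    rw [hm] at this
    simpa [sD] using this

theorem sigma_of_sign (hf : IsUnitaryForm σ f) {η : F} (h : η = 1 ∨ η = -1) : σ η = η := by
  rcases h with rfl | rfl <;> simp

/-! ### The core -/

/-- The transvection parameters of a vector. -/
def parA (hf : IsUnitaryForm σ f) (M : Subgroup (GL ι F)) (a : ι → F) (haa : f a a = 0) (ε : F) :
    AddSubgroup (fixF σ) where
  carrier := {d | uT hf a (ε * (d : F)) haa ∈ M}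
  add_mem' {x y} hx hy := by
    change uT hf a (ε * ((x + y : fixF σ) : F)) haa ∈ M
    rw [Subfield.coe_add, mul_add, uT_add']
    exact M.mul_mem hx hy
  zero_mem' := by
    change uT hf a (ε * ((0 : fixF σ) : F)) haa ∈ M
    rw [ZeroMemClass.coe_zero, mul_zero, uT_zero']
    exact M.one_mem
  neg_mem' {x} hx := by
    change uT hf a (ε * ((-x : fixF σ) : F)) haa ∈ M
    rw [Subfield.coe_neg, mul_neg, uT_neg']
    exact M.inv_mem hx

theorem mem_parA {a : ι → F} {haa : f a a = 0} {ε : F} (d : fixF σ) :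
    d ∈ parA hf M a haa ε ↔ uT hf a (ε * (d : F)) haa ∈ M := Iff.rfl

/-- **The core**: a rational centre with a non-rational parameter gives everything. -/
theorem USys.core [Finite F] (S : USys hf F₀ M) {r : ℕ} (hr : r.Prime)
    (hcardK : Nat.card (fixF σ) = Nat.card (F₀.comap (fixF σ).subtype) ^ r) (hn : 7 ≤ Fintype.card ι)
    {a : ι → F} (ha : IsRat F₀ a) (haa : f a a = 0) (ha0 : a ≠ 0) {c : F} (hc : c ∉ F₀) (hcs : c + σ c = 0)
    (hT : uT hf a c haa ∈ M) : ∀ a', IsRat F₀ a' → f a' a' = 0 → a' ∈ cen hf M := by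
  haveI : Finite (fixF σ) := Finite.of_injective (fun x : fixF σ => (x : F)) Subtype.val_injective
  obtain ⟨ε, hεF, hε0, hεs⟩ := S.toRatU.skew
  have hσε : σ ε = -ε := by linear_combination hεs
  have hσεi : σ ε⁻¹ = -ε⁻¹ := by rw [map_inv₀, hσε, inv_neg]
  obtain ⟨b₀, hb₀, hb₀b₀, hab₀⟩ := S.toRatU.partner ha haa ha0
  obtain ⟨b, hbd⟩ : ∃ b, b = (-ε⁻¹) • b₀ := ⟨_, rfl⟩
  have hb : IsRat F₀ b := by
    rw [hbd]
    exact hb₀.smul (F₀.neg_mem (F₀.inv_mem hεF))
  have hbb : f b b = 0 := by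
    rw [hbd, hf.smul_left, UForm.smul_right hf, hb₀b₀, mul_zero, mul_zero]
  have hab : f a b = ε⁻¹ := by
    rw [hbd, UForm.smul_right hf, hab₀, map_neg, hσεi]
    ring
  have hba : f b a = -ε⁻¹ := by rw [hf.herm, hab, hσεi]
  -- closure under the subfield
  have hsq : ∀ l : fixF σ, (l : F) ∈ F₀ → ∀ x ∈ parA hf M a haa ε, l * l * x ∈ parA hf M a haa ε := by
    intro l hl x hx
    by_cases hl0 : (l : F) = 0
    · have : l = 0 := Subtype.ext hl0
      subst this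
      simpa using (parA hf M a haa ε).zero_mem
    have hw : f ((l : F) • a) ((l : F) • a) = 0 := by
      rw [hf.smul_left, UForm.smul_right hf, haa, mul_zero, mul_zero]
    obtain ⟨k, hk, e⟩ := S.move hn ha (ha.smul hl) ha0 (smul_ne_zero hl0 ha0) (by rw [haa, hw])
    have h1 := S.conjT' hk hx e hw
    rw [uT_smul hf a _ _ haa hw] at h1
    rw [mem_parA]
    have hσl : σ (l : F) = l := l.2
    rw [hσl] at h1
    have e2 : ε * ((l * l * x : fixF σ) : F) = ε * (x : F) * ((l : F) * l) := by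
      simp only [Subfield.coe_mul]
      ring
    rw [e2]
    exact h1
  have hcl : ∀ l ∈ F₀.comap (fixF σ).subtype, ∀ x ∈ parA hf M a haa ε, l * x ∈ parA hf M a haa ε := by
    intro l hl x hx
    obtain ⟨y, hy, z, hz, e⟩ := exists_sq_sub_sq (F₀.comap (fixF σ).subtype) hl
    rw [e, sub_mul]
    exact (parA hf M a haa ε).sub_mem (hsq y hy x hx) (hsq z hz x hx)
  have h1mem : (1 : fixF σ) ∈ parA hf M a haa ε := by
    rw [mem_parA, OneMemClass.coe_one, mul_one]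
    exact S.memT ha haa hεF hεs
  -- the representation
  have hU : sU 1 ∈ repK M (fixF σ) Set.univ (fun x => f x a) (fun x => f x b) := by
    refine ⟨uT hf b (-ε) hbb, S.memT hb hbb (F₀.neg_mem hεF) (by rw [map_neg, hσε]; ring), by simp, fun x _ => ?_⟩
    simp only [uT_mulVec, hf.add_left, hf.smul_left, hbb, hba, sU]
    simp
    field_simp
  have hL : ∀ d ∈ parA hf M a haa ε, sL d ∈ repK M (fixF σ) Set.univ (fun x => f x a) (fun x => f x b) := by
    intro d hd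
    refine ⟨uT hf a (ε * (d : F)) haa, hd, by simp, fun x _ => ?_⟩
    simp only [uT_mulVec, hf.add_left, hf.smul_left, haa, hab, sL]
    simp
    field_simp
    ring
  obtain ⟨d₀, hd₀⟩ : ∃ d₀ : fixF σ, (d₀ : F) = c / ε := by
    refine ⟨⟨c / ε, ?_⟩, rfl⟩
    change σ (c / ε) = c / ε
    have hσc : σ c = -c := by linear_combination hcs
    rw [map_div₀, hσc, hσε, neg_div_neg_eq]
  have hd₀A : d₀ ∈ parA hf M a haa ε := by
    rw [mem_parA, hd₀]
    have : ε * (c / ε) = c := by field_simp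
    rw [this]
    exact hT
  have htor := exists_torusK (F₀.comap (fixF σ).subtype) hr hcardK (parA hf M a haa ε) hcl h1mem one_ne_zero hd₀A
    (fun l hl e => hc (by
      have h1 : (d₀ : F) = l := by
        rw [e, mul_one]
      have h2 : c = ε * (l : F) := by
        rw [← h1, hd₀]
        field_simp
      rw [h2]
      exact F₀.mul_mem hεF hl)) hU hL
  -- all squares
  have hy : ∀ y : fixF σ, y ≠ 0 → y * y ∈ parA hf M a haa ε := by
    intro y hy0
    obtain ⟨k, hk, η, hη, -, hkx⟩ := htor y hy0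
    have hηη : η * η = 1 := by
      rcases hη with rfl | rfl <;> ring
    have hσy : σ (y : F) = y := y.2
    have e : ((k⁻¹ : GL ι F) : Matrix ι ι F) *ᵥ a = (η * (y : F)) • a := by
      apply eq_of_form hf
      intro x
      have h2 : f x (((k⁻¹ : GL ι F) : Matrix ι ι F) *ᵥ a) = f ((k : Matrix ι ι F) *ᵥ x) a := by
        rw [← S.pres k hk x, mulVec_inv_mulVec]
      rw [h2, (hkx _ (Set.mem_univ _)).1, UForm.smul_right hf, map_mul, sigma_of_sign hf hη, hσy]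
    have hw : f ((η * (y : F)) • a) ((η * (y : F)) • a) = 0 := by
      rw [hf.smul_left, UForm.smul_right hf, haa, mul_zero, mul_zero]
    have h1 := S.conjT' (M.inv_mem hk) (S.memT ha haa hεF hεs) e hw
    rw [uT_smul hf a _ _ haa hw, map_mul, sigma_of_sign hf hη, hσy] at h1
    rw [mem_parA]
    have e2 : ε * ((y * y : fixF σ) : F) = ε * (η * (y : F) * (η * y)) := by
      rw [Subfield.coe_mul]
      linear_combination (-ε * y * y) * hηη
    rw [e2]
    exact h1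
  have htop : ∀ x : fixF σ, x ∈ parA hf M a haa ε := by
    have hy' : ∀ y : fixF σ, y * y ∈ parA hf M a haa ε := by
      intro y
      by_cases h0 : y = 0
      · subst h0
        simpa using (parA hf M a haa ε).zero_mem
      · exact hy y h0
    intro x
    obtain ⟨y, z, e⟩ := exists_sq_sub_sq' x
    rw [e]
    exact (parA hf M a haa ε).sub_mem (hy' y) (hy' z)
  have haC : a ∈ cen hf M := by
    refine ⟨haa, fun e he => ?_⟩
    have hσe : σ e = -e := by linear_combination he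
    obtain ⟨d, hd⟩ : ∃ d : fixF σ, (d : F) = e / ε := by
      refine ⟨⟨e / ε, ?_⟩, rfl⟩
      change σ (e / ε) = e / ε
      rw [map_div₀, hσe, hσε, neg_div_neg_eq]
    have h1 := htop d
    rw [mem_parA, hd] at h1
    have e2 : ε * (e / ε) = e := by field_simp
    rwa [e2] at h1
  intro a' ha' ha'a'
  by_cases ha'0 : a' = 0
  · have h1 := cen_smul haC (0 : F)
    rwa [zero_smul, ← ha'0] at h1
  obtain ⟨k, hk, e⟩ := S.move hn ha ha' ha0 ha'0 (by rw [haa, ha'a'])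
  have h1 := cen_mulVec haC hk (S.pres k hk)
  rwa [e] at h1

/-! ### Root elements with a non-rational parameter -/

theorem eU_zero (hf : IsUnitaryForm σ f) {p q : ι → F} (hqq : f q q = 0) (hpq : f p q = 0) :
    eU hf p q 0 hqq hpq = 1 := by
  apply gl_ext_mulVec
  intro x
  rw [eU_mulVec]
  simp

/-- A root element with rational axis and non-rational parameter gives everything. -/
theorem USys.flag [Fintype F] (S : USys hf F₀ M) {r : ℕ} (hr : r.Prime) (hro : Odd r)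
    (hcard : Fintype.card F = Nat.card F₀ ^ r)
    (hcardK : Nat.card (fixF σ) = Nat.card (F₀.comap (fixF σ).subtype) ^ r) (hn : 7 ≤ Fintype.card ι)
    {a b d : ι → F} (ha : IsRat F₀ a) (hb : IsRat F₀ b) (hd : IsRat F₀ d) (haa : f a a = 0) (hbb : f b b = 0)
    (hdd : f d d = 0) (hd0 : d ≠ 0) (hbd : f b d = 0) (had : f a d = 0) (hab : f a b = 1) {c : F} (hc : c ∉ F₀)
    (hE : eU hf b d c hdd hbd ∈ M) : ∀ a', IsRat F₀ a' → f a' a' = 0 → a' ∈ cen hf M := by
  obtain ⟨ε, hεF, hε0, hεs⟩ := S.toRatU.skew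
  have hσε : σ ε = -ε := by linear_combination hεs
  have hba : f b a = 1 := by rw [hf.herm, hab, map_one]
  have hdb : f d b = 0 := UForm.refl hf _ _ hbd
  have hda : f d a = 0 := UForm.refl hf _ _ had
  -- the moves
  have hindbd : ∀ s ∈ F₀, ∀ t ∈ F₀, s • b + t • d = 0 → s = 0 ∧ t = 0 := by
    intro s _ t _ h
    have h1 : f (s • b + t • d) a = 0 := by
      rw [h]
      exact UForm.zero_left hf a
    rw [hf.add_left, hf.smul_left, hf.smul_left, hba, hda, mul_one, mul_zero, add_zero] at h1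
    subst h1
    rw [zero_smul, zero_add] at h
    exact ⟨rfl, (smul_eq_zero.mp h).resolve_right hd0⟩
  have hindad : ∀ s ∈ F₀, ∀ t ∈ F₀, s • a + t • d = 0 → s = 0 ∧ t = 0 := by
    intro s _ t _ h
    have h1 : f (s • a + t • d) b = 0 := by
      rw [h]
      exact UForm.zero_left hf b
    rw [hf.add_left, hf.smul_left, hf.smul_left, hab, hdb, mul_one, mul_zero, add_zero] at h1
    subst h1
    rw [zero_smul, zero_add] at h
    exact ⟨rfl, (smul_eq_zero.mp h).resolve_right hd0⟩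
  obtain ⟨k₁, hk₁, hk₁b, hk₁d⟩ := S.move₂ hn hb hd ha hd hindbd hindad (by rw [hbb, haa]) rfl (by rw [hbd, had])
  have hcl : ∀ l ∈ F₀, ∀ α, eU hf b d α hdd hbd ∈ M → eU hf b d (α * l) hdd hbd ∈ M := by
    intro l hl α hα
    by_cases hl0 : l = 0
    · subst hl0
      rw [mul_zero, eU_zero]
      exact M.one_mem
    have hlbd : f (l • b) d = 0 := by rw [hf.smul_left, hbd, mul_zero]
    have hlbb : f (l • b) (l • b) = 0 := by rw [hf.smul_left, UForm.smul_right hf, hbb, mul_zero, mul_zero]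
    obtain ⟨k, hk, hkb, hkd⟩ := S.move₂ hn hb hd (hb.smul hl) hd hindbd (by
      intro s hs t ht h
      rw [smul_smul] at h
      obtain ⟨h1, h2⟩ := hindbd _ (F₀.mul_mem hs hl) t ht h
      exact ⟨(mul_eq_zero.mp h1).resolve_right hl0, h2⟩) (by rw [hbb, hlbb]) rfl (by rw [hbd, hlbd])
    rw [← eU_smul_left hf α l hdd hbd hlbd, ← conj_eU hf (S.pres k hk) b d α hdd hbd _ _ hdd hlbd hkb hkd]
    exact M.mul_mem (M.mul_mem hk hα) (M.inv_mem hk)
  -- the norm
  have hkey : ∀ α, eU hf b d α hdd hbd ∈ M → uT hf d (ε * (α * σ α)) hdd ∈ M := by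
    intro α hα
    have hw : f (a + (-σ α) • d) (a + (-σ α) • d) = 0 := by
      simp only [hf.add_left, UForm.add_right hf, hf.smul_left, UForm.smul_right hf, haa, hdd, had, hda]
      ring
    have h1 : uT hf (a + (-σ α) • d) ε hw ∈ M := by
      refine S.conjT' hα (S.memT ha haa hεF hεs) ?_ hw
      rw [eU_mulVec, had, hab]
      module
    have h2 : eU hf a d (α * (-ε)) hdd had ∈ M := by
      have h3 := hcl (-ε) (F₀.neg_mem hεF) α hα
      rw [← conj_eU hf (S.pres _ hk₁) b d _ hdd hbd a d hdd had hk₁b hk₁d]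
      exact M.mul_mem (M.mul_mem hk₁ h3) (M.inv_mem hk₁)
    have e1 := uT_add_smul hf (-σ α) ε haa hdd had hεs hw
    have e2 : ε * σ (-σ α) = α * (-ε) := by
      rw [map_neg, hf.involutive]
      ring
    have e3 : ε * (-σ α * σ (-σ α)) = ε * (α * σ α) := by
      rw [map_neg, hf.involutive]
      ring
    rw [e2, e3] at e1
    have e4 : uT hf d (ε * (α * σ α)) hdd =
        (eU hf a d (α * (-ε)) hdd had)⁻¹ * (uT hf a ε haa)⁻¹ * uT hf (a + (-σ α) • d) ε hw := by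
      rw [e1]
      group
    rw [e4]
    exact M.mul_mem (M.mul_mem (M.inv_mem h2) (M.inv_mem (S.memT ha haa hεF hεs))) h1
  have hE1 : eU hf b d (c + 1) hdd hbd ∈ M := by
    rw [eU_add hf c 1 hbb hdd hbd]
    exact M.mul_mem hE (S.memEU hb hd F₀.one_mem hbb hdd hbd)
  have h1 := hkey c hE
  have h2 := hkey (c + 1) hE1
  have hnot : ∀ x, x ∉ F₀ → ε * x ∉ F₀ := by
    intro x hx h
    apply hx
    have := F₀.div_mem h hεF
    rwa [mul_div_cancel_left₀ _ hε0] at this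
  by_cases h3 : c * σ c ∈ F₀
  · by_cases h4 : (c + 1) * σ (c + 1) ∈ F₀
    · exfalso
      apply hc
      have ht : c + σ c ∈ F₀ := by
        have e : c + σ c = (c + 1) * σ (c + 1) - c * σ c - 1 := by
          rw [map_add, map_one]
          ring
        rw [e]
        exact F₀.sub_mem (F₀.sub_mem h4 h3) F₀.one_mem
      exact quad_mem hr hro hcard ht (F₀.neg_mem h3) (by ring)
    · exact S.core hr hcardK hn hd hdd hd0 (hnot _ h4) (trace_zero_mul_norm hf ε _ hεs) h2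
  · exact S.core hr hcardK hn hd hdd hd0 (hnot _ h3) (trace_zero_mul_norm hf ε _ hεs) h1

/-- **The easy case**: a centre in a rational plane, with independent values on rational vectors. -/
theorem USys.easy [Fintype F] (S : USys hf F₀ M) {r : ℕ} (hr : r.Prime) (hro : Odd r)
    (hcard : Fintype.card F = Nat.card F₀ ^ r)
    (hcardK : Nat.card (fixF σ) = Nat.card (F₀.comap (fixF σ).subtype) ^ r) (hn : 13 ≤ Fintype.card ι)
    {u y₁ y₂ z₁ z₂ : ι → F} {x₁ x₂ : F} (huu : f u u = 0) (hu : ∀ e ∈ F₀, e + σ e = 0 → uT hf u e huu ∈ M)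
    (he : u = x₁ • y₁ + x₂ • y₂) (hy₁ : IsRat F₀ y₁) (hy₂ : IsRat F₀ y₂) (hz₁ : IsRat F₀ z₁) (hz₂ : IsRat F₀ z₂)
    (hα : f u z₁ ≠ 0) (hβ : ∀ c ∈ F₀, f u z₂ ≠ c * f u z₁) :
    ∀ a', IsRat F₀ a' → f a' a' = 0 → a' ∈ cen hf M := by
  obtain ⟨ε, hεF, hε0, hεs⟩ := S.toRatU.skew
  have hσε : σ ε = -ε := by linear_combination hεs
  have hσα : σ (f u z₁) ≠ 0 := (map_ne_zero σ).mpr hα
  -- two rational vectors with a non-rational product of values
  obtain ⟨z, d, hz, hd, hsτ⟩ : ∃ z d : ι → F, IsRat F₀ z ∧ IsRat F₀ d ∧ f u d * σ (f u z) ∉ F₀ := by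
    by_cases h1 : f u z₁ * σ (f u z₁) ∈ F₀
    · refine ⟨z₁, z₂, hz₁, hz₂, fun h2 => ?_⟩
      apply hβ _ (F₀.div_mem h2 h1)
      field_simp
    · exact ⟨z₁, z₁, hz₁, hz₁, h1⟩
  obtain ⟨ρ, ρ', hρ, -, hρρ, -, hρS, -, hρρ'⟩ := S.toRatU.hyperbolic ![y₁, y₂, z, d]
    (by
      intro i
      fin_cases i
      · exact hy₁
      · exact hy₂
      · exact hz
      · exact hd) (by simp; omega)
  obtain ⟨a, b, ha, hb, haa, hbb, haS, hbS, hab⟩ := S.toRatU.hyperbolic ![y₁, y₂, z, d, ρ]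
    (by
      intro i
      fin_cases i
      · exact hy₁
      · exact hy₂
      · exact hz
      · exact hd
      · exact hρ) (by simp; omega)
  have hρy₁ : f ρ y₁ = 0 := hρS 0
  have hρy₂ : f ρ y₂ = 0 := hρS 1
  have hρz : f ρ z = 0 := hρS 2
  have hby₁ : f b y₁ = 0 := hbS 0
  have hby₂ : f b y₂ = 0 := hbS 1
  have hbz : f b z = 0 := hbS 2
  have hbd : f b d = 0 := hbS 3
  have hbρ : f b ρ = 0 := hbS 4
  have haρ : f a ρ = 0 := haS 4
  have hρ0 : ρ ≠ 0 := by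
    rintro rfl
    rw [UForm.zero_left hf] at hρρ'
    exact zero_ne_one hρρ'
  have hρb : f ρ b = 0 := UForm.refl hf _ _ hbρ
  have huρ : f u ρ = 0 := by
    rw [he, hf.add_left, hf.smul_left, hf.smul_left, UForm.refl hf _ _ hρy₁, UForm.refl hf _ _ hρy₂]
    ring
  have hub : f u b = 0 := by
    rw [he, hf.add_left, hf.smul_left, hf.smul_left, UForm.refl hf _ _ hby₁, UForm.refl hf _ _ hby₂]
    ring
  have hρu : f ρ u = 0 := UForm.refl hf _ _ huρ
  have hbu : f b u = 0 := UForm.refl hf _ _ hub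
  have hzρ : f z ρ = 0 := UForm.refl hf _ _ hρz
  have hdb : f d b = 0 := UForm.refl hf _ _ hbd
  -- rational elements
  obtain ⟨c₁, hc₁, hc₁σ⟩ := S.toRatU.trace (F₀.neg_mem (S.rat _ _ hz hz)) (by rw [map_neg, UForm.sigma_self hf])
  obtain ⟨c₂, hc₂, hc₂σ⟩ := S.toRatU.trace (F₀.neg_mem (S.rat _ _ hd hd)) (by rw [map_neg, UForm.sigma_self hf])
  have hE₁ : uE hf ρ z c₁ hρρ hzρ ∈ M := S.memE hρ hz hc₁ hρρ hzρ (by rw [hc₁σ]; ring)
  have hE₂ : uE hf b d c₂ hbb hdb ∈ M := S.memE hb hd hc₂ hbb hdb (by rw [hc₂σ]; ring)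
  obtain ⟨s, hs⟩ : ∃ s, s = -f u z := ⟨_, rfl⟩
  obtain ⟨τ, hτ⟩ : ∃ τ, τ = -f u d := ⟨_, rfl⟩
  have hv₂ : f (u + τ • b) (u + τ • b) = 0 := by
    simp only [hf.add_left, UForm.add_right hf, hf.smul_left, UForm.smul_right hf, huu, hbb, hub, hbu]
    ring
  have hv₃ : f (u + s • ρ) (u + s • ρ) = 0 := by
    simp only [hf.add_left, UForm.add_right hf, hf.smul_left, UForm.smul_right hf, huu, hρρ, huρ, hρu]
    ring
  have hv₁ : f (u + τ • b + s • ρ) (u + τ • b + s • ρ) = 0 := by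
    simp only [hf.add_left, UForm.add_right hf, hf.smul_left, UForm.smul_right hf, huu, hbb, hρρ, hub, hbu, huρ, hρu, hbρ, hρb]
    ring
  have h1 : uT hf (u + τ • b) ε hv₂ ∈ M := by
    refine S.conjT' hE₂ (hu ε hεF hεs) ?_ hv₂
    rw [uE_mulVec, hub, hτ]
    module
  have h2 : uT hf (u + s • ρ) ε hv₃ ∈ M := by
    refine S.conjT' hE₁ (hu ε hεF hεs) ?_ hv₃
    rw [uE_mulVec, huρ, hs]
    module
  have h3 : uT hf (u + τ • b + s • ρ) ε hv₁ ∈ M := by
    refine S.conjT' hE₁ h1 ?_ hv₁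
    rw [uE_mulVec, hf.add_left, hf.add_left, hf.smul_left, hf.smul_left, hbz, hbρ, huρ, hs]
    module
  have h4 : eU hf b ρ (ε * (τ * σ s)) hρρ hbρ = uT hf (u + τ • b + s • ρ) ε hv₁ * (uT hf (u + τ • b) ε hv₂)⁻¹ *
      uT hf u ε huu * (uT hf (u + s • ρ) ε hv₃)⁻¹ := by
    rw [← uT_neg', ← uT_neg']
    apply gl_ext_mulVec
    intro x
    simp only [Units.val_mul, ← Matrix.mulVec_mulVec, eU_mulVec, uT_mulVec, hf.add_left,
      hf.smul_left, UForm.add_right hf, UForm.smul_right hf, huu, hbb, hρρ, hbρ, hρb, huρ, hρu, hub, hbu, map_mul,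
      hf.involutive, hσε]
    module
  refine S.flag hr hro hcard hcardK (by omega) ha hb hρ haa hbb hρρ hρ0 hbρ haρ hab (c := ε * (τ * σ s)) ?_ ?_
  · intro h5
    apply hsτ
    have h6 := F₀.div_mem h5 hεF
    rw [mul_div_cancel_left₀ _ hε0, hτ, hs, map_neg] at h6
    have e : -f u d * -σ (f u z) = f u d * σ (f u z) := by ring
    rwa [e] at h6
  · rw [h4]
    exact M.mul_mem (M.mul_mem (M.mul_mem h3 (M.inv_mem h1)) (hu ε hεF hεs)) (M.inv_mem h2)

/-- The norm, as an element of the fixed field. -/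
def Nk (hf : IsUnitaryForm σ f) (x : F) : fixF σ :=
  ⟨x * σ x, by
    change σ (x * σ x) = x * σ x
    rw [map_mul, hf.involutive]
    ring⟩

theorem coe_Nk (hf : IsUnitaryForm σ f) (x : F) : (Nk hf x : F) = x * σ x := rfl

theorem exists_not_mem [Fintype F] {r : ℕ} (hr : r.Prime) (hcard : Fintype.card F = Nat.card F₀ ^ r) :
    ∃ c : F, c ∉ F₀ := by
  by_contra hcon
  push Not at hcon
  have h1 : Fintype.card F = Nat.card F₀ := by
    have : F₀ = ⊤ := by
      rw [eq_top_iff]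
      intro x _
      exact hcon x
    rw [this]
    simp
  have h2 : 1 < Nat.card F₀ := by
    rw [← h1]
    exact Fintype.one_lt_card
  rw [h1] at hcard
  have h3 : Nat.card F₀ ^ 1 = Nat.card F₀ ^ r := by
    rw [pow_one]
    exact hcard
  have h4 := Nat.pow_right_injective (by omega) h3
  exact hr.ne_one h4.symm

open Cfsg.Agent.Lib.Geo.SpSub (parB parB_smul) in
/-- **The hard case**: a rational totally isotropic pair with independent values. -/
theorem USys.hard [Fintype F] (S : USys hf F₀ M) {r : ℕ} (hr : r.Prime) (hro : Odd r)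
    (hcard : Fintype.card F = Nat.card F₀ ^ r)
    (hcardK : Nat.card (fixF σ) = Nat.card (F₀.comap (fixF σ).subtype) ^ r) (hn : 13 ≤ Fintype.card ι)
    {u a₁ a₂ : ι → F} (huu : f u u = 0) (hu : ∀ e ∈ F₀, e + σ e = 0 → uT hf u e huu ∈ M) (ha₁ : IsRat F₀ a₁)
    (ha₂ : IsRat F₀ a₂) (ha₁a₁ : f a₁ a₁ = 0) (ha₂a₂ : f a₂ a₂ = 0) (h12 : f a₁ a₂ = 0) (hα₁' : f a₁ u ≠ 0)
    (hα₂' : ∀ c ∈ F₀, f a₂ u ≠ c * f a₁ u) :
    ∀ a', IsRat F₀ a' → f a' a' = 0 → a' ∈ cen hf M := by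
  haveI : Finite (fixF σ) := Finite.of_injective (fun x : fixF σ => (x : F)) Subtype.val_injective
  obtain ⟨ε, hεF, hε0, hεs⟩ := S.toRatU.skew
  have hσε : σ ε = -ε := by linear_combination hεs
  have hσεi : σ ε⁻¹ = -ε⁻¹ := by rw [map_inv₀, hσε, inv_neg]
  obtain ⟨α₁, hα₁d⟩ : ∃ α₁, α₁ = f a₁ u := ⟨_, rfl⟩
  obtain ⟨α₂, hα₂d⟩ : ∃ α₂, α₂ = f a₂ u := ⟨_, rfl⟩
  rw [← hα₁d] at hα₁'
  rw [← hα₁d, ← hα₂d] at hα₂'
  have h21 : f a₂ a₁ = 0 := UForm.refl hf _ _ h12
  have hua₁ : f u a₁ = σ α₁ := by rw [hα₁d, hf.herm]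
  have hua₂ : f u a₂ = σ α₂ := by rw [hα₂d, hf.herm]
  have hσα₁ : σ α₁ ≠ 0 := (map_ne_zero σ).mpr hα₁'
  have hmem1 : (1 : F) ∈ F₀ := F₀.one_mem
  -- the section
  obtain ⟨D, hD⟩ : ∃ D : Set (ι → F), D = {x | ∃ x₁ x₂ x₃ : F, x = x₁ • a₁ + x₂ • a₂ + x₃ • u} := ⟨_, rfl⟩
  have hDmem : ∀ x₁ x₂ x₃ : F, x₁ • a₁ + x₂ • a₂ + x₃ • u ∈ D := by
    intro x₁ x₂ x₃
    rw [hD]
    exact ⟨x₁, x₂, x₃, rfl⟩
  have hDadd : ∀ x y, x ∈ D → y ∈ D → x + y ∈ D := by
    rw [hD]
    rintro _ _ ⟨p₁, p₂, p₃, rfl⟩ ⟨q₁, q₂, q₃, rfl⟩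
    exact ⟨p₁ + q₁, p₂ + q₂, p₃ + q₃, by module⟩
  have hDsmul : ∀ (c : F) x, x ∈ D → c • x ∈ D := by
    rw [hD]
    rintro c _ ⟨p₁, p₂, p₃, rfl⟩
    exact ⟨c * p₁, c * p₂, c * p₃, by module⟩
  have hstable : ∀ (w : ι → F) (c : F) (hw' : f w w = 0), w ∈ D → ∀ x,
      ((uT hf w c hw' : GL ι F) : Matrix ι ι F) *ᵥ x ∈ D ↔ x ∈ D := by
    intro w c hw' hw x
    rw [uT_mulVec]
    constructor
    · intro h
      have h1 := hDadd _ _ h (hDsmul (-(f x w * c)) w hw)
      have e : x + f x w • c • w + (-(f x w * c)) • w = x := by module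
      rwa [e] at h1
    · intro h
      exact hDadd _ _ h (hDsmul _ _ (hDsmul _ _ hw))
  have ha₁D : a₁ ∈ D := by
    have := hDmem 1 0 0
    simpa using this
  have ha₂D : a₂ ∈ D := by
    have := hDmem 0 1 0
    simpa using this
  have huD : u ∈ D := by
    have := hDmem 0 0 1
    simpa using this
  -- the functions
  obtain ⟨t, ht⟩ : ∃ t : (ι → F) → F, t = fun x => (σ α₁)⁻¹ * f x a₁ := ⟨_, rfl⟩
  obtain ⟨ψ, hψ⟩ : ∃ ψ : (ι → F) → F, ψ = fun x => ε⁻¹ * f x u := ⟨_, rfl⟩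
  have hU : sU 1 ∈ repK M (fixF σ) D t ψ := by
    refine ⟨uT hf u ε⁻¹ huu, hu _ (F₀.inv_mem hεF) (by rw [hσεi]; ring), hstable u _ huu huD, fun x _ => ?_⟩
    rw [ht, hψ]
    simp only [uT_mulVec, hf.add_left, hf.smul_left, huu, hua₁, sU]
    simp
    field_simp
  have hL : ∀ p₁ ∈ F₀, ∀ p₂ ∈ F₀, ∀ c : fixF σ, c ∈ F₀.comap (fixF σ).subtype →
      sL (c * Nk hf (p₁ * α₁ + p₂ * α₂)) ∈ repK M (fixF σ) D t ψ := by
    intro p₁ hp₁ p₂ hp₂ c hc
    have hc' : (c : F) ∈ F₀ := hc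
    have hσc : σ (c : F) = c := c.2
    obtain ⟨a, hadef⟩ : ∃ a, a = p₁ • a₁ + p₂ • a₂ := ⟨_, rfl⟩
    have haR : IsRat F₀ a := by
      rw [hadef]
      exact (ha₁.smul hp₁).add (ha₂.smul hp₂)
    have haa : f a a = 0 := by
      rw [hadef]
      simp only [hf.add_left, UForm.add_right hf, hf.smul_left, UForm.smul_right hf, ha₁a₁, ha₂a₂, h12, h21]
      ring
    have haa₁ : f a a₁ = 0 := by
      rw [hadef]
      simp only [hf.add_left, hf.smul_left, ha₁a₁, h21]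
      ring
    have haD : a ∈ D := by
      rw [hadef]
      have := hDmem p₁ p₂ 0
      simpa using this
    have hau : f a u = p₁ * α₁ + p₂ * α₂ := by
      rw [hadef, hf.add_left, hf.smul_left, hf.smul_left, ← hα₁d, ← hα₂d]
    have hua : f u a = σ (p₁ * α₁ + p₂ * α₂) := by rw [← hau, hf.herm]
    refine ⟨uT hf a (ε * (c : F)) haa, S.memT haR haa (F₀.mul_mem hεF hc') (by
      rw [map_mul, hσc, hσε]
      ring), hstable _ _ haa haD, fun x hx => ?_⟩
    rw [hD] at hx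
    obtain ⟨x₁, x₂, x₃, rfl⟩ := hx
    obtain ⟨X, hX⟩ : ∃ X, X = x₁ • a₁ + x₂ • a₂ + x₃ • u := ⟨_, rfl⟩
    rw [← hX]
    have hXa : f X a = x₃ * σ (p₁ * α₁ + p₂ * α₂) := by
      rw [hX, hf.add_left, hf.add_left, hf.smul_left, hf.smul_left, hf.smul_left, hua]
      have h1 : f a₁ a = 0 := UForm.refl hf _ _ haa₁
      have h2 : f a₂ a = 0 := by
        rw [hadef]
        simp only [UForm.add_right hf, UForm.smul_right hf, ha₂a₂, h21]
        ring
      rw [h1, h2]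
      ring
    have hXa₁ : f X a₁ = x₃ * σ α₁ := by
      rw [hX, hf.add_left, hf.add_left, hf.smul_left, hf.smul_left, hf.smul_left, ha₁a₁, h21, hua₁]
      ring
    rw [ht, hψ]
    simp only [uT_mulVec, hf.add_left, hf.smul_left, haa₁, hau, hXa, hXa₁, sL]
    simp [coe_Nk]
    field_simp
    ring
  -- the large group of unipotents
  have hBgen : ∀ p₁ ∈ F₀, ∀ p₂ ∈ F₀, Nk hf (p₁ * α₁ + p₂ * α₂) ∈ parB (F₀.comap (fixF σ).subtype) (repK M (fixF σ) D t ψ) :=
    fun p₁ hp₁ p₂ hp₂ c hc => hL p₁ hp₁ p₂ hp₂ c hc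
  have hb₁ : Nk hf α₁ ∈ parB (F₀.comap (fixF σ).subtype) (repK M (fixF σ) D t ψ) := by
    have := hBgen 1 hmem1 0 F₀.zero_mem
    simpa using this
  have hb₁0 : Nk hf α₁ ≠ 0 := by
    intro h
    have h2 := congrArg (fun a : fixF σ => (a : F)) h
    simp only [coe_Nk, ZeroMemClass.coe_zero] at h2
    exact mul_ne_zero hα₁' hσα₁ h2
  obtain ⟨l, hl⟩ : ∃ l, l = α₂ / α₁ := ⟨_, rfl⟩
  have hα₂l : α₂ = l * α₁ := by
    rw [hl]
    field_simp
  have hlF : l ∉ F₀ := fun h => hα₂' l h hα₂l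
  obtain ⟨b₂, hb₂, hb₂'⟩ : ∃ b₂ ∈ parB (F₀.comap (fixF σ).subtype) (repK M (fixF σ) D t ψ),
      ∀ c ∈ F₀.comap (fixF σ).subtype, b₂ ≠ c * Nk hf α₁ := by
    by_contra hcon
    push Not at hcon
    obtain ⟨c₁, hc₁, e₁⟩ := hcon _ (by simpa using hBgen 0 F₀.zero_mem 1 hmem1 : Nk hf α₂ ∈ _)
    obtain ⟨c₂, hc₂, e₂⟩ := hcon _ (by simpa using hBgen 1 hmem1 1 hmem1 : Nk hf (α₁ + α₂) ∈ _)
    have e₁' := congrArg (fun a : fixF σ => (a : F)) e₁
    have e₂' := congrArg (fun a : fixF σ => (a : F)) e₂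
    simp only [coe_Nk, Subfield.coe_mul, map_add] at e₁' e₂'
    have hc₁' : (c₁ : F) ∈ F₀ := hc₁
    have hc₂' : (c₂ : F) ∈ F₀ := hc₂
    have hσα₂ : σ α₂ = σ l * σ α₁ := by rw [hα₂l, map_mul]
    rw [hσα₂, hα₂l] at e₁' e₂'
    have hne : α₁ * σ α₁ ≠ 0 := mul_ne_zero hα₁' hσα₁
    have e₃ : l * σ l = c₁ := by
      apply mul_right_cancel₀ hne
      linear_combination e₁'
    have e₄ : (1 + l) * (1 + σ l) = c₂ := by
      apply mul_right_cancel₀ hne
      linear_combination e₂'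
    apply hlF
    have ht' : (c₂ : F) - c₁ - 1 ∈ F₀ := F₀.sub_mem (F₀.sub_mem hc₂' hc₁') hmem1
    exact quad_mem hr hro hcard ht' (F₀.neg_mem hc₁') (by linear_combination e₄ - e₄ - e₃ + l * (e₄ - e₃))
  have htor := exists_torusK (F₀.comap (fixF σ).subtype) hr hcardK (parB (F₀.comap (fixF σ).subtype) (repK M (fixF σ) D t ψ))
    (fun c hc b hb => parB_smul hc hb) hb₁ hb₁0 hb₂ hb₂' hU (fun b hb => by
      have := hb 1 (F₀.comap (fixF σ).subtype).one_mem
      rwa [one_mul] at this)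
  -- a scalar outside the subfield
  obtain ⟨s, hsF⟩ : ∃ s : fixF σ, (s : F) ∉ F₀ := by
    by_contra hcon
    push Not at hcon
    obtain ⟨ω, hωF, hω⟩ := S.exω
    obtain ⟨c, hc⟩ := exists_not_mem (F₀ := F₀) hr hcard
    apply hc
    obtain ⟨a, b, ha, hb, e, -⟩ := exists_decomp_fix hf hω c
    rw [e]
    exact F₀.add_mem (hcon ⟨a, ha⟩) (F₀.mul_mem (hcon ⟨b, hb⟩) hωF)
  have hs0 : s ≠ 0 := by
    rintro rfl
    exact hsF F₀.zero_mem
  have hs0' : (s : F) ≠ 0 := fun h => hs0 (Subtype.ext h)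
  have hσs : σ (s : F) = s := s.2
  obtain ⟨k, hk, η, hη, hkD, hkx⟩ := htor s hs0
  have hση : σ η = η := sigma_of_sign hf hη
  have hηη : η * η = 1 := by
    rcases hη with rfl | rfl <;> ring
  have hη0 : η ≠ 0 := by
    rintro rfl
    simp at hηη
  -- the images of the rational plane
  have hkv : ∀ v ∈ D, t v = 0 → (∃ x₁ x₂ : F, (k : Matrix ι ι F) *ᵥ v = x₁ • a₁ + x₂ • a₂) ∧
      f ((k : Matrix ι ι F) *ᵥ v) u = η * (s : F)⁻¹ * f v u := by
    intro v hv htv
    obtain ⟨h1t, h1ψ⟩ := hkx v hv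
    constructor
    · obtain ⟨x₁, x₂, x₃, e⟩ : ∃ x₁ x₂ x₃ : F, (k : Matrix ι ι F) *ᵥ v = x₁ • a₁ + x₂ • a₂ + x₃ • u := by
        have := (hkD v).mpr hv
        rw [hD] at this
        exact this
      rw [htv, mul_zero, e, ht] at h1t
      simp only [hf.add_left, hf.smul_left, ha₁a₁, h21, hua₁] at h1t
      have hx₃ : x₃ = 0 := by
        field_simp at h1t
        simpa [hσα₁] using h1t
      exact ⟨x₁, x₂, by rw [e, hx₃, zero_smul, add_zero]⟩
    · rw [hψ] at h1ψ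
      simp only at h1ψ
      have h2 : ε⁻¹ * f ((k : Matrix ι ι F) *ᵥ v) u = ε⁻¹ * (η * (s : F)⁻¹ * f v u) := by
        rw [h1ψ]
        ring
      exact mul_left_cancel₀ (inv_ne_zero hε0) h2
  have hkT : ∀ v, IsRat F₀ v → ∀ (hv : f v v = 0) (w : ι → F), (k : Matrix ι ι F) *ᵥ v = w → ∀ (hww : f w w = 0) (e : F), e ∈ F₀ →
      e + σ e = 0 → uT hf w e hww ∈ M := by
    intro v hvR hv w hw hww e he hes
    exact S.conjT' hk (S.memT hvR hv he hes) hw hww
  -- the easy case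
  have hnot₁ : ∀ c ∈ F₀, a₁ ≠ c • a₂ := fun c hc e => by
    by_cases hc0 : c = 0
    · subst hc0
      apply hα₁'
      rw [hα₁d, e, zero_smul, UForm.zero_left hf]
    · apply hα₂' c⁻¹ (F₀.inv_mem hc)
      rw [hα₁d, hα₂d, e, hf.smul_left]
      field_simp
  have hnot₂ : ∀ c ∈ F₀, a₂ ≠ c • a₁ := fun c hc e => by
    apply hα₂' c hc
    rw [hα₁d, hα₂d, e, hf.smul_left]
  obtain ⟨z₁, hz₁, hz₁a₂, hz₁a₁⟩ := S.toRatU.dual ha₁ ha₂ hnot₁
  obtain ⟨z₂, hz₂, hz₂a₁, hz₂a₂⟩ := S.toRatU.dual ha₂ ha₁ hnot₂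
  have hA₁ : ∀ x₁ x₂ : F, f (x₁ • a₁ + x₂ • a₂) z₁ = x₁ := by
    intro x₁ x₂
    rw [hf.add_left, hf.smul_left, hf.smul_left, hz₁a₁, UForm.refl hf _ _ hz₁a₂]
    ring
  have hA₂ : ∀ x₁ x₂ : F, f (x₁ • a₁ + x₂ • a₂) z₂ = x₂ := by
    intro x₁ x₂
    rw [hf.add_left, hf.smul_left, hf.smul_left, hz₂a₂, UForm.refl hf _ _ hz₂a₁]
    ring
  have heasy : ∀ x₁ x₂ : F, ∀ hww : f (x₁ • a₁ + x₂ • a₂) (x₁ • a₁ + x₂ • a₂) = 0,
      (∀ e ∈ F₀, e + σ e = 0 → uT hf (x₁ • a₁ + x₂ • a₂) e hww ∈ M) → x₁ ≠ 0 → (∀ κ ∈ F₀, x₂ ≠ κ * x₁) →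
      ∀ a', IsRat F₀ a' → f a' a' = 0 → a' ∈ cen hf M := by
    intro x₁ x₂ hww hT h1 h2
    refine S.easy hr hro hcard hcardK hn hww hT rfl ha₁ ha₂ hz₁ hz₂ ?_ ?_
    · rwa [hA₁]
    · rw [hA₁, hA₂]
      exact h2
  -- the dependent form
  have hdepform : ∀ x₁ x₂ : F, ¬ (x₁ ≠ 0 ∧ ∀ κ ∈ F₀, x₂ ≠ κ * x₁) →
      ∃ κ' p q : F, p ∈ F₀ ∧ q ∈ F₀ ∧ x₁ • a₁ + x₂ • a₂ = κ' • (p • a₁ + q • a₂) := by
    intro x₁ x₂ h
    by_cases h0 : x₁ = 0
    · refine ⟨x₂, 0, 1, F₀.zero_mem, hmem1, ?_⟩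
      rw [h0]
      module
    · have : ∃ κ ∈ F₀, x₂ = κ * x₁ := by
        by_contra hcon
        push Not at hcon
        exact h ⟨h0, hcon⟩
      obtain ⟨κ, hκ, rfl⟩ := this
      refine ⟨x₁, 1, κ, hmem1, hκ, ?_⟩
      module
  have hta₁ : t a₁ = 0 := by
    rw [ht]
    simp only [ha₁a₁, mul_zero]
  have hta₂ : t a₂ = 0 := by
    rw [ht]
    simp only [h21, mul_zero]
  have hta₁₂ : t (a₁ + a₂) = 0 := by
    rw [ht]
    simp only [hf.add_left, ha₁a₁, h21, mul_zero, add_zero]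
  have ha₁₂D : a₁ + a₂ ∈ D := hDadd _ _ ha₁D ha₂D
  have ha₁₂R : IsRat F₀ (a₁ + a₂) := ha₁.add ha₂
  have ha₁₂i : f (a₁ + a₂) (a₁ + a₂) = 0 := by
    simp only [hf.add_left, UForm.add_right hf, ha₁a₁, ha₂a₂, h12, h21]
    ring
  -- reduction to the dependent case
  have hdep : ∀ v, IsRat F₀ v → f v v = 0 → v ∈ D → t v = 0 →
      (∀ a', IsRat F₀ a' → f a' a' = 0 → a' ∈ cen hf M) ∨
      ∃ κ' p q : F, p ∈ F₀ ∧ q ∈ F₀ ∧ (k : Matrix ι ι F) *ᵥ v = κ' • (p • a₁ + q • a₂) := by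
    intro v hvR hvv hvD htv
    obtain ⟨⟨x₁, x₂, e⟩, -⟩ := hkv v hvD htv
    by_cases hg : x₁ ≠ 0 ∧ ∀ κ ∈ F₀, x₂ ≠ κ * x₁
    · left
      have hww : f (x₁ • a₁ + x₂ • a₂) (x₁ • a₁ + x₂ • a₂) = 0 := by
        rw [← e]
        exact S.iso hk hvv
      exact heasy x₁ x₂ hww (fun e' he' hes => hkT v hvR hvv _ e hww e' he' hes) hg.1 hg.2
    · right
      obtain ⟨κ', p, q, hp, hq, e'⟩ := hdepform x₁ x₂ hg
      exact ⟨κ', p, q, hp, hq, by rw [e, e']⟩
  rcases hdep a₁ ha₁ ha₁a₁ ha₁D hta₁ with hdone | ⟨κ₁, P₁, Q₁, hP₁, hQ₁, e₁⟩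
  · exact hdone
  rcases hdep a₂ ha₂ ha₂a₂ ha₂D hta₂ with hdone | ⟨κ₂, P₂, Q₂, hP₂, hQ₂, e₂⟩
  · exact hdone
  rcases hdep _ ha₁₂R ha₁₂i ha₁₂D hta₁₂ with hdone | ⟨κ₃, P₃, Q₃, hP₃, hQ₃, e₃⟩
  · exact hdone
  have hkinj : ∀ x : ι → F, (k : Matrix ι ι F) *ᵥ x = 0 → x = 0 := by
    intro x h0
    have := inv_mulVec_mulVec k x
    rw [h0, Matrix.mulVec_zero] at this
    exact this.symm
  have ha₁0 : a₁ ≠ 0 := by
    rintro h0
    apply hα₁'
    rw [hα₁d, h0, UForm.zero_left hf]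
  have ha₂0 : a₂ ≠ 0 := by
    rintro h0
    apply hα₂' 0 F₀.zero_mem
    rw [hα₂d, h0, UForm.zero_left hf, zero_mul]
  have hκ₁ : κ₁ ≠ 0 := by
    rintro rfl
    rw [zero_smul] at e₁
    exact ha₁0 (hkinj _ e₁)
  have hκ₂ : κ₂ ≠ 0 := by
    rintro rfl
    rw [zero_smul] at e₂
    exact ha₂0 (hkinj _ e₂)
  have hκ₃ : κ₃ ≠ 0 := by
    rintro rfl
    rw [zero_smul] at e₃
    have h0 := hkinj _ e₃
    have h1 := congrArg (fun w => f w z₁) h0
    simp only [hf.add_left, hz₁a₁, UForm.refl hf _ _ hz₁a₂, UForm.zero_left hf] at h1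
    simp at h1
  obtain ⟨B₁, hB₁⟩ : ∃ B₁, B₁ = P₁ • a₁ + Q₁ • a₂ := ⟨_, rfl⟩
  obtain ⟨B₂, hB₂⟩ : ∃ B₂, B₂ = P₂ • a₁ + Q₂ • a₂ := ⟨_, rfl⟩
  obtain ⟨B₃, hB₃⟩ : ∃ B₃, B₃ = P₃ • a₁ + Q₃ • a₂ := ⟨_, rfl⟩
  rw [← hB₁] at e₁
  rw [← hB₂] at e₂
  rw [← hB₃] at e₃
  have hB₁R : IsRat F₀ B₁ := by
    rw [hB₁]
    exact (ha₁.smul hP₁).add (ha₂.smul hQ₁)
  have hB₂R : IsRat F₀ B₂ := by
    rw [hB₂]
    exact (ha₁.smul hP₂).add (ha₂.smul hQ₂)
  have hB₃R : IsRat F₀ B₃ := by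
    rw [hB₃]
    exact (ha₁.smul hP₃).add (ha₂.smul hQ₃)
  have hindB : ∀ a b : F, a • B₁ + b • B₂ = 0 → a = 0 ∧ b = 0 := by
    intro a b h
    have h1 : (k : Matrix ι ι F) *ᵥ ((a / κ₁) • a₁ + (b / κ₂) • a₂) = 0 := by
      rw [Matrix.mulVec_add, Matrix.mulVec_smul, Matrix.mulVec_smul, e₁, e₂, smul_smul, smul_smul,
        div_mul_cancel₀ _ hκ₁, div_mul_cancel₀ _ hκ₂]
      exact h
    have h2 := hkinj _ h1
    have h3 := hA₁ (a / κ₁) (b / κ₂)
    have h4 := hA₂ (a / κ₁) (b / κ₂)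
    rw [h2, UForm.zero_left hf] at h3 h4
    constructor
    · field_simp at h3
      simpa [hκ₁] using h3.symm
    · field_simp at h4
      simpa [hκ₂] using h4.symm
  have hsum : (κ₁ / κ₃) • B₁ + (κ₂ / κ₃) • B₂ = B₃ := by
    have h1 : κ₁ • B₁ + κ₂ • B₂ = κ₃ • B₃ := by
      rw [← e₁, ← e₂, ← e₃, Matrix.mulVec_add]
    have h2 := congrArg (fun w => κ₃⁻¹ • w) h1
    simp only [smul_add, smul_smul, inv_mul_cancel₀ hκ₃, one_smul] at h2
    rw [div_eq_inv_mul, div_eq_inv_mul]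
    exact h2
  have hcoef := rat_coeffs hB₁R hB₂R hindB (by rw [hsum]; exact hB₃R)
  obtain ⟨ρ, hρ⟩ : ∃ ρ, ρ = κ₂ / κ₁ := ⟨_, rfl⟩
  have hρF : ρ ∈ F₀ := by
    have h1 := F₀.div_mem hcoef.2 hcoef.1
    have h2 : κ₂ / κ₃ / (κ₁ / κ₃) = ρ := by
      rw [hρ]
      field_simp
    rwa [h2] at h1
  -- the values
  have hv₁ : κ₁ * (P₁ * α₁ + Q₁ * α₂) = η * (s : F)⁻¹ * α₁ := by
    have h1 := (hkv a₁ ha₁D hta₁).2
    rw [e₁, hf.smul_left, hB₁, hf.add_left, hf.smul_left, hf.smul_left, ← hα₁d, ← hα₂d] at h1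
    exact h1
  have hv₂ : κ₂ * (P₂ * α₁ + Q₂ * α₂) = η * (s : F)⁻¹ * α₂ := by
    have h1 := (hkv a₂ ha₂D hta₂).2
    rw [e₂, hf.smul_left, hB₂, hf.add_left, hf.smul_left, hf.smul_left, ← hα₁d, ← hα₂d] at h1
    exact h1
  obtain ⟨μ, hμ⟩ : ∃ μ, μ = η * (s : F)⁻¹ / κ₁ := ⟨_, rfl⟩
  have hμ0 : μ ≠ 0 := by
    rw [hμ]
    exact div_ne_zero (mul_ne_zero hη0 (inv_ne_zero hs0')) hκ₁
  have hκ₁μ : κ₁ * μ = η * (s : F)⁻¹ := by
    rw [hμ]
    field_simp
  have e₅ : P₁ + Q₁ * l = μ := by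
    apply mul_right_cancel₀ hα₁'
    apply mul_left_cancel₀ hκ₁
    rw [hα₂l] at hv₁
    rw [← mul_assoc κ₁ μ, hκ₁μ, ← hv₁]
    ring
  have e₆ : ρ * P₂ + ρ * Q₂ * l = μ * l := by
    apply mul_right_cancel₀ hα₁'
    apply mul_left_cancel₀ hκ₁
    have h1 : κ₂ = ρ * κ₁ := by
      rw [hρ]
      field_simp
    rw [hα₂l, h1] at hv₂
    have h2 : κ₁ * (μ * l * α₁) = (κ₁ * μ) * (l * α₁) := by ring
    rw [h2, hκ₁μ, ← hv₂]
    ring
  have hQ₁0 : Q₁ = 0 := by
    by_contra hQ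
    apply hlF
    refine quad_mem hr hro hcard (t := (ρ * Q₂ - P₁) / Q₁) (n := ρ * P₂ / Q₁)
      (F₀.div_mem (F₀.sub_mem (F₀.mul_mem hρF hQ₂) hP₁) hQ₁) (F₀.div_mem (F₀.mul_mem hρF hP₂) hQ₁) ?_
    field_simp
    rw [← e₅] at e₆
    linear_combination -e₆
  have hμF : μ ∈ F₀ := by
    rw [← e₅, hQ₁0, zero_mul, add_zero]
    exact hP₁
  have hB₁0 : B₁ ≠ 0 := by
    rintro h0
    rw [h0, smul_zero] at e₁
    exact ha₁0 (hkinj _ e₁)
  have hB₁i : f B₁ B₁ = 0 := by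
    rw [hB₁]
    simp only [hf.add_left, UForm.add_right hf, hf.smul_left, UForm.smul_right hf, ha₁a₁, ha₂a₂, h12, h21]
    ring
  have hκB : f (κ₁ • B₁) (κ₁ • B₁) = 0 := by
    rw [hf.smul_left, UForm.smul_right hf, hB₁i, mul_zero, mul_zero]
  have hT : uT hf B₁ (ε * (κ₁ * σ κ₁)) hB₁i ∈ M := by
    rw [← uT_smul hf B₁ κ₁ ε hB₁i hκB]
    exact hkT a₁ ha₁ ha₁a₁ _ e₁ hκB ε hεF hεs
  refine S.core hr hcardK (by omega) hB₁R hB₁i hB₁0 ?_ (trace_zero_mul_norm hf ε κ₁ hεs) hT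
  -- the parameter is not rational
  intro hpar
  have h1 : κ₁ * σ κ₁ ∈ F₀ := by
    have := F₀.div_mem hpar hεF
    rwa [mul_div_cancel_left₀ _ hε0] at this
  have hκval : κ₁ = η * (s : F)⁻¹ / μ := by
    rw [← hκ₁μ]
    field_simp
  have h2 : κ₁ * σ κ₁ = ((s : F) * s)⁻¹ * (μ * σ μ)⁻¹ := by
    have hσμ : σ μ ≠ 0 := (map_ne_zero σ).mpr hμ0
    rw [hκval, map_div₀, map_mul, map_inv₀, hση, hσs]
    field_simp
    linear_combination hηη
  rw [h2] at h1
  have h3 : (μ * σ μ) ∈ F₀ := F₀.mul_mem hμF (S.stable _ hμF)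
  have h4 := F₀.inv_mem (F₀.div_mem h1 (F₀.inv_mem h3))
  have hσμ : σ μ ≠ 0 := (map_ne_zero σ).mpr hμ0
  have h5 : (((s : F) * s)⁻¹ * (μ * σ μ)⁻¹ / (μ * σ μ)⁻¹)⁻¹ = (s : F) * s := by
    field_simp
  rw [h5] at h4
  apply hsF
  exact quad_mem hr hro hcard F₀.zero_mem h4 (by ring)

/-- **A centre off the rational lines gives everything.** -/
theorem USys.of_not_line [Fintype F] (S : USys hf F₀ M) {r : ℕ} (hr : r.Prime) (hro : Odd r)
    (hcard : Fintype.card F = Nat.card F₀ ^ r)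
    (hcardK : Nat.card (fixF σ) = Nat.card (F₀.comap (fixF σ).subtype) ^ r) (hn : 13 ≤ Fintype.card ι)
    {u : ι → F} (huu : f u u = 0) (hu : ∀ e ∈ F₀, e + σ e = 0 → uT hf u e huu ∈ M)
    (hnl : ∀ (l : F) (u' : ι → F), IsRat F₀ u' → u ≠ l • u') :
    ∀ a', IsRat F₀ a' → f a' a' = 0 → a' ∈ cen hf M := by
  have hu0 : u ≠ 0 := by
    have := hnl 0 0 isRat_zero
    simpa using this
  -- a rational isotropic vector not orthogonal to `u`
  obtain ⟨a₁, ha₁, ha₁a₁, hα⟩ : ∃ a₁, IsRat F₀ a₁ ∧ f a₁ a₁ = 0 ∧ f a₁ u ≠ 0 := by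
    by_contra hcon
    push Not at hcon
    apply hu0
    apply eq_zero_of_single hf
    intro i
    obtain ⟨y₁, y₂, y₃, h1, h2, h3, h4, h5, h6, -, -, -, e⟩ := S.toRatU.iso_decomp (k := 0) Fin.elim0
      (fun i => i.elim0) (by omega) (isRat_single i) (fun i => i.elim0)
    rw [e, sub_left hf, sub_left hf, hcon _ h1 h4, hcon _ h2 h5, hcon _ h3 h6]
    ring
  have ha₁0 : a₁ ≠ 0 := by
    rintro rfl
    exact hα (UForm.zero_left hf u)
  obtain ⟨b, hb, hbb, ha₁b⟩ := S.toRatU.partner ha₁ ha₁a₁ ha₁0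
  have hba₁ : f b a₁ = 1 := by rw [hf.herm, ha₁b, map_one]
  by_cases hgood : ∃ a₁' a₂', IsRat F₀ a₁' ∧ IsRat F₀ a₂' ∧ f a₁' a₁' = 0 ∧ f a₂' a₂' = 0 ∧ f a₁' a₂' = 0 ∧
      f a₁' u ≠ 0 ∧ ∀ c ∈ F₀, f a₂' u ≠ c * f a₁' u
  · obtain ⟨a₁', a₂', h1, h2, h3, h4, h5, h6, h7⟩ := hgood
    exact S.hard hr hro hcard hcardK hn huu hu h1 h2 h3 h4 h5 h6 h7
  push Not at hgood
  have hno : ∀ a₁' a₂', IsRat F₀ a₁' → IsRat F₀ a₂' → f a₁' a₁' = 0 → f a₂' a₂' = 0 → f a₁' a₂' = 0 → f a₁' u ≠ 0 →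
      ∃ c ∈ F₀, f a₂' u = c * f a₁' u := fun a₁' a₂' h1 h2 h3 h4 h5 h6 => hgood a₁' a₂' h1 h2 h3 h4 h5 h6
  -- decomposition of rational vectors along the hyperbolic plane
  have hdec : ∀ v, IsRat F₀ v → ∃ y₁ y₂ y₃ : ι → F, IsRat F₀ y₁ ∧ IsRat F₀ y₂ ∧ IsRat F₀ y₃ ∧ f y₁ y₁ = 0 ∧ f y₂ y₂ = 0 ∧
      f y₃ y₃ = 0 ∧ f y₁ a₁ = 0 ∧ f y₂ a₁ = 0 ∧ f y₃ a₁ = 0 ∧ f y₁ b = 0 ∧ f y₂ b = 0 ∧ f y₃ b = 0 ∧
      f v u = f y₁ u - f y₂ u - f y₃ u + f v b * f a₁ u + f v a₁ * f b u := by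
    intro v hv
    obtain ⟨y₁, y₂, y₃, h1, h2, h3, h4, h5, h6, h7, h8, h9, e⟩ := S.toRatU.iso_decomp ![a₁, b]
      (y := v - f v b • a₁ - f v a₁ • b)
      (by
        intro i
        fin_cases i
        · exact ha₁
        · exact hb) (by simp; omega) (((hv.sub (ha₁.smul (S.rat _ _ hv hb)))).sub (hb.smul (S.rat _ _ hv ha₁))) (by
        intro i
        fin_cases i
        · change f (v - f v b • a₁ - f v a₁ • b) a₁ = 0
          rw [sub_left hf, sub_left hf, hf.smul_left, hf.smul_left, ha₁a₁, hba₁]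
          ring
        · change f (v - f v b • a₁ - f v a₁ • b) b = 0
          rw [sub_left hf, sub_left hf, hf.smul_left, hf.smul_left, ha₁b, hbb]
          ring)
    refine ⟨y₁, y₂, y₃, h1, h2, h3, h4, h5, h6, h7 0, h8 0, h9 0, h7 1, h8 1, h9 1, ?_⟩
    have e₂ : v = y₁ - y₂ - y₃ + f v b • a₁ + f v a₁ • b := by
      rw [← e]
      abel
    conv_lhs => rw [e₂]
    rw [hf.add_left, hf.add_left, sub_left hf, sub_left hf, hf.smul_left, hf.smul_left]
  by_cases hβ : ∃ c₀ ∈ F₀, f b u = c₀ * f a₁ u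
  · -- `u` is on a rational line
    exfalso
    obtain ⟨c₀, hc₀, hc₀e⟩ := hβ
    have hval : ∀ v, IsRat F₀ v → f v u / f a₁ u ∈ F₀ := by
      intro v hv
      obtain ⟨y₁, y₂, y₃, h1, h2, h3, h4, h5, h6, h7, h8, h9, -, -, -, e⟩ := hdec v hv
      obtain ⟨c₁, hc₁, e₁⟩ := hno a₁ y₁ ha₁ h1 ha₁a₁ h4 (UForm.refl hf _ _ h7) hα
      obtain ⟨c₂, hc₂, e₂⟩ := hno a₁ y₂ ha₁ h2 ha₁a₁ h5 (UForm.refl hf _ _ h8) hα
      obtain ⟨c₃, hc₃, e₃⟩ := hno a₁ y₃ ha₁ h3 ha₁a₁ h6 (UForm.refl hf _ _ h9) hα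
      have e₄ : f v u / f a₁ u = c₁ - c₂ - c₃ + f v b + f v a₁ * c₀ := by
        rw [e, e₁, e₂, e₃, hc₀e]
        field_simp
      rw [e₄]
      exact F₀.add_mem (F₀.add_mem (F₀.sub_mem (F₀.sub_mem hc₁ hc₂) hc₃) (S.rat _ _ hv hb))
        (F₀.mul_mem (S.rat _ _ hv ha₁) hc₀)
    obtain ⟨y, hy, hyi⟩ := S.toRatU.realize (fun i => f (Pi.single i 1) u / f a₁ u) (fun i => hval _ (isRat_single i))
    apply hnl (σ (f a₁ u)) y hy
    apply eq_of_single hf
    intro i
    rw [UForm.smul_right hf, hf.involutive, hyi]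
    field_simp
  · push Not at hβ
    have hβ0 : f b u ≠ 0 := by
      intro h0
      apply hβ 0 F₀.zero_mem
      rw [h0, zero_mul]
    have hzero : ∀ y, IsRat F₀ y → f y y = 0 → f y a₁ = 0 → f y b = 0 → f y u = 0 := by
      intro y hy hyy h1 h2
      by_contra hne
      obtain ⟨c, hc, e⟩ := hno a₁ y ha₁ hy ha₁a₁ hyy (UForm.refl hf _ _ h1) hα
      obtain ⟨c', hc', e'⟩ := hno b y hb hy hbb hyy (UForm.refl hf _ _ h2) hβ0
      have hc'0 : c' ≠ 0 := by
        rintro rfl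
        rw [zero_mul] at e'
        exact hne e'
      apply hβ (c / c') (F₀.div_mem hc hc')
      rw [e] at e'
      field_simp
      linear_combination -e'
    have hval : ∀ v, IsRat F₀ v → f v u = f v b * f a₁ u + f v a₁ * f b u := by
      intro v hv
      obtain ⟨y₁, y₂, y₃, h1, h2, h3, h4, h5, h6, h7, h8, h9, h10, h11, h12, e⟩ := hdec v hv
      rw [e, hzero _ h1 h4 h7 h10, hzero _ h2 h5 h8 h11, hzero _ h3 h6 h9 h12]
      ring
    have hue : u = σ (f b u) • a₁ + σ (f a₁ u) • b := by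
      apply eq_of_single hf
      intro i
      rw [hval _ (isRat_single i), UForm.add_right hf, UForm.smul_right hf, UForm.smul_right hf, hf.involutive,
        hf.involutive]
      ring
    refine S.easy hr hro hcard hcardK hn huu hu hue ha₁ hb ha₁ hb ?_ ?_
    · rw [hf.herm]
      exact (map_ne_zero σ).mpr hα
    · intro c hc e
      apply hβ (σ c) (S.stable _ hc)
      have h1 := congrArg σ e
      rw [map_mul, UForm.sigma_form hf u b, UForm.sigma_form hf u a₁] at h1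
      exact h1

/-- If all rational isotropic vectors are sent to rational lines, so are all rational vectors. -/
theorem RatU.lines [Finite F] (R : RatU hf F₀) (hn : 9 ≤ Fintype.card ι) (g : GL ι F)
    (h : ∀ u, IsRat F₀ u → f u u = 0 → ∃ (l : F) (u' : ι → F), IsRat F₀ u' ∧ (g : Matrix ι ι F) *ᵥ u = l • u') :
    ∀ u, IsRat F₀ u → ∃ (l : F) (u' : ι → F), IsRat F₀ u' ∧ (g : Matrix ι ι F) *ᵥ u = l • u' := by
  have hginj : ∀ x : ι → F, (g : Matrix ι ι F) *ᵥ x = 0 → x = 0 := by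
    intro x h0
    have := inv_mulVec_mulVec g x
    rw [h0, Matrix.mulVec_zero] at this
    exact this.symm
  -- the ratio of two orthogonal isotropic vectors
  have hratio : ∀ a c : ι → F, IsRat F₀ a → IsRat F₀ c → f a a = 0 → f c c = 0 → f a c = 0 →
      (∀ x y : F, x • a + y • c = 0 → x = 0 ∧ y = 0) → ∀ l : F, l ≠ 0 →
      (∃ a', IsRat F₀ a' ∧ (g : Matrix ι ι F) *ᵥ a = l • a') → ∃ c', IsRat F₀ c' ∧ (g : Matrix ι ι F) *ᵥ c = l • c' := by
    intro a c ha hc haa hcc hac hind l hl ⟨a', ha', e₁⟩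
    obtain ⟨μ, c'', hc'', e₂⟩ := h c hc hcc
    have hca : f c a = 0 := UForm.refl hf _ _ hac
    obtain ⟨ν, w, hw, e₃⟩ := h (a + c) (ha.add hc) (by
      simp only [hf.add_left, UForm.add_right hf, haa, hcc, hac, hca]
      ring)
    have hc0 : c ≠ 0 := by
      rintro rfl
      have := hind 0 1 (by simp)
      exact one_ne_zero this.2
    have hμ : μ ≠ 0 := by
      rintro rfl
      rw [zero_smul] at e₂
      exact hc0 (hginj _ e₂)
    have hν : ν ≠ 0 := by
      rintro rfl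
      rw [zero_smul] at e₃
      have h0 := hginj _ e₃
      have := hind 1 1 (by simpa using h0)
      exact one_ne_zero this.1
    have hindg : ∀ s t : F, s • a' + t • c'' = 0 → s = 0 ∧ t = 0 := by
      intro s t hst
      have h1 : (g : Matrix ι ι F) *ᵥ ((s / l) • a + (t / μ) • c) = 0 := by
        rw [Matrix.mulVec_add, Matrix.mulVec_smul, Matrix.mulVec_smul, e₁, e₂, smul_smul, smul_smul,
          div_mul_cancel₀ _ hl, div_mul_cancel₀ _ hμ]
        exact hst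
      obtain ⟨h2, h3⟩ := hind _ _ (hginj _ h1)
      constructor
      · rcases (div_eq_zero_iff.mp h2) with h4 | h4
        · exact h4
        · exact absurd h4 hl
      · rcases (div_eq_zero_iff.mp h3) with h4 | h4
        · exact h4
        · exact absurd h4 hμ
    have hsum : (l / ν) • a' + (μ / ν) • c'' = w := by
      have h1 : l • a' + μ • c'' = ν • w := by
        rw [← e₁, ← e₂, ← e₃, Matrix.mulVec_add]
      have h2 := congrArg (fun z => ν⁻¹ • z) h1
      simp only [smul_add, smul_smul, inv_mul_cancel₀ hν, one_smul] at h2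
      rw [div_eq_inv_mul, div_eq_inv_mul]
      exact h2
    have hco := rat_coeffs ha' hc'' hindg (by rw [hsum]; exact hw)
    have hq : μ / l ∈ F₀ := by
      have h1 := F₀.div_mem hco.2 hco.1
      have h2 : μ / ν / (l / ν) = μ / l := by
        field_simp
      rwa [h2] at h1
    refine ⟨(μ / l) • c'', hc''.smul hq, ?_⟩
    rw [e₂, smul_smul]
    congr 1
    field_simp
  -- a base point
  obtain ⟨a₀, a₀', ha₀, -, ha₀a₀, -, -, -, ha₀a₀'⟩ := R.hyperbolic (k := 0) Fin.elim0 (fun i => i.elim0) (by omega)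
  have ha₀0 : a₀ ≠ 0 := by
    rintro rfl
    rw [UForm.zero_left hf] at ha₀a₀'
    exact zero_ne_one ha₀a₀'
  obtain ⟨l₀, v₀, hv₀, e₀⟩ := h a₀ ha₀ ha₀a₀
  have hl₀ : l₀ ≠ 0 := by
    rintro rfl
    rw [zero_smul] at e₀
    exact ha₀0 (hginj _ e₀)
  have hall : ∀ y, IsRat F₀ y → f y y = 0 → ∃ y', IsRat F₀ y' ∧ (g : Matrix ι ι F) *ᵥ y = l₀ • y' := by
    intro y hy hyy
    by_cases hy0 : y = 0
    · exact ⟨0, isRat_zero, by rw [hy0]; simp⟩
    obtain ⟨p, q, hp, hq, hpp, hqq, hpS, hqS, hpq⟩ := R.hyperbolic ![a₀, y]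
      (by
        intro i
        fin_cases i
        · exact ha₀
        · exact hy) (by simp; omega)
    have hpa₀ : f p a₀ = 0 := hpS 0
    have hpy : f p y = 0 := hpS 1
    have hqa₀ : f q a₀ = 0 := hqS 0
    have hqy : f q y = 0 := hqS 1
    have h1 := hratio a₀ p ha₀ hp ha₀a₀ hpp (UForm.refl hf _ _ hpa₀) (by
      intro x w hxw
      have h2 := congrArg (fun z => f z q) hxw
      simp only [hf.add_left, hf.smul_left, UForm.refl hf _ _ hqa₀, hpq, UForm.zero_left hf] at h2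
      have hw : w = 0 := by simpa using h2
      subst hw
      rw [zero_smul, add_zero] at hxw
      exact ⟨(smul_eq_zero.mp hxw).resolve_right ha₀0, rfl⟩) l₀ hl₀ ⟨v₀, hv₀, e₀⟩
    exact hratio p y hp hy hpp hyy hpy (by
      intro x w hxw
      have h2 := congrArg (fun z => f z q) hxw
      simp only [hf.add_left, hf.smul_left, UForm.refl hf _ _ hqy, hpq, UForm.zero_left hf] at h2
      have hx : x = 0 := by simpa using h2
      subst hx
      rw [zero_smul, zero_add] at hxw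
      exact ⟨rfl, (smul_eq_zero.mp hxw).resolve_right hy0⟩) l₀ hl₀ h1
  intro u hu
  obtain ⟨y₁, y₂, y₃, h1, h2, h3, h4, h5, h6, -, -, -, e⟩ := R.iso_decomp (k := 0) Fin.elim0
    (fun i => i.elim0) (by omega) hu (fun i => i.elim0)
  obtain ⟨y₁', hy₁', e₁⟩ := hall _ h1 h4
  obtain ⟨y₂', hy₂', e₂⟩ := hall _ h2 h5
  obtain ⟨y₃', hy₃', e₃⟩ := hall _ h3 h6
  refine ⟨l₀, y₁' - y₂' - y₃', (hy₁'.sub hy₂').sub hy₃', ?_⟩
  rw [e, Matrix.mulVec_sub, Matrix.mulVec_sub, e₁, e₂, e₃]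
  module

/-- **The maximality of the subfield group for a rational form.** -/
theorem isMaximalIn_one [Fintype F] {hf : IsUnitaryForm σ f} {I : Subgroup (GL ι F)} (SI : IsSUGroup hf I)
    (R : RatU hf F₀) (hn : 13 ≤ Fintype.card ι) {r : ℕ} (hr : r.Prime) (hro : Odd r)
    (hcard : Fintype.card F = Nat.card F₀ ^ r) :
    IsMaximalIn I (subfieldSubgroup F₀ 1 ⊓ I) := by
  haveI : Nonempty ι := by
    have : 0 < Fintype.card ι := by omega
    exact Fintype.card_pos_iff.mp this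
  have hone : ∀ g : GL ι F, ((1 : GL ι F)⁻¹ * g * 1 : GL ι F) = g := fun g => by simp
  have hcardK := card_fix R hcard
  refine isMaximalIn_of_forall ?_ ?_
  · refine lt_of_le_of_ne inf_le_right ?_
    intro he
    obtain ⟨ε, hεF, hε0, hεs⟩ := R.skew
    have hσε : σ ε = -ε := by linear_combination hεs
    obtain ⟨ω, hωF, hω⟩ := R.exω
    obtain ⟨c₀, hc₀⟩ := exists_not_mem (F₀ := F₀) hr hcard
    obtain ⟨s, hs, hsF⟩ : ∃ s : F, σ s = s ∧ s ∉ F₀ := by
      by_contra hcon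
      push Not at hcon
      apply hc₀
      obtain ⟨a, b, ha, hb, e, -⟩ := exists_decomp_fix hf hω c₀
      rw [e]
      exact F₀.add_mem (hcon a ha) (F₀.mul_mem (hcon b hb) hωF)
    obtain ⟨c, hc⟩ : ∃ c, c = ε * s := ⟨_, rfl⟩
    have hcs : c + σ c = 0 := by
      rw [hc, map_mul, hs, hσε]
      ring
    have hcF : c ∉ F₀ := by
      intro h
      apply hsF
      have := F₀.div_mem h hεF
      rwa [hc, mul_div_cancel_left₀ _ hε0] at this
    obtain ⟨a, b, ha, hb, haa, hbb, -, -, hab⟩ := R.hyperbolic (k := 0) Fin.elim0 (fun i => i.elim0) (by omega)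
    have hba : f b a = 1 := by rw [hf.herm, hab, map_one]
    have ha0 : a ≠ 0 := by
      rintro rfl
      rw [UForm.zero_left hf] at hab
      exact zero_ne_one hab
    have h1 : uT hf a c haa ∈ subfieldSubgroup F₀ 1 ⊓ I := by
      rw [he]
      exact (SI.mem_iff _).mpr ⟨uT_isIso hf _ c haa hcs, (mem_specialLinear_iff _).mp (uT_mem hf _ c haa hcs).2⟩
    obtain ⟨k, hk0, hk⟩ := exists_scalar_of_mem h1.1
    rw [hone] at hk
    have hkA : ∀ x, IsRat F₀ x → IsRat F₀ (k • (((uT hf a c haa : GL ι F) : Matrix ι ι F) *ᵥ x)) := by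
      intro x hx
      rw [← Matrix.smul_mulVec]
      exact Cfsg.Agent.Lib.Geo.SUSymp.isRat_mulVec (fun i j => hk i j) hx
    obtain ⟨i, hi⟩ : ∃ i, a i ≠ 0 := by
      by_contra hcon
      push Not at hcon
      exact ha0 (funext hcon)
    have hkF : k ∈ F₀ := by
      have h2 := hkA a ha i
      rw [uT_mulVec, haa] at h2
      simp only [zero_smul, add_zero, Pi.smul_apply, smul_eq_mul] at h2
      have h3 := F₀.div_mem h2 (ha i)
      rwa [mul_div_cancel_right₀ _ hi] at h3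
    have h2 := hkA b hb i
    rw [uT_mulVec, hba, one_smul] at h2
    simp only [Pi.smul_apply, Pi.add_apply, smul_eq_mul] at h2
    have h3 := F₀.div_mem h2 hkF
    rw [mul_div_cancel_left₀ _ hk0] at h3
    have h4 := F₀.sub_mem h3 (hb i)
    rw [add_sub_cancel_left] at h4
    apply hcF
    have h5 := F₀.div_mem h4 (ha i)
    rwa [mul_div_cancel_right₀ _ hi] at h5
  · intro M hHM hMI g hgM hgH
    have hg : g ∉ subfieldSubgroup F₀ 1 := fun h => hgH ⟨h, hMI hgM⟩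
    have S : USys hf F₀ M := {
      toRatU := R
      pres := fun h hh => ((SI.mem_iff h).mp (hMI hh)).1
      mem := fun h h1 h2 h3 => hHM ⟨mem_subfield_of_entries (by
        intro i j
        rw [hone]
        exact h3 i j), (SI.mem_iff h).mpr ⟨h1, h2⟩⟩ }
    obtain ⟨u₀, hu₀, hu₀u₀, hnl⟩ : ∃ u₀ : ι → F, IsRat F₀ u₀ ∧ f u₀ u₀ = 0 ∧ ∀ (l : F) (u' : ι → F), IsRat F₀ u' →
        (g : Matrix ι ι F) *ᵥ u₀ ≠ l • u' := by
      by_contra hcon
      push Not at hcon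
      apply hg
      apply mem_subfield_of_lines
      intro u hu
      rw [hone]
      exact R.lines (by omega) g hcon u hu
    have huu := S.iso hgM hu₀u₀
    have hu : ∀ e ∈ F₀, e + σ e = 0 → uT hf ((g : Matrix ι ι F) *ᵥ u₀) e huu ∈ M :=
      fun e he hes => S.conjT hgM (S.memT hu₀ hu₀u₀ he hes) huu
    have hall := S.of_not_line hr hro hcard hcardK hn huu hu hnl
    apply SI.gen M
    intro v a hv ha
    exact cen_mem (S.cen_of_rat (by omega) hall hv) hv a ha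

/-! ### The reduction to a rational form -/

/-- The form pulled back along `P`. -/
theorem isUnit_pull (hf : IsUnitaryForm σ f) (P : GL ι F) :
    IsUnitaryForm σ (fun x y : ι → F => f ((P : Matrix ι ι F) *ᵥ x) ((P : Matrix ι ι F) *ᵥ y)) where
  ne_refl := hf.ne_refl
  involutive := hf.involutive
  add_left := fun x y v => by
    simp only [Matrix.mulVec_add, hf.add_left]
  smul_left := fun c x v => by
    simp only [Matrix.mulVec_smul, hf.smul_left]
  herm := fun v w => hf.herm _ _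
  nondegenerate := fun y hy => by
    have hPy : (P : Matrix ι ι F) *ᵥ y ≠ 0 := by
      intro h
      apply hy
      have := inv_mulVec_mulVec P y
      rw [h, Matrix.mulVec_zero] at this
      exact this.symm
    obtain ⟨x, hx⟩ := (hf.nondegenerate _ hPy).1
    obtain ⟨x', hx'⟩ := (hf.nondegenerate _ hPy).2
    refine ⟨⟨((P⁻¹ : GL ι F) : Matrix ι ι F) *ᵥ x, ?_⟩, ⟨((P⁻¹ : GL ι F) : Matrix ι ι F) *ᵥ x', ?_⟩⟩
    · simp only [mulVec_inv_mulVec]
      exact hx
    · simp only [mulVec_inv_mulVec]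
      exact hx'

theorem isSUGroup_pull {hf : IsUnitaryForm σ f} {I : Subgroup (GL ι F)} (SI : IsSUGroup hf I) (P : GL ι F) :
    IsSUGroup (isUnit_pull hf P) (I.map (MulAut.conj P⁻¹).toMonoidHom) where
  mem_iff := fun g => by
    rw [mem_map_conj_iff, inv_inv, SI.mem_iff]
    have hdet : ((P * g * P⁻¹ : GL ι F) : Matrix ι ι F).det = (g : Matrix ι ι F).det := by
      have h1 : (P : Matrix ι ι F).det * ((P⁻¹ : GL ι F) : Matrix ι ι F).det = 1 := by
        rw [← Matrix.det_mul, ← Units.val_mul, mul_inv_cancel]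
        simp
      simp only [Units.val_mul, Matrix.det_mul]
      linear_combination (g : Matrix ι ι F).det * h1
    rw [hdet]
    refine and_congr_left fun _ => ?_
    constructor
    · intro h u v
      have := h ((P : Matrix ι ι F) *ᵥ u) ((P : Matrix ι ι F) *ᵥ v)
      simp only [Units.val_mul, ← Matrix.mulVec_mulVec, inv_mulVec_mulVec] at this
      exact this
    · intro h x y
      have := h (((P⁻¹ : GL ι F) : Matrix ι ι F) *ᵥ x) (((P⁻¹ : GL ι F) : Matrix ι ι F) *ᵥ y)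
      simp only [mulVec_inv_mulVec] at this
      simp only [Units.val_mul, ← Matrix.mulVec_mulVec]
      exact this
  gen := fun M hM => by
    have h1 : I ≤ M.map (MulAut.conj P).toMonoidHom := by
      refine SI.gen _ (fun w c hw hc => ?_)
      rw [mem_map_conj_iff]
      have hw' : f ((P : Matrix ι ι F) *ᵥ (((P⁻¹ : GL ι F) : Matrix ι ι F) *ᵥ w))
          ((P : Matrix ι ι F) *ᵥ (((P⁻¹ : GL ι F) : Matrix ι ι F) *ᵥ w)) = 0 := by
        rw [mulVec_inv_mulVec]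
        exact hw
      have e : P⁻¹ * uT hf w c hw * P =
          uT (isUnit_pull hf P) (((P⁻¹ : GL ι F) : Matrix ι ι F) *ᵥ w) c hw' := by
        apply gl_ext_mulVec
        intro x
        simp only [Units.val_mul, ← Matrix.mulVec_mulVec]
        rw [uT_mulVec, uT_mulVec, Matrix.mulVec_add, inv_mulVec_mulVec, Matrix.mulVec_smul,
          Matrix.mulVec_smul, mulVec_inv_mulVec]
      rw [e]
      exact hM _ _ _ hc
    intro g hg
    rw [mem_map_conj_iff, inv_inv] at hg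
    have h2 := h1 hg
    rw [mem_map_conj_iff] at h2
    have e : P⁻¹ * (P * g * P⁻¹) * P = g := by group
    rwa [e] at h2

/-- A rational form gives a rational structure. -/
theorem ratU_of_form [Fintype F] {hf : IsUnitaryForm σ f} (hn : 1 ≤ Fintype.card ι)
    (hrat : ∀ u v : ι → F, IsRat F₀ u → IsRat F₀ v → f u v ∈ F₀) {r : ℕ} (hr : r.Prime) (hro : Odd r)
    (hcard : Fintype.card F = Nat.card F₀ ^ r) : RatU hf F₀ := by
  have hstable : ∀ x ∈ F₀, σ x ∈ F₀ := by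
    intro x hx
    haveI : Nonempty ι := by
      have : 0 < Fintype.card ι := by omega
      exact Fintype.card_pos_iff.mp this
    obtain ⟨j⟩ := ‹Nonempty ι›
    have hj0 : (Pi.single j 1 : ι → F) ≠ 0 := by
      intro h0
      have := congrFun h0 j
      simp at this
    obtain ⟨i, hi⟩ : ∃ i, f (Pi.single i 1) (Pi.single j 1 : ι → F) ≠ 0 := by
      by_contra hcon
      push Not at hcon
      exact hj0 (eq_zero_of_single hf hcon)
    have h1 : x / f (Pi.single i 1) (Pi.single j 1 : ι → F) ∈ F₀ :=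
      F₀.div_mem hx (hrat _ _ (isRat_single i) (isRat_single j))
    have h2 := hrat _ _ (isRat_single j) ((isRat_single i).smul h1)
    rw [UForm.smul_right hf, map_div₀, UForm.sigma_form hf] at h2
    have h3 : f (Pi.single j 1 : ι → F) (Pi.single i 1) ≠ 0 := fun h => hi (UForm.refl hf _ _ h)
    have e : σ x / f (Pi.single j 1 : ι → F) (Pi.single i 1) * f (Pi.single j 1 : ι → F) (Pi.single i 1) = σ x :=
      div_mul_cancel₀ _ h3
    rwa [e] at h2
  refine ⟨hrat, hstable, ?_⟩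
  by_contra hcon
  push Not at hcon
  have hle : F₀ ≤ fixF σ := fun x hx => hcon x hx
  obtain ⟨ω, hω⟩ : ∃ ω : F, σ ω ≠ ω := by
    by_contra hcon2
    push Not at hcon2
    apply hf.ne_refl
    ext z
    simpa using hcon2 z
  have hK : fixF σ ≠ ⊤ := by
    intro h
    apply hω
    have : ω ∈ fixF σ := by
      rw [h]
      exact Subfield.mem_top ω
    exact this
  rcases subfield_eq_or_top F₀ (fixF σ) hle hr hcard with h | h
  · -- the fixed field has index two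
    have hinj : ∀ a b a' b' : F, σ a = a → σ b = b → σ a' = a' → σ b' = b' → a + b * ω = a' + b' * ω → a = a' ∧ b = b' := by
      intro a b a' b' ha hb ha' hb' h
      have h1 := congrArg σ h
      simp only [map_add, map_mul, ha, hb, ha', hb'] at h1
      have h2 : (b - b') * (ω - σ ω) = 0 := by linear_combination h - h1
      have h3 : b = b' := sub_eq_zero.mp ((mul_eq_zero.mp h2).resolve_right (sub_ne_zero.mpr (Ne.symm hω)))
      refine ⟨?_, h3⟩
      rw [h3] at h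
      exact add_right_cancel h
    have h1 : Nat.card F = Nat.card (fixF σ) ^ 2 := by
      have : Function.Bijective (fun x : fixF σ × fixF σ => ((x.1 : F)) + (x.2 : F) * ω) := by
        constructor
        · rintro ⟨⟨a, ha⟩, ⟨b, hb⟩⟩ ⟨⟨a', ha'⟩, ⟨b', hb'⟩⟩ h
          obtain ⟨e₁, e₂⟩ := hinj a b a' b' ha hb ha' hb' h
          subst e₁
          subst e₂
          rfl
        · intro x
          obtain ⟨a, b, ha, hb, e, -⟩ := exists_decomp_fix hf hω x
          exact ⟨(⟨a, ha⟩, ⟨b, hb⟩), e.symm⟩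
      rw [← Nat.card_congr (Equiv.ofBijective _ this), Nat.card_prod, pow_two]
    rw [h, Nat.card_eq_fintype_card, hcard] at h1
    have h2 : 1 < Nat.card F₀ := by
      haveI : Finite F₀ := finite_sub
      exact Finite.one_lt_card
    have h3 := Nat.pow_right_injective (by omega : 2 ≤ Nat.card F₀) h1
    subst h3
    exact absurd hro (by decide)
  · exact hK h

/-- **The subfield group of odd prime index is maximal in `SU`.** -/
theorem isMaximalIn [Fintype F] {hf : IsUnitaryForm σ f} {I : Subgroup (GL ι F)} (SI : IsSUGroup hf I)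
    (hn : 13 ≤ Fintype.card ι) {r : ℕ} (hr : r.Prime) (hro : Odd r) (hcard : Fintype.card F = Nat.card F₀ ^ r) (P : GL ι F)
    (hP : IsFormRationalStructure f F₀ 1 P) :
    IsMaximalIn I (subfieldSubgroup F₀ P ⊓ I) := by
  have hrat : ∀ u v : ι → F, IsRat F₀ u → IsRat F₀ v →
      f ((P : Matrix ι ι F) *ᵥ u) ((P : Matrix ι ι F) *ᵥ v) ∈ F₀ := fun u v hu hv => by
    have := hP u v hu hv
    rwa [one_mul] at this
  have key := isMaximalIn_one (isSUGroup_pull SI P)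
    (ratU_of_form (by omega) hrat hr hro hcard) hn hr hro hcard
  have h1 := Cfsg.Agent.Lib.Geo.Basic.IsMaximalIn.conj key P
  have h2 : (I.map (MulAut.conj P⁻¹).toMonoidHom).map (MulAut.conj P).toMonoidHom = I := by
    ext g
    rw [mem_map_conj_iff, mem_map_conj_iff, inv_inv]
    have e : P * (P⁻¹ * g * P) * P⁻¹ = g := by group
    rw [e]
  have h3 : (subfieldSubgroup F₀ 1).map (MulAut.conj P).toMonoidHom = subfieldSubgroup F₀ P := by
    ext g
    rw [mem_map_conj_iff, mem_subfield_iff, mem_subfield_iff]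
    simp
  rw [map_conj_inf, h2, h3] at h1
  exact h1

end Cfsg.Agent.Lib.Geo.SUSub
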