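/-
The stabiliser of a pair of complementary Lagrangians is maximal in `Sp` in odd characteristic.
-/
import Cfsg.Agent.Lib.Geo.SpDecomp
set_option autoImplicit false

namespace Cfsg.Agent.Lib.Geo.SpLagrange

open Cfsg Cfsg.Geo Cfsg.Agent.Lib.Geo.Basic Cfsg.Agent.Lib.Geo.Parabolic Cfsg.Agent.Lib.Geo.Centres
open Cfsg.Agent.Lib.Geo.Polar Cfsg.Agent.Lib.Geo.QForm Cfsg.Agent.Lib.Geo.SympInSL
open Cfsg.Agent.Lib.Geo.SpBase Cfsg.Agent.Lib.Geo.SpSubspace Cfsg.Agent.Lib.Geo.SpFrames
open Cfsg.Agent.Lib.Geo.SpDecomp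
open scoped MatrixGroups Matrix

variable {ι : Type} [Fintype ι] [DecidableEq ι] {F : Type*} [Field F]
variable {f : (ι → F) → (ι → F) → F} {hf : IsSymplecticForm f} {I : Subgroup (GL ι F)}

/-- Conjugating an Eichler-type isometry. -/
theorem conj_sE (hf : IsSymplecticForm f) (g : GL ι F)
    (hg : ∀ u v, f ((g : Matrix ι ι F) *ᵥ u) ((g : Matrix ι ι F) *ᵥ v) = f u v) (p q : ι → F) (h : f p q = 0)
    (p' q' : ι → F) (h' : f p' q' = 0) (hp : (g : Matrix ι ι F) *ᵥ p = p')
    (hq : (g : Matrix ι ι F) *ᵥ q = q') : g * sE hf p q h * g⁻¹ = sE hf p' q' h' := by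
  apply gl_ext_mulVec
  intro x
  simp only [Units.val_mul, ← Matrix.mulVec_mulVec]
  rw [sE_mulVec, sE_mulVec, Matrix.mulVec_add, Matrix.mulVec_add, mulVec_inv_mulVec,
    Matrix.mulVec_smul, Matrix.mulVec_smul, form_inv hf g hg, form_inv hf g hg, hp, hq]

/-- Moving the second slot along the first one. -/
theorem sE_add_smul_self (hf : IsSymplecticForm f) (a w : ι → F) (h : f a w = 0) (c : F)
    (h' : f a (w + c • a) = 0) : sE hf a (w + c • a) h' = sympT hf a (2 * c) * sE hf a w h := by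
  apply gl_ext_mulVec
  intro x
  simp only [Units.val_mul, ← Matrix.mulVec_mulVec]
  have hwa := form_comm_eq hf h
  rw [sE_mulVec, sympT_mulVec, sE_mulVec]
  simp only [hf.bilinear.add_left, hf.bilinear.add_right, hf.bilinear.smul_left, hf.bilinear.smul_right,
    hf.alternating, hwa, mul_zero, add_zero]
  ext i
  simp only [Pi.add_apply, Pi.smul_apply, smul_eq_mul]
  ring

/-- The Heisenberg commutator relation (odd characteristic uses the factor two). -/
theorem commutator_sE (hf : IsSymplecticForm f) (a e e' : ι → F) (h : f a e = 0) (h' : f a e' = 0) :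
    sE hf a e h * sE hf a e' h' * (sE hf a e h)⁻¹ * (sE hf a e' h')⁻¹ = sympT hf a (2 * f e' e) := by
  have hea := form_comm_eq hf h'
  have h1 : f a (e' + f e' e • a) = 0 := by
    rw [hf.bilinear.add_right, hf.bilinear.smul_right, hf.alternating, h', mul_zero, add_zero]
  have h2 := conj_sE hf (sE hf a e h) (sE_preserves hf a e h) a e' h' a (e' + f e' e • a) h1
    (by
      rw [sE_mulVec, hf.alternating, zero_smul, add_zero, h, zero_smul, add_zero])
    (by
      rw [sE_mulVec, hea, zero_smul, add_zero])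
  rw [sE_add_smul_self hf a e' h' _ h1] at h2
  rw [h2]
  group

section pair

variable {U U' : Submodule F (ι → F)}

theorem eq_zero_of_mem_both (hf : IsSymplecticForm f) (hU : IsTotallySingularFor f U)
    (hU' : IsTotallySingularFor f U') (hsup : ∀ x, ∃ a ∈ U, ∃ b ∈ U', a + b = x) {x : ι → F}
    (h1 : x ∈ U) (h2 : x ∈ U') : x = 0 := by
  by_contra h0
  obtain ⟨⟨y, hy⟩, -⟩ := hf.nondegenerate x h0
  obtain ⟨a, ha, b, hb, rfl⟩ := hsup y
  apply hy
  rw [hf.bilinear.add_left, hU a ha x h1, hU' b hb x h2, add_zero]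

/-- The pairing between the two members is non-degenerate. -/
theorem exists_pairing (hf : IsSymplecticForm f) (hU : IsTotallySingularFor f U)
    (hsup : ∀ x, ∃ a ∈ U, ∃ b ∈ U', a + b = x) {x : ι → F}
    (h1 : x ∈ U) (h0 : x ≠ 0) : ∃ b ∈ U', f x b ≠ 0 := by
  obtain ⟨-, ⟨y, hy⟩⟩ := hf.nondegenerate x h0
  obtain ⟨a, ha, b, hb, rfl⟩ := hsup y
  rw [hf.bilinear.add_right, hU x h1 a ha, zero_add] at hy
  exact ⟨b, hb, hy⟩

theorem mem_of_orth (hf : IsSymplecticForm f) (hU : IsTotallySingularFor f U)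
    (hU' : IsTotallySingularFor f U') (hsup : ∀ x, ∃ a ∈ U, ∃ b ∈ U', a + b = x) {z : ι → F}
    (hz : ∀ u ∈ U, f u z = 0) : z ∈ U := by
  obtain ⟨a, ha, b, hb, rfl⟩ := hsup z
  have h1 : b = 0 := by
    by_contra h0
    obtain ⟨⟨y, hy⟩, -⟩ := hf.nondegenerate b h0
    obtain ⟨c, hc, d, hd, rfl⟩ := hsup y
    apply hy
    have h2 := hz c hc
    rw [hf.bilinear.add_right, hU c hc a ha, zero_add] at h2
    rw [hf.bilinear.add_left, h2, hU' d hd b hb, add_zero]
  rw [h1, add_zero]
  exact ha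

/-- A good pair of an element moving both members away from the second. -/
theorem exists_good_pair (hf : IsSymplecticForm f) (hU : IsTotallySingularFor f U)
    (hU' : IsTotallySingularFor f U') (hsup : ∀ x, ∃ a ∈ U, ∃ b ∈ U', a + b = x)
    (hdim : 2 ≤ Module.finrank F U) (g : GL ι F)
    (h1 : ∃ a ∈ U, (g : Matrix ι ι F) *ᵥ a ∉ U') (h2 : ∃ b ∈ U', (g : Matrix ι ι F) *ᵥ b ∉ U') :
    ∃ a ∈ U, ∃ b ∈ U', f a b = 0 ∧ (g : Matrix ι ι F) *ᵥ a ∉ U' ∧ (g : Matrix ι ι F) *ᵥ b ∉ U' := by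
  obtain ⟨a₀, ha₀, hga₀⟩ := h1
  obtain ⟨b₀, hb₀, hgb₀⟩ := h2
  by_cases h0 : f a₀ b₀ = 0
  · exact ⟨a₀, ha₀, b₀, hb₀, h0, hga₀, hgb₀⟩
  -- a non-zero vector of `U` orthogonal to `b₀`
  have ha₀0 : a₀ ≠ 0 := by
    rintro rfl
    exact h0 ((isPolar hf).zero_left _)
  obtain ⟨k, hk, hka⟩ : ∃ k ∈ U, k ∉ Submodule.span F {a₀} := by
    by_contra hcon
    push Not at hcon
    have h3 : Module.finrank F U ≤ Module.finrank F (Submodule.span F {a₀}) :=
      Submodule.finrank_mono (fun y hy => hcon y hy)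
    rw [finrank_span_singleton ha₀0] at h3
    omega
  set a' := k - (f k b₀ / f a₀ b₀) • a₀ with ha'
  have ha'U : a' ∈ U := U.sub_mem hk (U.smul_mem _ ha₀)
  have ha'b : f a' b₀ = 0 := by
    rw [ha', (isPolar hf).sub_left, hf.bilinear.smul_left]
    field_simp
    ring
  have ha'0 : a' ≠ 0 := by
    intro h3
    apply hka
    have h4 : k = (f k b₀ / f a₀ b₀) • a₀ := by
      rw [ha'] at h3
      exact sub_eq_zero.mp h3
    rw [h4]
    exact Submodule.smul_mem _ _ (Submodule.mem_span_singleton_self a₀)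
  by_cases hga' : (g : Matrix ι ι F) *ᵥ a' ∈ U'
  swap
  · exact ⟨a', ha'U, b₀, hb₀, ha'b, hga', hgb₀⟩
  obtain ⟨b'', hb'', hab''⟩ := exists_pairing hf hU hsup ha'U ha'0
  set b' := b'' - (f a₀ b'' / f a₀ b₀) • b₀ with hb'
  have hb'U : b' ∈ U' := U'.sub_mem hb'' (U'.smul_mem _ hb₀)
  have hab' : f a₀ b' = 0 := by
    rw [hb', (isPolar hf).sub_right, hf.bilinear.smul_right]
    field_simp
    ring
  have ha'b' : f a' b' ≠ 0 := by
    rw [hb', (isPolar hf).sub_right, hf.bilinear.smul_right, ha'b, mul_zero, sub_zero]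
    exact hab''
  by_cases hgb' : (g : Matrix ι ι F) *ᵥ b' ∈ U'
  swap
  · exact ⟨a₀, ha₀, b', hb'U, hab', hga₀, hgb'⟩
  set t := - f a₀ b₀ / f a' b' with ht
  refine ⟨a₀ + a', U.add_mem ha₀ ha'U, b₀ + t • b', U'.add_mem hb₀ (U'.smul_mem _ hb'U), ?_, ?_, ?_⟩
  · simp only [hf.bilinear.add_left, hf.bilinear.add_right, hf.bilinear.smul_right, hab', ha'b]
    rw [ht]
    field_simp
    ring
  · intro h3
    apply hga₀
    rw [Matrix.mulVec_add] at h3
    have := U'.sub_mem h3 hga'
    rwa [add_sub_cancel_right] at this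
  · intro h3
    apply hgb₀
    rw [Matrix.mulVec_add, Matrix.mulVec_smul] at h3
    have := U'.sub_mem h3 (U'.smul_mem t hgb')
    rwa [add_sub_cancel_right] at this

/-- The core of the argument: a centre appears in `U`. -/
theorem exists_centre [Finite F] (hf : IsSymplecticForm f) (h2 : (2 : F) ≠ 0)
    (hU : IsTotallySingularFor f U)
    (hU' : IsTotallySingularFor f U') (hsup : ∀ x, ∃ a ∈ U, ∃ b ∈ U', a + b = x)
    (hdim : 5 ≤ Module.finrank F U) {M : Subgroup (GL ι F)}
    (hE : ∀ a ∈ U, ∀ b ∈ U', ∀ h : f a b = 0, sE hf a b h ∈ M)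
    (g : GL ι F) (hgM : g ∈ M)
    (hg : ∀ u v, f ((g : Matrix ι ι F) *ᵥ u) ((g : Matrix ι ι F) *ᵥ v) = f u v)
    (h1 : ∃ a ∈ U, (g : Matrix ι ι F) *ᵥ a ∉ U') (h3 : ∃ b ∈ U', (g : Matrix ι ι F) *ᵥ b ∉ U') :
    ∃ a ∈ U, a ≠ 0 ∧ a ∈ centres hf M := by
  obtain ⟨a₁, ha₁, b₁, hb₁, h0, hpU', hqU'⟩ := exists_good_pair hf hU hU' hsup (by omega) g h1 h3
  set p := (g : Matrix ι ι F) *ᵥ a₁ with hp
  set q := (g : Matrix ι ι F) *ᵥ b₁ with hq
  have hpq : f p q = 0 := by rw [hp, hq, hg, h0]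
  have ht : sE hf p q hpq ∈ M := by
    rw [← conj_sE hf g hg a₁ b₁ h0 p q hpq rfl rfl]
    exact M.mul_mem (M.mul_mem hgM (hE a₁ ha₁ b₁ hb₁ h0)) (M.inv_mem hgM)
  obtain ⟨p₁, hp₁, p₂, hp₂, hpd⟩ := hsup p
  obtain ⟨q₁, hq₁, q₂, hq₂, hqd⟩ := hsup q
  have hp₁0 : p₁ ≠ 0 := by
    rintro rfl
    rw [zero_add] at hpd
    exact hpU' (hpd ▸ hp₂)
  have hq₁0 : q₁ ≠ 0 := by
    rintro rfl
    rw [zero_add] at hqd
    exact hqU' (hqd ▸ hq₂)
  -- the vector `a`
  have hE₀ := finrank_inf_ker U (formVec f p)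
  have hE₁ := finrank_inf_ker (U ⊓ LinearMap.ker (dualOfVec (formVec f p))) (formVec f q)
  set E₀ := (U ⊓ LinearMap.ker (dualOfVec (formVec f p))) ⊓ LinearMap.ker (dualOfVec (formVec f q)) with hE₀def
  obtain ⟨a, haE, hasp⟩ : ∃ a ∈ E₀, a ∉ Submodule.span F {p₁, q₁} := by
    by_contra hcon
    push Not at hcon
    have h4 : Module.finrank F E₀ ≤ Module.finrank F (Submodule.span F {p₁, q₁}) :=
      Submodule.finrank_mono (fun y hy => hcon y hy)
    have h5 : Module.finrank F (Submodule.span F {p₁, q₁}) ≤ 2 := by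
      have := finrank_range_le_card (R := F) ![p₁, q₁]
      have h6 : Set.range ![p₁, q₁] = {p₁, q₁} := by
        simp [Matrix.range_cons, Matrix.range_empty, Set.pair_comm]
      rw [h6] at this
      simpa [Set.finrank] using this
    omega
  have haU : a ∈ U := haE.1.1
  have hap : f a p = 0 := by
    have : dualOfVec (formVec f p) a = 0 := haE.1.2
    rwa [dualOfVec_apply, formVec_eq hf] at this
  have haq : f a q = 0 := by
    have : dualOfVec (formVec f q) a = 0 := haE.2
    rwa [dualOfVec_apply, formVec_eq hf] at this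
  have ha0 : a ≠ 0 := by
    rintro rfl
    exact hasp (Submodule.zero_mem _)
  refine ⟨a, haU, ha0, ?_⟩
  -- the vector `b`
  have hnot : ∀ r₁ ∈ U, r₁ ≠ 0 → r₁ ∈ Submodule.span F {p₁, q₁} → ∀ r₂ ∈ U',
      ∃ e ∈ (U' ⊓ LinearMap.ker (dualOfVec (formVec f a))), f (r₁ + r₂) e ≠ 0 := by
    intro r₁ hr₁ hr₁0 hr₁s r₂ hr₂
    have hr₁W : r₁ ∉ Submodule.span F {a} ⊔ U' := by
      intro hmem
      obtain ⟨y, hy, z, hz, hyz⟩ := Submodule.mem_sup.mp hmem
      obtain ⟨c, rfl⟩ := Submodule.mem_span_singleton.mp hy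
      have h4 : z = r₁ - c • a := by rw [← hyz]; abel
      have h5 : z ∈ U := by
        rw [h4]
        exact U.sub_mem hr₁ (U.smul_mem _ haU)
      have h6 := eq_zero_of_mem_both hf hU hU' hsup h5 hz
      rw [h6, add_zero] at hyz
      have hc : c ≠ 0 := by
        rintro rfl
        rw [zero_smul] at hyz
        exact hr₁0 hyz.symm
      apply hasp
      have h7 : a = c⁻¹ • r₁ := by
        rw [← hyz, smul_smul, inv_mul_cancel₀ hc, one_smul]
      rw [h7]
      exact Submodule.smul_mem _ _ hr₁s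
    obtain ⟨z, hz, hfz⟩ := exists_orth hf _ r₁ hr₁W
    have hzU' : z ∈ U' := mem_of_orth hf hU' hU (fun x => by
      obtain ⟨c, hc, d, hd, hcd⟩ := hsup x
      exact ⟨d, hd, c, hc, by rw [add_comm]; exact hcd⟩) (fun u hu => hz u (Submodule.mem_sup_right hu))
    refine ⟨z, ⟨hzU', ?_⟩, ?_⟩
    · show dualOfVec (formVec f a) z = 0
      rw [dualOfVec_apply, formVec_eq hf]
      exact form_comm_eq hf (hz a (Submodule.mem_sup_left (Submodule.mem_span_singleton_self a)))
    · rw [hf.bilinear.add_left, hfz, hU' r₂ hr₂ z hzU', add_zero]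
      exact one_ne_zero
  obtain ⟨b, hbE, hbp, hbq⟩ := exists_common hf _ p q
    (by
      obtain ⟨e, he, he'⟩ := hnot p₁ hp₁ hp₁0 (Submodule.subset_span (by simp)) p₂ hp₂
      exact ⟨e, he, by rwa [hpd] at he'⟩)
    (by
      obtain ⟨e, he, he'⟩ := hnot q₁ hq₁ hq₁0 (Submodule.subset_span (by simp)) q₂ hq₂
      exact ⟨e, he, by rwa [hqd] at he'⟩)
  have hbU' : b ∈ U' := hbE.1
  have hba : f b a = 0 := by
    have : dualOfVec (formVec f a) b = 0 := hbE.2
    rwa [dualOfVec_apply, formVec_eq hf] at this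
  have hab : f a b = 0 := form_comm_eq hf hba
  -- the Heisenberg commutator
  have hpf : f a p = 0 := hap
  set t := sE hf p q hpq with htdef
  have hta : (t : Matrix ι ι F) *ᵥ a = a := by
    rw [htdef, sE_mulVec, hap, haq, zero_smul, zero_smul, add_zero, add_zero]
  set e := (t : Matrix ι ι F) *ᵥ b with he
  have he' : e = b + f b p • q + f b q • p := by rw [he, htdef, sE_mulVec]
  have hae : f a e = 0 := by
    have := sE_preserves hf p q hpq a b
    rw [← htdef, hta, ← he] at this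
    rw [this, hab]
  have hC₁ : sE hf a e hae ∈ M := by
    rw [← conj_sE hf t (sE_preserves hf p q hpq) a b hab a e hae hta rfl]
    exact M.mul_mem (M.mul_mem ht (hE a haU b hbU' hab)) (M.inv_mem ht)
  have hbe : f b e = 2 * (f b p * f b q) := by
    rw [he', hf.bilinear.add_right, hf.bilinear.add_right, hf.bilinear.smul_right,
      hf.bilinear.smul_right, hf.alternating]
    ring
  have hval : 2 * (2 * (f b p * f b q)) ≠ 0 :=
    mul_ne_zero h2 (mul_ne_zero h2 (mul_ne_zero (form_comm_ne hf hbp) (form_comm_ne hf hbq)))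
  intro c
  set l := c / (2 * (2 * (f b p * f b q))) with hl
  have hal : f a (l • b) = 0 := by rw [hf.bilinear.smul_right, hab, mul_zero]
  have hR := hE a haU (l • b) (U'.smul_mem _ hbU') hal
  have hcomm := commutator_sE hf a e (l • b) hae hal
  have hbp' := form_comm_ne hf hbp
  have hbq' := form_comm_ne hf hbq
  have hv : 2 * f (l • b) e = c := by
    rw [hf.bilinear.smul_left, hbe, hl]
    field_simp
  rw [hv] at hcomm
  rw [← hcomm]
  exact M.mul_mem (M.mul_mem (M.mul_mem hC₁ hR) (M.inv_mem hC₁)) (M.inv_mem hR)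

/-- From one centre in `U` to all vectors of `U`. -/
theorem centres_of_mem (hf : IsSymplecticForm f) (hU : IsTotallySingularFor f U)
    (hsup : ∀ x, ∃ a ∈ U, ∃ b ∈ U', a + b = x) {M : Subgroup (GL ι F)}
    (hE : ∀ a ∈ U, ∀ b ∈ U', ∀ h : f a b = 0, sE hf a b h ∈ M)
    {a : ι → F} (ha : a ∈ U) (ha0 : a ≠ 0) (haC : a ∈ centres hf M) {a' : ι → F} (ha' : a' ∈ U) :
    a' ∈ centres hf M := by
  by_cases ha'0 : a' = 0
  · rw [ha'0]
    exact centres_zero hf M
  obtain ⟨b, hb, h1, h2⟩ := exists_common hf U' a a' (exists_pairing hf hU hsup ha ha0)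
    (exists_pairing hf hU hsup ha' ha'0)
  set l := f a b / f a' b with hl
  have hl0 : l ≠ 0 := div_ne_zero h1 h2
  have hlb : f (l • a') b = f a b := by
    rw [hf.bilinear.smul_left, hl]
    field_simp
  set w := (f a b)⁻¹ • (l • a' - a) with hw
  have hwU : w ∈ U := U.smul_mem _ (U.sub_mem (U.smul_mem _ ha') ha)
  have hwb : f w b = 0 := by
    rw [hw, hf.bilinear.smul_left, (isPolar hf).sub_left, hlb, sub_self, mul_zero]
  have h3 := centres_mulVec hf haC (hE w hwU b hb hwb) (sE_preserves hf w b hwb)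
  rw [sE_mulVec, hU a ha w hwU, zero_smul, add_zero, hw, smul_smul, mul_inv_cancel₀ h1, one_smul,
    add_sub_cancel] at h3
  have h4 := centres_smul hf h3 l⁻¹
  rwa [smul_smul, inv_mul_cancel₀ hl0, one_smul] at h4

/-- Everything from the two members. -/
theorem centres_all (hf : IsSymplecticForm f) (hU : IsTotallySingularFor f U)
    (hU' : IsTotallySingularFor f U') (hsup : ∀ x, ∃ a ∈ U, ∃ b ∈ U', a + b = x)
    {M : Subgroup (GL ι F)} (h1 : ∀ a ∈ U, a ∈ centres hf M) (h2 : ∀ a ∈ U', a ∈ centres hf M)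
    (x : ι → F) : x ∈ centres hf M := by
  obtain ⟨a, ha, b, hb, rfl⟩ := hsup x
  by_cases ha0 : a = 0
  · rw [ha0, zero_add]
    exact h2 b hb
  by_cases hab : f a b = 0
  · obtain ⟨b', hb', hab'⟩ := exists_pairing hf hU hsup ha ha0
    have h3 : a + b' ∈ centres hf M := centres_add hf (h2 b' hb') (h1 a ha) hab'
    have h4 : b - b' ∈ U' := U'.sub_mem hb hb'
    have h5 := centres_add hf (h2 _ h4) h3 (by
      rw [(isPolar hf).sub_right, hf.bilinear.add_left, hf.bilinear.add_left, hab,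
        hU' b' hb' b hb, hU' b' hb' b' hb']
      simpa using hab')
    have h6 : a + b' + (b - b') = a + b := by abel
    rwa [h6] at h5
  · exact centres_add hf (h2 b hb) (h1 a ha) hab

end pair

/-- A swap of two complementary totally singular subspaces. -/
theorem exists_swap [Finite F] (hf : IsSymplecticForm f) {U U' : Submodule F (ι → F)}
    (hU : IsTotallySingularFor f U)
    (hU' : IsTotallySingularFor f U') (hsup : ∀ x, ∃ a ∈ U, ∃ b ∈ U', a + b = x) {m : ℕ}
    (hm : Module.finrank F U = m) (hm' : Module.finrank F U' = m) :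
    ∃ w : GL ι F, (∀ u v, f ((w : Matrix ι ι F) *ᵥ u) ((w : Matrix ι ι F) *ᵥ v) = f u v) ∧
      (∀ x ∈ U, (w : Matrix ι ι F) *ᵥ x ∈ U') ∧ (∀ x ∈ U', (w : Matrix ι ι F) *ᵥ x ∈ U) := by
  classical
  have hsup' : ∀ x, ∃ a ∈ U', ∃ b ∈ U, a + b = x := fun x => by
    obtain ⟨c, hc, d, hd, hcd⟩ := hsup x
    exact ⟨d, hd, c, hc, by rw [add_comm]; exact hcd⟩
  let bU : Module.Basis (Fin m) F U := Module.finBasisOfFinrankEq F U hm
  let e : Fin m → ι → F := fun a => (bU a : ι → F)
  have he : ∀ a, e a ∈ U := fun a => (bU a).2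
  have hind : LinearIndependent F e :=
    bU.linearIndependent.map' U.subtype (Submodule.ker_subtype U)
  -- the dual family
  have hdual : ∀ a, ∃ z ∈ U', ∀ b, f (e b) z = if b = a then 1 else 0 := by
    intro a
    set W := Submodule.span F (e '' {b | b ≠ a}) ⊔ U' with hW
    have hnot : e a ∉ W := by
      intro hmem
      obtain ⟨y, hy, z, hz, hyz⟩ := Submodule.mem_sup.mp hmem
      have h1 : y ∈ U := by
        refine (Submodule.span_le.mpr ?_) hy
        rintro _ ⟨b, -, rfl⟩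
        exact he b
      have h2 : z ∈ U := by
        have h3 : z = e a - y := by rw [← hyz]; abel
        rw [h3]
        exact U.sub_mem (he a) h1
      have h3 := eq_zero_of_mem_both hf hU hU' hsup h2 hz
      rw [h3, add_zero] at hyz
      rw [hyz] at hy
      have h4 := hind.notMem_span_image (s := {b | b ≠ a}) (x := a) (by simp)
      exact h4 hy
    obtain ⟨z, hz, h1⟩ := exists_orth hf W _ hnot
    refine ⟨z, mem_of_orth hf hU' hU hsup' (fun u hu => hz u (Submodule.mem_sup_right hu)), fun b => ?_⟩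
    by_cases hb : b = a
    · subst hb
      simpa using h1
    · rw [if_neg hb]
      exact hz _ (Submodule.mem_sup_left (Submodule.subset_span ⟨b, hb, rfl⟩))
  choose e' he' hee' using hdual
  have h1 : ∀ a b, f (e a) (e b) = 0 := fun a b => hU _ (he a) _ (he b)
  have h2 : ∀ a b, f (e' a) (e' b) = 0 := fun a b => hU' _ (he' a) _ (he' b)
  have h3 : ∀ a b, f (e a) (e' b) = if a = b then 1 else 0 := fun a b => hee' b a
  have hind₁ := frame_dual hf e e' h1 h2 h3
  have hind₂ : LinearIndependent F (Sum.elim e' (fun a => - e a)) := by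
    refine frame_dual hf e' (fun a => - e a) h2 (fun a b => ?_) (fun a b => ?_)
    · simp only [(isPolar hf).neg_left, (isPolar hf).neg_right, h1, neg_zero]
    · rw [(isPolar hf).neg_right, hf.skew, neg_neg, h3]
      by_cases hab : a = b
      · subst hab
        simp
      · simp [hab, Ne.symm hab]
  obtain ⟨w, hw, hwu⟩ := exists_isometry_family hf (Sum.elim e e') (Sum.elim e' (fun a => - e a))
    hind₁ hind₂ (by
      rintro (a | a) (b | b)
      · simp [h1, h2]
      · simp only [Sum.elim_inl, Sum.elim_inr, (isPolar hf).neg_right]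
        rw [hf.skew (e' a) (e b), neg_neg, h3, h3]
        by_cases hab : a = b
        · subst hab
          simp
        · simp [hab, Ne.symm hab]
      · simp only [Sum.elim_inl, Sum.elim_inr, (isPolar hf).neg_left]
        rw [hf.skew (e' a) (e b), h3, h3]
        by_cases hab : a = b
        · subst hab
          simp
        · simp [hab, Ne.symm hab]
      · simp [h1, h2, (isPolar hf).neg_left, (isPolar hf).neg_right])
  have hspan : U ≤ Submodule.span F (Set.range e) := by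
    refine le_of_eq ?_
    refine Submodule.eq_of_le_of_finrank_eq ?_ ?_ |>.symm
    · rw [Submodule.span_le]
      rintro _ ⟨a, rfl⟩
      exact he a
    · rw [finrank_span_eq_card hind, hm]
      simp
  have hspan' : U' ≤ Submodule.span F (Set.range e') := by
    have hind' : LinearIndependent F e' := hind₁.comp _ Sum.inr_injective
    refine le_of_eq ?_
    refine Submodule.eq_of_le_of_finrank_eq ?_ ?_ |>.symm
    · rw [Submodule.span_le]
      rintro _ ⟨a, rfl⟩
      exact he' a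
    · rw [finrank_span_eq_card hind', hm']
      simp
  refine ⟨w, hw, fun x hx => ?_, fun x hx => ?_⟩
  · have h4 : Submodule.span F (Set.range e) ≤ U'.comap (Matrix.toLin' (w : Matrix ι ι F)) := by
      rw [Submodule.span_le]
      rintro _ ⟨a, rfl⟩
      show (Matrix.toLin' (w : Matrix ι ι F)) (e a) ∈ U'
      rw [Matrix.toLin'_apply]
      have := hwu (Sum.inl a)
      simp only [Sum.elim_inl] at this
      rw [this]
      exact he' a
    simpa using h4 (hspan hx)
  · have h4 : Submodule.span F (Set.range e') ≤ U.comap (Matrix.toLin' (w : Matrix ι ι F)) := by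
      rw [Submodule.span_le]
      rintro _ ⟨a, rfl⟩
      show (Matrix.toLin' (w : Matrix ι ι F)) (e' a) ∈ U
      rw [Matrix.toLin'_apply]
      have := hwu (Sum.inr a)
      simp only [Sum.elim_inr] at this
      rw [this]
      exact U.neg_mem (he a)
    simpa using h4 (hspan' hx)

/-- **The stabiliser of a pair of complementary Lagrangians is maximal in `Sp` in odd characteristic.** -/
theorem lagrangian_isMaximalIn [Finite F] (S : IsSpGroup hf I) (h2 : (2 : F) ≠ 0) {m : ℕ} (hm : 5 ≤ m)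
    {D : Fin 2 → Submodule F (ι → F)} (hD : IsMDecomposition m D)
    (hts : ∀ i, IsTotallySingularFor f (D i)) : IsMaximalIn I (decompositionStabilizer D ⊓ I) := by
  have hfin := hD.finrank_eq
  have hsup : ∀ i j : Fin 2, i ≠ j → ∀ x, ∃ a ∈ D i, ∃ b ∈ D j, a + b = x := by
    intro i j hij x
    obtain ⟨c, hc, hcs⟩ := exists_comps hD.iSup_eq_top x
    rw [Fin.sum_univ_two] at hcs
    have h01 : (i = 0 ∧ j = 1) ∨ (i = 1 ∧ j = 0) := by omega
    rcases h01 with ⟨rfl, rfl⟩ | ⟨rfl, rfl⟩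
    · exact ⟨c 0, hc 0, c 1, hc 1, hcs⟩
    · exact ⟨c 1, hc 1, c 0, hc 0, by rw [add_comm]; exact hcs⟩
  have hne : ∀ i, D i ≠ ⊥ := by
    intro i h
    have := hfin i
    rw [h] at this
    simp at this
    omega
  have hzero : ∀ i j : Fin 2, i ≠ j → ∀ x, x ∈ D i → x ∈ D j → x = 0 :=
    fun i j hij x h1 h3 => eq_zero_of_mem_both hf (hts i) (hts j) (hsup i j hij) h1 h3
  refine isMaximalIn_of_forall ?_ ?_
  · refine lt_of_le_of_ne inf_le_right ?_
    intro he
    obtain ⟨a, ha, ha0⟩ := Submodule.exists_mem_ne_zero_of_ne_bot (hne 0)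
    obtain ⟨b, hb, hab⟩ := exists_pairing hf (hts 0) (hsup 0 1 (by decide)) ha ha0
    have hT : sympT hf a 1 ∈ decompositionStabilizer D ⊓ I := by
      rw [he]
      exact (S.mem_iff _).mpr (sympT_preserves hf _ 1)
    obtain ⟨σ, hσ⟩ := hT.1
    have h1 : ((sympT hf a 1 : GL ι F) : Matrix ι ι F) *ᵥ b ∈ D (σ 1) := by
      rw [← hσ]
      exact ⟨b, hb, rfl⟩
    rw [sympT_mulVec, one_smul] at h1
    have hba := form_comm_ne hf hab
    have hb0 : b ≠ 0 := by
      rintro rfl
      exact hab ((isPolar hf).zero_right _)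
    have hcase : σ 1 = 1 ∨ σ 1 = 0 := by omega
    rcases hcase with hc | hc
    · rw [hc] at h1
      have h3 : f b a • a ∈ D 1 := by
        have := (D 1).sub_mem h1 hb
        rwa [add_sub_cancel_left] at this
      have h4 := (D 1).smul_mem (f b a)⁻¹ h3
      rw [smul_smul, inv_mul_cancel₀ hba, one_smul] at h4
      exact ha0 (hzero 0 1 (by decide) a ha h4)
    · rw [hc] at h1
      have h3 : b ∈ D 0 := by
        have := (D 0).sub_mem h1 ((D 0).smul_mem (f b a) ha)
        rwa [add_sub_cancel_right] at this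
      exact hb0 (hzero 0 1 (by decide) b h3 hb)
  intro M hHM hMI g hgM hgH
  have hpres : ∀ h ∈ M, ∀ u v, f ((h : Matrix ι ι F) *ᵥ u) ((h : Matrix ι ι F) *ᵥ v) = f u v :=
    fun h hh => (S.mem_iff h).mp (hMI hh)
  have hg : g ∉ decompositionStabilizer D := fun hs => hgH ⟨hs, hMI hgM⟩
  have hE : ∀ i j : Fin 2, i ≠ j → ∀ a ∈ D i, ∀ b ∈ D j, ∀ h : f a b = 0, sE hf a b h ∈ M := by
    intro i j hij a ha b hb h
    apply hHM
    refine ⟨mem_decompositionStabilizer_of_forall hfin 1 _ ?_, (S.mem_iff _).mpr (sE_preserves hf a b h)⟩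
    intro k x hx
    rw [sE_mulVec]
    by_cases hk : k = i
    · subst hk
      rw [hts k x hx a ha, zero_smul, add_zero]
      exact (D k).add_mem hx ((D k).smul_mem _ ha)
    · have hk' : k = j := by omega
      subst hk'
      rw [hts k x hx b hb, zero_smul, add_zero]
      exact (D k).add_mem hx ((D k).smul_mem _ hb)
  obtain ⟨i, j, hij, h1, h3⟩ : ∃ i j : Fin 2, i ≠ j ∧ (∃ a ∈ D j, (g : Matrix ι ι F) *ᵥ a ∉ D i) ∧
      (∃ b ∈ D i, (g : Matrix ι ι F) *ᵥ b ∉ D i) := by
    by_contra hcon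
    push Not at hcon
    have hg0 : ∀ x, (g : Matrix ι ι F) *ᵥ x = 0 → x = 0 := by
      intro x h0
      have := inv_mulVec_mulVec g x
      rw [h0, Matrix.mulVec_zero] at this
      exact this.symm
    have key : ∀ (i j : Fin 2), i ≠ j → (∀ a ∈ D j, (g : Matrix ι ι F) *ᵥ a ∈ D i) ∨
        (∀ b ∈ D i, (g : Matrix ι ι F) *ᵥ b ∈ D i) := by
      intro i j hij
      by_contra hc
      push Not at hc
      obtain ⟨⟨a, ha, hga⟩, ⟨b, hb, hgb⟩⟩ := hc
      exact hgb (hcon i j hij ⟨a, ha, hga⟩ b hb)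
    have hnever : ∀ (i j : Fin 2), i ≠ j → ¬ ((∀ a ∈ D i, (g : Matrix ι ι F) *ᵥ a ∈ D j) ∧
        (∀ a ∈ D i, (g : Matrix ι ι F) *ᵥ a ∈ D i)) := by
      rintro i j hij ⟨h4, h5⟩
      obtain ⟨a, ha, ha0⟩ := Submodule.exists_mem_ne_zero_of_ne_bot (hne i)
      exact ha0 (hg0 a (hzero i j hij _ (h5 a ha) (h4 a ha)))
    apply hg
    rcases key 0 1 (by decide) with h4 | h4 <;> rcases key 1 0 (by decide) with h5 | h5
    · refine mem_decompositionStabilizer_of_forall hfin (Equiv.swap 0 1) g ?_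
      rw [Fin.forall_fin_two]
      exact ⟨fun x hx => by simpa using h5 x hx, fun x hx => by simpa using h4 x hx⟩
    · exact absurd ⟨h4, h5⟩ (hnever 1 0 (by decide))
    · exact absurd ⟨h5, h4⟩ (hnever 0 1 (by decide))
    · refine mem_decompositionStabilizer_of_forall hfin 1 g ?_
      rw [Fin.forall_fin_two]
      exact ⟨fun x hx => by simpa using h4 x hx, fun x hx => by simpa using h5 x hx⟩
  have hji := Ne.symm hij
  obtain ⟨a, ha, ha0, haC⟩ := exists_centre hf h2 (hts j) (hts i) (hsup j i hji)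
    (by rw [hfin]; exact hm) (hE j i hji) g hgM (hpres g hgM) h1 h3
  have hUj : ∀ x ∈ D j, x ∈ centres hf M := fun x hx =>
    centres_of_mem hf (hts j) (hsup j i hji) (hE j i hji) ha ha0 haC hx
  obtain ⟨w, hw, hw1, hw2⟩ := exists_swap hf (hts j) (hts i) (hsup j i hji) (hfin j) (hfin i)
  have hwM : w ∈ M := by
    apply hHM
    refine ⟨mem_decompositionStabilizer_of_forall hfin (Equiv.swap i j) w ?_, (S.mem_iff _).mpr hw⟩
    intro k x hx
    by_cases hk : k = i
    · subst hk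
      simpa using hw2 x hx
    · have hk' : k = j := by omega
      subst hk'
      simpa using hw1 x hx
  have hwa : (w : Matrix ι ι F) *ᵥ a ≠ 0 := by
    intro h0
    apply ha0
    have := inv_mulVec_mulVec w a
    rw [h0, Matrix.mulVec_zero] at this
    exact this.symm
  have hUi : ∀ x ∈ D i, x ∈ centres hf M := fun x hx =>
    centres_of_mem hf (hts i) (hsup i j hij) (hE i j hij) (hw1 a ha) hwa
      (centres_mulVec hf haC hwM hw) hx
  refine S.gen M (fun v c => ?_)
  exact centres_all hf (hts j) (hts i) (hsup j i hji) hUj hUi v c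

end Cfsg.Agent.Lib.Geo.SpLagrange
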