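/-
The groups of unitary transvections in `SU`: the statement in terms of the groups of the family.
-/
import Cfsg.Agent.Lib.Geo.UTrans3

set_option autoImplicit false

open scoped MatrixGroups commutatorElement
open Matrix Cfsg

namespace Cfsg.Agent.Lib.Geo.UTrans

open Cfsg.Agent.Lib.Geo.SqZero Cfsg.Agent.Lib.Geo.Centres Cfsg.Agent.Lib.Geo.UnitaryInSL
open Cfsg.Agent.Lib.Geo.SUGen Cfsg.Agent.Lib.HermCount.Field
open Cfsg.Geo

variable {F : Type*} [Field F] [Fintype F] {q : ℕ}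

theorem sigmaU_eq {N : ℕ} (hF : Fintype.card F = q ^ 2) {L : Type*} [Field L] {il : L →+* F} {ε : F}
    (hc : Ctx (frobEquiv hF) il ε) :
    sigmaU N F q = rootU (hermForm_isUnitary N hF) il ε (ρs (F := F) (q := q) (N := N)) := by
  ext A
  constructor
  · rintro ⟨p, hp0, hp, rfl⟩
    exact ⟨p, hp0, hp, closure_eq_TP hF hc hp0 hp⟩
  · rintro ⟨p, hp0, hp, rfl⟩
    exact ⟨p, hp0, hp, (closure_eq_TP hF hc hp0 hp).symm⟩

theorem main (n : ℕ) (hF : Fintype.card F = q ^ 2) :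
    IsRootSubgroupClass ((fun A : Subgroup ↥(SU (n + 2) F q) =>
        A.subgroupOf (⨆ B ∈ sigmaU (n + 2) F q, B)) '' sigmaU (n + 2) F q) ∧
    IsDegenerateRootSet ((fun A : Subgroup ↥(SU (n + 2) F q) =>
        A.subgroupOf (⨆ B ∈ sigmaU (n + 2) F q, B)) '' sigmaU (n + 2) F q) ∧
    (∃ (L : Type) (_ : Field L) (_ : Fintype L), Fintype.card L = q ∧
      IsKRootSubgroupSet L ((fun A : Subgroup ↥(SU (n + 2) F q) =>
        A.subgroupOf (⨆ B ∈ sigmaU (n + 2) F q, B)) '' sigmaU (n + 2) F q)) ∧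
    IsConnectedFamily (FAdj ((fun A : Subgroup ↥(SU (n + 2) F q) =>
        A.subgroupOf (⨆ B ∈ sigmaU (n + 2) F q, B)) '' sigmaU (n + 2) F q))
      ((fun A : Subgroup ↥(SU (n + 2) F q) =>
        A.subgroupOf (⨆ B ∈ sigmaU (n + 2) F q, B)) '' sigmaU (n + 2) F q) := by
  classical
  obtain ⟨L, _, _, il, ε, hcard, hc⟩ := exists_ctx hF
  have hf := hermForm_isUnitary (q := q) (n + 2) hF
  have heq := sigmaU_eq (N := n + 2) hF hc
  let G₀ : Subgroup ↥(SU (n + 2) F q) := ⨆ B ∈ sigmaU (n + 2) F q, B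
  let ρ₀ : ↥G₀ →* Matrix (Fin (n + 2)) (Fin (n + 2)) F := (ρs (F := F) (q := q) (N := n + 2)).comp G₀.subtype
  have hρ₀ : Function.Injective ρ₀ := ρs_inj.comp Subtype.val_injective
  have himg : (fun A : Subgroup ↥(SU (n + 2) F q) => A.subgroupOf (⨆ B ∈ sigmaU (n + 2) F q, B)) ''
      sigmaU (n + 2) F q = rootU hf il ε ρ₀ := by
    ext A
    constructor
    · rintro ⟨A', hA', rfl⟩
      rw [heq] at hA'
      obtain ⟨p, hp0, hp, rfl⟩ := hA'
      refine ⟨p, hp0, hp, ?_⟩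
      ext g
      exact Iff.rfl
    · rintro ⟨p, hp0, hp, rfl⟩
      refine ⟨TP hf il ε (ρs (F := F) (q := q) (N := n + 2)) hp, ?_, ?_⟩
      · rw [heq]
        exact ⟨p, hp0, hp, rfl⟩
      · ext g
        exact Iff.rfl
  have hfull₀ : ∀ {p : Fin (n + 2) → F}, hermForm (n + 2) F q p p = 0 → FullR il ρ₀ (ε • Ep (hermForm (n + 2) F q) p) := by
    intro p hp x
    by_cases hp0 : p = 0
    · refine ⟨1, ?_⟩
      subst hp0
      have e0 : Ep (hermForm (n + 2) F q) 0 = 0 := by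
        ext i j
        simp [Ep, vecMulVec_apply]
      rw [map_one, e0]
      simp
    · have hτ : (il x * ε) + frobEquiv hF (il x * ε) = 0 := by
        rw [map_mul, hc.fix, ← mul_add, hc.tr, mul_zero]
      obtain ⟨g, hg⟩ := exists_elt_SU hF hp hτ
      have hg' : ρs g = 1 + il x • (ε • Ep (hermForm (n + 2) F q) p) := by
        rw [hg, smul_smul]
      have hmem : g ∈ TP hf il ε (ρs (F := F) (q := q) (N := n + 2)) hp := ⟨x, hg'⟩
      refine ⟨⟨g, ?_⟩, hg'⟩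
      refine (le_iSup₂_of_le (f := fun (A : Subgroup ↥(SU (n + 2) F q))
        (_ : A ∈ sigmaU (n + 2) F q) => A) (TP hf il ε (ρs (F := F) (q := q) (N := n + 2)) hp) ?_ le_rfl) hmem
      rw [heq]
      exact ⟨p, hp0, hp, rfl⟩
  have hiso₀ : ∀ (g : ↥G₀) (u v : Fin (n + 2) → F), hermForm (n + 2) F q (ρ₀ g *ᵥ u) (ρ₀ g *ᵥ v) = hermForm (n + 2) F q u v :=
    fun g u v => ρs_iso g.1 u v
  have hgen : (⨆ A ∈ rootU hf il ε ρ₀, A) = ⊤ := by
    rw [← himg]
    exact Cfsg.Agent.Lib.Geo.Siegel.iSup_subgroupOf_iSup _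
  rw [himg]
  refine ⟨isClass hf hc hρ₀ hfull₀ hiso₀ hgen (exists_isotropic hF), degenerate hf hc hρ₀ hfull₀ hiso₀ hgen,
    ⟨L, _, _, hcard, isKRoot hf hc hρ₀ hfull₀ hiso₀ hgen⟩, connected hf hc hρ₀ hfull₀⟩

end Cfsg.Agent.Lib.Geo.UTrans
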